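import Mathlib

set_option autoImplicit false

namespace Cfsg.Agent.H4Perm

variable {n : ℕ}

/-- The image list of a permutation. -/
def toL (g : Equiv.Perm (Fin n)) : List ℕ := List.ofFn (fun i => (g i).val)

/-- Composition of image lists. -/
def comp (l1 l2 : List ℕ) : List ℕ := l2.map (fun i => l1.getD i 0)

/-- Inverse of an image list. -/
def invL (n : ℕ) (l : List ℕ) : List ℕ := (List.range n).map (fun i => l.idxOf i)

theorem toL_getD (g : Equiv.Perm (Fin n)) (i : Fin n) : (toL g).getD i.val 0 = (g i).val := by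
  unfold toL
  rw [List.getD_eq_getElem _ _ (by simp)]
  simp

theorem toL_mul (g h : Equiv.Perm (Fin n)) : toL (g * h) = comp (toL g) (toL h) := by
  have e : comp (toL g) (toL h) = List.ofFn (fun i => (toL g).getD (h i).val 0) := by
    unfold comp
    conv_lhs => rw [show toL h = List.ofFn (fun i => (h i).val) from rfl, List.map_ofFn]
    rfl
  rw [e]
  simp only [toL_getD]
  rfl

theorem toL_inj {g h : Equiv.Perm (Fin n)} (e : toL g = toL h) : g = h := by
  apply Equiv.ext
  intro i
  apply Fin.ext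
  exact congrFun (List.ofFn_injective e) i

theorem toL_inv (g : Equiv.Perm (Fin n)) : toL g⁻¹ = invL n (toL g) := by
  apply List.ext_getElem
  · simp [toL, invL]
  · intro i h1 h2
    have hi : i < n := by simpa [toL] using h1
    have hnd : (toL g).Nodup :=
      List.nodup_ofFn.mpr (fun a b hab => g.injective (Fin.ext hab))
    have hlen : ((g⁻¹ ⟨i, hi⟩ : Fin n) : ℕ) < (toL g).length := by simp [toL]
    have key := hnd.idxOf_getElem ((g⁻¹ ⟨i, hi⟩ : Fin n) : ℕ) hlen
    have e1 : (toL g)[((g⁻¹ ⟨i, hi⟩ : Fin n) : ℕ)] = i := by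
      simp [toL]
    rw [e1] at key
    simp only [toL, invL, List.getElem_ofFn, List.getElem_map, List.getElem_range]
    exact key.symm

/-- Word check (left multiplication): each element is a generator times an earlier element. -/
def chkWL (gl : List (List ℕ)) (idl : List ℕ) : List (List ℕ) → List (ℕ × ℕ) → List (List ℕ) → Bool
  | [], _, _ => true
  | _ :: _, [], _ => false
  | x :: xs, (i, j) :: ps, pre =>
    decide (x = comp (gl.getD j idl) (pre.getD i idl)) && chkWL gl idl xs ps (pre ++ [x])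

theorem getD_prop (P : List ℕ → Prop) (l : List (List ℕ)) (i : ℕ) (d : List ℕ) (h1 : P d)
    (hl : ∀ q ∈ l, P q) : P (l.getD i d) := by
  rw [List.getD_eq_getElem?_getD]
  cases h : l[i]? with
  | none => simpa using h1
  | some a => simpa using hl a (List.mem_of_getElem? h)

theorem chkWL_sound (gl : List (List ℕ)) (idl : List ℕ) (P : List ℕ → Prop) (h1 : P idl)
    (hmul : ∀ x y, P x → P y → P (comp x y)) (hgl : ∀ q ∈ gl, P q) :
    ∀ (xs : List (List ℕ)) (ps : List (ℕ × ℕ)) (pre : List (List ℕ)), (∀ q ∈ pre, P q) →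
      chkWL gl idl xs ps pre = true → ∀ q ∈ xs, P q := by
  intro xs
  induction xs with
  | nil => intro ps pre _ _ q hq; simp at hq
  | cons x xs ih =>
    intro ps pre hpre hchk q hq
    cases ps with
    | nil => simp [chkWL] at hchk
    | cons ij ps =>
      obtain ⟨i, j⟩ := ij
      simp only [chkWL, Bool.and_eq_true, decide_eq_true_eq] at hchk
      have hx : P x := by
        rw [hchk.1]
        exact hmul _ _ (getD_prop P gl j idl h1 hgl) (getD_prop P pre i idl h1 hpre)
      rcases List.mem_cons.mp hq with rfl | hq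
      · exact hx
      · refine ih ps (pre ++ [x]) ?_ hchk.2 q hq
        intro q' hq'
        rcases List.mem_append.mp hq' with h | h
        · exact hpre q' h
        · rw [List.mem_singleton] at h; rw [h]; exact hx

theorem words_in (gens : Set (Equiv.Perm (Fin n))) (gl : List (List ℕ))
    (hgl : ∀ l ∈ gl, ∃ g ∈ Subgroup.closure gens, toL g = l)
    (L : List (List ℕ)) (prog : List (ℕ × ℕ))
    (hL : L = toL (1 : Equiv.Perm (Fin n)) :: L.tail)
    (hW : chkWL gl (toL (1 : Equiv.Perm (Fin n))) L.tail prog [toL (1 : Equiv.Perm (Fin n))] = true) :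
    ∀ l ∈ L, ∃ g ∈ Subgroup.closure gens, toL g = l := by
  have hP1 : ∃ g ∈ Subgroup.closure gens, toL g = toL (1 : Equiv.Perm (Fin n)) :=
    ⟨1, one_mem _, rfl⟩
  intro l hl
  rw [hL] at hl
  rcases List.mem_cons.mp hl with rfl | hl
  · exact hP1
  · refine chkWL_sound gl _ (fun l => ∃ g ∈ Subgroup.closure gens, toL g = l) hP1 ?_ hgl
      L.tail prog [toL (1 : Equiv.Perm (Fin n))] ?_ hW l hl
    · rintro x y ⟨g1, h1, e1⟩ ⟨g2, h2, e2⟩
      exact ⟨g1 * g2, Subgroup.mul_mem _ h1 h2, by rw [toL_mul, e1, e2]⟩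
    · intro q hq
      rw [List.mem_singleton] at hq
      rw [hq]; exact hP1

/-- The base group given by an explicit list. -/
theorem base (gens : Set (Equiv.Perm (Fin n))) (gl : List (List ℕ))
    (hg : ∀ g ∈ gens, toL g ∈ gl ∧ toL g⁻¹ ∈ gl)
    (hgl : ∀ l ∈ gl, ∃ g ∈ Subgroup.closure gens, toL g = l)
    (B : List (List ℕ)) (prog : List (ℕ × ℕ))
    (hB : B = toL (1 : Equiv.Perm (Fin n)) :: B.tail)
    (hW : chkWL gl (toL (1 : Equiv.Perm (Fin n))) B.tail prog [toL (1 : Equiv.Perm (Fin n))] = true)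
    (hmul : (gl.all fun g => B.all fun b => B.contains (comp g b)) = true) (hnd : B.Nodup) :
    (∀ g ∈ Subgroup.closure gens, toL g ∈ B) ∧ Nat.card (Subgroup.closure gens) = B.length ∧
    (∀ g : Equiv.Perm (Fin n), B.contains (toL g) = true → g ∈ Subgroup.closure gens) := by
  classical
  have hP := words_in gens gl hgl B prog hB hW
  simp only [List.all_eq_true, List.contains_iff_mem] at hmul
  have h1 : toL (1 : Equiv.Perm (Fin n)) ∈ B := by rw [hB]; exact List.mem_cons_self
  have hsub : ∀ g ∈ Subgroup.closure gens, toL g ∈ B := by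
    intro g hg'
    induction hg' using Subgroup.closure_induction_left with
    | one => exact h1
    | mul_left x hx y hy ih => rw [toL_mul]; exact hmul _ (hg x hx).1 _ ih
    | inv_mul_cancel x hx y hy ih => rw [toL_mul]; exact hmul _ (hg x hx).2 _ ih
  refine ⟨hsub, ?_, ?_⟩
  · have hbij : Function.Bijective
        (fun g : Subgroup.closure gens => (⟨toL g.1, List.mem_toFinset.mpr (hsub g.1 g.2)⟩ :
          {x // x ∈ B.toFinset})) := by
      constructor
      · intro g g' e
        exact Subtype.ext (toL_inj (congrArg Subtype.val e))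
      · rintro ⟨l, hl⟩
        obtain ⟨g, hg1, e⟩ := hP l (List.mem_toFinset.mp hl)
        exact ⟨⟨g, hg1⟩, Subtype.ext e⟩
    rw [Nat.card_eq_of_bijective _ hbij, Nat.card_eq_fintype_card, Fintype.card_coe,
      List.toFinset_card_of_nodup hnd]
  · intro g hgB
    rw [List.contains_iff_mem] at hgB
    obtain ⟨g', hg1, e⟩ := hP _ hgB
    rw [← toL_inj e]; exact hg1

/-- The representative with a given image of the base point. -/
def repOf (β : ℕ) (reps : List (List ℕ)) (c : ℕ) : List ℕ :=
  match reps.find? (fun l => decide (l.getD β 0 = c)) with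
  | some l => l
  | none => []

/-- The Schreier check of one level. -/
def chkS (n β : ℕ) (gl reps : List (List ℕ)) (memK : List ℕ → Bool) : Bool :=
  gl.all fun g => reps.all fun r =>
    reps.contains (repOf β reps (g.getD (r.getD β 0) 0)) &&
    decide ((repOf β reps (g.getD (r.getD β 0) 0)).getD β 0 = g.getD (r.getD β 0) 0) &&
    memK (comp (invL n (repOf β reps (g.getD (r.getD β 0) 0))) (comp g r))

/-- The membership test of one level. -/
def memLevel (n β : ℕ) (reps : List (List ℕ)) (memK : List ℕ → Bool) (l : List ℕ) : Bool :=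
  reps.contains (repOf β reps (l.getD β 0)) && memK (comp (invL n (repOf β reps (l.getD β 0))) l)

/-- One level of a stabiliser chain. -/
theorem level (gens : Set (Equiv.Perm (Fin n))) (K : Subgroup (Equiv.Perm (Fin n)))
    (hKG : K ≤ Subgroup.closure gens) (β : Fin n) (hKβ : ∀ k ∈ K, k β = β)
    (gl : List (List ℕ)) (hg : ∀ g ∈ gens, toL g ∈ gl ∧ toL g⁻¹ ∈ gl)
    (hgl : ∀ l ∈ gl, ∃ g ∈ Subgroup.closure gens, toL g = l)
    (reps : List (List ℕ)) (prog : List (ℕ × ℕ))
    (hreps : reps = toL (1 : Equiv.Perm (Fin n)) :: reps.tail)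
    (hW : chkWL gl (toL (1 : Equiv.Perm (Fin n))) reps.tail prog
      [toL (1 : Equiv.Perm (Fin n))] = true)
    (memK : List ℕ → Bool) (hmemK : ∀ k : Equiv.Perm (Fin n), memK (toL k) = true → k ∈ K)
    (hS : chkS n β.val gl reps memK = true)
    (hnd : (reps.map fun l => l.getD β.val 0).Nodup) :
    (∀ g ∈ Subgroup.closure gens, g β = β → g ∈ K) ∧
    (∀ c : Fin n, c.val ∈ reps.map (fun l => l.getD β.val 0) →
      ∃ u ∈ Subgroup.closure gens, u β = c) ∧
    Nat.card (Subgroup.closure gens) = reps.length * Nat.card K ∧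
    (∀ g : Equiv.Perm (Fin n), memLevel n β.val reps memK (toL g) = true →
      g ∈ Subgroup.closure gens) := by
  classical
  have hP := words_in gens gl hgl reps prog hreps hW
  have h1 : toL (1 : Equiv.Perm (Fin n)) ∈ reps := by rw [hreps]; exact List.mem_cons_self
  simp only [chkS, List.all_eq_true, Bool.and_eq_true, List.contains_iff_mem,
    decide_eq_true_eq] at hS
  -- the main decomposition
  have hstep : ∀ (x : Equiv.Perm (Fin n)), x ∈ Subgroup.closure gens → toL x ∈ gl →
      ∀ y : Equiv.Perm (Fin n),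
      (∃ r ∈ reps, ∃ u ∈ Subgroup.closure gens, ∃ k ∈ K, toL u = r ∧ y = u * k) →
      (∃ r ∈ reps, ∃ u ∈ Subgroup.closure gens, ∃ k ∈ K, toL u = r ∧ x * y = u * k) := by
    rintro x hxG hx y ⟨r, hr, u, hu, k, hk, e, rfl⟩
    obtain ⟨⟨hr', hβ'⟩, hmem⟩ := hS _ hx r hr
    obtain ⟨u', hu', e'⟩ := hP _ hr'
    have hz : u'⁻¹ * (x * u) ∈ K := by
      apply hmemK
      rw [toL_mul, toL_mul, toL_inv, e', e]
      exact hmem
    refine ⟨_, hr', u', hu', (u'⁻¹ * (x * u)) * k, K.mul_mem hz hk, e', ?_⟩
    group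
  have hdec : ∀ g ∈ Subgroup.closure gens,
      ∃ r ∈ reps, ∃ u ∈ Subgroup.closure gens, ∃ k ∈ K, toL u = r ∧ g = u * k := by
    intro g hg'
    induction hg' using Subgroup.closure_induction_left with
    | one => exact ⟨_, h1, 1, one_mem _, 1, one_mem _, rfl, by rw [mul_one]⟩
    | mul_left x hx y hy ih =>
      exact hstep x (Subgroup.subset_closure hx) (hg x hx).1 y ih
    | inv_mul_cancel x hx y hy ih =>
      exact hstep x⁻¹ (Subgroup.inv_mem _ (Subgroup.subset_closure hx)) (hg x hx).2 y ih
  have hval : ∀ (u : Equiv.Perm (Fin n)), (toL u).getD β.val 0 = (u β).val :=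
    fun u => toL_getD u β
  have hinjr : ∀ r ∈ reps, ∀ r' ∈ reps, r.getD β.val 0 = r'.getD β.val 0 → r = r' :=
    fun r hr r' hr' e => List.inj_on_of_nodup_map hnd hr hr' e
  refine ⟨?_, ?_, ?_, ?_⟩
  · intro g hgG hgβ
    obtain ⟨r, hr, u, hu, k, hk, e, rfl⟩ := hdec g hgG
    have h2 : u β = β := by
      have h3 : (u * k) β = u β := by rw [Equiv.Perm.mul_apply, hKβ k hk]
      rw [← h3]; exact hgβ
    have h4 : r = toL (1 : Equiv.Perm (Fin n)) := by
      apply hinjr r hr _ h1
      rw [← e, hval, hval, h2]; rfl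
    have h5 : u = 1 := toL_inj (e.trans h4)
    rw [h5, one_mul]; exact hk
  · intro c hc
    obtain ⟨r, hr, e⟩ := List.mem_map.mp hc
    obtain ⟨u, hu, eu⟩ := hP r hr
    refine ⟨u, hu, Fin.ext ?_⟩
    rw [← hval, eu]; exact e
  · -- cardinality
    have hrnd : reps.Nodup := List.Nodup.of_map _ hnd
    have hbij : Function.Bijective
        (fun p : {x // x ∈ reps.toFinset} × K =>
          (⟨(hP p.1.1 (List.mem_toFinset.mp p.1.2)).choose * p.2.1,
            Subgroup.mul_mem _ (hP p.1.1 (List.mem_toFinset.mp p.1.2)).choose_spec.1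
              (hKG p.2.2)⟩ : Subgroup.closure gens)) := by
      constructor
      · rintro ⟨⟨r, hr⟩, ⟨k, hk⟩⟩ ⟨⟨r', hr'⟩, ⟨k', hk'⟩⟩ e
        have e0 : (hP r (List.mem_toFinset.mp hr)).choose * k =
            (hP r' (List.mem_toFinset.mp hr')).choose * k' := congrArg Subtype.val e
        have hu := (hP r (List.mem_toFinset.mp hr)).choose_spec
        have hu' := (hP r' (List.mem_toFinset.mp hr')).choose_spec
        have e1 := congrArg (fun g : Equiv.Perm (Fin n) => g β) e0
        simp only [Equiv.Perm.mul_apply, hKβ k hk, hKβ k' hk'] at e1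
        have e2 : r = r' := by
          apply hinjr r (List.mem_toFinset.mp hr) r' (List.mem_toFinset.mp hr')
          rw [← hu.2, ← hu'.2, hval, hval, e1]
        subst e2
        have e3 : k = k' := mul_left_cancel e0
        subst e3
        rfl
      · rintro ⟨g, hgG⟩
        obtain ⟨r, hr, u, hu, k, hk, e, rfl⟩ := hdec g hgG
        refine ⟨⟨⟨r, List.mem_toFinset.mpr hr⟩, ⟨k, hk⟩⟩, Subtype.ext ?_⟩
        have hc := (hP r hr).choose_spec
        have : (hP r hr).choose = u := toL_inj (hc.2.trans e.symm)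
        show (hP r hr).choose * k = u * k
        rw [this]
    rw [← Nat.card_eq_of_bijective _ hbij, Nat.card_prod, Nat.card_eq_fintype_card,
      Fintype.card_coe, List.toFinset_card_of_nodup hrnd]
  · intro g hgm
    simp only [memLevel, Bool.and_eq_true, List.contains_iff_mem] at hgm
    obtain ⟨u', hu', e'⟩ := hP _ hgm.1
    have hz : u'⁻¹ * g ∈ K := by
      apply hmemK
      rw [toL_mul, toL_inv, e']
      exact hgm.2
    have : g = u' * (u'⁻¹ * g) := by group
    rw [this]
    exact Subgroup.mul_mem _ hu' (hKG hz)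

end Cfsg.Agent.H4Perm
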