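import Mathlib

set_option autoImplicit false

namespace Cfsg.Agent.H4Sharp

open Matrix

/-- 2×2 matrices as quadruples of naturals. -/
abbrev Q := ℕ × ℕ × ℕ × ℕ

/-- The identity quadruple. -/
def one : Q := (1, 0, 0, 1)

/-- Multiplication of quadruples modulo `p`. -/
def mulQ (p : ℕ) (x y : Q) : Q :=
  ((x.1 * y.1 + x.2.1 * y.2.2.1) % p, (x.1 * y.2.1 + x.2.1 * y.2.2.2) % p,
   (x.2.2.1 * y.1 + x.2.2.2 * y.2.2.1) % p, (x.2.2.1 * y.2.1 + x.2.2.2 * y.2.2.2) % p)

/-- Scalar multiplication of quadruples modulo `p`. -/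
def smulQ (p : ℕ) (z : ℕ) (x : Q) : Q :=
  ((z * x.1) % p, (z * x.2.1) % p, (z * x.2.2.1) % p, (z * x.2.2.2) % p)

/-- Reducedness of a quadruple. -/
def redQ (p : ℕ) (x : Q) : Bool :=
  decide (x.1 < p) && decide (x.2.1 < p) && decide (x.2.2.1 < p) && decide (x.2.2.2 < p)

/-- The matrix of a quadruple. -/
def toM (p : ℕ) (x : Q) : Matrix (Fin 2) (Fin 2) (ZMod p) :=
  !![(x.1 : ZMod p), (x.2.1 : ZMod p); (x.2.2.1 : ZMod p), (x.2.2.2 : ZMod p)]

/-- `det (s - z)` computed in naturals. -/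
def detQ (p : ℕ) (z : ℕ) (s : Q) : ℕ :=
  ((s.1 + p - z) * (s.2.2.2 + p - z) + (p * p - s.2.1 * s.2.2.1)) % p

theorem toM_one (p : ℕ) : toM p one = 1 := by
  ext i j; fin_cases i <;> fin_cases j <;> simp [toM, one]

theorem toM_mulQ (p : ℕ) (x y : Q) : toM p (mulQ p x y) = toM p x * toM p y := by
  ext i j; fin_cases i <;> fin_cases j <;>
    simp [toM, mulQ, Matrix.mul_apply, Fin.sum_univ_two, ZMod.natCast_mod]

theorem toM_smulQ (p : ℕ) (z : ℕ) (x : Q) :
    toM p (smulQ p z x) = (z : ZMod p) • toM p x := by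
  ext i j; fin_cases i <;> fin_cases j <;> simp [toM, smulQ, ZMod.natCast_mod]

theorem cast_inj_of_lt (p : ℕ) (a b : ℕ) (ha : a < p) (hb : b < p)
    (hab : (a : ZMod p) = (b : ZMod p)) : a = b := by
  have h := (ZMod.natCast_eq_natCast_iff' a b p).mp hab
  rwa [Nat.mod_eq_of_lt ha, Nat.mod_eq_of_lt hb] at h

theorem redQ_iff (p : ℕ) (x : Q) :
    redQ p x = true ↔ x.1 < p ∧ x.2.1 < p ∧ x.2.2.1 < p ∧ x.2.2.2 < p := by
  simp [redQ, and_assoc]

theorem toM_inj (p : ℕ) (x y : Q) (hx : redQ p x = true) (hy : redQ p y = true)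
    (h : toM p x = toM p y) : x = y := by
  rw [redQ_iff] at hx hy
  have e00 := congrFun (congrFun h 0) 0
  have e01 := congrFun (congrFun h 0) 1
  have e10 := congrFun (congrFun h 1) 0
  have e11 := congrFun (congrFun h 1) 1
  simp [toM] at e00 e01 e10 e11
  exact Prod.ext (cast_inj_of_lt p _ _ hx.1 hy.1 e00)
    (Prod.ext (cast_inj_of_lt p _ _ hx.2.1 hy.2.1 e01)
      (Prod.ext (cast_inj_of_lt p _ _ hx.2.2.1 hy.2.2.1 e10)
        (cast_inj_of_lt p _ _ hx.2.2.2 hy.2.2.2 e11)))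

theorem detQ_cast (p : ℕ) (z : ℕ) (s : Q) (hz : z ≤ p) (hs : redQ p s = true) :
    ((detQ p z s : ℕ) : ZMod p) =
      (toM p s - (z : ZMod p) • (1 : Matrix (Fin 2) (Fin 2) (ZMod p))).det := by
  rw [redQ_iff] at hs
  have h1 : ((s.1 + p - z : ℕ) : ZMod p) = (s.1 : ZMod p) - z := by
    rw [Nat.cast_sub (by omega), Nat.cast_add, ZMod.natCast_self, add_zero]
  have h2 : ((s.2.2.2 + p - z : ℕ) : ZMod p) = (s.2.2.2 : ZMod p) - z := by
    rw [Nat.cast_sub (by omega), Nat.cast_add, ZMod.natCast_self, add_zero]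
  have h3 : ((p * p - s.2.1 * s.2.2.1 : ℕ) : ZMod p) = -((s.2.1 : ZMod p) * s.2.2.1) := by
    rw [Nat.cast_sub (Nat.mul_le_mul hs.2.1.le hs.2.2.1.le), Nat.cast_mul, Nat.cast_mul,
      ZMod.natCast_self]
    ring
  rw [detQ, ZMod.natCast_mod, Nat.cast_add, Nat.cast_mul, h1, h2, h3, Matrix.det_fin_two]
  simp [toM]
  ring

/-- The set of matrices `m` with `z • m` in the list for some scalar `z` of the list. -/
def XS (p : ℕ) (L : List Q) (zs : List ℕ) : Set (Matrix (Fin 2) (Fin 2) (ZMod p)) :=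
  {m | ∃ z ∈ zs, ∃ s ∈ L, (z : ZMod p) • m = toM p s}

/-- Closure of the list (up to the scalars) under right multiplication by `q`. -/
def chkMul (p : ℕ) (L : List Q) (zs : List ℕ) (q : Q) : Bool :=
  L.all fun s => zs.any fun z => L.contains (smulQ p z (mulQ p s q))

/-- The scalar list is closed under multiplication. -/
def chkZs (p : ℕ) (zs : List ℕ) : Bool :=
  zs.all fun z => zs.all fun z' => zs.contains (z * z' % p)

/-- Fixed-point-freeness. -/
def chkFree (p : ℕ) (L : List Q) (zs : List ℕ) : Bool :=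
  zs.all fun z => L.all fun s => (decide (s = one) && decide (z = 1)) || !(decide (detQ p z s = 0))

/-- Reducedness. -/
def chkRed (p : ℕ) (L : List Q) (zs : List ℕ) : Bool :=
  L.all (redQ p) && zs.all fun z => decide (0 < z) && decide (z < p)

/-- All determinants are one. -/
def chkDet (p : ℕ) (L : List Q) : Bool := L.all fun s => decide (detQ p 0 s = 1)

/-- Word check: each element is an earlier element times a generator. -/
def chkW (p : ℕ) (gs : List Q) : List Q → List (ℕ × ℕ) → List Q → Bool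
  | [], _, _ => true
  | _ :: _, [], _ => false
  | x :: xs, (i, j) :: ps, pre =>
    decide (x = mulQ p (pre.getD i one) (gs.getD j one)) && chkW p gs xs ps (pre ++ [x])

/-- Scalar word check: each element is the previous one times `c`. -/
def chkZ (p c : ℕ) : List ℕ → ℕ → Bool
  | [], _ => true
  | z :: zs, prev => decide (z = prev * c % p) && chkZ p c zs z

theorem XS_one (p : ℕ) (L : List Q) (zs : List ℕ) (h1 : one ∈ L) (hz : 1 ∈ zs) :
    (1 : Matrix (Fin 2) (Fin 2) (ZMod p)) ∈ XS p L zs :=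
  ⟨1, hz, one, h1, by rw [Nat.cast_one, one_smul, toM_one]⟩

theorem XS_mul (p : ℕ) (L : List Q) (zs : List ℕ) (q : Q) (hzs : chkZs p zs = true)
    (hq : chkMul p L zs q = true) (m : Matrix (Fin 2) (Fin 2) (ZMod p))
    (hm : m ∈ XS p L zs) : m * toM p q ∈ XS p L zs := by
  obtain ⟨z, hz, s, hs, e⟩ := hm
  simp only [chkMul, List.all_eq_true, List.any_eq_true, List.contains_iff_mem] at hq
  obtain ⟨z', hz', hmem⟩ := hq s hs
  simp only [chkZs, List.all_eq_true, List.contains_iff_mem] at hzs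
  have hzz := hzs z' hz' z hz
  refine ⟨z' * z % p, hzz, _, hmem, ?_⟩
  rw [toM_smulQ, toM_mulQ, ← e, ZMod.natCast_mod, Nat.cast_mul, mul_smul, Matrix.smul_mul]

theorem XS_free (p : ℕ) [Fact p.Prime] (L : List Q) (zs : List ℕ)
    (hred : chkRed p L zs = true) (hfree : chkFree p L zs = true)
    (m : Matrix (Fin 2) (Fin 2) (ZMod p)) (hm : m ∈ XS p L zs) (v : Fin 2 → ZMod p)
    (hv : v ≠ 0) (hmv : m *ᵥ v = v) : m = 1 := by
  obtain ⟨z, hz, s, hs, e⟩ := hm
  simp only [chkRed, Bool.and_eq_true, List.all_eq_true, decide_eq_true_eq] at hred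
  simp only [chkFree, List.all_eq_true, Bool.or_eq_true, Bool.and_eq_true, decide_eq_true_eq,
    Bool.not_eq_true', decide_eq_false_iff_not] at hfree
  have hsred := hred.1 s hs
  have hzlt := (hred.2 z hz).2
  have hdet : (toM p s - (z : ZMod p) • (1 : Matrix (Fin 2) (Fin 2) (ZMod p))).det = 0 := by
    rw [← Matrix.exists_mulVec_eq_zero_iff]
    refine ⟨v, hv, ?_⟩
    rw [Matrix.sub_mulVec, ← e, Matrix.smul_mulVec, hmv, Matrix.smul_mulVec, Matrix.one_mulVec,
      sub_self]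
  rw [← detQ_cast p z s hzlt.le hsred] at hdet
  have hd0 : detQ p z s = 0 := by
    have hlt : detQ p z s < p := Nat.mod_lt _ (Fact.out : p.Prime).pos
    have hdvd := (ZMod.natCast_eq_zero_iff _ _).mp hdet
    exact Nat.eq_zero_of_dvd_of_lt hdvd hlt
  rcases hfree z hz s hs with ⟨h1, h2⟩ | h
  · rw [h1, h2, Nat.cast_one, one_smul, toM_one] at e
    exact e
  · exact absurd hd0 h

theorem getD_prop (P : Q → Prop) (l : List Q) (i : ℕ) (h1 : P one) (hl : ∀ q ∈ l, P q) :
    P (l.getD i one) := by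
  rw [List.getD_eq_getElem?_getD]
  cases h : l[i]? with
  | none => simpa using h1
  | some a => simpa using hl a (List.mem_of_getElem? h)

theorem chkW_sound (p : ℕ) (gs : List Q) (P : Q → Prop) (h1 : P one)
    (hmul : ∀ x y, P x → P y → P (mulQ p x y)) (hgs : ∀ q ∈ gs, P q) :
    ∀ (xs : List Q) (ps : List (ℕ × ℕ)) (pre : List Q), (∀ q ∈ pre, P q) →
      chkW p gs xs ps pre = true → ∀ q ∈ xs, P q := by
  intro xs
  induction xs with
  | nil => intro ps pre _ _ q hq; simp at hq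
  | cons x xs ih =>
    intro ps pre hpre hchk q hq
    cases ps with
    | nil => simp [chkW] at hchk
    | cons ij ps =>
      obtain ⟨i, j⟩ := ij
      simp only [chkW, Bool.and_eq_true, decide_eq_true_eq] at hchk
      have hx : P x := by
        rw [hchk.1]
        exact hmul _ _ (getD_prop P pre i h1 hpre) (getD_prop P gs j h1 hgs)
      rcases List.mem_cons.mp hq with rfl | hq
      · exact hx
      · refine ih ps (pre ++ [x]) ?_ hchk.2 q hq
        intro q' hq'
        rcases List.mem_append.mp hq' with h | h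
        · exact hpre q' h
        · rw [List.mem_singleton] at h; rw [h]; exact hx

theorem chkZ_sound (p c : ℕ) (P : ℕ → Prop) (hstep : ∀ z, P z → P (z * c % p)) :
    ∀ (l : List ℕ) (prev : ℕ), P prev → chkZ p c l prev = true → ∀ z ∈ l, P z := by
  intro l
  induction l with
  | nil => intro prev _ _ z hz; simp at hz
  | cons a l ih =>
    intro prev hprev hchk z hz
    simp only [chkZ, Bool.and_eq_true, decide_eq_true_eq] at hchk
    have ha : P a := by rw [hchk.1]; exact hstep prev hprev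
    rcases List.mem_cons.mp hz with rfl | hz
    · exact ha
    · exact ih a ha hchk.2 z hz

theorem inv_coe (p : ℕ) (g : GL (Fin 2) (ZMod p)) (q q' : Q)
    (hg : (g : Matrix (Fin 2) (Fin 2) (ZMod p)) = toM p q) (h : mulQ p q q' = one) :
    ((g⁻¹ : GL (Fin 2) (ZMod p)) : Matrix (Fin 2) (Fin 2) (ZMod p)) = toM p q' := by
  have h1 : (g : Matrix (Fin 2) (Fin 2) (ZMod p)) * toM p q' = 1 := by
    rw [hg, ← toM_mulQ, h, toM_one]
  have h2 : ((g⁻¹ : GL (Fin 2) (ZMod p)) : Matrix (Fin 2) (Fin 2) (ZMod p)) *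
      (g : Matrix (Fin 2) (Fin 2) (ZMod p)) = 1 := by
    rw [← Units.val_mul, inv_mul_cancel, Units.val_one]
  calc ((g⁻¹ : GL (Fin 2) (ZMod p)) : Matrix (Fin 2) (Fin 2) (ZMod p))
      = ((g⁻¹ : GL (Fin 2) (ZMod p)) : Matrix (Fin 2) (Fin 2) (ZMod p)) *
          ((g : Matrix (Fin 2) (Fin 2) (ZMod p)) * toM p q') := by rw [h1, mul_one]
    _ = toM p q' := by rw [← mul_assoc, h2, one_mul]

/-- The abstract criterion. -/
theorem sharp_of (p : ℕ) [Fact p.Prime] (gens : Set (GL (Fin 2) (ZMod p)))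
    (X : Set (Matrix (Fin 2) (Fin 2) (ZMod p))) (h1 : (1 : Matrix (Fin 2) (Fin 2) (ZMod p)) ∈ X)
    (hmul : ∀ g ∈ gens, ∀ m ∈ X, m * (g : Matrix (Fin 2) (Fin 2) (ZMod p)) ∈ X)
    (hinv : ∀ g ∈ gens, ∀ m ∈ X,
      m * ((g⁻¹ : GL (Fin 2) (ZMod p)) : Matrix (Fin 2) (Fin 2) (ZMod p)) ∈ X)
    (hfree : ∀ m ∈ X, ∀ v : Fin 2 → ZMod p, v ≠ 0 → m *ᵥ v = v → m = 1)
    (hlow : p ^ 2 - 1 ≤ Nat.card (Subgroup.closure gens)) :
    Nat.card (Subgroup.closure gens) = p ^ 2 - 1 ∧
    ∀ v w : Fin 2 → ZMod p, v ≠ 0 → w ≠ 0 →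
      ∃! h : Subgroup.closure gens,
        Matrix.mulVec ((h : GL (Fin 2) (ZMod p)) : Matrix (Fin 2) (Fin 2) (ZMod p)) v = w := by
  classical
  have hG : ∀ g ∈ Subgroup.closure gens, ((g : GL (Fin 2) (ZMod p)) :
      Matrix (Fin 2) (Fin 2) (ZMod p)) ∈ X := by
    intro g hg
    induction hg using Subgroup.closure_induction_right with
    | one => exact h1
    | mul_right x hx y hy ih => rw [Units.val_mul]; exact hmul y hy _ ih
    | mul_inv_cancel x hx y hy ih => rw [Units.val_mul]; exact hinv y hy _ ih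
  -- the set of non-zero vectors
  have hcardV : Nat.card {w : Fin 2 → ZMod p // w ≠ 0} = p ^ 2 - 1 := by
    have h2 : Nat.card (Fin 2 → ZMod p) = p ^ 2 := by
      rw [Nat.card_eq_fintype_card, Fintype.card_fun, ZMod.card, Fintype.card_fin]
    rw [Nat.card_eq_fintype_card, Fintype.card_subtype_compl, Fintype.card_subtype_eq,
      ← Nat.card_eq_fintype_card, h2]
  -- orbit maps
  have hne : ∀ (h : Subgroup.closure gens) (v : Fin 2 → ZMod p), v ≠ 0 →
      ((h : GL (Fin 2) (ZMod p)) : Matrix (Fin 2) (Fin 2) (ZMod p)) *ᵥ v ≠ 0 := by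
    intro h v hv h0
    apply hv
    have := congrArg (fun u => (((h : GL (Fin 2) (ZMod p))⁻¹ : GL (Fin 2) (ZMod p)) :
      Matrix (Fin 2) (Fin 2) (ZMod p)) *ᵥ u) h0
    simp only [Matrix.mulVec_mulVec, Matrix.mulVec_zero] at this
    rw [← Units.val_mul, inv_mul_cancel, Units.val_one, Matrix.one_mulVec] at this
    exact this
  have hinj : ∀ v : Fin 2 → ZMod p, v ≠ 0 → Function.Injective
      (fun h : Subgroup.closure gens =>
        ((h : GL (Fin 2) (ZMod p)) : Matrix (Fin 2) (Fin 2) (ZMod p)) *ᵥ v) := by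
    intro v hv h h' e
    have e' : (((h'⁻¹ * h : Subgroup.closure gens) : GL (Fin 2) (ZMod p)) :
        Matrix (Fin 2) (Fin 2) (ZMod p)) *ᵥ v = v := by
      have e1 : ((h : GL (Fin 2) (ZMod p)) : Matrix (Fin 2) (Fin 2) (ZMod p)) *ᵥ v =
          ((h' : GL (Fin 2) (ZMod p)) : Matrix (Fin 2) (Fin 2) (ZMod p)) *ᵥ v := e
      rw [Subgroup.coe_mul, Units.val_mul, ← Matrix.mulVec_mulVec, e1, Matrix.mulVec_mulVec,
        ← Units.val_mul, Subgroup.coe_inv, inv_mul_cancel, Units.val_one, Matrix.one_mulVec]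
    have h1' := hfree _ (hG _ (h'⁻¹ * h).2) v hv e'
    have h2' : (h'⁻¹ * h : Subgroup.closure gens) = 1 := by
      apply Subtype.ext
      apply Units.ext
      rw [h1']; rfl
    exact (inv_mul_eq_one.mp h2').symm
  -- a fixed non-zero vector
  have hv0 : (![1, 0] : Fin 2 → ZMod p) ≠ 0 := by
    have : Fact (1 < p) := ⟨(Fact.out : p.Prime).one_lt⟩
    intro h
    have := congrFun h 0
    simp at this
  let φ : ∀ v : Fin 2 → ZMod p, v ≠ 0 → Subgroup.closure gens → {w : Fin 2 → ZMod p // w ≠ 0} :=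
    fun v hv h => ⟨((h : GL (Fin 2) (ZMod p)) : Matrix (Fin 2) (Fin 2) (ZMod p)) *ᵥ v, hne h v hv⟩
  have hφinj : ∀ v hv, Function.Injective (φ v hv) := by
    intro v hv h h' e
    exact hinj v hv (congrArg Subtype.val e)
  have hle : Nat.card (Subgroup.closure gens) ≤ p ^ 2 - 1 := by
    rw [← hcardV]
    exact Nat.card_le_card_of_injective _ (hφinj _ hv0)
  have hcard : Nat.card (Subgroup.closure gens) = p ^ 2 - 1 := le_antisymm hle hlow
  refine ⟨hcard, ?_⟩
  intro v w hv hw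
  have hbij : Function.Bijective (φ v hv) :=
    (hφinj v hv).bijective_of_nat_card_le (by rw [hcardV, hcard])
  obtain ⟨h, hh⟩ := hbij.2 ⟨w, hw⟩
  refine ⟨h, congrArg Subtype.val hh, ?_⟩
  intro h' e'
  exact hinj v hv (e'.trans (congrArg Subtype.val hh).symm)

/-- Lower bound from the lists. -/
theorem low_of (p : ℕ) [Fact p.Prime] (gens : Set (GL (Fin 2) (ZMod p))) (L : List Q)
    (zs : List ℕ) (hred : chkRed p L zs = true) (hdet : chkDet p L = true)
    (hLn : L.Nodup) (hzn : (zs.map fun z => z * z % p).Nodup)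
    (hL : ∀ s ∈ L, ∃ g ∈ Subgroup.closure gens,
      ((g : GL (Fin 2) (ZMod p)) : Matrix (Fin 2) (Fin 2) (ZMod p)) = toM p s)
    (hz : ∀ z ∈ zs, ∃ g ∈ Subgroup.closure gens,
      ((g : GL (Fin 2) (ZMod p)) : Matrix (Fin 2) (Fin 2) (ZMod p)) =
        (z : ZMod p) • (1 : Matrix (Fin 2) (Fin 2) (ZMod p))) :
    zs.length * L.length ≤ Nat.card (Subgroup.closure gens) := by
  classical
  simp only [chkRed, Bool.and_eq_true, List.all_eq_true, decide_eq_true_eq] at hred
  simp only [chkDet, List.all_eq_true, decide_eq_true_eq] at hdet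
  have hp : p.Prime := Fact.out
  have hzn' : zs.Nodup := List.Nodup.of_map _ hzn
  let F : ℕ × Q → Matrix (Fin 2) (Fin 2) (ZMod p) := fun x => (x.1 : ZMod p) • toM p x.2
  let S : Finset (ℕ × Q) := zs.toFinset ×ˢ L.toFinset
  have hScard : S.card = zs.length * L.length := by
    rw [Finset.card_product, List.toFinset_card_of_nodup hzn', List.toFinset_card_of_nodup hLn]
  have hdetM : ∀ s ∈ L, (toM p s).det = 1 := by
    intro s hs
    have h := detQ_cast p 0 s (Nat.zero_le _) (hred.1 s hs)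
    rw [hdet s hs, Nat.cast_one, Nat.cast_zero, zero_smul, sub_zero] at h
    exact h.symm
  have hFinj : Set.InjOn F (S : Set (ℕ × Q)) := by
    rintro ⟨z, s⟩ hzs ⟨z', s'⟩ hzs' e
    simp only [S, Finset.coe_product, List.coe_toFinset, Set.mem_prod, Set.mem_ofPred_eq] at hzs hzs'
    have e' : (z : ZMod p) • toM p s = (z' : ZMod p) • toM p s' := e
    have hd := congrArg Matrix.det e'
    rw [Matrix.det_smul, Matrix.det_smul, hdetM s hzs.2, hdetM s' hzs'.2, Fintype.card_fin,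
      mul_one, mul_one] at hd
    have hzz : z * z % p = z' * z' % p := by
      apply (ZMod.natCast_eq_natCast_iff' _ _ p).mp
      rw [Nat.cast_mul, Nat.cast_mul, ← pow_two, ← pow_two]; exact hd
    have hzeq : z = z' := List.inj_on_of_nodup_map hzn hzs.1 hzs'.1 hzz
    subst hzeq
    have hz0 : (z : ZMod p) ≠ 0 := by
      intro h0
      have hdvd := (ZMod.natCast_eq_zero_iff _ _).mp h0
      have := Nat.le_of_dvd (hred.2 z hzs.1).1 hdvd
      have := (hred.2 z hzs.1).2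
      omega
    have e2 : toM p s = toM p s' := smul_right_injective _ hz0 e'
    have := toM_inj p s s' (hred.1 s hzs.2) (hred.1 s' hzs'.2) e2
    rw [this]
  have hsub : F '' (S : Set (ℕ × Q)) ⊆
      Set.range (fun g : Subgroup.closure gens =>
        ((g : GL (Fin 2) (ZMod p)) : Matrix (Fin 2) (Fin 2) (ZMod p))) := by
    rintro _ ⟨⟨z, s⟩, hzs, rfl⟩
    simp only [S, Finset.coe_product, List.coe_toFinset, Set.mem_prod, Set.mem_ofPred_eq] at hzs
    obtain ⟨g1, hg1, e1⟩ := hz z hzs.1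
    obtain ⟨g2, hg2, e2⟩ := hL s hzs.2
    refine ⟨⟨g1 * g2, Subgroup.mul_mem _ hg1 hg2⟩, ?_⟩
    show ((g1 * g2 : GL (Fin 2) (ZMod p)) : Matrix (Fin 2) (Fin 2) (ZMod p)) = _
    rw [Units.val_mul, e1, e2, Matrix.smul_mul, one_mul]
  have hrinj : Function.Injective (fun g : Subgroup.closure gens =>
        ((g : GL (Fin 2) (ZMod p)) : Matrix (Fin 2) (Fin 2) (ZMod p))) := by
    intro g g' e
    exact Subtype.ext (Units.ext e)
  calc zs.length * L.length = S.card := hScard.symm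
    _ = (F '' (S : Set (ℕ × Q))).ncard := by
      rw [Set.InjOn.ncard_image hFinj, Set.ncard_coe_finset]
    _ ≤ (Set.range (fun g : Subgroup.closure gens =>
        ((g : GL (Fin 2) (ZMod p)) : Matrix (Fin 2) (Fin 2) (ZMod p)))).ncard :=
      Set.ncard_le_ncard hsub (Set.toFinite _)
    _ = Nat.card (Subgroup.closure gens) := by
      rw [← Set.image_univ, Set.ncard_image_of_injective _ hrinj, Set.ncard_univ]

theorem hz_one (p : ℕ) (gens : Set (GL (Fin 2) (ZMod p))) :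
    ∀ z ∈ ([1] : List ℕ), ∃ g ∈ Subgroup.closure gens,
      ((g : GL (Fin 2) (ZMod p)) : Matrix (Fin 2) (Fin 2) (ZMod p)) =
        (z : ZMod p) • (1 : Matrix (Fin 2) (Fin 2) (ZMod p)) := by
  intro z hz
  rw [List.mem_singleton] at hz
  subst hz
  exact ⟨1, one_mem _, by rw [Nat.cast_one, one_smul]; rfl⟩

theorem hz_of (p c : ℕ) (gens : Set (GL (Fin 2) (ZMod p))) (zs : List ℕ)
    (C : GL (Fin 2) (ZMod p)) (hC : C ∈ Subgroup.closure gens)
    (hCm : (C : Matrix (Fin 2) (Fin 2) (ZMod p)) =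
      (c : ZMod p) • (1 : Matrix (Fin 2) (Fin 2) (ZMod p)))
    (hz0 : zs = 1 :: zs.tail) (hchk : chkZ p c zs.tail 1 = true) :
    ∀ z ∈ zs, ∃ g ∈ Subgroup.closure gens,
      ((g : GL (Fin 2) (ZMod p)) : Matrix (Fin 2) (Fin 2) (ZMod p)) =
        (z : ZMod p) • (1 : Matrix (Fin 2) (Fin 2) (ZMod p)) := by
  have hP1 : ∃ g ∈ Subgroup.closure gens,
      ((g : GL (Fin 2) (ZMod p)) : Matrix (Fin 2) (Fin 2) (ZMod p)) =
        ((1 : ℕ) : ZMod p) • (1 : Matrix (Fin 2) (Fin 2) (ZMod p)) :=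
    ⟨1, one_mem _, by rw [Nat.cast_one, one_smul]; rfl⟩
  intro z hz
  rw [hz0] at hz
  rcases List.mem_cons.mp hz with rfl | hz
  · exact hP1
  · refine chkZ_sound p c (fun z => ∃ g ∈ Subgroup.closure gens,
      ((g : GL (Fin 2) (ZMod p)) : Matrix (Fin 2) (Fin 2) (ZMod p)) =
        (z : ZMod p) • (1 : Matrix (Fin 2) (Fin 2) (ZMod p))) ?_ zs.tail 1 hP1 hchk z hz
    rintro z' ⟨g, hg, e⟩
    refine ⟨g * C, Subgroup.mul_mem _ hg hC, ?_⟩
    rw [Units.val_mul, e, hCm, ZMod.natCast_mod, Nat.cast_mul, Matrix.smul_mul, one_mul,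
      smul_smul]

/-- The main criterion from the Boolean checks. -/
theorem sharp_main (p : ℕ) [Fact p.Prime] (gens : Set (GL (Fin 2) (ZMod p))) (L : List Q)
    (zs : List ℕ) (gs : List Q) (prog : List (ℕ × ℕ))
    (hgens : ∀ g ∈ gens,
      (∃ q ∈ gs, (g : Matrix (Fin 2) (Fin 2) (ZMod p)) = toM p q) ∧
      (∃ q ∈ gs, ((g⁻¹ : GL (Fin 2) (ZMod p)) : Matrix (Fin 2) (Fin 2) (ZMod p)) = toM p q))
    (hgs : ∀ q ∈ gs, ∃ g ∈ Subgroup.closure gens,
      ((g : GL (Fin 2) (ZMod p)) : Matrix (Fin 2) (Fin 2) (ZMod p)) = toM p q)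
    (hz : ∀ z ∈ zs, ∃ g ∈ Subgroup.closure gens,
      ((g : GL (Fin 2) (ZMod p)) : Matrix (Fin 2) (Fin 2) (ZMod p)) =
        (z : ZMod p) • (1 : Matrix (Fin 2) (Fin 2) (ZMod p)))
    (c_red : chkRed p L zs = true) (c_det : chkDet p L = true)
    (c_free : chkFree p L zs = true) (c_zs : chkZs p zs = true)
    (c_mul : gs.all (chkMul p L zs) = true)
    (c_w : chkW p gs L.tail prog [one] = true) (hL0 : L = one :: L.tail)
    (c_nodup : L.Nodup) (c_zn : (zs.map fun z => z * z % p).Nodup) (hone : 1 ∈ zs)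
    (hcard : zs.length * L.length = p ^ 2 - 1) :
    Nat.card (Subgroup.closure gens) = p ^ 2 - 1 ∧
    ∀ v w : Fin 2 → ZMod p, v ≠ 0 → w ≠ 0 →
      ∃! h : Subgroup.closure gens,
        Matrix.mulVec ((h : GL (Fin 2) (ZMod p)) : Matrix (Fin 2) (Fin 2) (ZMod p)) v = w := by
  have h1L : one ∈ L := by rw [hL0]; exact List.mem_cons_self
  have hXmul : ∀ q ∈ gs, ∀ m ∈ XS p L zs, m * toM p q ∈ XS p L zs := by
    intro q hq m hm
    exact XS_mul p L zs q c_zs (List.all_eq_true.mp c_mul q hq) m hm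
  have hP1 : ∃ g ∈ Subgroup.closure gens,
      ((g : GL (Fin 2) (ZMod p)) : Matrix (Fin 2) (Fin 2) (ZMod p)) = toM p one :=
    ⟨1, one_mem _, by rw [toM_one]; rfl⟩
  have hL : ∀ s ∈ L, ∃ g ∈ Subgroup.closure gens,
      ((g : GL (Fin 2) (ZMod p)) : Matrix (Fin 2) (Fin 2) (ZMod p)) = toM p s := by
    intro s hs
    rw [hL0] at hs
    rcases List.mem_cons.mp hs with rfl | hs
    · exact hP1
    · refine chkW_sound p gs (fun q => ∃ g ∈ Subgroup.closure gens,
        ((g : GL (Fin 2) (ZMod p)) : Matrix (Fin 2) (Fin 2) (ZMod p)) = toM p q) hP1 ?_ hgs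
        L.tail prog [one] ?_ c_w s hs
      · rintro x y ⟨g1, h1, e1⟩ ⟨g2, h2, e2⟩
        exact ⟨g1 * g2, Subgroup.mul_mem _ h1 h2, by rw [Units.val_mul, e1, e2, toM_mulQ]⟩
      · intro q hq
        rw [List.mem_singleton] at hq
        rw [hq]; exact hP1
  have hlow := low_of p gens L zs c_red c_det c_nodup c_zn hL hz
  rw [hcard] at hlow
  refine sharp_of p gens (XS p L zs) (XS_one p L zs h1L hone) ?_ ?_
    (fun m hm v hv h => XS_free p L zs c_red c_free m hm v hv h) hlow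
  · intro g hg m hm
    obtain ⟨q, hq, e⟩ := (hgens g hg).1
    rw [e]; exact hXmul q hq m hm
  · intro g hg m hm
    obtain ⟨q, hq, e⟩ := (hgens g hg).2
    rw [e]; exact hXmul q hq m hm

end Cfsg.Agent.H4Sharp
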