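import Cfsg.Statements.S1506
import Cfsg.Agent.Lib.Helper2.CharAux
import Cfsg.Agent.Lib.Helper2.Ind
-- import your own Cfsg.Agent.* helpers here

set_option autoImplicit false
open Cfsg

namespace Cfsg.Agent.S1506

open Cfsg.Agent.Lib.Helper2 Cfsg.Agent.Lib.Lead
open scoped ComplexConjugate

/-- Let W₁, W₂ ≤ G form a self-normalising cyclic subgroup W = W₁ ⊔ W₂ and χ an orthonormal family of irreducible characters of G up to sign, indexed by the linear characters ω of W, with χ_1 = 1, χ_ω = ω on W outside W₁ ∪ W₂, and the induction identity for (1 − φ)(1 − ψ). Let θ be a class function of G vanishing at every element of W outside W₁ ∪ W₂. For linear characters φ, φ' of W trivial on W₂ and ψ, ψ' trivial on W₁, the inner products a(ω) = ⟨θ, χ ω⟩ satisfy a(φψ) + a(φ'ψ') = a(φψ') + a(φ'ψ). -/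
theorem result {G : Type*} [Group G] [Fintype G] (W₁ W₂ : Subgroup G) (hW : Cfsg.IsSelfNormalizingCyclic W₁ W₂) (χ : (↥(W₁ ⊔ W₂) →* ℂˣ) → (G → ℂ)) (hχ : Cfsg.IsCyclicTIFamily W₁ W₂ χ) (θ : G → ℂ) (hθ : Cfsg.IsClassFunction G θ) (hθV : ∀ w : ↥(W₁ ⊔ W₂), (w : G) ∉ W₁ → (w : G) ∉ W₂ → θ w = 0) (φ φ' ψ ψ' : ↥(W₁ ⊔ W₂) →* ℂˣ) (hφ₂ : ∀ w : ↥(W₁ ⊔ W₂), (w : G) ∈ W₂ → φ w = 1 ∧ φ' w = 1) (hψ₁ : ∀ w : ↥(W₁ ⊔ W₂), (w : G) ∈ W₁ → ψ w = 1 ∧ ψ' w = 1) : Cfsg.classInner θ (χ (φ * ψ)) + Cfsg.classInner θ (χ (φ' * ψ')) = Cfsg.classInner θ (χ (φ * ψ')) + Cfsg.classInner θ (χ (φ' * ψ)) := by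
  classical
  haveI : Fintype ↥(W₁ ⊔ W₂) := Fintype.ofFinite _
  have key : ∀ a b : ↥(W₁ ⊔ W₂) →* ℂˣ, (∀ w : ↥(W₁ ⊔ W₂), (w : G) ∈ W₂ → a w = 1) →
      (∀ w : ↥(W₁ ⊔ W₂), (w : G) ∈ W₁ → b w = 1) →
      Cfsg.classInner θ (fun _ => 1) - Cfsg.classInner θ (χ a) - Cfsg.classInner θ (χ b) +
        Cfsg.classInner θ (χ (a * b)) = 0 := by
    intro a b h_a h_b
    by_cases ha : a = 1
    · subst ha
      have e : (1 : ↥(W₁ ⊔ W₂) →* ℂˣ) * b = b := by ext w; simp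
      rw [e, hχ.map_one]; ring
    by_cases hb : b = 1
    · subst hb
      have e : a * (1 : ↥(W₁ ⊔ W₂) →* ℂˣ) = a := by ext w; simp
      rw [e, hχ.map_one]; ring
    have hind := hχ.induced_eq a b ha hb h_a h_b
    have h0 : Cfsg.classInner θ (Cfsg.indFun (W₁ ⊔ W₂)
        (fun w => 1 - (a w : ℂ) - (b w : ℂ) + (a w : ℂ) * (b w : ℂ))) = 0 := by
      rw [classInner_conj_symm, frobenius_reciprocity _ _ θ hθ]
      have h1 : Cfsg.classInner (fun w : ↥(W₁ ⊔ W₂) => 1 - (a w : ℂ) - (b w : ℂ) +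
          (a w : ℂ) * (b w : ℂ)) (fun h : ↥(W₁ ⊔ W₂) => θ h) = 0 := by
        unfold Cfsg.classInner
        rw [Finset.sum_eq_zero, mul_zero]
        intro w _
        beta_reduce
        by_cases hw1 : (w : G) ∈ W₁
        · rw [h_b w hw1]; simp
        by_cases hw2 : (w : G) ∈ W₂
        · rw [h_a w hw2]; simp
        rw [hθV w hw1 hw2]; simp
      rw [h1, map_zero]
    rw [hind] at h0
    have hfun : (fun g => 1 - χ a g - χ b g + χ (a * b) g) =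
        (fun _ => (1 : ℂ)) - χ a - χ b + χ (a * b) := by
      funext g; rfl
    rw [hfun, classInner_add_right, classInner_sub_right, classInner_sub_right] at h0
    exact h0
  have k1 := key φ ψ (fun w hw => (hφ₂ w hw).1) (fun w hw => (hψ₁ w hw).1)
  have k2 := key φ' ψ' (fun w hw => (hφ₂ w hw).2) (fun w hw => (hψ₁ w hw).2)
  have k3 := key φ ψ' (fun w hw => (hφ₂ w hw).1) (fun w hw => (hψ₁ w hw).2)
  have k4 := key φ' ψ (fun w hw => (hφ₂ w hw).2) (fun w hw => (hψ₁ w hw).1)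
  linear_combination k1 + k2 - k3 - k4

end Cfsg.Agent.S1506
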