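import Cfsg.Statements.S1510
-- import your own Cfsg.Agent.* helpers here
import Cfsg.Agent.Lib.Helper7.Coprime

set_option autoImplicit false
open Cfsg

namespace Cfsg.Agent.S1510


open Cfsg.Agent.Lib.Helper7

/-- Let L be a finite group with a normal subgroup K and a nontrivial cyclic subgroup W₁ of order coprime to its index, K ⊓ W₁ = ⊥ and K ⊔ W₁ = ⊤; let W₂ ≠ ⊥ be a cyclic subgroup of K with K ⊓ C_L(x) = W₂ for every non-identity x ∈ W₁, and suppose W₁ ⊔ W₂ has odd order. Then (W₁, W₂) is a self-normalising cyclic pair in L. -/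
theorem result {L : Type*} [Group L] [Fintype L] (K W₁ W₂ : Subgroup L) [hK : K.Normal] (hKW₁ : K ⊓ W₁ = ⊥) (hKW₁' : K ⊔ W₁ = ⊤) (hW₁ : W₁ ≠ ⊥) (hW₁c : IsCyclic W₁) (hHall : Nat.Coprime (Nat.card W₁) W₁.index) (hW₂ : W₂ ≠ ⊥) (hW₂c : IsCyclic W₂) (hW₂K : W₂ ≤ K) (hC : ∀ x ∈ W₁, x ≠ 1 → K ⊓ Subgroup.centralizer ({x} : Set L) = W₂) (hodd : Odd (Nat.card ↥(W₁ ⊔ W₂))) : Cfsg.IsSelfNormalizingCyclic W₁ W₂ := by
  classical
  have hdisj : W₁ ⊓ W₂ = ⊥ := by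
    rw [eq_bot_iff, ← hKW₁]
    exact le_inf (inf_le_right.trans hW₂K) inf_le_left
  have hcomm : ∀ a ∈ W₁, ∀ b ∈ W₂, a * b = b * a := by
    intro a ha b hb
    by_cases ha1 : a = 1
    · rw [ha1, one_mul, mul_one]
    · have hb' : b ∈ K ⊓ Subgroup.centralizer ({a} : Set L) := by rw [hC a ha ha1]; exact hb
      exact Subgroup.mem_centralizer_iff.mp hb'.2 a rfl
  have hKidx : K.index = Nat.card W₁ := by
    have h1 := Subgroup.relIndex_sup_right (H := W₁) (K := K)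
    rw [sup_comm, hKW₁', Subgroup.relIndex_top_right, ← Subgroup.inf_relIndex_right, hKW₁,
      Subgroup.relIndex_bot_left] at h1
    exact h1
  have hKcard : Nat.card K = W₁.index := by
    have h1 := K.card_mul_index
    have h2 := W₁.card_mul_index
    rw [hKidx] at h1
    have h3 : Nat.card W₁ * Nat.card K = Nat.card W₁ * W₁.index := by rw [mul_comm, h1, h2]
    exact Nat.eq_of_mul_eq_mul_left Nat.card_pos h3
  have hcop : (Nat.card W₁).Coprime (Nat.card W₂) := by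
    apply Nat.Coprime.coprime_dvd_right (Subgroup.card_dvd_of_le hW₂K)
    rw [hKcard]; exact hHall
  have hnorm : W₂ ≤ Subgroup.normalizer (W₁ : Set L) := by
    intro b hb
    rw [Subgroup.mem_normalizer_iff]
    intro h
    constructor
    · intro hh
      have e : b * h * b⁻¹ = h := by rw [← hcomm h hh b hb, mul_inv_cancel_right]
      rw [e]; exact hh
    · intro hh
      have e : h = b⁻¹ * (b * h * b⁻¹) * b := by group
      have e2 : b⁻¹ * (b * h * b⁻¹) * b = b * h * b⁻¹ := by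
        rw [mul_assoc, hcomm _ hh b hb, inv_mul_cancel_left]
      rw [e, e2]; exact hh
  have hdecomp : ∀ w ∈ W₁ ⊔ W₂, ∃ a ∈ W₁, ∃ b ∈ W₂, w = a * b :=
    fun w hw => exists_mul_of_mem_sup hnorm hw
  have hcyc : IsCyclic ↥(W₁ ⊔ W₂) := by
    obtain ⟨g₁, hg₁⟩ := IsCyclic.exists_ofOrder_eq_natCard (α := W₁)
    obtain ⟨g₂, hg₂⟩ := IsCyclic.exists_ofOrder_eq_natCard (α := W₂)
    have ho1 : orderOf (g₁ : L) = Nat.card W₁ := by rw [Subgroup.orderOf_coe, hg₁]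
    have ho2 : orderOf (g₂ : L) = Nat.card W₂ := by rw [Subgroup.orderOf_coe, hg₂]
    have hx : (g₁ : L) * (g₂ : L) ∈ W₁ ⊔ W₂ :=
      Subgroup.mul_mem _ (Subgroup.mem_sup_left g₁.2) (Subgroup.mem_sup_right g₂.2)
    have ho : orderOf ((g₁ : L) * (g₂ : L)) = Nat.card W₁ * Nat.card W₂ := by
      have hc12 : Commute (g₁ : L) (g₂ : L) := hcomm _ g₁.2 _ g₂.2
      rw [hc12.orderOf_mul_eq_mul_orderOf_of_coprime (by rw [ho1, ho2]; exact hcop), ho1, ho2]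
    have hle : Nat.card ↥(W₁ ⊔ W₂) ≤ Nat.card W₁ * Nat.card W₂ := by
      rw [← Nat.card_prod]
      apply Nat.card_le_card_of_surjective (fun ab : W₁ × W₂ =>
        (⟨(ab.1 : L) * (ab.2 : L), Subgroup.mul_mem _ (Subgroup.mem_sup_left ab.1.2)
          (Subgroup.mem_sup_right ab.2.2)⟩ : ↥(W₁ ⊔ W₂)))
      rintro ⟨w, hw⟩
      obtain ⟨a, ha, b, hb, rfl⟩ := hdecomp w hw
      exact ⟨(⟨a, ha⟩, ⟨b, hb⟩), rfl⟩
    apply isCyclic_of_orderOf_eq_card (⟨(g₁ : L) * (g₂ : L), hx⟩ : ↥(W₁ ⊔ W₂))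
    have h1 : orderOf (⟨(g₁ : L) * (g₂ : L), hx⟩ : ↥(W₁ ⊔ W₂)) = Nat.card W₁ * Nat.card W₂ := by
      rw [← ho, Subgroup.orderOf_mk]
    have h2 := Nat.le_of_dvd Nat.card_pos
      (orderOf_dvd_natCard (⟨(g₁ : L) * (g₂ : L), hx⟩ : ↥(W₁ ⊔ W₂)))
    omega
  refine ⟨hW₁, hW₂, hdisj, hcomm, hcyc, ?_⟩
  intro X hX hXne
  apply le_antisymm
  · intro g hg
    obtain ⟨w, hw⟩ := hXne
    have hwW := (hX hw).1
    have hwn := (hX hw).2
    obtain ⟨a, ha, b, hb, rfl⟩ := hdecomp w hwW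
    have ha1 : a ≠ 1 := by
      rintro rfl
      apply hwn
      right
      rw [one_mul]
      exact hb
    have hgw : g * (a * b) * g⁻¹ ∈ X := (Subgroup.mem_set_normalizer_iff.mp hg (a * b)).mp hw
    obtain ⟨n₂, hn₂⟩ : ∃ n₂, n₂ = Nat.card W₂ := ⟨_, rfl⟩
    have hpow : ∀ (a b : L), a ∈ W₁ → b ∈ W₂ → (a * b) ^ n₂ = a ^ n₂ := by
      intro a b ha hb
      have hb2 : b ^ n₂ = 1 := by
        have h := pow_card_eq_one' (G := W₂) (x := ⟨b, hb⟩)
        rw [hn₂]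
        exact congrArg Subtype.val h
      have hcab : Commute a b := hcomm a ha b hb
      rw [hcab.mul_pow, hb2, mul_one]
    have ha' : a ^ n₂ ∈ W₁ := W₁.pow_mem ha _
    have ha'1 : a ^ n₂ ≠ 1 := by
      intro h
      have h1 : orderOf a ∣ n₂ := orderOf_dvd_of_pow_eq_one h
      have h2 : orderOf a ∣ Nat.card W₁ := by
        have h0 := orderOf_dvd_natCard (⟨a, ha⟩ : W₁)
        rwa [Subgroup.orderOf_mk] at h0
      have h3 : orderOf a ∣ Nat.gcd (Nat.card W₁) n₂ := Nat.dvd_gcd h2 h1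
      rw [hn₂, Nat.Coprime.gcd_eq_one hcop] at h3
      exact ha1 (orderOf_eq_one_iff.mp (Nat.dvd_one.mp h3))
    obtain ⟨a₁, ha₁, b₁, hb₁, hab₁⟩ := hdecomp _ (hX hgw).1
    have hconj : g * a ^ n₂ * g⁻¹ ∈ W₁ := by
      have e : g * a ^ n₂ * g⁻¹ = (g * (a * b) * g⁻¹) ^ n₂ := by
        rw [conj_pow, hpow a b ha hb]
      rw [e, hab₁, hpow a₁ b₁ ha₁ hb₁]
      exact W₁.pow_mem ha₁ _
    have hgtop : g ∈ K ⊔ W₁ := by rw [hKW₁']; trivial
    obtain ⟨k, hk, y, hy, rfl⟩ := exists_mul_of_mem_sup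
      (Subgroup.le_normalizer_of_normal (H := K) (K := W₁)) hgtop
    have hya : y * a ^ n₂ = a ^ n₂ * y :=
      congrArg Subtype.val ((IsCyclic.isMulCommutative (α := ↥W₁)).is_comm.comm
        ⟨y, hy⟩ ⟨a ^ n₂, ha'⟩)
    have hk1 : k * a ^ n₂ * k⁻¹ ∈ W₁ := by
      have e : k * y * a ^ n₂ * (k * y)⁻¹ = k * a ^ n₂ * k⁻¹ := by
        rw [mul_inv_rev, mul_assoc k y, hya]; group
      rw [← e]; exact hconj
    have hk2 : k * a ^ n₂ * k⁻¹ * (a ^ n₂)⁻¹ ∈ K ⊓ W₁ := by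
      refine ⟨?_, W₁.mul_mem hk1 (W₁.inv_mem ha')⟩
      have e : k * a ^ n₂ * k⁻¹ * (a ^ n₂)⁻¹ = k * (a ^ n₂ * k⁻¹ * (a ^ n₂)⁻¹) := by group
      rw [e]; exact K.mul_mem hk (hK.conj_mem _ (K.inv_mem hk) _)
    rw [hKW₁, Subgroup.mem_bot] at hk2
    have hk3 : k ∈ K ⊓ Subgroup.centralizer ({a ^ n₂} : Set L) := by
      refine ⟨hk, ?_⟩
      show k ∈ Subgroup.centralizer ({a ^ n₂} : Set L)
      rw [Subgroup.mem_centralizer_iff]
      intro h hh
      rw [Set.mem_singleton_iff] at hh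
      rw [hh]
      have e : k * a ^ n₂ * k⁻¹ = a ^ n₂ := mul_inv_eq_one.mp hk2
      have e2 : k * a ^ n₂ = a ^ n₂ * k := by
        rw [← e, inv_mul_cancel_right, e]
      exact e2.symm
    rw [hC _ ha' ha'1] at hk3
    exact Subgroup.mul_mem _ (Subgroup.mem_sup_right hk3) (Subgroup.mem_sup_left hy)
  · intro g hg
    have key : ∀ n ∈ X, g * n * g⁻¹ = n := by
      intro n hn
      have hnW := (hX hn).1
      have h := congrArg Subtype.val ((IsCyclic.isMulCommutative (α := ↥(W₁ ⊔ W₂))).is_comm.comm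
        ⟨g, hg⟩ ⟨n, hnW⟩)
      have h' : g * n = n * g := h
      rw [h', mul_inv_cancel_right]
    rw [Subgroup.mem_set_normalizer_iff]
    intro n
    constructor
    · intro hn
      rw [key n hn]; exact hn
    · intro hn
      have h1 := key _ hn
      have h2 : g * n * g⁻¹ = n := by
        have e : g * n * g⁻¹ = g⁻¹ * (g * (g * n * g⁻¹) * g⁻¹) * g := by group
        rw [e, h1]; group
      rw [← h2]; exact hn

end Cfsg.Agent.S1510
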