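import Cfsg.Statements.S0886
import Cfsg.Agent.Lib.Lead.CharExtFrame2

set_option autoImplicit false
open Cfsg

namespace Cfsg.Agent.S0886

open Cfsg.Agent.Lib.Lead Cfsg.Agent.Lib.Helper2 Module

/-- Let N be a normal subgroup of the finite group G with G / N cyclic, and ϑ an irreducible character of N invariant under conjugation by G. Then ϑ is the restriction of some irreducible character of G. -/
theorem result {G : Type*} [Group G] [Finite G] (N : Subgroup G) [hN : N.Normal] (hcyc : IsCyclic (G ⧸ N)) (ϑ : N → ℂ) (hϑ : Cfsg.IsIrrCharacter N ϑ) (hinv : ∀ (g : G) (n : N), ϑ ⟨g * n * g⁻¹, hN.conj_mem (n : G) n.2 g⟩ = ϑ n) : ∃ χ : G → ℂ, Cfsg.IsIrrCharacter G χ ∧ ∀ n : N, χ n = ϑ n := by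
  classical
  obtain ⟨d, R, hR, rfl⟩ := hϑ
  haveI := hR
  haveI := pe_finite N R hinv
  apply exists_extension_of_frame N R hinv
  intro hMn lam₀ hinv₀ _
  obtain ⟨q, hq⟩ := hcyc.exists_generator
  obtain ⟨g₀, rfl⟩ := QuotientGroup.mk_surjective q
  obtain ⟨g, hg⟩ := peFst_surjective N R hinv g₀
  have hgen : ∀ a : projExt N R (Nat.card G), ∃ i : ℕ, ∃ x ∈ N.comap (peFst N R),
      a = g ^ i * x := by
    intro a
    have h1 := hq (QuotientGroup.mk (peFst N R a))
    obtain ⟨i, hi⟩ := (mem_powers_iff_mem_zpowers.mpr h1)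
    refine ⟨i, (g ^ i)⁻¹ * a, ?_, by rw [mul_inv_cancel_left]⟩
    rw [Subgroup.mem_comap, map_mul, map_inv, map_pow, hg]
    have h2 : ((g₀ ^ i : G) : G ⧸ N) = (peFst N R a : G ⧸ N) := hi
    exact QuotientGroup.eq.mp h2
  exact linear_extends_of_cyclic (N.comap (peFst N R)) lam₀ hinv₀ g hgen

end Cfsg.Agent.S0886
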