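import Cfsg.Statements.S0673
import Mathlib
-- import your own Cfsg.Agent.* helpers here

set_option autoImplicit false
open Cfsg

namespace Cfsg.Agent.S0673

theorem ker_pow_step {K V : Type*} [Field K] [AddCommGroup V] [Module K V] [FiniteDimensional K V]
    (N : Module.End K V) (r : ℕ) :
    Module.finrank K (LinearMap.ker (N ^ (r + 1)))
      ≤ Module.finrank K (LinearMap.ker (N ^ r)) + Module.finrank K (LinearMap.ker N) := by
  have hAB : ∀ a : LinearMap.ker (N ^ (r + 1)), N a.1 ∈ LinearMap.ker (N ^ r) := by
    rintro ⟨v, hv⟩
    rw [LinearMap.mem_ker] at hv ⊢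
    rw [pow_succ, Module.End.mul_apply] at hv
    exact hv
  let φ : LinearMap.ker (N ^ (r + 1)) →ₗ[K] LinearMap.ker (N ^ r) :=
    LinearMap.codRestrict (LinearMap.ker (N ^ r)) (N.domRestrict (LinearMap.ker (N ^ (r + 1)))) hAB
  have h1 := LinearMap.finrank_range_add_finrank_ker φ
  have h2 : Module.finrank K (LinearMap.range φ) ≤ Module.finrank K (LinearMap.ker (N ^ r)) :=
    Submodule.finrank_le _
  have hψ : ∀ x : LinearMap.ker φ, (x.1.1 : V) ∈ LinearMap.ker N := by
    intro x
    have hx := x.2
    rw [LinearMap.mem_ker] at hx ⊢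
    exact congrArg Subtype.val hx
  let ψ : LinearMap.ker φ →ₗ[K] LinearMap.ker N :=
    LinearMap.codRestrict (LinearMap.ker N)
      ((LinearMap.ker (N ^ (r + 1))).subtype.comp (LinearMap.ker φ).subtype) hψ
  have hψinj : Function.Injective ψ := by
    intro x y hxy
    have := congrArg Subtype.val hxy
    exact Subtype.ext (Subtype.ext this)
  have h3 := LinearMap.finrank_le_finrank_of_injective hψinj
  omega

theorem single_block {K V : Type*} [Field K] [AddCommGroup V] [Module K V] [FiniteDimensional K V]
    (N : Module.End K V) (hker : Module.finrank K (LinearMap.ker N) ≤ 1)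
    (hnil : N ^ Module.finrank K V = 0) (W : Submodule K V) (hW : ∀ w ∈ W, N w ∈ W) :
    W = LinearMap.ker (N ^ Module.finrank K W) := by
  have hstep : ∀ r, Module.finrank K (LinearMap.ker (N ^ (r + 1)))
      ≤ Module.finrank K (LinearMap.ker (N ^ r)) + 1 := fun r =>
    (ker_pow_step N r).trans (by omega)
  have hA1 : ∀ r, Module.finrank K (LinearMap.ker (N ^ r)) ≤ r := by
    intro r
    induction r with
    | zero =>
      rw [pow_zero, Module.End.one_eq_id, LinearMap.ker_id, finrank_bot]
    | succ r ih =>
      have := hstep r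
      omega
  have hA2 : ∀ r s, Module.finrank K (LinearMap.ker (N ^ (r + s)))
      ≤ Module.finrank K (LinearMap.ker (N ^ r)) + s := by
    intro r s
    induction s with
    | zero => simp
    | succ s ih =>
      have := hstep (r + s)
      rw [← add_assoc]
      omega
  have hdim : ∀ r, r ≤ Module.finrank K V → Module.finrank K (LinearMap.ker (N ^ r)) = r := by
    intro r hr
    have h1 := hA1 r
    have h2 := hA2 r (Module.finrank K V - r)
    rw [show r + (Module.finrank K V - r) = Module.finrank K V by omega, hnil, LinearMap.ker_zero,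
      finrank_top] at h2
    omega
  have hrm : Module.finrank K W ≤ Module.finrank K V := Submodule.finrank_le W
  have hle : W ≤ LinearMap.ker (N ^ Module.finrank K W) := by
    have h1 : (N.restrict hW) ^ Module.finrank K V = 0 := by
      rw [Module.End.pow_restrict]
      apply LinearMap.ext
      intro x
      apply Subtype.ext
      simp [LinearMap.restrict_apply, hnil]
    have h2 := Module.End.ker_pow_eq_ker_pow_finrank_of_le (f := N.restrict hW) hrm
    rw [h1, LinearMap.ker_zero] at h2
    intro w hw
    have h3 : (⟨w, hw⟩ : W) ∈ LinearMap.ker ((N.restrict hW) ^ Module.finrank K W) := by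
      rw [← h2]
      trivial
    rw [LinearMap.mem_ker, Module.End.pow_restrict] at h3
    have h4 := congrArg Subtype.val h3
    rw [LinearMap.restrict_apply] at h4
    rw [LinearMap.mem_ker]
    exact h4
  exact Submodule.eq_of_le_of_finrank_eq hle (hdim _ hrm).symm

/-- In characteristic `p`, the translation-invariant subspaces of the space of functions on `ZMod p` are exactly the spaces of polynomial functions of degree less than `r`, one for each `r ≤ p`, of dimension `r`. -/
theorem result {p : ℕ} [Fact p.Prime] {K : Type*} [Field K] [CharP K p] (W : Submodule K (ZMod p → K)) (hW : ∀ f ∈ W, (fun j => f (j - 1)) ∈ W) : ∃ r : ℕ, r ≤ p ∧ Module.finrank K W = r ∧ ∀ f : ZMod p → K, f ∈ W ↔ ∃ P : Polynomial K, P.degree < r ∧ ∀ j : ZMod p, f j = P.eval (ZMod.cast j : K) := by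
  classical
  have hp : p.Prime := Fact.out
  let T : Module.End K (ZMod p → K) :=
    { toFun := fun f j => f (j - 1)
      map_add' := fun _ _ => rfl
      map_smul' := fun _ _ => rfl }
  have hT : ∀ f j, T f j = f (j - 1) := fun f j => rfl
  have hTpow : ∀ (n : ℕ) f j, (T ^ n) f j = f (j - n) := by
    intro n
    induction n with
    | zero => intro f j; simp
    | succ n ih =>
      intro f j
      rw [pow_succ, Module.End.mul_apply, ih, hT]
      congr 1
      push_cast
      ring
  have hfinV : Module.finrank K (ZMod p → K) = p := by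
    rw [Module.finrank_fintype_fun_eq_card, ZMod.card]
  haveI : CharP (Module.End K (ZMod p → K)) p :=
    charP_of_injective_algebraMap (algebraMap K (Module.End K (ZMod p → K))).injective p
  have hnil : (T - 1) ^ Module.finrank K (ZMod p → K) = 0 := by
    rw [hfinV, sub_pow_char_of_commute p (Commute.one_right T), one_pow, sub_eq_zero]
    refine LinearMap.ext fun f => funext fun j => ?_
    rw [hTpow]
    simp
  have hker : Module.finrank K (LinearMap.ker (T - 1)) ≤ 1 := by
    have hle : LinearMap.ker (T - 1) ≤ Submodule.span K {(fun _ => 1 : ZMod p → K)} := by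
      intro f hf
      rw [LinearMap.mem_ker] at hf
      have h1 : ∀ j, f (j - 1) = f j := by
        intro j
        have := congrFun hf j
        simp only [LinearMap.sub_apply, Pi.sub_apply, Pi.zero_apply, Module.End.one_apply] at this
        rw [hT] at this
        exact sub_eq_zero.mp this
      have h2 : ∀ n : ℕ, f (n : ZMod p) = f 0 := by
        intro n
        induction n with
        | zero => simp
        | succ n ih =>
          have := h1 ((n + 1 : ℕ) : ZMod p)
          rw [← ih, ← this]
          congr 1
          push_cast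
          ring
      rw [Submodule.mem_span_singleton]
      refine ⟨f 0, ?_⟩
      ext j
      have := h2 j.val
      rw [ZMod.natCast_zmod_val] at this
      simp [this]
    exact (Submodule.finrank_mono hle).trans (finrank_span_le_card _ |>.trans (by simp))
  have hinvΔ : ∀ (W : Submodule K (ZMod p → K)), (∀ f ∈ W, T f ∈ W) →
      ∀ f ∈ W, (T - 1) f ∈ W := by
    intro W hW f hf
    rw [LinearMap.sub_apply]
    exact sub_mem (hW f hf) hf
  have key : ∀ (W : Submodule K (ZMod p → K)), (∀ f ∈ W, T f ∈ W) →
      W = LinearMap.ker ((T - 1) ^ Module.finrank K W) := fun W hW =>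
    Cfsg.Agent.S0673.single_block (T - 1) hker hnil W (hinvΔ W hW)
  -- polynomial functions
  let c : ZMod p →+* K := ZMod.castHom (dvd_refl p) K
  have hc : ∀ j : ZMod p, c j = (ZMod.cast j : K) := fun j => rfl
  have hcinj : Function.Injective c := c.injective
  let ev : Polynomial K →ₗ[K] (ZMod p → K) :=
    { toFun := fun P j => P.eval (c j)
      map_add' := fun P Q => by ext j; simp
      map_smul' := fun a P => by ext j; simp }
  have hev : ∀ P j, ev P j = P.eval (c j) := fun P j => rfl
  set r := Module.finrank K W with hr
  have hrp : r ≤ p := by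
    rw [← hfinV]
    exact Submodule.finrank_le W
  let E : Polynomial.degreeLT K r →ₗ[K] (ZMod p → K) := ev.comp (Polynomial.degreeLT K r).subtype
  have hEinj : Function.Injective E := by
    rw [← LinearMap.ker_eq_bot, LinearMap.ker_eq_bot']
    rintro ⟨P, hP⟩ h0
    apply Subtype.ext
    change P = 0
    have hdeg : P.degree < r := Polynomial.mem_degreeLT.mp hP
    by_cases hP0 : P = 0
    · exact hP0
    · apply Polynomial.eq_zero_of_natDegree_lt_card_of_eval_eq_zero P hcinj
      · intro j
        have := congrFun h0 j
        exact this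
      · rw [ZMod.card]
        have := (Polynomial.natDegree_lt_iff_degree_lt hP0).mpr hdeg
        omega
  have hErank : Module.finrank K (LinearMap.range E) = r := by
    rw [LinearMap.finrank_range_of_inj hEinj, (Polynomial.degreeLTEquiv K r).finrank_eq,
      Module.finrank_fin_fun]
  have hEinv : ∀ f ∈ LinearMap.range E, T f ∈ LinearMap.range E := by
    rintro _ ⟨⟨P, hP⟩, rfl⟩
    refine ⟨⟨Polynomial.taylor (-1) P, ?_⟩, ?_⟩
    · rw [Polynomial.mem_degreeLT] at hP ⊢
      rw [Polynomial.degree_taylor]
      exact hP
    · ext j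
      change (Polynomial.taylor (-1) P).eval (c j) = P.eval (c (j - 1))
      rw [Polynomial.taylor_eval, map_sub, map_one, sub_eq_add_neg]
  have hW' : ∀ f ∈ W, T f ∈ W := hW
  have e1 := key W hW'
  have e2 := key (LinearMap.range E) hEinv
  rw [hErank] at e2
  rw [← hr] at e1
  have hWE : W = LinearMap.range E := by rw [e1, ← e2]
  refine ⟨r, hrp, rfl, fun f => ?_⟩
  rw [hWE]
  constructor
  · rintro ⟨⟨P, hP⟩, rfl⟩
    exact ⟨P, Polynomial.mem_degreeLT.mp hP, fun j => rfl⟩
  · rintro ⟨P, hP, hf⟩
    refine ⟨⟨P, Polynomial.mem_degreeLT.mpr hP⟩, ?_⟩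
    ext j
    rw [hf j]
    rfl

end Cfsg.Agent.S0673
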