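import Mathlib
import Cfsg.Statements.S0644
import Cfsg.Agent.Lib.Helper2.PGroup

namespace Cfsg.Agent.S0644

open Cfsg
open scoped commutatorElement

variable {G : Type*} [Group G]

/-- Weak regularity (P. Hall's original definition, level one only). -/
def Wk (p : ℕ) (G : Type*) [Group G] : Prop :=
  ∀ a b : G, ∃ c ∈ Cfsg.powerClosure p 1
      ⁅Subgroup.closure ({a, b} : Set G), Subgroup.closure ({a, b} : Set G)⁆,
    (a * b) ^ p = a ^ p * b ^ p * c

theorem pc_mono (p n : ℕ) {H K : Subgroup G} (h : H ≤ K) :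
    powerClosure p n H ≤ powerClosure p n K := by
  unfold powerClosure
  apply Subgroup.closure_mono
  rintro y ⟨x, hx, rfl⟩
  exact ⟨x, h hx, rfl⟩

theorem pow_mem_pc (p n : ℕ) {H : Subgroup G} {x : G} (hx : x ∈ H) :
    x ^ (p ^ n) ∈ powerClosure p n H :=
  Subgroup.subset_closure ⟨x, hx, rfl⟩

theorem pc_le (p n : ℕ) (H : Subgroup G) : powerClosure p n H ≤ H := by
  unfold powerClosure
  rw [Subgroup.closure_le]
  rintro y ⟨x, hx, rfl⟩
  exact H.pow_mem hx _

theorem closure_pair_le {H : Subgroup G} {a b : G} (ha : a ∈ H) (hb : b ∈ H) :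
    Subgroup.closure ({a, b} : Set G) ≤ H := by
  rw [Subgroup.closure_le]
  rintro x (rfl | rfl)
  · exact ha
  · exact hb

theorem comm_pair_le {H : Subgroup G} {a b : G} (ha : a ∈ H) (hb : b ∈ H) :
    ⁅Subgroup.closure ({a, b} : Set G), Subgroup.closure ({a, b} : Set G)⁆ ≤ ⁅H, H⁆ :=
  Subgroup.commutator_mono (closure_pair_le ha hb) (closure_pair_le ha hb)

theorem comm_self_le (H : Subgroup G) : ⁅H, H⁆ ≤ H := by
  rw [Subgroup.commutator_le]
  intro a ha b hb
  rw [commutatorElement_def]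
  exact H.mul_mem (H.mul_mem (H.mul_mem ha hb) (H.inv_mem ha)) (H.inv_mem hb)

theorem conj_mem_comm (H : Subgroup G) {g k : G} (hg : g ∈ H) (hk : k ∈ ⁅H, H⁆) :
    g * k * g⁻¹ ∈ ⁅H, H⁆ := by
  have : g * k * g⁻¹ = ⁅g, k⁆ * k := by simp [commutatorElement_def]
  rw [this]
  exact Subgroup.mul_mem _ (Subgroup.commutator_mem_commutator hg (comm_self_le H hk)) hk

theorem commA (T : Subgroup G) (a b : G)
    (hT : ∀ g ∈ Subgroup.closure ({a, b} : Set G), ∀ t ∈ T, g * t * g⁻¹ ∈ T) (y : G)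
    (ha : ⁅a, y⁆ ∈ T) (hb : ⁅b, y⁆ ∈ T) :
    ∀ x ∈ Subgroup.closure ({a, b} : Set G), ⁅x, y⁆ ∈ T := by
  intro x hx
  induction hx using Subgroup.closure_induction with
  | mem x hx =>
    rcases hx with rfl | rfl
    · exact ha
    · exact hb
  | one => simp [commutatorElement_def]
  | mul x₁ x₂ hx₁ hx₂ h₁ h₂ =>
    have : ⁅x₁ * x₂, y⁆ = x₁ * ⁅x₂, y⁆ * x₁⁻¹ * ⁅x₁, y⁆ := by
      simp only [commutatorElement_def]; group
    rw [this]
    exact T.mul_mem (hT x₁ hx₁ _ h₂) h₁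
  | inv x hx h =>
    have : ⁅x⁻¹, y⁆ = x⁻¹ * (⁅x, y⁆)⁻¹ * x⁻¹⁻¹ := by
      simp only [commutatorElement_def]; group
    rw [this]
    exact hT x⁻¹ (inv_mem hx) _ (T.inv_mem h)

theorem comm_closure_le (T : Subgroup G) (a b : G)
    (hT : ∀ g ∈ Subgroup.closure ({a, b} : Set G), ∀ t ∈ T, g * t * g⁻¹ ∈ T)
    (hab : ⁅a, b⁆ ∈ T) :
    ⁅Subgroup.closure ({a, b} : Set G), Subgroup.closure ({a, b} : Set G)⁆ ≤ T := by
  have hba : ⁅b, a⁆ ∈ T := by
    rw [← commutatorElement_inv]; exact T.inv_mem hab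
  have h1 : ∀ x ∈ Subgroup.closure ({a, b} : Set G), ⁅x, a⁆ ∈ T :=
    commA T a b hT a (by simp) hba
  have h2 : ∀ x ∈ Subgroup.closure ({a, b} : Set G), ⁅x, b⁆ ∈ T :=
    commA T a b hT b hab (by simp)
  rw [Subgroup.commutator_le]
  intro x hx y hy
  have h3 : ⁅y, x⁆ ∈ T := commA T a b hT x
      (by rw [← commutatorElement_inv]; exact T.inv_mem (h1 x hx))
      (by rw [← commutatorElement_inv]; exact T.inv_mem (h2 x hx)) y hy
  rw [← commutatorElement_inv]; exact T.inv_mem h3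

/-- The level-one power structure of a subgroup. -/
def Q (p : ℕ) (H : Subgroup G) : Prop :=
  (∀ a ∈ H, ∀ b ∈ H, (a ^ p = b ^ p ↔ (a⁻¹ * b) ^ p = 1)) ∧
  (∀ a ∈ H, ∀ b ∈ H, ∃ e ∈ H, a ^ p * b ^ p = e ^ p)

theorem Q_omega {p : ℕ} {H : Subgroup G} (hQ : Q p H) {x y : G} (hx : x ∈ H) (hy : y ∈ H)
    (hxp : x ^ p = 1) (hyp : y ^ p = 1) : (x * y) ^ p = 1 := by
  have := (hQ.1 x⁻¹ (H.inv_mem hx) y hy).mp (by rw [inv_pow, hxp, hyp, inv_one])
  simpa using this

theorem Q_agemo {p : ℕ} {H : Subgroup G} (hQ : Q p H) :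
    ∀ y ∈ powerClosure p 1 H, ∃ x ∈ H, y = x ^ p := by
  intro y hy
  unfold powerClosure at hy
  induction hy using Subgroup.closure_induction with
  | mem y hy => obtain ⟨x, hx, rfl⟩ := hy; exact ⟨x, hx, by rw [pow_one]⟩
  | one => exact ⟨1, H.one_mem, by simp⟩
  | mul y₁ y₂ _ _ h₁ h₂ =>
    obtain ⟨x₁, hx₁, rfl⟩ := h₁
    obtain ⟨x₂, hx₂, rfl⟩ := h₂
    obtain ⟨e, he, heq⟩ := hQ.2 x₁ hx₁ x₂ hx₂
    exact ⟨e, he, heq⟩
  | inv y _ h =>
    obtain ⟨x, hx, rfl⟩ := h
    exact ⟨x⁻¹, H.inv_mem hx, by rw [inv_pow]⟩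

/-- The elements of order dividing `p` form a subgroup. -/
def omegaSub (p : ℕ) (D : Subgroup G) (hQ : Q p D) : Subgroup G where
  carrier := {x | x ∈ D ∧ x ^ p = 1}
  mul_mem' := fun ⟨hx, hxp⟩ ⟨hy, hyp⟩ => ⟨D.mul_mem hx hy, Q_omega hQ hx hy hxp hyp⟩
  one_mem' := ⟨D.one_mem, one_pow p⟩
  inv_mem' := fun ⟨hx, hxp⟩ => ⟨D.inv_mem hx, by rw [inv_pow, hxp, inv_one]⟩

theorem F2 {p : ℕ} [Fact p.Prime] [Finite G] (H : Subgroup G) (hH : IsPGroup p H)
    {a b : G} (ha : a ∈ H) (hb : b ∈ H) (hab : a * b ≠ b * a) (x : G) (hx : x ∈ H) :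
    Subgroup.zpowers x ⊔ ⁅H, H⁆ ≠ H := by
  intro heq
  set x' : H := ⟨x, hx⟩ with hx'
  have hne : Subgroup.zpowers x' ≠ ⊤ := by
    intro htop
    apply hab
    have h1 : (⟨a, ha⟩ : H) ∈ Subgroup.zpowers x' := by rw [htop]; trivial
    have h2 : (⟨b, hb⟩ : H) ∈ Subgroup.zpowers x' := by rw [htop]; trivial
    obtain ⟨i, hi⟩ := Subgroup.mem_zpowers_iff.mp h1
    obtain ⟨j, hj⟩ := Subgroup.mem_zpowers_iff.mp h2
    have h3 : (⟨a, ha⟩ : H) * ⟨b, hb⟩ = ⟨b, hb⟩ * ⟨a, ha⟩ := by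
      rw [← hi, ← hj]
      exact ((Commute.refl x').zpow_zpow i j).eq
    exact congrArg Subtype.val h3
  obtain ⟨M, hM, hle⟩ := (eq_top_or_exists_le_coatom (Subgroup.zpowers x')).resolve_left hne
  have hcM : commutator H ≤ M := Cfsg.Agent.Lib.Helper2.commutator_le_coatom_of_pGroup hH M hM
  have hsup : Subgroup.zpowers x' ⊔ commutator H = ⊤ := by
    apply Subgroup.map_injective (Subgroup.subtype_injective H)
    rw [Subgroup.map_sup, MonoidHom.map_zpowers, Subgroup.map_subtype_commutator,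
      ← MonoidHom.range_eq_map, Subgroup.range_subtype]
    exact heq
  exact hM.1 (top_le_iff.mp (hsup ▸ sup_le hle hcM))

theorem card_lt_of_le_of_ne [Finite G] {K H : Subgroup G} (hle : K ≤ H) (hne : K ≠ H) :
    Nat.card K < Nat.card H := by
  by_contra hcon
  exact hne (Subgroup.eq_of_le_of_card_ge hle (not_lt.mp hcon))

theorem level1 {p : ℕ} [Fact p.Prime] [Finite G] (hG : IsPGroup p G) (hW : Wk p G) :
    ∀ (n : ℕ) (H : Subgroup G), Nat.card H = n → Q p H := by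
  intro n
  induction n using Nat.strong_induction_on with
  | _ n ih =>
  intro H hn
  have key : ∀ a ∈ H, ∀ b ∈ H,
      (a ^ p = b ^ p ↔ (a⁻¹ * b) ^ p = 1) ∧ ∃ e ∈ H, a ^ p * b ^ p = e ^ p := by
    intro a ha b hb
    have haL : a ∈ Subgroup.closure ({a, b} : Set G) := Subgroup.subset_closure (by simp)
    have hbL : b ∈ Subgroup.closure ({a, b} : Set G) := Subgroup.subset_closure (by simp)
    have hLH : Subgroup.closure ({a, b} : Set G) ≤ H := closure_pair_le ha hb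
    by_cases hlt : Nat.card (Subgroup.closure ({a, b} : Set G)) < Nat.card H
    · have hQL := ih _ (hn ▸ hlt) (Subgroup.closure ({a, b} : Set G)) rfl
      refine ⟨hQL.1 a haL b hbL, ?_⟩
      obtain ⟨e, he, heq⟩ := hQL.2 a haL b hbL
      exact ⟨e, hLH he, heq⟩
    · have hLeq : Subgroup.closure ({a, b} : Set G) = H :=
        Subgroup.eq_of_le_of_card_ge hLH (not_lt.mp hlt)
      by_cases hcomm : a * b = b * a
      · have hc : Commute a b := hcomm
        refine ⟨?_, a * b, H.mul_mem ha hb, (hc.mul_pow p).symm⟩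
        have : (a⁻¹ * b) ^ p = (a ^ p)⁻¹ * b ^ p := by
          rw [(hc.inv_left).mul_pow, inv_pow]
        rw [this, inv_mul_eq_one]
      · -- the non-commuting case
        have hHne : H ≠ ⊥ := by
          rintro rfl
          rw [Subgroup.mem_bot] at ha hb
          exact hcomm (by rw [ha, hb])
        have hDlt : ⁅H, H⁆ < H :=
          Cfsg.Agent.Lib.Helper2.commutator_lt_of_pGroup H (hG.to_subgroup H) hHne
        have hDle : ⁅H, H⁆ ≤ H := hDlt.le
        have QD : Q p ⁅H, H⁆ :=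
          ih _ (hn ▸ card_lt_of_le_of_ne hDle hDlt.ne) _ rfl
        have QM : ∀ x ∈ H, Q p (Subgroup.zpowers x ⊔ ⁅H, H⁆) := by
          intro x hx
          have hle : Subgroup.zpowers x ⊔ ⁅H, H⁆ ≤ H :=
            sup_le ((Subgroup.zpowers_le).mpr hx) hDle
          exact ih _ (hn ▸ card_lt_of_le_of_ne hle
            (F2 H (hG.to_subgroup H) ha hb hcomm x hx)) _ rfl
        have hcD : ⁅a, b⁆ ∈ ⁅H, H⁆ := Subgroup.commutator_mem_commutator ha hb
        -- if the commutator has order dividing p then the agemo of the derived group is trivial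
        have hexp : ⁅a, b⁆ ^ p = 1 → powerClosure p 1 ⁅H, H⁆ = ⊥ := by
          intro hcp
          have hT : ∀ g ∈ Subgroup.closure ({a, b} : Set G), ∀ t ∈ omegaSub p ⁅H, H⁆ QD,
              g * t * g⁻¹ ∈ omegaSub p ⁅H, H⁆ QD := by
            intro g hg t ht
            exact ⟨conj_mem_comm H (hLH hg) ht.1, by rw [conj_pow, ht.2]; simp⟩
          have hle := comm_closure_le (omegaSub p ⁅H, H⁆ QD) a b hT ⟨hcD, hcp⟩
          rw [hLeq] at hle
          rw [eq_bot_iff]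
          unfold powerClosure
          rw [Subgroup.closure_le]
          rintro y ⟨x, hx, rfl⟩
          rw [pow_one, (hle hx).2]
          exact Subgroup.one_mem _
        refine ⟨⟨?_, ?_⟩, ?_⟩
        · intro h
          -- a' = b a b⁻¹ has the same p-th power as a
          have ha' : (b * a * b⁻¹) ^ p = a ^ p := by
            rw [conj_pow, h, ← pow_succ', pow_succ, mul_inv_cancel_right]
          have hM := QM a ha
          have haM : a ∈ Subgroup.zpowers a ⊔ ⁅H, H⁆ :=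
            (le_sup_left : Subgroup.zpowers a ≤ _) (Subgroup.mem_zpowers a)
          have ha'M : b * a * b⁻¹ ∈ Subgroup.zpowers a ⊔ ⁅H, H⁆ := by
            have : b * a * b⁻¹ = ⁅b, a⁆ * a := by simp [commutatorElement_def]
            rw [this]
            exact Subgroup.mul_mem _
              ((le_sup_right : ⁅H, H⁆ ≤ _) (Subgroup.commutator_mem_commutator hb ha)) haM
          have ht := (hM.1 a haM (b * a * b⁻¹) ha'M).mp ha'.symm
          have hcp : ⁅a, b⁆ ^ p = 1 := by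
            have : ⁅a, b⁆ = a * (a⁻¹ * (b * a * b⁻¹))⁻¹ * a⁻¹ := by
              simp only [commutatorElement_def]; group
            rw [this, conj_pow, inv_pow, ht]; simp
          have hbot := hexp hcp
          obtain ⟨c, hc, hceq⟩ := hW a⁻¹ b
          have hc1 : c = 1 := by
            have := pc_mono p 1 (comm_pair_le (H.inv_mem ha) hb) hc
            rw [hbot] at this
            exact Subgroup.mem_bot.mp this
          rw [hceq, hc1, inv_pow, h]; simp
        · intro hu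
          have hM := QM (a⁻¹ * b) (H.mul_mem (H.inv_mem ha) hb)
          have huM : a⁻¹ * b ∈ Subgroup.zpowers (a⁻¹ * b) ⊔ ⁅H, H⁆ :=
            (le_sup_left : Subgroup.zpowers (a⁻¹ * b) ≤ _) (Subgroup.mem_zpowers _)
          have hu'M : a * (a⁻¹ * b) * a⁻¹ ∈ Subgroup.zpowers (a⁻¹ * b) ⊔ ⁅H, H⁆ := by
            have : a * (a⁻¹ * b) * a⁻¹ = ⁅a, a⁻¹ * b⁆ * (a⁻¹ * b) := by
              simp only [commutatorElement_def]; group
            rw [this]
            exact Subgroup.mul_mem _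
              ((le_sup_right : ⁅H, H⁆ ≤ _) (Subgroup.commutator_mem_commutator ha
                (H.mul_mem (H.inv_mem ha) hb))) huM
          have hu'p : (a * (a⁻¹ * b) * a⁻¹) ^ p = 1 := by rw [conj_pow, hu]; simp
          have ht := Q_omega hM hu'M (Subgroup.inv_mem _ huM) hu'p (by rw [inv_pow, hu, inv_one])
          have hcp : ⁅a, b⁆ ^ p = 1 := by
            have : ⁅a, b⁆ = a * (a * (a⁻¹ * b) * a⁻¹ * (a⁻¹ * b)⁻¹) * a⁻¹ := by
              simp only [commutatorElement_def]; group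
            rw [this, conj_pow, ht]; simp
          have hbot := hexp hcp
          obtain ⟨c, hc, hceq⟩ := hW a (a⁻¹ * b)
          have hc1 : c = 1 := by
            have := pc_mono p 1 (comm_pair_le ha (H.mul_mem (H.inv_mem ha) hb)) hc
            rw [hbot] at this
            exact Subgroup.mem_bot.mp this
          rw [mul_inv_cancel_left, hc1, hu] at hceq
          rw [hceq]; simp
        · obtain ⟨c, hc, hceq⟩ := hW a b
          have hcD' := pc_mono p 1 (comm_pair_le ha hb) hc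
          obtain ⟨d, hd, rfl⟩ := Q_agemo QD c hcD'
          have hM := QM (a * b) (H.mul_mem ha hb)
          have habM : a * b ∈ Subgroup.zpowers (a * b) ⊔ ⁅H, H⁆ :=
            (le_sup_left : Subgroup.zpowers (a * b) ≤ _) (Subgroup.mem_zpowers _)
          have hdM : d⁻¹ ∈ Subgroup.zpowers (a * b) ⊔ ⁅H, H⁆ :=
            (le_sup_right : ⁅H, H⁆ ≤ _) (Subgroup.inv_mem _ hd)
          obtain ⟨e, he, heq⟩ := hM.2 (a * b) habM d⁻¹ hdM
          refine ⟨e, sup_le ((Subgroup.zpowers_le).mpr (H.mul_mem ha hb)) hDle he, ?_⟩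
          rw [← heq, hceq, inv_pow]; simp
  exact ⟨fun a ha b hb => (key a ha b hb).1, fun a ha b hb => (key a ha b hb).2⟩

theorem E {p : ℕ} [Fact p.Prime] [Finite G] (hG : IsPGroup p G) (hW : Wk p G) (n : ℕ) :
    ∀ (H : Subgroup G), ∀ y ∈ powerClosure p n H, ∃ x ∈ H, y = x ^ (p ^ n) := by
  induction n with
  | zero =>
    intro H y hy
    exact ⟨y, pc_le p 0 H hy, by simp⟩
  | succ n ih =>
    intro H y hy
    have hQ : Q p (powerClosure p n H) := level1 hG hW _ _ rfl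
    have h1 : powerClosure p (n + 1) H ≤ powerClosure p 1 (powerClosure p n H) := by
      show Subgroup.closure _ ≤ _
      rw [Subgroup.closure_le]
      rintro z ⟨x, hx, rfl⟩
      have : x ^ (p ^ (n + 1)) = (x ^ (p ^ n)) ^ (p ^ 1) := by
        rw [pow_one, ← pow_mul, ← pow_succ]
      rw [this]
      exact pow_mem_pc p 1 (pow_mem_pc p n hx)
    obtain ⟨k, hk, rfl⟩ := Q_agemo hQ y (h1 hy)
    obtain ⟨x, hx, rfl⟩ := ih H k hk
    exact ⟨x, hx, by rw [← pow_mul, ← pow_succ]⟩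

theorem pc_one_pc_le {p : ℕ} [Fact p.Prime] [Finite G] (hG : IsPGroup p G) (hW : Wk p G)
    (n : ℕ) (K : Subgroup G) :
    powerClosure p 1 (powerClosure p n K) ≤ powerClosure p (n + 1) K := by
  have hE := E hG hW n K
  show Subgroup.closure _ ≤ _
  rw [Subgroup.closure_le]
  rintro z ⟨k, hk, rfl⟩
  obtain ⟨x, hx, rfl⟩ := hE k hk
  have : (x ^ (p ^ n)) ^ (p ^ 1) = x ^ (p ^ (n + 1)) := by
    rw [pow_one, ← pow_mul, ← pow_succ]
  rw [this]
  exact pow_mem_pc p (n + 1) hx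

theorem pc_comm_conj {p : ℕ} [Fact p.Prime] [Finite G] (hG : IsPGroup p G) (hW : Wk p G)
    (n : ℕ) (H : Subgroup G) {g t : G} (hg : g ∈ H) (ht : t ∈ powerClosure p n ⁅H, H⁆) :
    g * t * g⁻¹ ∈ powerClosure p n ⁅H, H⁆ := by
  obtain ⟨k, hk, rfl⟩ := E hG hW n _ t ht
  rw [← conj_pow]
  exact pow_mem_pc p n (conj_mem_comm H hg hk)

theorem C {p : ℕ} [Fact p.Prime] [Finite G] (hG : IsPGroup p G) (hW : Wk p G) (n : ℕ) :
    ∀ (H : Subgroup G), ∀ x ∈ H, ∀ y ∈ H, ⁅x ^ (p ^ n), y⁆ ∈ powerClosure p n ⁅H, H⁆ := by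
  induction n with
  | zero =>
    intro H x hx y hy
    have h := Subgroup.commutator_mem_commutator hx hy
    simpa using pow_mem_pc p 0 h
  | succ n ih =>
    intro H x hx y hy
    have hXH : x ^ (p ^ n) ∈ H := H.pow_mem hx _
    have hX'H : y * (x ^ (p ^ n))⁻¹ * y⁻¹ ∈ H :=
      H.mul_mem (H.mul_mem hy (H.inv_mem hXH)) (H.inv_mem hy)
    obtain ⟨c, hc, hceq⟩ := hW (x ^ (p ^ n)) (y * (x ^ (p ^ n))⁻¹ * y⁻¹)
    have e2 : x ^ (p ^ n) * (y * (x ^ (p ^ n))⁻¹ * y⁻¹) = ⁅x ^ (p ^ n), y⁆ := by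
      rw [commutatorElement_def]; group
    have e1 : ⁅x ^ (p ^ (n + 1)), y⁆
        = (x ^ (p ^ n)) ^ p * (y * (x ^ (p ^ n))⁻¹ * y⁻¹) ^ p := by
      rw [pow_succ, pow_mul, commutatorElement_def, conj_pow, inv_pow]
      group
    have e3 : (x ^ (p ^ n)) ^ p * (y * (x ^ (p ^ n))⁻¹ * y⁻¹) ^ p
        = ⁅x ^ (p ^ n), y⁆ ^ p * c⁻¹ := by
      rw [← e2, hceq]; group
    rw [e1, e3]
    apply Subgroup.mul_mem
    · obtain ⟨k, hk, hkeq⟩ := E hG hW n _ _ (ih H x hx y hy)
      rw [hkeq, ← pow_mul, ← pow_succ]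
      exact pow_mem_pc p (n + 1) hk
    · apply Subgroup.inv_mem
      apply pc_one_pc_le hG hW n ⁅H, H⁆
      refine pc_mono p 1 ?_ hc
      apply comm_closure_le
      · intro g hg t ht
        exact pc_comm_conj hG hW n H (closure_pair_le hXH hX'H hg) ht
      · exact ih H x hx _ hX'H

theorem D {p : ℕ} [Fact p.Prime] [Finite G] (hG : IsPGroup p G) (hW : Wk p G) (n : ℕ) :
    ∀ a b : G, ∃ c ∈ powerClosure p n
        ⁅Subgroup.closure ({a, b} : Set G), Subgroup.closure ({a, b} : Set G)⁆,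
      (a * b) ^ (p ^ n) = a ^ (p ^ n) * b ^ (p ^ n) * c := by
  induction n with
  | zero => intro a b; exact ⟨1, Subgroup.one_mem _, by simp⟩
  | succ n ih =>
    intro a b
    obtain ⟨H, hH⟩ : ∃ H : Subgroup G, H = Subgroup.closure ({a, b} : Set G) := ⟨_, rfl⟩
    rw [← hH]
    have haH : a ∈ H := hH ▸ Subgroup.subset_closure (by simp)
    have hbH : b ∈ H := hH ▸ Subgroup.subset_closure (by simp)
    obtain ⟨w, hw, hweq⟩ := ih a b
    rw [← hH] at hw
    have hxH : a ^ (p ^ n) ∈ H := H.pow_mem haH _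
    have hyH : b ^ (p ^ n) ∈ H := H.pow_mem hbH _
    have hwH : w ∈ H := comm_self_le H (pc_le p n _ hw)
    obtain ⟨c₁, hc₁, h1⟩ := hW (a ^ (p ^ n) * b ^ (p ^ n)) w
    obtain ⟨c₂, hc₂, h2⟩ := hW (a ^ (p ^ n)) (b ^ (p ^ n))
    refine ⟨c₂ * w ^ p * c₁, ?_, ?_⟩
    · apply Subgroup.mul_mem _ (Subgroup.mul_mem _ ?_ ?_) ?_
      · apply pc_one_pc_le hG hW n ⁅H, H⁆
        refine pc_mono p 1 ?_ hc₂
        apply comm_closure_le
        · intro g hg t ht
          exact pc_comm_conj hG hW n H (closure_pair_le hxH hyH hg) ht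
        · exact C hG hW n H a haH _ hyH
      · obtain ⟨k, hk, rfl⟩ := E hG hW n _ w hw
        rw [← pow_mul, ← pow_succ]
        exact pow_mem_pc p (n + 1) hk
      · apply pc_one_pc_le hG hW n ⁅H, H⁆
        refine pc_mono p 1 ?_ hc₁
        apply comm_closure_le
        · intro g hg t ht
          exact pc_comm_conj hG hW n H (closure_pair_le (H.mul_mem hxH hyH) hwH hg) ht
        · rw [commutatorElement_def]
          exact Subgroup.mul_mem _ (pc_comm_conj hG hW n H (H.mul_mem hxH hyH) hw)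
            (Subgroup.inv_mem _ hw)
    · have e1 : (a * b) ^ (p ^ (n + 1)) = ((a * b) ^ (p ^ n)) ^ p := by
        rw [pow_succ, pow_mul]
      have e2 : a ^ (p ^ (n + 1)) = (a ^ (p ^ n)) ^ p := by rw [pow_succ, pow_mul]
      have e3 : b ^ (p ^ (n + 1)) = (b ^ (p ^ n)) ^ p := by rw [pow_succ, pow_mul]
      rw [e1, e2, e3, hweq, h1, h2]
      group

/-- In a regular p-group the p^n-th powers of the elements of any subgroup H form a subgroup, whose derived subgroup is contained in the subgroup generated by the p^n-th powers of elements of the derived subgroup of H. -/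
theorem result {G : Type*} [Group G] [Finite G] {p : ℕ} [Fact p.Prime] (hG : Cfsg.IsRegularPGroup p G) (H : Subgroup G) (n : ℕ) : {y : G | ∃ x ∈ H, y = x ^ (p ^ n)} = (Cfsg.powerClosure p n H : Set G) ∧ ⁅Cfsg.powerClosure p n H, Cfsg.powerClosure p n H⁆ ≤ Cfsg.powerClosure p n ⁅H, H⁆ := by
  have hW : Wk p G := fun a b => by
    obtain ⟨c, hc, h⟩ := hG.2 a b 1
    exact ⟨c, hc, by simpa using h⟩
  refine ⟨?_, ?_⟩
  · ext y
    constructor
    · rintro ⟨x, hx, rfl⟩
      exact pow_mem_pc p n hx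
    · intro hy
      exact E hG.1 hW n H y hy
  · rw [Subgroup.commutator_le]
    intro g₁ h₁ g₂ h₂
    obtain ⟨x, hx, rfl⟩ := E hG.1 hW n H g₁ h₁
    exact C hG.1 hW n H x hx g₂ (pc_le p n H h₂)

end Cfsg.Agent.S0644
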