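import Mathlib
import Cfsg.Statements.S0230
import Cfsg.Agent.Lib.Helper5.Invol
import Cfsg.Agent.S0208
import Cfsg.Agent.S0209
import Cfsg.Agent.S0237

set_option autoImplicit false
open Cfsg

namespace Cfsg.Agent.S0230

open Cfsg.Agent.Lib.Helper5

theorem orbit_mul_cent {G : Type*} [Group G] [Finite G] (t : G) :
    Nat.card (MulAction.orbit (ConjAct G) t) * Nat.card (Subgroup.centralizer ({t} : Set G))
      = Nat.card G := by
  rw [Subgroup.nat_card_centralizer_nat_card_stabilizer, Nat.card_coe_set_eq,
    ← MulAction.index_stabilizer, Subgroup.index_mul_card]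
  rfl

theorem result {G : Type*} [Group G] [Finite G] (s t : G) (hs : orderOf s = 2) (ht : orderOf t = 2) (hnc : ¬ IsConj s t) (hmax : ∀ u : G, orderOf u = 2 → Nat.card (Subgroup.centralizer ({u} : Set G)) ≤ Nat.card (Subgroup.centralizer ({t} : Set G))) : Nat.card G < Nat.card (Subgroup.centralizer ({t} : Set G)) ^ 3 := by
  classical
  haveI : Fintype G := Fintype.ofFinite G
  have hmpos : 0 < Nat.card (Subgroup.centralizer ({t} : Set G)) := Nat.card_pos
  have h1 := orbit_mul_cent t
  generalize hm : Nat.card (Subgroup.centralizer ({t} : Set G)) = m at *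
  let Z : Finset G :=
    Finset.univ.filter (fun z => orderOf z = 2 ∧ z ∈ Subgroup.centralizer ({s} : Set G))
  let cent : G → Finset G := fun z =>
    Finset.univ.filter (fun g => g ∈ Subgroup.centralizer ({z} : Set G))
  have hcent : ∀ z : G, Nat.card (Subgroup.centralizer ({z} : Set G)) = (cent z).card := by
    intro z
    exact Nat.subtype_card (cent z) (fun x => by simp [cent])
  let O : Finset G := Finset.univ.filter (fun b => b ∈ MulAction.orbit (ConjAct G) t)
  have hO : Nat.card (MulAction.orbit (ConjAct G) t) = O.card :=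
    Nat.subtype_card O (fun x => by simp [O])
  have hZ : Z.card < m := by
    have : Z.card < Nat.card (Subgroup.centralizer ({s} : Set G)) := by
      rw [hcent]
      apply Finset.card_lt_card
      rw [Finset.ssubset_iff_of_subset]
      · refine ⟨1, by simp [cent], by simp [Z]⟩
      · intro z hz
        simp only [Z, Finset.mem_filter, Finset.mem_univ, true_and] at hz
        simp only [cent, Finset.mem_filter, Finset.mem_univ, true_and]
        exact hz.2
    exact lt_of_lt_of_le this (hmax s hs)
  have hsub : O ⊆ Z.biUnion cent := by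
    intro b hb
    simp only [O, Finset.mem_filter, Finset.mem_univ, true_and] at hb
    rw [ConjAct.mem_orbit_conjAct] at hb
    obtain ⟨c, hc⟩ := isConj_iff.mp hb
    have hb2 : orderOf b = 2 := by
      have : orderOf ((MulAut.conj c) b) = orderOf b := MulEquiv.orderOf_eq _ _
      rw [MulAut.conj_apply, hc, ht] at this
      exact this.symm
    have heven : Even (orderOf (s * b)) := by
      by_contra hodd
      rw [Nat.not_even_iff_odd] at hodd
      obtain ⟨d, _, hd⟩ := Cfsg.Agent.S0208.result s b hs hb2 hodd
      exact hnc ((isConj_iff.mpr ⟨d, hd⟩).trans hb)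
    obtain ⟨hz2, hzs, hzb⟩ := Cfsg.Agent.S0209.result s b hs hb2 heven
    rw [Finset.mem_biUnion]
    refine ⟨(s * b) ^ (orderOf (s * b) / 2), ?_, ?_⟩
    · simp only [Z, Finset.mem_filter, Finset.mem_univ, true_and]
      refine ⟨hz2, ?_⟩
      rw [Cfsg.Agent.S0237.mem_centralizer_singleton]
      exact hzs.eq.symm
    · simp only [cent, Finset.mem_filter, Finset.mem_univ, true_and]
      rw [Cfsg.Agent.S0237.mem_centralizer_singleton]
      exact hzb.eq
  have hcard : Nat.card (MulAction.orbit (ConjAct G) t) ≤ Z.card * m := by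
    rw [hO]
    calc O.card ≤ (Z.biUnion cent).card := Finset.card_le_card hsub
      _ ≤ ∑ z ∈ Z, (cent z).card := Finset.card_biUnion_le
      _ ≤ ∑ z ∈ Z, m := Finset.sum_le_sum (fun z hz => by
            rw [← hcent]
            simp only [Z, Finset.mem_filter, Finset.mem_univ, true_and] at hz
            exact hmax z hz.1)
      _ = Z.card * m := by rw [Finset.sum_const, smul_eq_mul]
  calc Nat.card G = Nat.card (MulAction.orbit (ConjAct G) t) * m := h1.symm
    _ ≤ Z.card * m * m := Nat.mul_le_mul_right m hcard
    _ < m * m * m := by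
        apply Nat.mul_lt_mul_of_pos_right _ hmpos
        exact Nat.mul_lt_mul_of_pos_right hZ hmpos
    _ = m ^ 3 := by ring

end Cfsg.Agent.S0230
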