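import Cfsg.Statements.S0243
import Mathlib
import Cfsg.Agent.S0242

set_option autoImplicit false
open Cfsg

namespace Cfsg.Agent.S0243

theorem card_rootsOfUnity_field {F : Type*} [Field F] [Fintype F] (k : ℕ) :
    Nat.card (rootsOfUnity k F) = Nat.gcd k (Fintype.card F - 1) := by
  classical
  have h : rootsOfUnity k F = (powMonoidHom k : Fˣ →* Fˣ).ker := by
    ext x
    simp [MonoidHom.mem_ker]
  rw [h, IsCyclic.card_powMonoidHom_ker, Nat.card_eq_fintype_card, Fintype.card_units, Nat.gcd_comm]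

theorem card_center_SL {F : Type*} [Field F] [Fintype F] (n : ℕ) (hn : 1 ≤ n) :
    Nat.card (Subgroup.center (Matrix.SpecialLinearGroup (Fin n) F)) = Nat.gcd n (Fintype.card F - 1) := by
  classical
  have e := Matrix.SpecialLinearGroup.center_equiv_rootsOfUnity (n := Fin n) (R := F)
  have hmax : max (Fintype.card (Fin n)) 1 = n := by simp; omega
  rw [hmax] at e
  rw [Nat.card_congr e.toEquiv, card_rootsOfUnity_field]

/-- Order of PSL_n(q): gcd(n, q-1) (q-1) |PSL_n(q)| = prod_{i<n} (q^n - q^i). -/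
theorem result {F : Type*} [Field F] [Fintype F] {q : ℕ} (hF : Fintype.card F = q) (n : ℕ) (hn : 2 ≤ n) : Nat.gcd n (q - 1) * ((q - 1) * Nat.card (Matrix.ProjectiveSpecialLinearGroup (Fin n) F)) = ∏ i : Fin n, (q ^ n - q ^ (i : ℕ)) := by
  classical
  have h1 := Cfsg.Agent.S0242.result hF n (by omega)
  have h2 := card_center_SL (F := F) n (by omega)
  have h3 := Subgroup.card_eq_card_quotient_mul_card_subgroup (Subgroup.center (Matrix.SpecialLinearGroup (Fin n) F))
  rw [hF] at h2
  have h4 : Nat.card (Matrix.ProjectiveSpecialLinearGroup (Fin n) F) = Nat.card (Matrix.SpecialLinearGroup (Fin n) F ⧸ Subgroup.center (Matrix.SpecialLinearGroup (Fin n) F)) := rfl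
  rw [← h1, h3, h2, h4]
  ring

end Cfsg.Agent.S0243
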