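import Cfsg.Statements.S0014
-- import your own Cfsg.Agent.* helpers here
import Cfsg.Agent.Lib.Helper2.PGroup

set_option autoImplicit false
open Cfsg

namespace Cfsg.Agent.S0014

open Cfsg.Agent.Lib.Helper2

section
variable {G : Type*} [Group G] [Finite G] (p : ℕ) [Fact p.Prime]

theorem step_le (hG : IsPGroup p G) (A : Subgroup G) (hΦ : frattini G ≤ A) (t : G) :
    Nat.card (A ⊔ Subgroup.zpowers t : Subgroup G) ≤ p * Nat.card A := by
  have hp := (Fact.out : p.Prime)
  haveI hAn : A.Normal := by
    constructor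
    intro a ha g
    have h1 : g * a * g⁻¹ = (g * a * g⁻¹ * a⁻¹) * a := by group
    rw [h1]
    apply A.mul_mem _ ha
    apply hΦ
    apply commutator_le_frattini_of_pGroup hG
    exact Subgroup.commutator_mem_commutator (Subgroup.mem_top g) (Subgroup.mem_top a)
  have htp : t ^ p ∈ A := hΦ (pow_mem_frattini_of_pGroup hG t)
  have hmem : ∀ (a : A) (i : Fin p), (a : G) * t ^ (i : ℕ) ∈ A ⊔ Subgroup.zpowers t := by
    intro a i
    exact Subgroup.mul_mem _ (Subgroup.mem_sup_left a.2)
      (Subgroup.mem_sup_right (Subgroup.pow_mem _ (Subgroup.mem_zpowers t) _))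
  have hsurj : Function.Surjective (fun x : A × Fin p =>
      (⟨(x.1 : G) * t ^ (x.2 : ℕ), hmem x.1 x.2⟩ : (A ⊔ Subgroup.zpowers t : Subgroup G))) := by
    rintro ⟨x, hx⟩
    have hx' : x ∈ ((A ⊔ Subgroup.zpowers t : Subgroup G) : Set G) := hx
    rw [Subgroup.normal_mul] at hx'
    obtain ⟨a, ha, z, hz, rfl⟩ := Set.mem_mul.mp hx'
    obtain ⟨k, rfl⟩ := Subgroup.mem_zpowers_iff.mp hz
    have hpz : (p : ℤ) ≠ 0 := by exact_mod_cast hp.ne_zero
    have hk : (p : ℤ) * (k / p) + k % p = k := Int.mul_ediv_add_emod k p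
    have hmod : 0 ≤ k % (p : ℤ) := Int.emod_nonneg k hpz
    have hlt : k % (p : ℤ) < p := Int.emod_lt_of_pos k (by exact_mod_cast hp.pos)
    refine ⟨(⟨a * (t ^ p) ^ (k / (p : ℤ)), A.mul_mem ha (A.zpow_mem htp _)⟩,
      ⟨(k % (p : ℤ)).toNat, by omega⟩), ?_⟩
    apply Subtype.ext
    show a * (t ^ p) ^ (k / (p : ℤ)) * t ^ ((k % (p : ℤ)).toNat) = a * t ^ k
    rw [mul_assoc]
    congr 1
    rw [← zpow_natCast t (k % (p:ℤ)).toNat, Int.toNat_of_nonneg hmod, ← zpow_natCast t p,
      ← zpow_mul, ← zpow_add]
    congr 1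
  have h := Nat.card_le_card_of_surjective _ hsurj
  rw [Nat.card_prod] at h
  simp only [Nat.card_eq_fintype_card, Fintype.card_fin] at h
  rw [mul_comm]
  simpa [Nat.card_eq_fintype_card] using h

theorem step_ge (hG : IsPGroup p G) (A A' : Subgroup G) (hle : A ≤ A') (hne : A ≠ A') :
    p * Nat.card A ≤ Nat.card A' := by
  have hp := (Fact.out : p.Prime)
  obtain ⟨a, ha⟩ := IsPGroup.iff_card.mp (hG.to_subgroup A)
  obtain ⟨b, hb⟩ := IsPGroup.iff_card.mp (hG.to_subgroup A')
  have h1 : Nat.card A ≤ Nat.card A' := Subgroup.card_le_of_le hle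
  have h2 : Nat.card A ≠ Nat.card A' := by
    intro h
    exact hne (Subgroup.eq_of_le_of_card_ge hle (le_of_eq h.symm))
  rw [ha, hb] at h1 h2 ⊢
  have h3 : a < b := by
    by_contra hcon
    push Not at hcon
    have := Nat.pow_le_pow_right hp.pos hcon
    omega
  calc p * p ^ a = p ^ (a + 1) := by ring
    _ ≤ p ^ b := Nat.pow_le_pow_right hp.pos h3

theorem up (hG : IsPGroup p G) (T : Finset G) :
    Nat.card (Subgroup.closure (T : Set G) ⊔ frattini G : Subgroup G) ≤
      p ^ T.card * Nat.card (frattini G) := by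
  classical
  induction T using Finset.induction_on with
  | empty => simp
  | insert t T' ht ih =>
    rw [Finset.card_insert_of_notMem ht, Finset.coe_insert, Set.insert_eq, Subgroup.closure_union,
      ← Subgroup.zpowers_eq_closure]
    have h1 : Subgroup.zpowers t ⊔ Subgroup.closure (T' : Set G) ⊔ frattini G =
        (Subgroup.closure (T' : Set G) ⊔ frattini G) ⊔ Subgroup.zpowers t := by
      rw [sup_comm (Subgroup.zpowers t), sup_right_comm]
    rw [h1]
    have h2 := step_le p hG (Subgroup.closure (T' : Set G) ⊔ frattini G) le_sup_right t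
    calc _ ≤ p * Nat.card (Subgroup.closure (T' : Set G) ⊔ frattini G : Subgroup G) := h2
      _ ≤ p * (p ^ T'.card * Nat.card (frattini G)) := Nat.mul_le_mul_left _ ih
      _ = _ := by ring

theorem low [DecidableEq G] (hG : IsPGroup p G) (T : Finset G) :
    (∀ t ∈ T, t ∉ (Subgroup.closure ((T.erase t : Finset G) : Set G) ⊔ frattini G : Subgroup G)) →
    p ^ T.card * Nat.card (frattini G) ≤
      Nat.card (Subgroup.closure (T : Set G) ⊔ frattini G : Subgroup G) := by
  induction T using Finset.induction_on with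
  | empty => intro _; simp
  | insert t T' ht ih =>
    intro hind
    have hT' : ∀ t' ∈ T', t' ∉ (Subgroup.closure ((T'.erase t' : Finset G) : Set G) ⊔ frattini G :
        Subgroup G) := by
      intro t' ht' hmem
      apply hind t' (Finset.mem_insert_of_mem ht')
      refine (sup_le_sup_right (Subgroup.closure_mono ?_) _) hmem
      intro x hx
      rw [Finset.mem_coe] at hx ⊢
      rw [Finset.mem_erase] at hx ⊢
      exact ⟨hx.1, Finset.mem_insert_of_mem hx.2⟩
    have ht0 := hind t (Finset.mem_insert_self t T')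
    rw [Finset.erase_insert ht] at ht0
    have hle : (Subgroup.closure (T' : Set G) ⊔ frattini G : Subgroup G) ≤
        Subgroup.closure ((insert t T' : Finset G) : Set G) ⊔ frattini G :=
      sup_le_sup_right (Subgroup.closure_mono
        (by rw [Finset.coe_insert]; exact Set.subset_insert _ _)) _
    have hne : (Subgroup.closure (T' : Set G) ⊔ frattini G : Subgroup G) ≠
        Subgroup.closure ((insert t T' : Finset G) : Set G) ⊔ frattini G := by
      intro h
      apply ht0
      rw [h]
      exact Subgroup.mem_sup_left (Subgroup.subset_closure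
        (by rw [Finset.coe_insert]; exact Set.mem_insert _ _))
    have h2 := step_ge p hG _ _ hle hne
    rw [Finset.card_insert_of_notMem ht]
    calc p ^ (T'.card + 1) * Nat.card (frattini G)
        = p * (p ^ T'.card * Nat.card (frattini G)) := by ring
      _ ≤ p * Nat.card (Subgroup.closure (T' : Set G) ⊔ frattini G : Subgroup G) :=
          Nat.mul_le_mul_left _ (ih hT')
      _ ≤ _ := h2

end

/-- Burnside's basis Theorem: in a finite p-group whose Frattini quotient has order p ^ n, every generating set contains n elements that already generate, and no set with fewer than n elements generates. -/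
theorem result {G : Type*} [Group G] [Finite G] (p n : ℕ) [Fact p.Prime]
    (hG : IsPGroup p G) (hn : (frattini G).index = p ^ n) :
    (∀ S : Finset G, Subgroup.closure (S : Set G) = ⊤ → ∃ T : Finset G, T ⊆ S ∧ T.card = n ∧ Subgroup.closure (T : Set G) = ⊤) ∧
    (∀ T : Finset G, Subgroup.closure (T : Set G) = ⊤ → n ≤ T.card) := by
  classical
  have hp := (Fact.out : p.Prime)
  have hcard : Nat.card G = p ^ n * Nat.card (frattini G) := by
    rw [← hn, mul_comm]; exact (Subgroup.card_mul_index _).symm
  have hΦpos : 0 < Nat.card (frattini G) := Nat.card_pos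
  have hB : ∀ T : Finset G, Subgroup.closure (T : Set G) = ⊤ → n ≤ T.card := by
    intro T hT
    have h1 := up p hG T
    rw [hT, top_sup_eq, Subgroup.card_top, hcard] at h1
    have h2 := Nat.le_of_mul_le_mul_right h1 hΦpos
    exact (Nat.pow_le_pow_iff_right hp.one_lt).mp h2
  refine ⟨?_, hB⟩
  intro S hS
  have hex : ∃ m, ∃ T : Finset G, T ⊆ S ∧ T.card = m ∧ Subgroup.closure (T : Set G) = ⊤ :=
    ⟨S.card, S, subset_rfl, rfl, hS⟩
  obtain ⟨T, hTS, hTm, hT⟩ := Nat.find_spec hex
  have hmin := fun k (hk : k < Nat.find hex) => Nat.find_min hex hk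
  refine ⟨T, hTS, ?_, hT⟩
  apply le_antisymm _ (hB T hT)
  have hind : ∀ t ∈ T, t ∉ (Subgroup.closure ((T.erase t : Finset G) : Set G) ⊔ frattini G :
      Subgroup G) := by
    intro t ht hmem
    have h1 : Subgroup.closure ((T.erase t : Finset G) : Set G) ⊔ frattini G = ⊤ := by
      rw [eq_top_iff, ← hT, Subgroup.closure_le]
      intro x hx
      by_cases hxt : x = t
      · rw [hxt]; exact hmem
      · exact Subgroup.mem_sup_left (Subgroup.subset_closure
          (Finset.mem_coe.mpr (Finset.mem_erase.mpr ⟨hxt, Finset.mem_coe.mp hx⟩)))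
    have h2 : Subgroup.closure ((T.erase t : Finset G) : Set G) = ⊤ := frattini_nongenerating h1
    apply hmin (T.erase t).card
    · rw [Finset.card_erase_of_mem ht, hTm]
      have : 0 < T.card := Finset.card_pos.mpr ⟨t, ht⟩
      omega
    · exact ⟨T.erase t, (Finset.erase_subset t T).trans hTS, rfl, h2⟩
  have h3 := low p hG T hind
  rw [hT, top_sup_eq, Subgroup.card_top, hcard] at h3
  have h4 := Nat.le_of_mul_le_mul_right h3 hΦpos
  exact (Nat.pow_le_pow_iff_right hp.one_lt).mp h4

end Cfsg.Agent.S0014
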