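import Cfsg.Statements.S1140
-- import your own Cfsg.Agent.* helpers here

set_option autoImplicit false
open Cfsg

namespace Cfsg.Agent.S1140

/-- For a finite field `F` of characteristic 2, the automorphisms of `F`, viewed as additive maps `F → F`, are linearly independent over `F` (acting on values) every additive endomorphism of `F` is an `F`-linear combination of them, and every biadditive map `F → F → F` is an `F`-combination of the maps `(x, y) ↦ σ(x) τ(y)`. -/
theorem result {F : Type*} [Field F] [Fintype F] [CharP F 2] :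
    LinearIndependent F (fun σ : F ≃+* F => ((σ : F →+* F) : F → F)) ∧
      (∀ f : F →+ F, ∃ (s : Finset (F ≃+* F)) (c : (F ≃+* F) → F), ∀ x : F, f x = ∑ σ ∈ s, c σ * σ x) ∧
      ∀ B : F →+ F →+ F, ∃ (s : Finset ((F ≃+* F) × (F ≃+* F))) (c : (F ≃+* F) × (F ≃+* F) → F),
        ∀ x y : F, B x y = ∑ p ∈ s, c p * (p.1 x * p.2 y) := by
  classical
  letI : Algebra (ZMod 2) F := ZMod.algebra F 2
  have hLI : LinearIndependent F (fun σ : F ≃+* F => ((σ : F →+* F) : F → F)) := by
    have h := linearIndependent_monoidHom F F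
    have hinj : Function.Injective (fun σ : F ≃+* F => ((σ : F →+* F) : F →* F)) := by
      intro σ τ h
      ext x
      exact congrArg (fun g : F →* F => g x) h
    exact h.comp _ hinj
  refine ⟨hLI, ?_⟩
  let b : (F ≃+* F) → (F →ₗ[ZMod 2] F) :=
    fun σ => AddMonoidHom.toZModLinearMap 2 (σ : F →+* F).toAddMonoidHom
  let ev : (F →ₗ[ZMod 2] F) →ₗ[F] (F → F) :=
    { toFun := fun g => g, map_add' := fun _ _ => rfl, map_smul' := fun _ _ => rfl }
  have hb : LinearIndependent F b := by
    apply LinearIndependent.of_comp ev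
    exact hLI
  let e : (F ≃+* F) ≃ (F ≃ₐ[ZMod 2] F) :=
    { toFun := fun σ => AlgEquiv.ofRingEquiv (f := σ) (fun x =>
        RingHom.congr_fun (Subsingleton.elim ((σ : F →+* F).comp (algebraMap (ZMod 2) F))
          (algebraMap (ZMod 2) F)) x)
      invFun := fun σ => σ.toRingEquiv
      left_inv := fun σ => by ext; rfl
      right_inv := fun σ => by ext; rfl }
  haveI : Finite (F ≃+* F) := Finite.of_equiv _ e.symm
  haveI := Fintype.ofFinite (F ≃+* F)
  have hcard : Fintype.card (F ≃+* F) = Module.finrank F (F →ₗ[ZMod 2] F) := by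
    rw [Module.finrank_linearMap, Module.finrank_self, mul_one,
      ← IsGalois.card_aut_eq_finrank (ZMod 2) F, ← Nat.card_eq_fintype_card]
    exact Nat.card_congr e
  have hspan := hb.span_eq_top_of_card_eq_finrank' hcard
  have h2 : ∀ f : F →+ F, ∃ c : (F ≃+* F) → F, ∀ x : F, f x = ∑ σ, c σ * σ x := by
    intro f
    have hf : AddMonoidHom.toZModLinearMap 2 f ∈ Submodule.span F (Set.range b) := by
      rw [hspan]; trivial
    obtain ⟨c, hc⟩ := (Submodule.mem_span_range_iff_exists_fun F).mp hf
    refine ⟨c, fun x => ?_⟩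
    have := congrArg (fun g : F →ₗ[ZMod 2] F => g x) hc
    simp only [LinearMap.sum_apply, LinearMap.smul_apply, smul_eq_mul] at this
    exact this.symm
  refine ⟨fun f => ?_, fun B => ?_⟩
  · obtain ⟨c, hc⟩ := h2 f
    exact ⟨Finset.univ, c, hc⟩
  · have huniq : ∀ c c' : (F ≃+* F) → F,
        (∀ x, ∑ σ, c σ * σ x = ∑ σ, c' σ * σ x) → c = c' := by
      intro c c' h
      have := Fintype.linearIndependent_iff.mp hLI (fun σ => c σ - c' σ) (by
        ext x
        simp [sub_mul, Finset.sum_sub_distrib, h x])
      ext σ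
      exact sub_eq_zero.mp (this σ)
    choose C hC using fun x => h2 (B x)
    have hCadd : ∀ x x' τ, C (x + x') τ = C x τ + C x' τ := by
      intro x x' τ
      have := huniq (C (x + x')) (fun τ => C x τ + C x' τ) (by
        intro y
        rw [← hC]
        simp only [add_mul, Finset.sum_add_distrib, ← hC, map_add, AddMonoidHom.add_apply])
      exact congrFun this τ
    choose D hD using fun τ => h2 (AddMonoidHom.mk' (fun x => C x τ) (fun x x' => hCadd x x' τ))
    refine ⟨Finset.univ, fun p => D p.2 p.1, fun x y => ?_⟩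
    rw [hC x y, ← Finset.univ_product_univ, Finset.sum_product_right]
    refine Finset.sum_congr rfl fun τ _ => ?_
    have := hD τ x
    simp only [AddMonoidHom.mk'_apply] at this
    rw [this, Finset.sum_mul]
    refine Finset.sum_congr rfl fun σ _ => by ring

end Cfsg.Agent.S1140
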