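import Cfsg.Statements.S0356
-- import your own Cfsg.Agent.* helpers here
import Cfsg.Agent.Lib.Helper7.Steiner

set_option autoImplicit false
open Cfsg

namespace Cfsg.Agent.S0356

open Cfsg.Agent.Lib.Helper7

/-- In a Steiner system S(3, 6, 22), two distinct blocks intersect in 0 or 2 points. -/
theorem result {α : Type*} [Fintype α] [DecidableEq α] (hα : Fintype.card α = 22) {B : Set (Finset α)} (hB : Cfsg.IsSteinerSystem 3 6 B) {b c : Finset α} (hb : b ∈ B) (hc : c ∈ B) (hbc : b ≠ c) : (b ∩ c).card = 0 ∨ (b ∩ c).card = 2 := by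
  classical
  have hfin : B.Finite := Set.toFinite B
  obtain ⟨Bf, hBf⟩ : ∃ Bf : Finset (Finset α), ∀ b, b ∈ Bf ↔ b ∈ B :=
    ⟨hfin.toFinset, fun b => Set.Finite.mem_toFinset hfin⟩
  have h0 := st_block_moment hB Bf hBf b hb 0 (by norm_num)
  have h1 := st_block_moment hB Bf hBf b hb 1 (by norm_num)
  have h2 := st_block_moment hB Bf hBf b hb 2 (by norm_num)
  rw [hα] at h0 h1 h2
  simp only [Finset.sum_range_succ, Finset.sum_range_zero] at h0 h1 h2
  norm_num [Nat.choose, -Finset.card_eq_zero] at h0 h1 h2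
  have hlt := st_inter_lt hB hb hc hbc.symm
  have hcmem : c ∈ Bf.erase b := Finset.mem_erase.mpr ⟨hbc.symm, (hBf c).mpr hc⟩
  rw [Finset.inter_comm]
  have hn1 : ((Bf.erase b).filter (fun c => (c ∩ b).card = 1)).card = 0 := by omega
  rw [Finset.card_eq_zero, Finset.filter_eq_empty_iff] at hn1
  have e1 := hn1 hcmem
  omega

end Cfsg.Agent.S0356
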