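import Cfsg.Statements.S0044
-- import your own Cfsg.Agent.* helpers here
import Cfsg.Agent.Lib.Helper7.PCore
import Cfsg.Agent.S0043
import Mathlib.Tactic.Group
import Mathlib.Data.Fintype.Lattice

set_option autoImplicit false
open Cfsg

namespace Cfsg.Agent.S0044

/-- In a finite solvable group, the centraliser of the Fitting subgroup is contained in the Fitting subgroup. -/
theorem result {G : Type*} [Group G] [Finite G] [Group.IsSolvable G] :
    Subgroup.centralizer (Cfsg.fittingSubgroup G : Set G) ≤ Cfsg.fittingSubgroup G := by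
  classical
  set F := Cfsg.fittingSubgroup G with hF
  have hFn : F.Normal := Cfsg.Agent.Lib.Helper7.fitting_normal G
  let C := Subgroup.centralizer (F : Set G)
  have hCn : C.Normal := inferInstance
  let Z := C ⊓ F
  have hZn : Z.Normal := inferInstance
  by_contra hCF
  have hZC : Z < C := by
    refine lt_of_le_of_ne inf_le_left (fun h => hCF ?_)
    have h1 : C ≤ C ⊓ F := le_of_eq h.symm
    exact h1.trans inf_le_right
  obtain ⟨M, hMC, hMmin⟩ := Finite.exists_le_minimal
    (p := fun K : Subgroup G => K.Normal ∧ Z < K ∧ K ≤ C) (a := C) ⟨hCn, hZC, le_rfl⟩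
  obtain ⟨hMn, hZM, hMC'⟩ := hMmin.prop
  let π := QuotientGroup.mk' Z
  have hπ : Function.Surjective π := QuotientGroup.mk'_surjective Z
  let Nb : Subgroup (G ⧸ Z) := M.map π
  have hNbn : Nb.Normal := Subgroup.Normal.map hMn π hπ
  have hNbne : Nb ≠ ⊥ := by
    intro h
    apply not_le_of_gt hZM
    intro m hm
    have h1 : π m ∈ Nb := Subgroup.mem_map_of_mem π hm
    rw [h, Subgroup.mem_bot] at h1
    exact (QuotientGroup.eq_one_iff m).mp h1
  have hNbmin : ∀ Kb : Subgroup (G ⧸ Z), Kb.Normal → Kb ≤ Nb → Kb = ⊥ ∨ Kb = Nb := by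
    intro Kb hKbn hKbN
    let K := Kb.comap π
    have hKn : K.Normal := hKbn.comap π
    have hZK : Z ≤ K := by
      intro z hz
      show π z ∈ Kb
      have h1 : π z = 1 := (QuotientGroup.eq_one_iff z).mpr hz
      rw [h1]; exact Kb.one_mem
    have hKM : K ≤ M := by
      intro x hx
      have h1 : π x ∈ Nb := hKbN hx
      obtain ⟨m, hm, hmx⟩ := Subgroup.mem_map.mp h1
      have h2 : m⁻¹ * x ∈ Z := by
        rw [← QuotientGroup.eq_one_iff]
        show π (m⁻¹ * x) = 1
        rw [map_mul, map_inv, hmx, inv_mul_cancel]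
      have h3 : x = m * (m⁻¹ * x) := by group
      rw [h3]; exact M.mul_mem hm (hZM.le h2)
    have hKb : Kb = K.map π := (Subgroup.map_comap_eq_self_of_surjective hπ Kb).symm
    by_cases hKZ : K = Z
    · left
      rw [hKb, hKZ, Subgroup.map_eq_bot_iff, QuotientGroup.ker_mk']
    · right
      have h1 : M ≤ K :=
        hMmin.le_of_le ⟨hKn, lt_of_le_of_ne hZK (Ne.symm hKZ), hKM.trans hMC'⟩ hKM
      rw [hKb, le_antisymm hKM h1]
  obtain ⟨hNbc, -⟩ := Cfsg.Agent.S0043.result Nb hNbne hNbmin
  have hcen : ∀ z ∈ Z, ∀ m ∈ M, z * m = m * z := by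
    intro z hz m hm
    exact (Subgroup.mem_centralizer_iff.mp (hMC' hm)) z (Subgroup.mem_inf.mp hz).2
  have hMnil : Group.IsNilpotent M := by
    let f : M →* Nb := π.subgroupMap M
    have hNbnil : Group.IsNilpotent Nb :=
      ⟨⟨1, Subgroup.upperCentralSeries_one_eq_top_iff.mpr hNbc⟩⟩
    apply Subgroup.isNilpotent_of_ker_le_center f
    intro m hm
    rw [MonoidHom.mem_ker] at hm
    have hmZ : (m : G) ∈ Z := by
      have h1 : π (m : G) = 1 := congrArg Subtype.val hm
      exact (QuotientGroup.eq_one_iff (m : G)).mp h1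
    rw [Subgroup.mem_center_iff]
    intro g
    apply Subtype.ext
    exact (hcen m hmZ g g.2).symm
  have hMF : M ≤ F := Cfsg.Agent.Lib.Helper7.le_fitting hMn hMnil
  exact not_le_of_gt hZM (le_inf hMC' hMF)

end Cfsg.Agent.S0044
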