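import Cfsg.Statements.S0148
import Cfsg.Agent.Lib.Helper2.Ind
import Cfsg.Agent.Lib.Lead.CharRing

set_option autoImplicit false
open Cfsg

namespace Cfsg.Agent.S0148

/-- Inducing a character of a subgroup yields a character of the whole group. -/
theorem result {G : Type*} [Group G] [Fintype G] (H : Subgroup G) (θ : H → ℂ) (hθ : Cfsg.IsCharacter H θ) : Cfsg.IsCharacter G (Cfsg.indFun H θ) := by
  classical
  letI : Fintype H := Fintype.ofFinite H
  apply Cfsg.Agent.Lib.Lead.isCharacter_of_inner_nat _ (Cfsg.Agent.Lib.Helper2.indFun_isClassFunction H θ)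
  intro χ
  rw [Cfsg.Agent.Lib.Helper2.frobenius_reciprocity H θ χ (Cfsg.Agent.Lib.Lead.isClassFunction_irr χ)]
  exact Cfsg.Agent.Lib.Lead.classInner_isCharacter_nat hθ
    (Cfsg.Agent.Lib.Lead.isCharacter_comp H.subtype (Cfsg.Agent.Lib.Lead.isCharacter_of_isIrrCharacter χ.2))

end Cfsg.Agent.S0148
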