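import Cfsg.Statements.S1185
import Cfsg.Agent.Lib.Helper8.Isolated

set_option autoImplicit false
open Cfsg
open Cfsg.Agent.Lib.Helper8

namespace Cfsg.Agent.S1185

/-- Let z be an isolated involution of the finite group G with centralizer C. Then for every g ∈ G there is exactly one element k in the coset gC that has odd order and is inverted by z. -/
theorem result {G : Type*} [Group G] [Finite G] (z : G) (hz : Cfsg.IsIsolatedInvolution z) (g : G) : ∃! k : G, (Odd (orderOf k) ∧ z * k * z⁻¹ = k⁻¹) ∧ g⁻¹ * k ∈ Subgroup.centralizer ({z} : Set G) := by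
  have hzz : z * z = 1 := h8_sq_of_orderOf_two hz.1
  have hzi : z⁻¹ = z := inv_eq_of_mul_eq_one_left hzz
  obtain ⟨h, hodd, hinv, hconj, -⟩ := h8_isolated_key hz g
  refine ⟨h, ⟨⟨hodd, hinv⟩, ?_⟩, ?_⟩
  · rw [Subgroup.mem_centralizer_singleton_iff]
    have e : h * z = g * z * g⁻¹ * h := by rw [← hconj]; group
    calc g⁻¹ * h * z = g⁻¹ * (h * z) := by group
      _ = g⁻¹ * (g * z * g⁻¹ * h) := by rw [e]
      _ = z * (g⁻¹ * h) := by group
  · rintro k ⟨⟨hkodd, hkinv⟩, hkc⟩
    rw [Subgroup.mem_centralizer_singleton_iff] at hkc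
    -- k z k⁻¹ = g z g⁻¹
    have hkconj : k * z * k⁻¹ = g * z * g⁻¹ := by
      have e : k * z = g * (g⁻¹ * k * z) := by group
      rw [e, hkc]; group
    -- conj formula: k z k⁻¹ = k^2 z
    have sqf : ∀ x : G, z * x * z⁻¹ = x⁻¹ → x * z * x⁻¹ = x * x * z := by
      intro x hx
      rw [hzi] at hx
      have : z * x⁻¹ = x * z := by
        have h1 : z * x⁻¹ * z = x := by
          have := congrArg (fun y => y⁻¹) hx
          simp only [mul_inv_rev, inv_inv, hzi] at this
          rw [← mul_assoc] at this
          exact this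
        calc z * x⁻¹ = (z * x⁻¹ * z) * z := by
              rw [mul_assoc (z * x⁻¹), hzz, mul_one]
          _ = x * z := by rw [h1]
      calc x * z * x⁻¹ = x * (z * x⁻¹) := by group
        _ = x * (x * z) := by rw [this]
        _ = x * x * z := by group
    have hsq : k * k = h * h := by
      have h1 := sqf k hkinv
      have h2 := sqf h hinv
      rw [hkconj] at h1
      rw [hconj] at h2
      exact mul_right_cancel (h1.symm.trans h2)
    -- both have odd order: N = orderOf k * orderOf h is odd
    have hN : Odd (orderOf k * orderOf h) := hkodd.mul hodd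
    obtain ⟨c, hc⟩ := hN
    have hk1 : k ^ (orderOf k * orderOf h) = 1 := by
      rw [pow_mul, pow_orderOf_eq_one, one_pow]
    have hh1 : h ^ (orderOf k * orderOf h) = 1 := by
      rw [mul_comm, pow_mul, pow_orderOf_eq_one, one_pow]
    have hk2 : k = (k * k) ^ (c + 1) := by
      rw [← pow_two, ← pow_mul]
      have : 2 * (c + 1) = (2 * c + 1) + 1 := by ring
      rw [this, ← hc, pow_succ, hk1, one_mul]
    have hh2 : h = (h * h) ^ (c + 1) := by
      rw [← pow_two, ← pow_mul]
      have : 2 * (c + 1) = (2 * c + 1) + 1 := by ring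
      rw [this, ← hc, pow_succ, hh1, one_mul]
    rw [hk2, hh2, hsq]

end Cfsg.Agent.S1185
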