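import Cfsg.Statements.S1226
-- import your own Cfsg.Agent.* helpers here

set_option autoImplicit false
open Cfsg

namespace Cfsg.Agent.S1226

/-- Let G be a finite group with a Sylow 2-subgroup T that is neither cyclic nor normal, such that the centralizer of every involution is an elementary abelian 2-group. Then N_G(T) is a strongly embedded subgroup of G. -/
theorem result {G : Type*} [Group G] [Finite G] (T : Sylow 2 G) (hnc : ¬ IsCyclic (T : Subgroup G)) (hnn : ¬ (T : Subgroup G).Normal) (hC : ∀ t : G, orderOf t = 2 → IsMulCommutative (Subgroup.centralizer ({t} : Set G)) ∧ ∀ c ∈ Subgroup.centralizer ({t} : Set G), c ^ 2 = 1) : Cfsg.IsStronglyEmbedded (Subgroup.normalizer ((T : Subgroup G) : Set G)) := by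
  classical
  have hTp : IsPGroup 2 (T : Subgroup G) := T.isPGroup'
  -- centralizers of involutions are 2-groups
  have hCp : ∀ t : G, orderOf t = 2 → IsPGroup 2 (Subgroup.centralizer ({t} : Set G)) := by
    intro t ht c
    refine ⟨1, ?_⟩
    have := (hC t ht).2 c c.2
    exact Subtype.ext (by simpa using this)
  -- T is nontrivial
  have hTne : (T : Subgroup G) ≠ ⊥ := by
    intro h
    apply hnc
    rw [h]
    infer_instance
  haveI : Nontrivial (T : Subgroup G) := (Subgroup.nontrivial_iff_ne_bot _).2 hTne
  -- an involution in the centre of T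
  have hcen : Nontrivial (Subgroup.center (T : Subgroup G)) := hTp.center_nontrivial
  have h2 : 2 ∣ Nat.card (Subgroup.center (T : Subgroup G)) := by
    have hp : IsPGroup 2 (Subgroup.center (T : Subgroup G)) := hTp.to_subgroup _
    obtain ⟨n, hn⟩ := IsPGroup.iff_card.1 hp
    have hn0 : n ≠ 0 := by
      rintro rfl
      have : Nat.card (Subgroup.center (T : Subgroup G)) = 1 := by simpa using hn
      have := (Nat.card_eq_one_iff_unique.1 this).1
      exact not_subsingleton _ this
    rw [hn]
    exact dvd_pow_self 2 hn0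
  obtain ⟨z, hz⟩ := exists_prime_orderOf_dvd_card' 2 h2
  have hz2 : orderOf ((z : (T : Subgroup G)) : G) = 2 := by
    rw [Subgroup.orderOf_coe, Subgroup.orderOf_coe]; exact hz
  have hTz : (T : Subgroup G) ≤ Subgroup.centralizer ({((z : (T : Subgroup G)) : G)} : Set G) := by
    intro s hs
    rw [Subgroup.mem_centralizer_singleton_iff]
    have := Subgroup.mem_center_iff.1 z.2 ⟨s, hs⟩
    have := congrArg Subtype.val this
    simpa using this
  have hTeq : Subgroup.centralizer ({((z : (T : Subgroup G)) : G)} : Set G) = T := T.is_maximal' (hCp _ hz2) hTz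
  have hTcomm : ∀ a ∈ (T : Subgroup G), ∀ b ∈ (T : Subgroup G), a * b = b * a := by
    intro a ha b hb
    rw [← hTeq] at ha hb
    have := (hC _ hz2).1
    have := mul_comm' (⟨a, ha⟩ : Subgroup.centralizer ({((z : (T : Subgroup G)) : G)} : Set G)) ⟨b, hb⟩
    exact congrArg Subtype.val this
  -- centralizer of any involution of T is T
  have hcent : ∀ t ∈ (T : Subgroup G), orderOf t = 2 → Subgroup.centralizer ({t} : Set G) = T := by
    intro t htT ht
    refine T.is_maximal' (hCp t ht) ?_
    intro s hs
    rw [Subgroup.mem_centralizer_singleton_iff]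
    exact hTcomm s hs t htT
  -- involutions of the normalizer lie in T
  have hinv : ∀ t ∈ Subgroup.normalizer ((T : Subgroup G) : Set G), orderOf t = 2 → t ∈ (T : Subgroup G) := by
    intro t htN ht
    have hzp : IsPGroup 2 (Subgroup.zpowers t) := by
      rw [IsPGroup.iff_card, Nat.card_zpowers, ht]
      exact ⟨1, by simp⟩
    have hle : Subgroup.zpowers t ≤ Subgroup.normalizer ((T : Subgroup G) : Set G) := by
      rw [Subgroup.zpowers_le]; exact htN
    have hsup := IsPGroup.to_sup_of_normal_right' hzp hTp hle
    have := T.is_maximal' hsup le_sup_right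
    have h1 : Subgroup.zpowers t ≤ Subgroup.zpowers t ⊔ (T : Subgroup G) := le_sup_left
    rw [this] at h1
    exact h1 (Subgroup.mem_zpowers t)
  refine ⟨?_, ?_, ?_⟩
  · intro h
    exact hnn (Subgroup.normalizer_eq_top_iff.1 h)
  · have h1 : Nat.card (T : Subgroup G) ∣ Nat.card (Subgroup.normalizer ((T : Subgroup G) : Set G)) :=
      Subgroup.card_dvd_of_le Subgroup.le_normalizer
    have h3 : 2 ∣ Nat.card (T : Subgroup G) := by
      have := orderOf_dvd_natCard ((z : (T : Subgroup G)) : (T : Subgroup G))
      rwa [Subgroup.orderOf_coe, hz] at this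
    exact even_iff_two_dvd.2 (dvd_trans h3 h1)
  · intro g hg
    by_contra hodd
    rw [Nat.not_odd_iff_even, even_iff_two_dvd] at hodd
    obtain ⟨t, ht⟩ := exists_prime_orderOf_dvd_card' 2 hodd
    have ht2 : orderOf (t : G) = 2 := by rw [Subgroup.orderOf_coe]; exact ht
    have htmem := t.2
    rw [Subgroup.mem_inf] at htmem
    obtain ⟨htN, htg⟩ := htmem
    rw [Subgroup.mem_map] at htg
    obtain ⟨s, hsN, hs⟩ := htg
    have hs' : g * s * g⁻¹ = (t : G) := by simpa using hs
    have hs2 : orderOf s = 2 := by
      have : orderOf (g * s * g⁻¹) = orderOf s := by simpa using (MulAut.conj g).orderOf_eq s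
      rw [← this, hs', ht2]
    have h1 := hcent (t : G) (hinv _ htN ht2) ht2
    have h2' := hcent s (hinv s hsN hs2) hs2
    apply hg
    rw [Subgroup.mem_normalizer_iff]
    intro x
    constructor
    · intro hx
      rw [← h2', Subgroup.mem_centralizer_singleton_iff] at hx
      rw [← h1, Subgroup.mem_centralizer_singleton_iff, ← hs']
      have : g * x * g⁻¹ * (g * s * g⁻¹) = g * (x * s) * g⁻¹ := by group
      rw [this, hx]; group
    · intro hx
      rw [← h1, Subgroup.mem_centralizer_singleton_iff, ← hs'] at hx
      rw [← h2', Subgroup.mem_centralizer_singleton_iff]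
      have e1 : x * s = g⁻¹ * (g * x * g⁻¹ * (g * s * g⁻¹)) * g := by group
      rw [e1, hx]; group

end Cfsg.Agent.S1226
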