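import Cfsg.Statements.S0532
import Mathlib

set_option autoImplicit false
open Cfsg

namespace Cfsg.Agent.S0532

theorem hasSubgroupOfEveryOrder_of_mulEquiv {A B : Type*} [Group A] [Group B] (e : A ≃* B)
    (h : Cfsg.HasSubgroupOfEveryOrder A) : Cfsg.HasSubgroupOfEveryOrder B := by
  intro d hd
  rw [← Nat.card_congr e.toEquiv] at hd
  obtain ⟨K, hK⟩ := h d hd
  exact ⟨K.map e.toMonoidHom, by rw [Subgroup.card_map_of_injective e.injective, hK]⟩

theorem hereditary_subgroup {G : Type*} [Group G]
    (h : ∀ H : Subgroup G, Cfsg.HasSubgroupOfEveryOrder H) (L : Subgroup G) :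
    ∀ H : Subgroup L, Cfsg.HasSubgroupOfEveryOrder H := by
  intro H
  exact hasSubgroupOfEveryOrder_of_mulEquiv
    (H.equivMapOfInjective L.subtype L.subtype_injective).symm (h (H.map L.subtype))

universe u in
open Subgroup in
theorem sylow_normal_of_hereditary : ∀ (n : ℕ) (G : Type u) [Group G] [Finite G],
    Nat.card G = n → (∀ H : Subgroup G, Cfsg.HasSubgroupOfEveryOrder H) →
    ∀ (p : ℕ) [Fact p.Prime], p ∣ n → (∀ q : ℕ, q.Prime → q ∣ n → q ≤ p) →
    ∀ P : Sylow p G, (P : Subgroup G).Normal := by
  intro n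
  induction n using Nat.strong_induction_on with
  | _ n ih =>
    intro G _ _ hcard h p hp hdvd hmax P
    subst hcard
    have hcard : Nat.card G = Nat.card G := rfl
    have hn1 : Nat.card G ≠ 1 := by
      intro h1
      rw [h1] at hdvd
      exact hp.1.one_lt.ne' (Nat.dvd_one.mp hdvd)
    have hnpos : 0 < Nat.card G := Nat.card_pos
    have hq : ((Nat.card G).minFac).Prime := Nat.minFac_prime hn1
    have hqn : (Nat.card G).minFac ∣ Nat.card G := Nat.minFac_dvd _
    by_cases hqp : (Nat.card G).minFac = p
    · have hidx : (P : Subgroup G).index = 1 := by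
        by_contra hne
        have hr := Nat.minFac_prime hne
        have hrn : ((P : Subgroup G).index).minFac ∣ Nat.card G :=
          (Nat.minFac_dvd _).trans (index_dvd_card _)
        have h1 : ((P : Subgroup G).index).minFac ≤ p := hmax _ hr hrn
        have h2 : (Nat.card G).minFac ≤ ((P : Subgroup G).index).minFac := Nat.minFac_le_of_dvd hr.two_le hrn
        have h3 : ((P : Subgroup G).index).minFac = p := by omega
        have h4 : p ∣ (P : Subgroup G).index :=
          (dvd_of_eq h3.symm).trans (Nat.minFac_dvd _)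
        exact P.not_dvd_index h4
      rw [index_eq_one] at hidx
      rw [hidx]; infer_instance
    · have hGclt : Cfsg.HasSubgroupOfEveryOrder G :=
        hasSubgroupOfEveryOrder_of_mulEquiv Subgroup.topEquiv (h ⊤)
      obtain ⟨H₀, hH₀⟩ := hGclt (Nat.card G / (Nat.card G).minFac) (Nat.div_dvd_of_dvd hqn)
      have hidx : H₀.index = (Nat.card G).minFac := by
        have h1 := Subgroup.card_mul_index H₀
        have h2 : Nat.card G / (Nat.card G).minFac * (Nat.card G).minFac = Nat.card G :=
          Nat.div_mul_cancel hqn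
        have h3 : 0 < Nat.card G / (Nat.card G).minFac :=
          Nat.div_pos (Nat.le_of_dvd hnpos hqn) hq.pos
        have h4 : Nat.card G / (Nat.card G).minFac * H₀.index
            = Nat.card G / (Nat.card G).minFac * (Nat.card G).minFac := by
          rw [h2, ← hH₀]; exact h1
        exact Nat.eq_of_mul_eq_mul_left h3 h4
      have hH₀n : H₀.Normal := normal_of_index_eq_minFac_card hidx
      have hPH₀ : (P : Subgroup G) ≤ H₀ := by
        intro x hx
        obtain ⟨k, hk⟩ := P.isPGroup' ⟨x, hx⟩
        have hk' : x ^ p ^ k = 1 := congrArg Subtype.val hk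
        have h1 : ((x : G ⧸ H₀)) ^ p ^ k = 1 := by
          rw [← QuotientGroup.mk_pow, hk']; rfl
        have h2 : ((x : G ⧸ H₀)) ^ (Nat.card G).minFac = 1 := by
          rw [← hidx, Subgroup.index_eq_card]; exact pow_card_eq_one'
        have h3 : orderOf (x : G ⧸ H₀) ∣ Nat.gcd (p ^ k) (Nat.card G).minFac :=
          Nat.dvd_gcd (orderOf_dvd_of_pow_eq_one h1) (orderOf_dvd_of_pow_eq_one h2)
        have h4 : Nat.gcd (p ^ k) (Nat.card G).minFac = 1 := by
          apply Nat.Coprime.pow_left
          exact (Nat.coprime_primes hp.1 hq).mpr (Ne.symm hqp)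
        rw [h4, Nat.dvd_one, orderOf_eq_one_iff] at h3
        exact (QuotientGroup.eq_one_iff x).mp h3
      have hH₀lt : Nat.card H₀ < Nat.card G := by
        rw [hH₀]
        exact Nat.div_lt_self hnpos hq.one_lt
      have hpH₀ : p ∣ Nat.card H₀ := by
        have h1 := Subgroup.card_mul_index H₀
        rw [hidx] at h1
        have h2 : p ∣ Nat.card H₀ * (Nat.card G).minFac := by rw [h1]; exact hdvd
        exact (Nat.Coprime.dvd_mul_right ((Nat.coprime_primes hp.1 hq).mpr (Ne.symm hqp))).mp h2
      have hmaxH₀ : ∀ q : ℕ, q.Prime → q ∣ Nat.card H₀ → q ≤ p := fun q hq' hqd =>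
        hmax q hq' (hqd.trans (Subgroup.card_subgroup_dvd_card H₀))
      have hP₀n := ih _ hH₀lt H₀ rfl (hereditary_subgroup h H₀) p hpH₀ hmaxH₀ (P.subtype hPH₀)
      have hchar : ((P.subtype hPH₀ : Sylow p H₀) : Subgroup H₀).Characteristic :=
        Sylow.characteristic_of_normal _ hP₀n
      have hmap : ((P.subtype hPH₀ : Sylow p H₀) : Subgroup H₀).map H₀.subtype = (P : Subgroup G) := by
        rw [Sylow.coe_subtype]
        exact map_subgroupOf_eq_of_le hPH₀
      rw [← hmap]
      infer_instance


/-- If each subgroup of a finite group satisfies the converse of Lagrange's theorem, then a Sylow subgroup for the largest prime dividing the group order is normal. -/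
theorem result {G : Type*} [Group G] [Finite G] (h : ∀ H : Subgroup G, Cfsg.HasSubgroupOfEveryOrder H) (p : ℕ) [Fact p.Prime] (hdvd : p ∣ Nat.card G) (hmax : ∀ q : ℕ, q.Prime → q ∣ Nat.card G → q ≤ p) (P : Sylow p G) : (P : Subgroup G).Normal := by
  exact sylow_normal_of_hereditary _ G rfl h p hdvd hmax P

end Cfsg.Agent.S0532
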