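import Cfsg.Statements.S0857
import Cfsg.Agent.Lib.Lead.CharChief

set_option autoImplicit false
open Cfsg
open Cfsg.Agent.Lib.Lead Module
open scoped ComplexConjugate

namespace Cfsg.Agent.S0857

/-- Let L < K be normal subgroups of the finite group G with no normal subgroup of G strictly between them and with K / L abelian (the commutator subgroup of K lies in L). Let ϑ be an irreducible character of K invariant under conjugation by G. Then the restriction of ϑ to L is irreducible; or it equals e times an irreducible character of L with e ^ 2 equal to the index of L in K; or it is the sum of a family of pairwise distinct irreducible characters of L indexed by a set whose size is the index of L in K. -/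
theorem result {G : Type*} [Group G] [Fintype G] (K L : Subgroup G) [hK : K.Normal] [L.Normal] (hLK : L < K) (hchief : ∀ M : Subgroup G, M.Normal → L ≤ M → M ≤ K → M = L ∨ M = K) (hab : ⁅K, K⁆ ≤ L) (ϑ : K → ℂ) (hϑ : Cfsg.IsIrrCharacter K ϑ) (hinv : ∀ (g : G) (n : K), ϑ ⟨g * n * g⁻¹, hK.conj_mem (n : G) n.2 g⟩ = ϑ n) : Cfsg.IsIrrCharacter L (fun x : L => ϑ ⟨(x : G), hLK.le x.2⟩) ∨ (∃ (φ : L → ℂ) (e : ℕ), Cfsg.IsIrrCharacter L φ ∧ (fun x : L => ϑ ⟨(x : G), hLK.le x.2⟩) = (e : ℂ) • φ ∧ e ^ 2 = L.relIndex K) ∨ (∃ F : Finset (L → ℂ), (∀ φ ∈ F, Cfsg.IsIrrCharacter L φ) ∧ F.card = L.relIndex K ∧ (fun x : L => ϑ ⟨(x : G), hLK.le x.2⟩) = ∑ φ ∈ F, φ) := by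
  classical
  letI : Fintype K := Fintype.ofFinite K
  letI : Fintype (L.subgroupOf K) := Fintype.ofFinite _
  have hab' : ∀ x y : K, x * y * x⁻¹ * y⁻¹ ∈ L.subgroupOf K := by
    intro x y
    rw [Subgroup.mem_subgroupOf]
    apply hab
    have : ((x * y * x⁻¹ * y⁻¹ : K) : G) = (x : G) * y * (x : G)⁻¹ * (y : G)⁻¹ := by
      push_cast; rfl
    rw [this, ← commutatorElement_def]
    exact Subgroup.commutator_mem_commutator x.2 y.2
  have hchief' : ∀ U : Subgroup K, L.subgroupOf K ≤ U →
      (∀ σ : K ≃* K, (∀ n, σ n ∈ L.subgroupOf K ↔ n ∈ L.subgroupOf K) →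
        (∀ k, ϑ (σ k) = ϑ k) → ∀ u ∈ U, σ u ∈ U) →
      U = L.subgroupOf K ∨ U = ⊤ := by
    intro U hNU hσ
    have hM : (U.map K.subtype).Normal := by
      refine ⟨?_⟩
      rintro _ ⟨u, hu, rfl⟩ g
      have h1 := hσ (MulAut.conjNormal g : K ≃* K) (by
        intro n
        rw [Subgroup.mem_subgroupOf, Subgroup.mem_subgroupOf, MulAut.conjNormal_apply]
        constructor
        · intro h
          have := (inferInstance : L.Normal).conj_mem _ h g⁻¹
          have e : g⁻¹ * (g * (n : G) * g⁻¹) * g⁻¹⁻¹ = n := by group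
          rwa [e] at this
        · intro h
          exact (inferInstance : L.Normal).conj_mem _ h g) (by
        intro k
        have e : (MulAut.conjNormal g : K ≃* K) k = ⟨g * k * g⁻¹, hK.conj_mem (k : G) k.2 g⟩ := by
          apply Subtype.ext
          rw [MulAut.conjNormal_apply]
        rw [e]; exact hinv g k) u hu
      refine ⟨(MulAut.conjNormal g : K ≃* K) u, h1, ?_⟩
      show (((MulAut.conjNormal g : K ≃* K) u : K) : G) = g * K.subtype u * g⁻¹
      rw [MulAut.conjNormal_apply]; rfl
    have hLM : L ≤ U.map K.subtype := by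
      intro l hl
      exact ⟨⟨l, hLK.le hl⟩, hNU (Subgroup.mem_subgroupOf.mpr hl), rfl⟩
    have hMK : U.map K.subtype ≤ K := by
      rintro _ ⟨u, _, rfl⟩; exact u.2
    rcases hchief _ hM hLM hMK with h | h
    · left
      apply le_antisymm _ hNU
      intro u hu
      rw [Subgroup.mem_subgroupOf, ← h]
      exact ⟨u, hu, rfl⟩
    · right
      rw [eq_top_iff]
      intro k _
      have : (k : G) ∈ U.map K.subtype := by rw [h]; exact k.2
      obtain ⟨u, hu, hku⟩ := this
      have : u = k := Subtype.ext hku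
      rw [← this]; exact hu
  have hmain := chief_trichotomy (L.subgroupOf K) hab' hϑ hchief'
  let f : L →* L.subgroupOf K := (Subgroup.subgroupOfEquivOfLe hLK.le).symm.toMonoidHom
  have hf : Function.Surjective f := (Subgroup.subgroupOfEquivOfLe hLK.le).symm.surjective
  have hfx : ∀ x : L, ((f x : K)) = ⟨(x : G), hLK.le x.2⟩ := by
    intro x
    apply Subtype.ext
    rfl
  have hres : (fun x : L => ϑ ⟨(x : G), hLK.le x.2⟩) =
      (fun n : L.subgroupOf K => ϑ n) ∘ f := by
    funext x
    show _ = ϑ (f x)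
    rw [hfx]
  rw [hres]
  rcases hmain with h | ⟨φ, e, hφ, he, hidx⟩ | ⟨F, hF, hcard, hsum⟩
  · left
    exact isIrrCharacter_comp_of_surjective h f hf
  · right; left
    refine ⟨φ ∘ f, e, isIrrCharacter_comp_of_surjective hφ f hf, ?_, hidx⟩
    rw [he]; rfl
  · right; right
    have hinj : Function.Injective (fun φ : L.subgroupOf K → ℂ => φ ∘ f) :=
      hf.injective_comp_right
    refine ⟨F.image (fun φ => φ ∘ f), ?_, ?_, ?_⟩
    · intro φ hφ
      obtain ⟨ψ, hψ, rfl⟩ := Finset.mem_image.mp hφ
      exact isIrrCharacter_comp_of_surjective (hF ψ hψ) f hf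
    · rw [Finset.card_image_of_injective _ hinj]; exact hcard
    · rw [Finset.sum_image (fun a _ b _ h => hinj h), hsum]
      funext x
      simp only [Function.comp_apply, Finset.sum_apply]

end Cfsg.Agent.S0857
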