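import Cfsg.Statements.S0007
-- import your own Cfsg.Agent.* helpers here

set_option autoImplicit false
open Cfsg

namespace Cfsg.Agent.S0007

/-- Subgroups of coprime index: the intersection has index equal to the product of the indices, and every element is a product of an element of the first subgroup and an element of the second. -/
theorem result {G : Type*} [Group G] [Finite G] (H K : Subgroup G)
    (h : H.index.Coprime K.index) :
    (H ⊓ K).index = H.index * K.index ∧ ∀ g : G, ∃ x ∈ H, ∃ y ∈ K, g = x * y := by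
  classical
  have hH0 : H.index ≠ 0 := Subgroup.index_ne_zero_of_finite
  have hK0 : K.index ≠ 0 := Subgroup.index_ne_zero_of_finite
  have hidx : (H ⊓ K).index = H.index * K.index := by
    apply Nat.le_antisymm Subgroup.index_inf_le
    apply Nat.le_of_dvd (Nat.pos_of_ne_zero (Subgroup.index_inf_ne_zero hH0 hK0))
    exact Nat.Coprime.mul_dvd_of_dvd_of_dvd h (Subgroup.index_dvd_of_le inf_le_left)
      (Subgroup.index_dvd_of_le inf_le_right)
  refine ⟨hidx, ?_⟩
  have hrel : K.relIndex H = K.index := by
    have h1 : (H ⊓ K).relIndex H * H.index = (H ⊓ K).index :=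
      Subgroup.relIndex_mul_index inf_le_left
    rw [Subgroup.inf_relIndex_left, hidx, mul_comm] at h1
    exact Nat.eq_of_mul_eq_mul_left (Nat.pos_of_ne_zero hH0) h1
  let x : G ⧸ K := ((1 : G) : G ⧸ K)
  have hstab : MulAction.stabilizer H x = K.subgroupOf H := by
    ext h
    rw [MulAction.mem_stabilizer_iff, Subgroup.mem_subgroupOf]
    show (h : G) • ((1 : G) : G ⧸ K) = ((1 : G) : G ⧸ K) ↔ _
    rw [MulAction.Quotient.smul_mk, QuotientGroup.eq]
    simp
  have horb : MulAction.orbit H x = Set.univ := by
    apply Set.eq_of_subset_of_ncard_le (Set.subset_univ _)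
    rw [Set.ncard_univ, ← MulAction.index_stabilizer, hstab]
    show Nat.card (G ⧸ K) ≤ K.relIndex H
    rw [hrel]; rfl
  intro g
  have hg : ((g : G) : G ⧸ K) ∈ MulAction.orbit H x := by rw [horb]; trivial
  obtain ⟨h, hh⟩ := hg
  have h3 : (h : G)⁻¹ * g ∈ K := by
    have h2 : (((h : G) * 1 : G) : G ⧸ K) = (g : G ⧸ K) := hh
    rw [QuotientGroup.eq] at h2
    simpa using h2
  exact ⟨h, h.2, (h : G)⁻¹ * g, h3, (mul_inv_cancel_left _ _).symm⟩

end Cfsg.Agent.S0007
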