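import Cfsg.Statements.S0011
-- import your own Cfsg.Agent.* helpers here
import Mathlib.GroupTheory.Nilpotent
import Mathlib.GroupTheory.Sylow

set_option autoImplicit false
open Cfsg

namespace Cfsg.Agent.S0011

/-- If the Frattini quotient of a finite group is nilpotent then the group is nilpotent. -/
theorem result {G : Type*} [Group G] [Finite G]
    (h : Group.IsNilpotent (G ⧸ frattini G)) : Group.IsNilpotent G := by
  classical
  have q := (Group.isNilpotent_of_finite_tfae (G := G)).out 0 3
  rw [q]
  intro p hp P
  let π := QuotientGroup.mk' (frattini G)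
  have hπ : Function.Surjective π := QuotientGroup.mk'_surjective _
  let Q : Sylow p (G ⧸ frattini G) := P.mapSurjective hπ
  have hQn : (Q : Subgroup (G ⧸ frattini G)).Normal := inferInstance
  let N : Subgroup G := (Q : Subgroup (G ⧸ frattini G)).comap π
  have hNn : N.Normal := hQn.comap π
  have hPN : (P : Subgroup G) ≤ N := by
    intro x hx
    show π x ∈ (Q : Subgroup _)
    rw [Sylow.coe_mapSurjective]
    exact Subgroup.mem_map_of_mem π hx
  have hN : N = (P : Subgroup G) ⊔ frattini G := by
    show ((P.mapSurjective hπ : Sylow p _) : Subgroup _).comap π = _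
    rw [Sylow.coe_mapSurjective, Subgroup.comap_map_eq, QuotientGroup.ker_mk']
  have h1 : Subgroup.normalizer (P : Set G) ⊔ N = ⊤ := Sylow.normalizer_sup_eq_top' P hPN
  have h2 : Subgroup.normalizer (P : Set G) ⊔ frattini G = ⊤ := by
    have hle : (P : Subgroup G) ≤ Subgroup.normalizer (P : Set G) :=
      Subgroup.le_normalizer (H := (P : Subgroup G))
    rw [hN, ← sup_assoc, sup_eq_left.mpr hle] at h1
    exact h1
  have h3 := frattini_nongenerating h2
  exact Subgroup.normalizer_eq_top_iff.mp h3

end Cfsg.Agent.S0011
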