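import Cfsg.Statements.S0065
-- import your own Cfsg.Agent.* helpers here

set_option autoImplicit false
open Cfsg

namespace Cfsg.Agent.S0065

/-- A nontrivial normal subgroup of a nilpotent group intersects the centre nontrivially. -/
theorem result {G : Type*} [Group G] [Finite G] [Group.IsNilpotent G]
    (N : Subgroup G) [N.Normal] (hN : N ≠ ⊥) : N ⊓ Subgroup.center G ≠ ⊥ := by
  classical
  obtain ⟨n, hn⟩ := Group.IsNilpotent.nilpotent G
  have hex : ∃ k, N ⊓ Subgroup.upperCentralSeries G k ≠ ⊥ := ⟨n, by rw [hn, inf_top_eq]; exact hN⟩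
  obtain ⟨k, hk, hmin⟩ : ∃ k, N ⊓ Subgroup.upperCentralSeries G k ≠ ⊥ ∧
      ∀ j < k, ¬ (N ⊓ Subgroup.upperCentralSeries G j ≠ ⊥) :=
    ⟨Nat.find hex, Nat.find_spec hex, fun j hj => Nat.find_min hex hj⟩
  cases k with
  | zero => simp [Subgroup.upperCentralSeries_zero] at hk
  | succ m =>
    have hm : N ⊓ Subgroup.upperCentralSeries G m = ⊥ := not_not.mp (hmin m (Nat.lt_succ_self m))
    intro hbot
    apply hk
    rw [Subgroup.eq_bot_iff_forall] at hbot ⊢
    intro x hx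
    have hxN : x ∈ N := hx.1
    have hxZ : x ∈ Subgroup.upperCentralSeries G (m+1) := hx.2
    apply hbot
    refine Subgroup.mem_inf.mpr ⟨hxN, ?_⟩
    rw [Subgroup.mem_center_iff]
    intro y
    have h1 : x * y * x⁻¹ * y⁻¹ ∈ Subgroup.upperCentralSeries G m :=
      Subgroup.mem_upperCentralSeries_succ_iff.mp hxZ y
    have h2 : x * y * x⁻¹ * y⁻¹ ∈ N := by
      have h5 : y * x⁻¹ * y⁻¹ ∈ N := ‹N.Normal›.conj_mem _ (N.inv_mem hxN) y
      have h3 : x * y * x⁻¹ * y⁻¹ = x * (y * x⁻¹ * y⁻¹) := by group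
      rw [h3]; exact N.mul_mem hxN h5
    have h4 : x * y * x⁻¹ * y⁻¹ = 1 := (Subgroup.eq_bot_iff_forall _).mp hm _ ⟨h2, h1⟩
    have h6 : x * y = y * x := by
      have : x * y = (x * y * x⁻¹ * y⁻¹) * (y * x) := by group
      rw [this, h4, one_mul]
    exact h6.symm

end Cfsg.Agent.S0065
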