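import Cfsg.Statements.S0015
-- import your own Cfsg.Agent.* helpers here
import Cfsg.Agent.S0065
import Mathlib.Tactic.Group

set_option autoImplicit false
open Cfsg

namespace Cfsg.Agent.S0015

/-- In a finite nilpotent group, an abelian normal subgroup that is maximal among abelian normal subgroups equals its own centralizer. -/
theorem result {G : Type*} [Group G] [Finite G] [Group.IsNilpotent G]
    (N : Subgroup G) [N.Normal] [IsMulCommutative N]
    (hmax : ∀ M : Subgroup G, M.Normal → IsMulCommutative M → N ≤ M → M = N) :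
    Subgroup.centralizer (N : Set G) = N := by
  classical
  have hNle : N ≤ Subgroup.centralizer (N : Set G) := by
    intro a ha
    rw [Subgroup.mem_centralizer_iff]
    intro b hb
    exact congrArg Subtype.val (mul_comm' (⟨b, hb⟩ : N) ⟨a, ha⟩)
  apply le_antisymm _ hNle
  by_contra hle
  let π := QuotientGroup.mk' N
  let C := Subgroup.centralizer (N : Set G)
  let Cbar : Subgroup (G ⧸ N) := C.map π
  have hCn : Cbar.Normal := Subgroup.Normal.map inferInstance π (QuotientGroup.mk'_surjective N)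
  have hCne : Cbar ≠ ⊥ := by
    intro h
    apply hle
    intro c hc
    have h1 : π c ∈ Cbar := Subgroup.mem_map_of_mem π hc
    rw [h, Subgroup.mem_bot] at h1
    exact (QuotientGroup.eq_one_iff c).mp h1
  have hS65 := Cfsg.Agent.S0065.result Cbar hCne
  obtain ⟨ybar, hy, hy1⟩ : ∃ y ∈ Cbar ⊓ Subgroup.center (G ⧸ N), y ≠ 1 := by
    by_contra hcon
    apply hS65
    rw [Subgroup.eq_bot_iff_forall]
    intro y hy
    by_contra hy1
    exact hcon ⟨y, hy, hy1⟩
  obtain ⟨hyC, hyZ⟩ := Subgroup.mem_inf.mp hy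
  obtain ⟨x, hxC, rfl⟩ := Subgroup.mem_map.mp hyC
  have hxN : x ∉ N := fun h => hy1 ((QuotientGroup.eq_one_iff x).mpr h)
  let M : Subgroup G := (Subgroup.zpowers (π x)).comap π
  have hzn : (Subgroup.zpowers (π x)).Normal := by
    constructor
    intro a ha g
    have hac : a ∈ Subgroup.center (G ⧸ N) := (Subgroup.zpowers_le.mpr hyZ) ha
    have h1 : g * a = a * g := (Subgroup.mem_center_iff.mp hac) g
    rw [h1, mul_inv_cancel_right]
    exact ha
  have hMn : M.Normal := hzn.comap π
  have hNM : N ≤ M := by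
    intro n hn
    show π n ∈ Subgroup.zpowers (π x)
    have h1 : π n = 1 := (QuotientGroup.eq_one_iff n).mpr hn
    rw [h1]
    exact Subgroup.one_mem _
  have hxM : x ∈ M := Subgroup.mem_zpowers (π x)
  have hxn : ∀ n ∈ N, Commute x n := by
    intro n hn
    exact ((Subgroup.mem_centralizer_iff.mp hxC) n hn).symm
  have hrep : ∀ a ∈ M, ∃ k : ℤ, ∃ n ∈ N, a = x ^ k * n := by
    intro a ha
    obtain ⟨k, hk⟩ := Subgroup.mem_zpowers_iff.mp ha
    refine ⟨k, (x ^ k)⁻¹ * a, ?_, by group⟩
    rw [← QuotientGroup.eq_one_iff]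
    have h1 : π ((x ^ k)⁻¹ * a) = 1 := by
      rw [map_mul, map_inv, map_zpow, hk, inv_mul_cancel]
    exact h1
  have hMc : IsMulCommutative M := by
    refine ⟨⟨?_⟩⟩
    rintro ⟨a, ha⟩ ⟨b, hb⟩
    apply Subtype.ext
    show a * b = b * a
    obtain ⟨k, n, hn, rfl⟩ := hrep a ha
    obtain ⟨j, n', hn', rfl⟩ := hrep b hb
    have c1 : n * x ^ j = x ^ j * n := ((hxn n hn).zpow_left j).symm.eq
    have c2 : n' * x ^ k = x ^ k * n' := ((hxn n' hn').zpow_left k).symm.eq
    have c3 : n * n' = n' * n := congrArg Subtype.val (mul_comm' (⟨n, hn⟩ : N) ⟨n', hn'⟩)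
    have c4 : x ^ k * x ^ j = x ^ j * x ^ k := zpow_mul_comm x k j
    calc x ^ k * n * (x ^ j * n') = x ^ k * (n * x ^ j) * n' := by simp only [mul_assoc]
      _ = x ^ k * (x ^ j * n) * n' := by rw [c1]
      _ = (x ^ k * x ^ j) * (n * n') := by simp only [mul_assoc]
      _ = (x ^ j * x ^ k) * (n' * n) := by rw [c4, c3]
      _ = x ^ j * (x ^ k * n') * n := by simp only [mul_assoc]
      _ = x ^ j * (n' * x ^ k) * n := by rw [c2]
      _ = x ^ j * n' * (x ^ k * n) := by simp only [mul_assoc]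
  have hMN : M = N := hmax M hMn hMc hNM
  exact hxN (hMN ▸ hxM)

end Cfsg.Agent.S0015
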