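import Cfsg.Statements.S0017
-- import your own Cfsg.Agent.* helpers here
import Cfsg.Agent.Lib.Helper7.PCore
import Cfsg.Agent.S0044

set_option autoImplicit false
open Cfsg

namespace Cfsg.Agent.S0017

/-- In a finite solvable group whose largest normal subgroup of order prime to p is trivial, the centralizer of the p-core is contained in the p-core. -/
theorem result {G : Type*} [Group G] [Finite G] [Group.IsSolvable G] (p : ℕ) [Fact p.Prime]
    (h : Cfsg.pPrimeCore p G = ⊥) :
    Subgroup.centralizer (Cfsg.pCore p G : Set G) ≤ Cfsg.pCore p G := by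
  have hF : Cfsg.fittingSubgroup G = Cfsg.pCore p G := by
    rw [Cfsg.Agent.Lib.Helper7.fitting_eq_pCoreJoin]
    apply le_antisymm
    · apply iSup_le
      intro q
      have : Fact (q : ℕ).Prime := ⟨q.2⟩
      by_cases hqp : (q : ℕ) = p
      · subst hqp
        exact le_rfl
      · have h1 := Cfsg.Agent.Lib.Helper7.pCore_le_pPrimeCore_of_ne hqp G
        rw [h] at h1
        exact h1.trans bot_le
    · exact Cfsg.Agent.Lib.Helper7.pCore_le_pCoreJoin p G
  rw [← hF]
  exact Cfsg.Agent.S0044.result

end Cfsg.Agent.S0017
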