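import Cfsg.Statements.S0018
-- import your own Cfsg.Agent.* helpers here
import Cfsg.Agent.Lib.Helper7.PCore
import Cfsg.Agent.S0017

set_option autoImplicit false
open Cfsg

namespace Cfsg.Agent.S0018

open Cfsg.Agent.Lib.Helper7 in
theorem main {G : Type*} [Group G] [Finite G] [Group.IsSolvable G]
    (p : ℕ) [Fact p.Prime] (P : Sylow p G) (hP : IsMulCommutative P) :
    ((P : Subgroup G) ⊔ Cfsg.pPrimeCore p G).Normal := by
  classical
  set K := Cfsg.pPrimeCore p G with hK
  have hKn : K.Normal := pPrimeCore_normal p G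
  let π := QuotientGroup.mk' K
  have hπ : Function.Surjective π := QuotientGroup.mk'_surjective K
  have hbot : Cfsg.pPrimeCore p (G ⧸ K) = ⊥ := by
    set Lb := Cfsg.pPrimeCore p (G ⧸ K) with hLb
    have hLbn : Lb.Normal := pPrimeCore_normal p _
    have hLbc : (Nat.card Lb).Coprime p := pPrimeCore_coprime p _
    let L := Lb.comap π
    have hLn : L.Normal := hLbn.comap π
    have hcard : Nat.card L = Nat.card K * Nat.card Lb :=
      QuotientGroup.card_preimage_mk K (Lb : Set (G ⧸ K))
    have hLc : (Nat.card L).Coprime p := by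
      rw [hcard]; exact Nat.Coprime.mul_left (pPrimeCore_coprime p G) hLbc
    have hLK : L ≤ K := le_pPrimeCore hLn hLc
    rw [← Subgroup.map_comap_eq_self_of_surjective hπ Lb, Subgroup.map_eq_bot_iff,
      QuotientGroup.ker_mk']
    exact hLK
  have h17 := Cfsg.Agent.S0017.result (G := G ⧸ K) p hbot
  let Pb : Sylow p (G ⧸ K) := P.mapSurjective hπ
  have hPbcomm : ∀ a ∈ (Pb : Subgroup (G ⧸ K)), ∀ b ∈ (Pb : Subgroup (G ⧸ K)),
      a * b = b * a := by
    intro a ha b hb
    rw [Sylow.coe_mapSurjective] at ha hb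
    obtain ⟨x, hx, rfl⟩ := Subgroup.mem_map.mp ha
    obtain ⟨y, hy, rfl⟩ := Subgroup.mem_map.mp hb
    rw [← map_mul, ← map_mul]
    congr 1
    exact congrArg Subtype.val (mul_comm' (⟨x, hx⟩ : P) ⟨y, hy⟩)
  have hOle : Cfsg.pCore p (G ⧸ K) ≤ Pb := by
    have := pCore_normal p (G ⧸ K)
    exact (pCore_isPGroup p (G ⧸ K)).le_sylow_of_normal Pb
  have hPble : (Pb : Subgroup (G ⧸ K)) ≤ Cfsg.pCore p (G ⧸ K) := by
    refine le_trans ?_ h17
    intro a ha
    rw [Subgroup.mem_centralizer_iff]
    intro b hb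
    exact hPbcomm b (hOle hb) a ha
  have hPbeq : (Pb : Subgroup (G ⧸ K)) = Cfsg.pCore p (G ⧸ K) := le_antisymm hPble hOle
  have hPbn : (Pb : Subgroup (G ⧸ K)).Normal := by rw [hPbeq]; exact pCore_normal p _
  have hcomap : (Pb : Subgroup (G ⧸ K)).comap π = (P : Subgroup G) ⊔ K := by
    rw [Sylow.coe_mapSurjective, Subgroup.comap_map_eq, QuotientGroup.ker_mk']
  rw [← hcomap]
  exact hPbn.comap π

/-- A finite solvable group whose Sylow p-subgroups are abelian has p-length one: a Sylow p-subgroup together with the largest normal subgroup of order prime to p generates a normal subgroup. -/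
theorem result {G : Type*} [Group G] [Finite G] [Group.IsSolvable G]
    (p : ℕ) [Fact p.Prime] (P : Sylow p G) (hP : IsMulCommutative P) :
    ((P : Subgroup G) ⊔ Cfsg.pPrimeCore p G).Normal := by
  exact main p P hP

end Cfsg.Agent.S0018
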