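import Cfsg.Statements.S0019
import Cfsg.Agent.Lib.Helper9.MinNormal
import Cfsg.Agent.Lib.Helper9.PrimSolv

set_option autoImplicit false
open Cfsg

namespace Cfsg.Agent.S0019


open Cfsg.Agent.Lib.Helper9

universe u

/-- Key step: a `p`-subgroup `N` normalised by `H₁` lies in the core of `H` if `G = H₁H` and
`p ∤ |G:H|`. -/
theorem le_of_pgroup {G : Type u} [Group G] [Finite G] (H₁ H N : Subgroup G)
    (hfac : ∀ g : G, ∃ x ∈ H₁, ∃ y ∈ H, g = x * y) (p : ℕ) [Fact p.Prime]
    (hN : IsPGroup p N) (hnorm : H₁ ≤ Subgroup.normalizer (N : Set G)) (hp : ¬ p ∣ H.index) :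
    N ≤ H.normalCore := by
  have hfix : (MulAction.fixedPoints N (G ⧸ H)).Nonempty := by
    apply hN.nonempty_fixed_point_of_prime_not_dvd_card
    rw [← Subgroup.index_eq_card]
    exact hp
  obtain ⟨q, hq⟩ := hfix
  obtain ⟨g, rfl⟩ := QuotientGroup.mk_surjective q
  have hg : ∀ n ∈ N, g⁻¹ * n * g ∈ H := by
    intro n hn
    have h1 := hq ⟨n, hn⟩
    have h2 : ((n * g : G) : G ⧸ H) = (g : G ⧸ H) := h1
    rw [QuotientGroup.eq] at h2
    have h3 := H.inv_mem h2
    have h4 : g⁻¹ * n * g = ((n * g)⁻¹ * g)⁻¹ := by group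
    rw [h4]; exact h3
  obtain ⟨x, hx, y, hy, rfl⟩ := hfac g
  have hNH : N ≤ H := by
    intro n hn
    have hxn : x * n * x⁻¹ ∈ N := ((Subgroup.mem_normalizer_iff.mp (hnorm hx)) n).mp hn
    have h1 := hg _ hxn
    have h2 : n = y * ((x * y)⁻¹ * (x * n * x⁻¹) * (x * y)) * y⁻¹ := by group
    rw [h2]
    exact H.mul_mem (H.mul_mem hy h1) (H.inv_mem hy)
  intro n hn
  show ∀ b : G, b * n * b⁻¹ ∈ H
  intro b
  obtain ⟨x', hx', y', hy', hb⟩ := hfac b⁻¹
  have hb' : b = y'⁻¹ * x'⁻¹ := by rw [← inv_inv b, hb]; group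
  have hxn : x'⁻¹ * n * x' ∈ N := by
    have := ((Subgroup.mem_normalizer_iff.mp (hnorm (H₁.inv_mem hx'))) n).mp hn
    simpa using this
  have h5 : b * n * b⁻¹ = y'⁻¹ * (x'⁻¹ * n * x') * y' := by rw [hb']; group
  rw [h5]
  exact H.mul_mem (H.mul_mem (H.inv_mem hy') (hNH hxn)) hy'

theorem main (n : ℕ) : ∀ (G : Type u) [Group G] [Finite G] (H₁ H₂ H₃ : Subgroup G)
    (_ : Group.IsSolvable H₁) (_ : Group.IsSolvable H₂) (_ : Group.IsSolvable H₃)
    (_ : ∀ g : G, ∃ x ∈ H₁, ∃ y ∈ H₂, g = x * y) (_ : ∀ g : G, ∃ x ∈ H₁, ∃ y ∈ H₃, g = x * y)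
    (_ : H₂.index.Coprime H₃.index), Nat.card G ≤ n → Group.IsSolvable G := by
  induction n with
  | zero =>
    intro G _ _ H₁ H₂ H₃ h₁ h₂ h₃ h12 h13 hcop hn
    have := Nat.card_pos (α := G)
    omega
  | succ n ih =>
    intro G _ _ H₁ H₂ H₃ h₁ h₂ h₃ h12 h13 hcop hn
    by_cases hbot : H₁ = ⊥
    · have htop : H₂ = ⊤ := by
        rw [eq_top_iff]; intro g _
        obtain ⟨x, hx, y, hy, rfl⟩ := h12 g
        rw [hbot, Subgroup.mem_bot] at hx
        rw [hx, one_mul]; exact hy
      have hsurj : Function.Surjective H₂.subtype := by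
        intro g; exact ⟨⟨g, htop ▸ Subgroup.mem_top g⟩, rfl⟩
      exact Group.isSolvable_of_surjective hsurj
    · have hnt : Nontrivial H₁ := (Subgroup.nontrivial_iff_ne_bot H₁).mpr hbot
      obtain ⟨N', hN'n, hN'bot, hN'min⟩ := exists_minimal_normal H₁
      obtain ⟨p, d, hp, hd, hcard⟩ := minimal_normal_card N' hN'bot hN'min
      have hpf : Fact p.Prime := ⟨hp⟩
      obtain ⟨N, hNdef⟩ : ∃ N : Subgroup G, N = N'.map H₁.subtype := ⟨_, rfl⟩
      have hNp : IsPGroup p N := by
        apply IsPGroup.of_card (n := d)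
        rw [hNdef, Subgroup.card_map_of_injective H₁.subtype_injective]; exact hcard
      have hNbot : N ≠ ⊥ := by
        rw [hNdef, Ne, Subgroup.map_eq_bot_iff_of_injective _ H₁.subtype_injective]; exact hN'bot
      have hnorm : H₁ ≤ Subgroup.normalizer (N : Set G) := by
        intro x hx
        rw [Subgroup.mem_normalizer_iff]
        intro m
        rw [hNdef]
        constructor
        · rintro ⟨n', hn', rfl⟩
          exact ⟨⟨x, hx⟩ * n' * ⟨x, hx⟩⁻¹, hN'n.conj_mem n' hn' ⟨x, hx⟩, rfl⟩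
        · rintro ⟨m', hm', hmeq⟩
          refine ⟨⟨x, hx⟩⁻¹ * m' * ⟨x, hx⟩, ?_, ?_⟩
          · have := hN'n.conj_mem m' hm' ⟨x, hx⟩⁻¹
            simpa using this
          · have h6 : (H₁.subtype (⟨x, hx⟩⁻¹ * m' * ⟨x, hx⟩) : G) = x⁻¹ * (H₁.subtype m') * x := rfl
            rw [h6, hmeq]; group
      have key : ∀ (H : Subgroup G), Group.IsSolvable H →
          (∀ g : G, ∃ x ∈ H₁, ∃ y ∈ H, g = x * y) → ¬ p ∣ H.index → Group.IsSolvable G := by
        intro H hH hfac hpH
        have hNK := le_of_pgroup H₁ H N hfac p hNp hnorm hpH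
        obtain ⟨K, hKdef⟩ : ∃ K : Subgroup G, K = H.normalCore := ⟨_, rfl⟩
        have hKn : K.Normal := by rw [hKdef]; infer_instance
        have hKbot : K ≠ ⊥ := fun h => hNbot (le_bot_iff.mp (by rw [← h, hKdef]; exact hNK))
        have hKH : K ≤ H := by rw [hKdef]; exact Subgroup.normalCore_le H
        have hKsolv : Group.IsSolvable K :=
          Group.isSolvable_of_isSolvable_injective (Subgroup.inclusion_injective hKH)
        have hq : Group.IsSolvable (G ⧸ K) := by
          apply ih (G ⧸ K) (H₁.map (QuotientGroup.mk' K)) (H₂.map (QuotientGroup.mk' K))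
            (H₃.map (QuotientGroup.mk' K))
          · exact Group.isSolvable_of_surjective ((QuotientGroup.mk' K).subgroupMap_surjective H₁)
          · exact Group.isSolvable_of_surjective ((QuotientGroup.mk' K).subgroupMap_surjective H₂)
          · exact Group.isSolvable_of_surjective ((QuotientGroup.mk' K).subgroupMap_surjective H₃)
          · intro g
            obtain ⟨g, rfl⟩ := QuotientGroup.mk'_surjective K g
            obtain ⟨x, hx, y, hy, rfl⟩ := h12 g
            exact ⟨_, Subgroup.mem_map_of_mem _ hx, _, Subgroup.mem_map_of_mem _ hy, map_mul _ _ _⟩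
          · intro g
            obtain ⟨g, rfl⟩ := QuotientGroup.mk'_surjective K g
            obtain ⟨x, hx, y, hy, rfl⟩ := h13 g
            exact ⟨_, Subgroup.mem_map_of_mem _ hx, _, Subgroup.mem_map_of_mem _ hy, map_mul _ _ _⟩
          · exact Nat.Coprime.coprime_dvd_left
              (Subgroup.index_map_dvd H₂ (QuotientGroup.mk'_surjective K))
              (Nat.Coprime.coprime_dvd_right
                (Subgroup.index_map_dvd H₃ (QuotientGroup.mk'_surjective K)) hcop)
          · have hc := Subgroup.card_eq_card_quotient_mul_card_subgroup K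
            have h1 : 1 < Nat.card K := K.one_lt_card_iff_ne_bot.mpr hKbot
            have h0 : 0 < Nat.card (G ⧸ K) := Nat.card_pos
            have h2 : Nat.card (G ⧸ K) * 2 ≤ Nat.card (G ⧸ K) * Nat.card K :=
              Nat.mul_le_mul_left _ h1
            omega
        exact Group.isSolvable_of_ker_le_range K.subtype (QuotientGroup.mk' K)
          (by rw [QuotientGroup.ker_mk', Subgroup.range_subtype])
      by_cases hp2 : p ∣ H₂.index
      · have hp3 : ¬ p ∣ H₃.index := fun h =>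
          hp.one_lt.ne' (Nat.eq_one_of_dvd_coprimes hcop hp2 h)
        exact key H₃ h₃ h13 hp3
      · exact key H₂ h₂ h12 hp2


/-- A finite group that factorises as H₁H₂ and as H₁H₃ with all three subgroups solvable and the indices of H₂ and H₃ coprime is solvable. -/
theorem result {G : Type*} [Group G] [Finite G] (H₁ H₂ H₃ : Subgroup G)
    (h₁ : Group.IsSolvable H₁) (h₂ : Group.IsSolvable H₂) (h₃ : Group.IsSolvable H₃)
    (h12 : ∀ g : G, ∃ x ∈ H₁, ∃ y ∈ H₂, g = x * y) (h13 : ∀ g : G, ∃ x ∈ H₁, ∃ y ∈ H₃, g = x * y)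
    (hcop : H₂.index.Coprime H₃.index) : Group.IsSolvable G := by
  exact main _ G H₁ H₂ H₃ h₁ h₂ h₃ h12 h13 hcop le_rfl

end Cfsg.Agent.S0019
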