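import Cfsg.Statements.S0020
-- import your own Cfsg.Agent.* helpers here
import Cfsg.Agent.Lib.Helper7.Hall
import Mathlib

set_option autoImplicit false
open Pointwise
open Cfsg

namespace Cfsg.Agent.S0020

section
open scoped Pointwise
open Cfsg.Agent.Lib.Helper7

theorem index_inf_of_coprime {G : Type*} [Group G] [Finite G] (H K : Subgroup G)
    (h : H.index.Coprime K.index) : (H ⊓ K).index = H.index * K.index := by
  apply le_antisymm Subgroup.index_inf_le
  apply Nat.le_of_dvd (Nat.pos_of_ne_zero Subgroup.index_ne_zero_of_finite)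
  exact Nat.Coprime.mul_dvd_of_dvd_of_dvd h (Subgroup.index_dvd_of_le inf_le_left)
    (Subgroup.index_dvd_of_le inf_le_right)

theorem card_set_mul_of_disjoint {G : Type*} [Group G] [Finite G] (H K : Subgroup G)
    (h : Disjoint H K) :
    Nat.card ((H : Set G) * (K : Set G) : Set G) = Nat.card H * Nat.card K := by
  rw [← Nat.card_prod]
  symm
  apply Nat.card_congr
  exact Equiv.ofBijective
    (fun x : H × K => (⟨(x.1 : G) * (x.2 : G), Set.mul_mem_mul x.1.2 x.2.2⟩ :
      ((H : Set G) * (K : Set G) : Set G)))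
    ⟨fun x y hxy => Subgroup.mul_injective_of_disjoint h (congrArg Subtype.val hxy),
     fun ⟨z, hz⟩ => by
      obtain ⟨a, ha, b, hb, rfl⟩ := Set.mem_mul.mp hz
      exact ⟨(⟨a, ha⟩, ⟨b, hb⟩), rfl⟩⟩

theorem set_mul_eq_of_le {G : Type*} [Group G] [Finite G] (A B T : Subgroup G)
    (hA : A ≤ T) (hB : B ≤ T) (hd : Disjoint A B) (hc : Nat.card T ≤ Nat.card A * Nat.card B) :
    (A : Set G) * (B : Set G) = (T : Set G) := by
  apply Set.Finite.eq_of_subset_of_card_le (Set.toFinite _)
  · intro x hx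
    obtain ⟨a, ha, b, hb, rfl⟩ := Set.mem_mul.mp hx
    exact T.mul_mem (hA ha) (hB hb)
  · rw [card_set_mul_of_disjoint A B hd]
    exact hc

theorem main {G : Type*} [Group G] [Finite G] [Group.IsSolvable G] :
    ∃ S : (p : Nat.Primes) → Sylow (p : ℕ) G,
      ∀ p q : Nat.Primes, (S p : Set G) * (S q : Set G) = (S q : Set G) * (S p : Set G) := by
  classical
  obtain ⟨n, hn⟩ : ∃ n, n = Nat.card G := ⟨_, rfl⟩
  have hn0 : n ≠ 0 := by rw [hn]; exact Nat.card_pos.ne'
  obtain ⟨f, hf⟩ : ∃ f : ℕ → ℕ, ∀ r, f r = r ^ n.factorization r := ⟨_, fun _ => rfl⟩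
  have hprod : ∏ r ∈ n.primeFactors, f r = n := by
    have h1 := Nat.prod_factorization_pow_eq_self hn0
    rw [Finsupp.prod, Nat.support_factorization] at h1
    exact (Finset.prod_congr rfl (fun r _ => hf r)).trans h1
  have hfpos : ∀ r, r.Prime → 0 < f r := fun r hr => by rw [hf]; exact pow_pos hr.pos _
  have hK : ∀ r : ℕ, ∃ K : Subgroup G, r.Prime → K.index = f r := by
    intro r
    by_cases hr : r.Prime
    · have hdvd : f r ∣ n := by rw [hf]; exact Nat.ordProj_dvd n r
      have h1 : Nat.card G = n / f r * f r := by rw [← hn]; exact (Nat.div_mul_cancel hdvd).symm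
      have h2 : (n / f r).Coprime (f r) := by
        rw [hf]
        exact (Nat.Coprime.pow_left _ (Nat.coprime_ordCompl hr hn0)).symm
      obtain ⟨K, hK⟩ := hall_exists n G (le_of_eq hn.symm) (n / f r) (f r) h1 h2
      refine ⟨K, fun _ => ?_⟩
      have h3 := K.card_mul_index
      rw [hK, h1] at h3
      exact Nat.eq_of_mul_eq_mul_left (Nat.div_pos (Nat.le_of_dvd (Nat.pos_of_ne_zero hn0) hdvd)
        (hfpos r hr)) h3
    · exact ⟨⊤, fun h => absurd h hr⟩
  choose K hK using hK
  have hidx : ∀ s : Finset ℕ, (∀ r ∈ s, r.Prime) → (⨅ r ∈ s, K r).index = ∏ r ∈ s, f r := by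
    intro s
    induction s using Finset.induction_on with
    | empty => intro _; simp
    | insert a s ha ih =>
      intro hs
      have ih' := ih (fun r hr => hs r (Finset.mem_insert_of_mem hr))
      have ha' := hK a (hs a (Finset.mem_insert_self a s))
      have hcop : (K a).index.Coprime (⨅ r ∈ s, K r).index := by
        rw [ha', ih']
        apply Nat.Coprime.prod_right
        intro r hr
        have hra : a ≠ r := fun h => ha (h ▸ hr)
        rw [hf, hf]
        exact Nat.Coprime.pow _ _ ((Nat.coprime_primes (hs a (Finset.mem_insert_self a s))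
          (hs r (Finset.mem_insert_of_mem hr))).mpr hra)
      rw [Finset.iInf_insert, Finset.prod_insert ha, index_inf_of_coprime _ _ hcop, ha', ih']
  have hPF : ∀ r ∈ n.primeFactors, r.Prime := fun r hr => Nat.prime_of_mem_primeFactors hr
  have hcardI : ∀ s : Finset ℕ, s ⊆ n.primeFactors →
      Nat.card (⨅ r ∈ s, K r : Subgroup G) * ∏ r ∈ s, f r = n := by
    intro s hs
    rw [← hidx s (fun r hr => hPF r (hs hr)), Subgroup.card_mul_index, hn]
  have hprodpos : ∀ s : Finset ℕ, s ⊆ n.primeFactors → 0 < ∏ r ∈ s, f r := by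
    intro s hs
    exact Finset.prod_pos (fun r hr => hfpos r (hPF r (hs hr)))
  have hcard1 : ∀ p : ℕ, p.Prime →
      Nat.card (⨅ r ∈ n.primeFactors.erase p, K r : Subgroup G) = f p := by
    intro p hp
    have h2 := hcardI (n.primeFactors.erase p) (Finset.erase_subset _ _)
    by_cases hpn : p ∈ n.primeFactors
    · have h3 : f p * ∏ r ∈ n.primeFactors.erase p, f r = n := by
        rw [Finset.mul_prod_erase _ _ hpn]; exact hprod
      exact Nat.eq_of_mul_eq_mul_right (hprodpos _ (Finset.erase_subset _ _)) (h2.trans h3.symm)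
    · rw [Finset.erase_eq_of_notMem hpn, hprod] at h2
      have h4 : n.factorization p = 0 := by
        rw [← Finsupp.notMem_support_iff, Nat.support_factorization]; exact hpn
      rw [hf, h4, pow_zero]
      rw [Finset.erase_eq_of_notMem hpn]
      have h5 : Nat.card (⨅ r ∈ n.primeFactors, K r : Subgroup G) * n = 1 * n := by
        rw [h2, one_mul]
      exact Nat.eq_of_mul_eq_mul_right (Nat.pos_of_ne_zero hn0) h5
  have hcard1' : ∀ p : Nat.Primes,
      Nat.card (⨅ r ∈ n.primeFactors.erase (p : ℕ), K r : Subgroup G) =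
        (p : ℕ) ^ (Nat.card G).factorization (p : ℕ) := by
    intro p
    rw [hcard1 p p.2, hf, hn]
  refine ⟨fun p => haveI : Fact (p : ℕ).Prime := ⟨p.2⟩
    Sylow.ofCard (⨅ r ∈ n.primeFactors.erase (p : ℕ), K r) (hcard1' p), ?_⟩
  intro p q
  show ((⨅ r ∈ n.primeFactors.erase (p : ℕ), K r : Subgroup G) : Set G) *
      ((⨅ r ∈ n.primeFactors.erase (q : ℕ), K r : Subgroup G) : Set G) =
    ((⨅ r ∈ n.primeFactors.erase (q : ℕ), K r : Subgroup G) : Set G) *
      ((⨅ r ∈ n.primeFactors.erase (p : ℕ), K r : Subgroup G) : Set G)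
  by_cases hpq : (p : ℕ) = (q : ℕ)
  · rw [hpq]
  by_cases hp : (p : ℕ) ∈ n.primeFactors
  swap
  · have h1 := hcard1 p p.2
    have h4 : n.factorization (p : ℕ) = 0 := by
      rw [← Finsupp.notMem_support_iff, Nat.support_factorization]; exact hp
    rw [hf, h4, pow_zero] at h1
    rw [Subgroup.eq_bot_of_card_eq _ h1, Subgroup.coe_bot, Set.singleton_one, one_mul, mul_one]
  by_cases hq : (q : ℕ) ∈ n.primeFactors
  swap
  · have h1 := hcard1 q q.2
    have h4 : n.factorization (q : ℕ) = 0 := by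
      rw [← Finsupp.notMem_support_iff, Nat.support_factorization]; exact hq
    rw [hf, h4, pow_zero] at h1
    rw [Subgroup.eq_bot_of_card_eq _ h1, Subgroup.coe_bot, Set.singleton_one, one_mul, mul_one]
  -- main case
  have hq' : (q : ℕ) ∈ n.primeFactors.erase (p : ℕ) := Finset.mem_erase.mpr ⟨fun h => hpq h.symm, hq⟩
  have hsub : (n.primeFactors.erase (p : ℕ)).erase (q : ℕ) ⊆ n.primeFactors :=
    (Finset.erase_subset _ _).trans (Finset.erase_subset _ _)
  have hT := hcardI _ hsub
  have hTcard : Nat.card (⨅ r ∈ (n.primeFactors.erase (p : ℕ)).erase (q : ℕ), K r : Subgroup G) =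
      f p * f q := by
    have h3 : f p * f q * ∏ r ∈ (n.primeFactors.erase (p : ℕ)).erase (q : ℕ), f r = n := by
      rw [mul_assoc, Finset.mul_prod_erase _ _ hq', Finset.mul_prod_erase _ _ hp]; exact hprod
    exact Nat.eq_of_mul_eq_mul_right (hprodpos _ hsub) (hT.trans h3.symm)
  have hAT : (⨅ r ∈ n.primeFactors.erase (p : ℕ), K r : Subgroup G) ≤
      ⨅ r ∈ (n.primeFactors.erase (p : ℕ)).erase (q : ℕ), K r :=
    le_iInf₂ fun r hr => iInf₂_le r (Finset.mem_of_mem_erase hr)
  have hBT : (⨅ r ∈ n.primeFactors.erase (q : ℕ), K r : Subgroup G) ≤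
      ⨅ r ∈ (n.primeFactors.erase (p : ℕ)).erase (q : ℕ), K r :=
    le_iInf₂ fun r hr => iInf₂_le r (by
      rw [Finset.mem_erase] at hr ⊢
      exact ⟨hr.1, Finset.mem_of_mem_erase hr.2⟩)
  have hcop : (f p).Coprime (f q) := by
    rw [hf, hf]
    exact Nat.Coprime.pow _ _ ((Nat.coprime_primes p.2 q.2).mpr hpq)
  have hd : Disjoint (⨅ r ∈ n.primeFactors.erase (p : ℕ), K r : Subgroup G)
      (⨅ r ∈ n.primeFactors.erase (q : ℕ), K r : Subgroup G) := by
    apply Subgroup.disjoint_of_coprime_natCard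
    rw [hcard1 p p.2, hcard1 q q.2]; exact hcop
  rw [set_mul_eq_of_le _ _ _ hAT hBT hd (by rw [hTcard, hcard1 p p.2, hcard1 q q.2]),
    set_mul_eq_of_le _ _ _ hBT hAT hd.symm (by
      rw [hTcard, hcard1 p p.2, hcard1 q q.2, mul_comm])]

end

/-- A finite solvable group admits a Sylow system: Sylow subgroups, one for each prime, that pairwise permute as sets. -/
theorem result {G : Type*} [Group G] [Finite G] [Group.IsSolvable G] :
    ∃ S : (p : Nat.Primes) → Sylow (p : ℕ) G,
      ∀ p q : Nat.Primes, (S p : Set G) * (S q : Set G) = (S q : Set G) * (S p : Set G) := by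
  exact main

end Cfsg.Agent.S0020
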