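import Cfsg.Statements.S0021
-- import your own Cfsg.Agent.* helpers here
import Cfsg.Agent.Lib.Helper7.HallSystem

set_option autoImplicit false
open Pointwise
open Cfsg

namespace Cfsg.Agent.S0021

/-- A finite group with a family of pairwise permuting Sylow subgroups, one for each prime, is solvable (this direction rests on Burnside's two-prime Theorem). -/
theorem result {G : Type*} [Group G] [Finite G]
    (S : (p : Nat.Primes) → Sylow (p : ℕ) G)
    (hS : ∀ p q : Nat.Primes, (S p : Set G) * (S q : Set G) = (S q : Set G) * (S p : Set G)) :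
    Group.IsSolvable G := by
  classical
  apply Cfsg.Agent.Lib.Helper7.solvable_of_sylow_system
    (fun r => if h : r.Prime then (S ⟨r, h⟩ : Subgroup G) else ⊥)
  · intro r hr
    have : Fact r.Prime := ⟨hr⟩
    simp only [dif_pos hr]
    exact (S ⟨r, hr⟩).card_eq_multiplicity
  · intro r t hr ht
    simp only [dif_pos hr, dif_pos ht]
    exact hS ⟨r, hr⟩ ⟨t, ht⟩

end Cfsg.Agent.S0021
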