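import Cfsg.Statements.S0029
-- import your own Cfsg.Agent.* helpers here
import Cfsg.Agent.Lib.Helper7.CoprimeSylow
import Mathlib.GroupTheory.Frattini

set_option autoImplicit false
open Cfsg

namespace Cfsg.Agent.S0029

section
open scoped Pointwise
open Cfsg.Agent.Lib.Helper7

theorem main {G : Type*} [Group G] [Finite G] (A K : Subgroup G)
    (hAK : A ≤ Subgroup.normalizer (K : Set G))
    (hcop : (Nat.card A).Coprime (Nat.card (frattini K)))
    (htriv : ∀ a ∈ A, ∀ k ∈ K, a * k * a⁻¹ * k⁻¹ ∈ (frattini K).map K.subtype) :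
    A ≤ Subgroup.centralizer (K : Set G) := by
  obtain ⟨N, hNdef⟩ : ∃ N : Subgroup G, N = (frattini K).map K.subtype := ⟨_, rfl⟩
  have hcN : Nat.card N = Nat.card (frattini K) := by
    rw [hNdef]; exact Subgroup.card_map_of_injective K.subtype_injective
  have hAN : A ≤ Subgroup.normalizer (N : Set G) := by
    intro a ha
    rw [mem_normalizer_iff_conj_smul, hNdef, ← normalizer_smul_map ⟨a, hAK ha⟩ (frattini K)]
    congr 1
    rw [Subgroup.pointwise_smul_def]
    exact Subgroup.characteristic_iff_map_eq.mp inferInstance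
      (MulDistribMulAction.toMulAut _ _ (⟨a, hAK ha⟩ : Subgroup.normalizer (K : Set G)))
  have hsolvN : Group.IsSolvable N := by
    have h1 : Group.IsNilpotent (frattini K) := frattini_nilpotent
    have h2 : Group.IsSolvable (frattini K) := inferInstance
    rw [hNdef]
    exact Group.isSolvable_of_surjective (f := K.subtype.subgroupMap (frattini K))
      (MonoidHom.subgroupMap_surjective _ _)
  have hcop' : (Nat.card A).Coprime (Nat.card N) := by rw [hcN]; exact hcop
  have hKA : K ≤ Subgroup.normalizer (A : Set G) := by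
    have h1 : (Subgroup.normalizer (A : Set G)).subgroupOf K = ⊤ := by
      apply frattini_nongenerating
      rw [eq_top_iff]
      intro k _
      obtain ⟨n, hn, hnk⟩ := exists_mul_mem_normalizer A N hAN hcop' (Or.inr hsolvN) (k : G)
        (fun a ha => by rw [hNdef]; exact htriv a ha k k.2)
      rw [hNdef] at hn
      obtain ⟨n', hn', rfl⟩ := Subgroup.mem_map.mp hn
      have h2 : k = n'⁻¹ * (n' * k) := by group
      rw [h2]
      exact Subgroup.mul_mem _ (Subgroup.mem_sup_right (Subgroup.inv_mem _ hn'))
        (Subgroup.mem_sup_left (Subgroup.mem_subgroupOf.mpr hnk))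
    intro k hk
    have h3 : (⟨k, hk⟩ : K) ∈ (Subgroup.normalizer (A : Set G)).subgroupOf K := by
      rw [h1]; trivial
    exact Subgroup.mem_subgroupOf.mp h3
  rw [Subgroup.le_centralizer_iff]
  intro k hk
  rw [Subgroup.mem_centralizer_iff]
  intro a ha
  have h1 : a * k * a⁻¹ * k⁻¹ ∈ N := by rw [hNdef]; exact htriv a ha k hk
  have h2 : a * k * a⁻¹ * k⁻¹ ∈ A := by
    have h4 : a * k * a⁻¹ * k⁻¹ = a * (k * a⁻¹ * k⁻¹) := by group
    rw [h4]
    exact A.mul_mem ha (conj_mem_of_mem_normalizer (hKA hk) (A.inv_mem ha))
  have h3 := eq_one_of_mem_of_mem_coprime hcop' h2 h1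
  calc a * k = (a * k * a⁻¹ * k⁻¹) * (k * a) := by group
    _ = k * a := by rw [h3, one_mul]

end

/-- An action that is trivial on the Frattini quotient and coprime on the Frattini subgroup is trivial: if A normalises K, the orders of A and of the Frattini subgroup of K are coprime, and every commutator of an element of A with an element of K lies in the Frattini subgroup of K, then A centralises K. -/
theorem result {G : Type*} [Group G] [Finite G] (A K : Subgroup G)
    (hAK : A ≤ Subgroup.normalizer (K : Set G))
    (hcop : (Nat.card A).Coprime (Nat.card (frattini K)))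
    (htriv : ∀ a ∈ A, ∀ k ∈ K, a * k * a⁻¹ * k⁻¹ ∈ (frattini K).map K.subtype) :
    A ≤ Subgroup.centralizer (K : Set G) := by
  exact main A K hAK hcop htriv

end Cfsg.Agent.S0029
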