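import Cfsg.Statements.S0031
-- import your own Cfsg.Agent.* helpers here

set_option autoImplicit false
open Cfsg

namespace Cfsg.Agent.S0031

/-- A fixed-point-free automorphism of a finite group maps some Sylow p-subgroup to itself. -/
theorem result {G : Type*} [Group G] [Finite G] (φ : G ≃* G)
    (hφ : MonoidHom.FixedPointFree (φ : G →* G)) (p : ℕ) [Fact p.Prime] :
    ∃ P : Sylow p G, (P : Subgroup G).map (φ : G →* G) = P := by
  classical
  obtain ⟨P₀⟩ : Nonempty (Sylow p G) := inferInstance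
  let ψ : MulAut G := φ
  obtain ⟨g, hg⟩ := MulAction.exists_smul_eq G P₀ (ψ • P₀)
  obtain ⟨y, hy⟩ := hφ.commutatorMap_surjective g⁻¹
  have hy' : (φ y)⁻¹ * g = y⁻¹ := by
    have h0 : y / φ y = g⁻¹ := hy
    rw [div_eq_mul_inv] at h0
    have h2 : (y * (φ y)⁻¹)⁻¹ = g := by rw [h0, inv_inv]
    rw [← h2]; group
  have hcomm : ψ * MulAut.conj y⁻¹ = MulAut.conj (φ y)⁻¹ * ψ := by
    ext x
    simp [MulAut.mul_apply, ψ]
  have h1 : ψ • (y⁻¹ • P₀) = y⁻¹ • P₀ := by
    rw [Sylow.smul_def, ← mul_smul, hcomm, mul_smul, ← hg, Sylow.smul_def, ← mul_smul,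
      ← map_mul, hy']
  refine ⟨y⁻¹ • P₀, ?_⟩
  have h2 := congrArg (fun Q : Sylow p G => (Q : Subgroup G)) h1
  simp only [Sylow.pointwise_smul_def] at h2
  refine Eq.trans ?_ h2
  ext x
  simp only [Subgroup.mem_map, Subgroup.mem_pointwise_smul_iff_inv_smul_mem, ψ, MulAut.smul_def,
    MulAut.inv_apply, MulEquiv.coe_toMonoidHom]
  constructor
  · rintro ⟨z, hz, rfl⟩
    simpa using hz
  · intro hx
    exact ⟨φ.symm x, hx, by simp⟩

end Cfsg.Agent.S0031
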