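import Cfsg.Statements.S0036
-- import your own Cfsg.Agent.* helpers here
import Mathlib
import Cfsg.Agent.Lib.Helper7.FrobCount

set_option autoImplicit false
open Cfsg

namespace Cfsg.Agent.S0036

open Cfsg.Agent.Lib.Helper7

/-- When a Frobenius complement contains an involution, an elementary argument shows the Frobenius kernel is closed under multiplication (hence a subgroup). -/
theorem result {G : Type*} [Group G] [Finite G] (H : Subgroup G) (hH : Cfsg.IsFrobeniusComplement H)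
    (t : G) (ht : t ∈ H) (ht1 : t ≠ 1) (ht2 : t * t = 1) :
    ∀ x ∈ Cfsg.frobeniusKernel H, ∀ y ∈ Cfsg.frobeniusKernel H, x * y ∈ Cfsg.frobeniusKernel H := by
  classical
  haveI := Fintype.ofFinite G
  have htinv : t⁻¹ = t := by
    rw [inv_eq_iff_mul_eq_one]; exact ht2
  -- kernel membership facts
  have hKinv : ∀ k : G, k ∈ Cfsg.frobeniusKernel H → k⁻¹ ∈ Cfsg.frobeniusKernel H := by
    intro k hk
    rw [fc_mem_kernel_iff] at hk ⊢
    rcases hk with hk | hk
    · left; rw [hk, inv_one]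
    · right
      intro g hg
      apply hk g
      have h1 := H.inv_mem hg
      have h2 : (g⁻¹ * k⁻¹ * g)⁻¹ = g⁻¹ * k * g := by group
      rwa [h2] at h1
  have hKconj : ∀ k c : G, k ∈ Cfsg.frobeniusKernel H → c * k * c⁻¹ ∈ Cfsg.frobeniusKernel H := by
    intro k c hk
    rw [fc_mem_kernel_iff] at hk ⊢
    rcases hk with hk | hk
    · left; rw [hk]; group
    · right
      intro g hg
      apply hk (c⁻¹ * g)
      have h2 : (c⁻¹ * g)⁻¹ * k * (c⁻¹ * g) = g⁻¹ * (c * k * c⁻¹) * g := by group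
      rwa [h2]
  -- u(a) = a t a⁻¹ t
  have hu1 : ∀ a : G, a ∉ H → a * t * a⁻¹ * t ≠ 1 := by
    intro a ha h
    apply ha
    have h1 : a * t * a⁻¹ = t := by
      have h2 : a * t * a⁻¹ = (a * t * a⁻¹ * t) * t⁻¹ := by group
      rw [h2, h, one_mul, htinv]
    have h3 := fc_mal H hH a⁻¹ t ht ht1 (by rw [inv_inv, h1]; exact ht)
    simpa using H.inv_mem h3
  have huK : ∀ a : G, a ∉ H → a * t * a⁻¹ * t ∈ Cfsg.frobeniusKernel H := by
    intro a ha
    rw [fc_mem_kernel_iff]
    right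
    intro g hg
    obtain ⟨u, hu⟩ : ∃ u, u = a * t * a⁻¹ * t := ⟨_, rfl⟩
    rw [← hu] at hg
    have hune : u ≠ 1 := hu ▸ hu1 a ha
    have hx1 : g⁻¹ * u * g ≠ 1 := by
      intro h
      apply hune
      have h2 : u = g * (g⁻¹ * u * g) * g⁻¹ := by group
      rw [h2, h]; group
    -- t u t⁻¹ = u⁻¹
    have htu : t * u * t⁻¹ = u⁻¹ := by
      rw [hu, htinv]
      have h2 : (a * t * a⁻¹ * t)⁻¹ = t⁻¹ * a * t⁻¹ * a⁻¹ := by group
      rw [h2, htinv]
      have h3 : t * (a * t * a⁻¹ * t) * t = t * a * t * a⁻¹ * (t * t) := by group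
      rw [h3, ht2, mul_one]
    -- g⁻¹ t⁻¹ g ∈ H
    have h4 : g⁻¹ * t⁻¹ * g ∈ H := by
      apply fc_mal H hH (g⁻¹ * t⁻¹ * g) (g⁻¹ * u * g) hg hx1
      have h5 : (g⁻¹ * t⁻¹ * g)⁻¹ * (g⁻¹ * u * g) * (g⁻¹ * t⁻¹ * g) = (g⁻¹ * (t * u * t⁻¹) * g) := by group
      rw [h5, htu]
      have h6 : g⁻¹ * u⁻¹ * g = (g⁻¹ * u * g)⁻¹ := by group
      rw [h6]; exact H.inv_mem hg
    rw [htinv] at h4
    have hgH : g ∈ H := fc_mal H hH g t ht ht1 h4
    have huH : u ∈ H := by
      have h7 : u = g * (g⁻¹ * u * g) * g⁻¹ := by group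
      rw [h7]; exact H.mul_mem (H.mul_mem hgH hg) (H.inv_mem hgH)
    have h8 : a * t * a⁻¹ ∈ H := by
      have h9 : a * t * a⁻¹ = u * t⁻¹ := by rw [hu]; group
      rw [h9]; exact H.mul_mem huH (H.inv_mem ht)
    have h10 := fc_mal H hH a⁻¹ t ht ht1 (by rw [inv_inv]; exact h8)
    exact ha (by simpa using H.inv_mem h10)
  -- counting
  obtain ⟨S, hS⟩ : ∃ S : Finset G, S = Finset.univ.filter (fun x : G => x ∉ H) := ⟨_, rfl⟩
  obtain ⟨Hf, hHf⟩ : ∃ Hf : Finset G, Hf = Finset.univ.filter (fun x : G => x ∈ H) := ⟨_, rfl⟩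
  obtain ⟨C, hC⟩ : ∃ C : Finset G, C = Finset.univ.filter (fun c : G => c * t = t * c) := ⟨_, rfl⟩
  obtain ⟨K1, hK1⟩ : ∃ K1 : Finset G, K1 = Finset.univ.filter (fun k : G => k ∈ Cfsg.frobeniusKernel H ∧ k ≠ 1) := ⟨_, rfl⟩
  obtain ⟨u, hu⟩ : ∃ u : G → G, u = fun a => a * t * a⁻¹ * t := ⟨_, rfl⟩
  have hHfcard : Hf.card = Nat.card H := by
    rw [hHf, Nat.card_eq_fintype_card, Fintype.card_subtype]
  have hScard : S.card + Nat.card H = Nat.card H * H.index := by
    have h1 := Finset.card_filter_add_card_filter_not (s := (Finset.univ : Finset G)) (fun x : G => x ∈ H)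
    rw [Finset.card_univ, ← Nat.card_eq_fintype_card, ← hHf, ← hS, hHfcard, ← H.card_mul_index] at h1
    omega
  have hK1card : K1.card + 1 = H.index := by
    rw [← fc_kernel_card H hH, Nat.card_eq_fintype_card, Fintype.card_subtype]
    have h1 : Finset.univ.filter (fun k : G => k ∈ Cfsg.frobeniusKernel H) = insert 1 K1 := by
      ext k
      simp only [Finset.mem_filter, Finset.mem_univ, true_and, Finset.mem_insert, hK1]
      constructor
      · intro hk
        by_cases hk1 : k = 1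
        · left; exact hk1
        · right; exact ⟨hk, hk1⟩
      · rintro (hk | hk)
        · rw [hk]; exact (fc_mem_kernel_iff H 1).mpr (Or.inl rfl)
        · exact hk.1
    rw [h1, Finset.card_insert_of_notMem]
    rw [hK1]
    simp
  have himg : S.image u ⊆ K1 := by
    intro k hk
    obtain ⟨a, ha, rfl⟩ := Finset.mem_image.mp hk
    rw [hS] at ha
    have ha' : a ∉ H := (Finset.mem_filter.mp ha).2
    rw [hK1, hu]
    exact Finset.mem_filter.mpr ⟨Finset.mem_univ _, huK a ha', hu1 a ha'⟩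
  have hCH : C ⊆ Hf := by
    intro c hc
    rw [hC] at hc
    have hc' : c * t = t * c := (Finset.mem_filter.mp hc).2
    rw [hHf]
    refine Finset.mem_filter.mpr ⟨Finset.mem_univ _, ?_⟩
    apply fc_mal H hH c t ht ht1
    have h1 : c⁻¹ * t * c = c⁻¹ * (t * c) := by group
    rw [h1, ← hc']
    simpa using ht
  have hfib : ∀ k ∈ S.image u, (S.filter (fun x => u x = k)).card ≤ C.card := by
    intro k hk
    obtain ⟨a, ha, rfl⟩ := Finset.mem_image.mp hk
    apply Finset.card_le_card_of_injOn (fun x => a⁻¹ * x)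
    · intro x hx
      have hx' : u x = u a := (Finset.mem_filter.mp hx).2
      rw [hu] at hx'
      have h1 : x * t * x⁻¹ = a * t * a⁻¹ := by
        have h2 := congrArg (fun z => z * t⁻¹) hx'
        simpa using h2
      rw [hC]
      refine Finset.mem_filter.mpr ⟨Finset.mem_univ _, ?_⟩
      show a⁻¹ * x * t = t * (a⁻¹ * x)
      calc a⁻¹ * x * t = a⁻¹ * (x * t * x⁻¹) * x := by group
        _ = a⁻¹ * (a * t * a⁻¹) * x := by rw [h1]
        _ = t * (a⁻¹ * x) := by group
    · intro x _ y _ hxy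
      exact mul_left_cancel hxy
  have hmain := Finset.card_le_mul_card_image S C.card hfib
  have hCle : C.card ≤ Nat.card H := hHfcard ▸ Finset.card_le_card hCH
  have himgle : (S.image u).card ≤ K1.card := Finset.card_le_card himg
  have hm2 : 2 ≤ H.index := by
    have h0 : H.index ≠ 0 := Subgroup.index_ne_zero_of_finite
    have h1 : H.index ≠ 1 := fun h => hH.2.1 (Subgroup.index_eq_one.mp h)
    omega
  have hHpos : 0 < Nat.card H := Nat.card_pos
  obtain ⟨m', hm'⟩ : ∃ m', H.index = m' + 1 := ⟨H.index - 1, by omega⟩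
  have hK1m : K1.card = m' := by omega
  have hSm : S.card = Nat.card H * m' := by
    rw [hm'] at hScard
    have : Nat.card H * (m' + 1) = Nat.card H * m' + Nat.card H := by ring
    omega
  have hm'pos : 0 < m' := by omega
  have hCeq : C.card = Nat.card H := by
    by_contra hne
    have hlt : C.card < Nat.card H := lt_of_le_of_ne hCle hne
    have h1 : C.card * (S.image u).card ≤ C.card * m' := Nat.mul_le_mul_left _ (hK1m ▸ himgle)
    have h2 : C.card * m' < Nat.card H * m' := Nat.mul_lt_mul_of_pos_right hlt hm'pos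
    omega
  have himgeq : (S.image u).card = m' := by
    by_contra hne
    have hlt : (S.image u).card < m' := lt_of_le_of_ne (hK1m ▸ himgle) hne
    have h2 : C.card * (S.image u).card < C.card * m' := Nat.mul_lt_mul_of_pos_left hlt (by omega)
    rw [hCeq] at h2 hmain
    omega
  have hCHeq : C = Hf := Finset.eq_of_subset_of_card_le hCH (by rw [hHfcard, hCeq])
  have himgK : S.image u = K1 := Finset.eq_of_subset_of_card_le himg (by rw [hK1m, himgeq])
  have hcent : ∀ c ∈ H, c * t = t * c := by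
    intro c hc
    have h1 : c ∈ C := by
      rw [hCHeq, hHf]; exact Finset.mem_filter.mpr ⟨Finset.mem_univ _, hc⟩
    rw [hC] at h1
    exact (Finset.mem_filter.mp h1).2
  have hrep : ∀ k ∈ Cfsg.frobeniusKernel H, k ≠ 1 → ∃ a, a ∉ H ∧ k = a * t * a⁻¹ * t := by
    intro k hk hk1
    have h1 : k ∈ S.image u := by
      rw [himgK, hK1]; exact Finset.mem_filter.mpr ⟨Finset.mem_univ _, hk, hk1⟩
    obtain ⟨a, ha, hak⟩ := Finset.mem_image.mp h1
    rw [hS] at ha
    exact ⟨a, (Finset.mem_filter.mp ha).2, by rw [← hak, hu]⟩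
  -- closure
  intro x hx y hy
  by_cases hx1 : x = 1
  · rw [hx1, one_mul]; exact hy
  by_cases hy1 : y = 1
  · rw [hy1, mul_one]; exact hx
  obtain ⟨a, ha, hxa⟩ := hrep x hx hx1
  have hy1' : y⁻¹ ≠ 1 := fun h => hy1 (inv_eq_one.mp h)
  obtain ⟨c, hc, hyc⟩ := hrep y⁻¹ (hKinv y hy) hy1'
  have hy2 : y = t * c * t * c⁻¹ := by
    have h1 : y = (y⁻¹)⁻¹ := (inv_inv y).symm
    rw [h1, hyc]
    have h2 : (c * t * c⁻¹ * t)⁻¹ = t⁻¹ * c * t⁻¹ * c⁻¹ := by group
    rw [h2, htinv]
  have hxy : x * y = c * ((c⁻¹ * a) * t * (c⁻¹ * a)⁻¹ * t) * c⁻¹ := by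
    rw [hxa, hy2]
    have h1 : a * t * a⁻¹ * t * (t * c * t * c⁻¹) = a * t * a⁻¹ * (t * t) * c * t * c⁻¹ := by group
    rw [h1, ht2]
    group
  rw [hxy]
  by_cases hca : c⁻¹ * a ∈ H
  · have h1 := hcent _ hca
    have h2 : (c⁻¹ * a) * t * (c⁻¹ * a)⁻¹ * t = 1 := by
      rw [h1]
      have h3 : t * (c⁻¹ * a) * (c⁻¹ * a)⁻¹ * t = t * t := by group
      rw [h3, ht2]
    rw [h2]
    rw [fc_mem_kernel_iff]
    left
    group
  · exact hKconj _ c (huK _ hca)

end Cfsg.Agent.S0036
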