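import Cfsg.Statements.S0037
-- import your own Cfsg.Agent.* helpers here
import Cfsg.Agent.Lib.Helper7.FrobCount

set_option autoImplicit false
open Pointwise
open Cfsg

namespace Cfsg.Agent.S0037

open Pointwise
open Cfsg.Agent.Lib.Helper7

section
variable {G : Type*} [Group G]

theorem fc_of_mal (H : Subgroup G) (h1 : H ≠ ⊥) (h2 : H ≠ ⊤)
    (h3 : ∀ g x : G, x ∈ H → x ≠ 1 → g⁻¹ * x * g ∈ H → g ∈ H) :
    Cfsg.IsFrobeniusComplement H := by
  refine ⟨h1, h2, ?_⟩
  intro g hg
  rw [eq_bot_iff]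
  intro x hx
  rw [Subgroup.mem_bot]
  by_contra hx1
  exact hg (h3 g x hx.1 hx1 ((fc_mem_conj_smul_iff H g x).mp hx.2))

theorem mem_D (H H₀ : Subgroup G) (t y : G) :
    y ∈ H₀ ⊓ MulAut.conj t • H ↔ y ∈ H₀ ∧ t⁻¹ * y * t ∈ H := by
  rw [Subgroup.mem_inf, fc_mem_conj_smul_iff]

theorem D_frob (H H₀ : Subgroup G) (hH : Cfsg.IsFrobeniusComplement H) (s : G)
    (hne : H₀ ⊓ MulAut.conj s • H ≠ ⊥) (hne' : H₀ ⊓ MulAut.conj s • H ≠ H₀) :
    Cfsg.IsFrobeniusComplement ((H₀ ⊓ MulAut.conj s • H).subgroupOf H₀) := by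
  apply fc_of_mal
  · intro h
    rw [Subgroup.subgroupOf_eq_bot] at h
    exact hne (h.eq_bot_of_le inf_le_left)
  · intro h
    rw [Subgroup.subgroupOf_eq_top] at h
    exact hne' (le_antisymm inf_le_left h)
  · intro g x hx hx1 hgx
    rw [Subgroup.mem_subgroupOf, mem_D] at hx hgx ⊢
    refine ⟨g.2, ?_⟩
    apply fc_mal H hH (s⁻¹ * g * s) (s⁻¹ * x * s) hx.2
    · intro h
      apply hx1
      apply Subtype.ext
      have h2 : (x : G) = s * (s⁻¹ * x * s) * s⁻¹ := by group
      rw [h2, h]; simp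
    · have h2 : (s⁻¹ * (g:G) * s)⁻¹ * (s⁻¹ * x * s) * (s⁻¹ * g * s) =
          s⁻¹ * ((g:G)⁻¹ * x * g) * s := by group
      rw [h2]
      simpa using hgx.2

theorem main.{u} : ∀ (N : ℕ) (G : Type u) [Group G] [Finite G], Nat.card G = N →
    ∀ (H H₀ : Subgroup G), Cfsg.IsFrobeniusComplement H → Cfsg.IsFrobeniusComplement H₀ →
    Nat.card H₀ ≤ Nat.card H → ∃ g : G, MulAut.conj g • H₀ ≤ H := by
  intro N
  induction N using Nat.strong_induction_on with
  | _ N IH =>
    intro G _ _ hN H H₀ hH hH₀ hle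
    classical
    by_cases hex : ∃ t : G, H₀ ⊓ MulAut.conj t • H = H₀
    · obtain ⟨t, ht⟩ := hex
      refine ⟨t⁻¹, ?_⟩
      intro x hx
      rw [fc_mem_conj_smul_iff] at hx
      rw [← ht, mem_D] at hx
      have h2 : t⁻¹ * (t⁻¹⁻¹ * x * t⁻¹) * t = x := by group
      rw [h2] at hx
      exact hx.2
    · exfalso
      push Not at hex
      have hn := fc_kernel_card H hH
      have hn₀ := fc_kernel_card H₀ hH₀
      have hmn := Subgroup.card_mul_index H
      have hmn₀ := Subgroup.card_mul_index H₀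
      have hm2 : 2 ≤ Nat.card H := by
        have h1 : Nat.card H ≠ 1 := fun h => hH.1 ((Subgroup.eq_bot_iff_card H).mpr h)
        have h0 : 0 < Nat.card H := Nat.card_pos
        omega
      have hm₀2 : 2 ≤ Nat.card H₀ := by
        have h1 : Nat.card H₀ ≠ 1 := fun h => hH₀.1 ((Subgroup.eq_bot_iff_card H₀).mpr h)
        have h0 : 0 < Nat.card H₀ := Nat.card_pos
        omega
      have hGpos : 0 < Nat.card G := Nat.card_pos
      have hnn₀ : H.index ≤ H₀.index := by
        have h1 : H.index * Nat.card H₀ ≤ H₀.index * Nat.card H₀ := by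
          calc H.index * Nat.card H₀ ≤ H.index * Nat.card H := Nat.mul_le_mul_left _ hle
            _ = H₀.index * Nat.card H₀ := by rw [mul_comm, hmn, mul_comm, hmn₀]
        exact Nat.le_of_mul_le_mul_right h1 (by omega)
      have hov : ∃ t : G, H₀ ⊓ MulAut.conj t • H ≠ ⊥ := by
        have hy : ∃ y : G, y ∉ Cfsg.frobeniusKernel H ∧ y ∉ Cfsg.frobeniusKernel H₀ := by
          by_contra hcon
          push Not at hcon
          have hun : Cfsg.frobeniusKernel H ∪ Cfsg.frobeniusKernel H₀ = Set.univ := by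
            ext y; simp only [Set.mem_union, Set.mem_univ, iff_true]
            by_cases h : y ∈ Cfsg.frobeniusKernel H
            · exact Or.inl h
            · exact Or.inr (hcon y h)
          have h1 := Set.ncard_union_add_ncard_inter (Cfsg.frobeniusKernel H)
            (Cfsg.frobeniusKernel H₀)
          rw [hun, Set.ncard_univ] at h1
          have h2 : 1 ≤ (Cfsg.frobeniusKernel H ∩ Cfsg.frobeniusKernel H₀).ncard := by
            rw [Nat.succ_le_iff, Set.ncard_pos]
            exact ⟨1, Or.inl rfl, Or.inl rfl⟩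
          rw [← Nat.card_coe_set_eq (Cfsg.frobeniusKernel H),
            ← Nat.card_coe_set_eq (Cfsg.frobeniusKernel H₀), hn, hn₀] at h1
          have h3 : 2 * H.index ≤ Nat.card G := by
            rw [← hmn]; exact Nat.mul_le_mul_right _ hm2
          have h4 : 2 * H₀.index ≤ Nat.card G := by
            rw [← hmn₀]; exact Nat.mul_le_mul_right _ hm₀2
          omega
        obtain ⟨y, hy1, hy2⟩ := hy
        rw [fc_mem_kernel_iff] at hy1 hy2
        push Not at hy1 hy2
        obtain ⟨hy1', g, hg⟩ := hy1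
        obtain ⟨_, g₀, hg₀⟩ := hy2
        refine ⟨g₀⁻¹ * g, ?_⟩
        intro h
        have hmem : g₀⁻¹ * y * g₀ ∈ H₀ ⊓ MulAut.conj (g₀⁻¹ * g) • H := by
          rw [mem_D]
          refine ⟨hg₀, ?_⟩
          have h2 : (g₀⁻¹ * g)⁻¹ * (g₀⁻¹ * y * g₀) * (g₀⁻¹ * g) = g⁻¹ * y * g := by group
          rw [h2]; exact hg
        rw [h, Subgroup.mem_bot] at hmem
        apply hy1'
        have h3 : y = g₀ * (g₀⁻¹ * y * g₀) * g₀⁻¹ := by group
        rw [h3, hmem]; group
      obtain ⟨t₀, ht₀⟩ := hov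
      haveI : Nonempty {t : G // H₀ ⊓ MulAut.conj t • H ≠ ⊥} := ⟨⟨t₀, ht₀⟩⟩
      obtain ⟨⟨t, ht⟩, hmax⟩ := Finite.exists_max
        (fun t : {t : G // H₀ ⊓ MulAut.conj t • H ≠ ⊥} =>
          Nat.card (H₀ ⊓ MulAut.conj t.1 • H : Subgroup G))
      have hmax' : ∀ s : G, H₀ ⊓ MulAut.conj s • H ≠ ⊥ →
          Nat.card (H₀ ⊓ MulAut.conj s • H : Subgroup G) ≤
            Nat.card (H₀ ⊓ MulAut.conj t • H : Subgroup G) := fun s hs => hmax ⟨s, hs⟩
      have hFD := D_frob H H₀ hH t ht (hex t)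
      have hcardH₀ : Nat.card H₀ < N := by
        rw [← hN]
        have h1 : H₀.index ≠ 1 := fun h => hH₀.2.1 (Subgroup.index_eq_one.mp h)
        have h2 : H₀.index ≠ 0 := Subgroup.index_ne_zero_of_finite
        calc Nat.card H₀ < Nat.card H₀ * 2 := by omega
          _ ≤ Nat.card H₀ * H₀.index := Nat.mul_le_mul_left _ (by omega)
          _ = Nat.card G := hmn₀
      have hconj : ∀ s : G, H₀ ⊓ MulAut.conj s • H ≠ ⊥ → ∃ x : G, x ∈ H₀ ∧
          ∀ z ∈ H₀ ⊓ MulAut.conj s • H, x * z * x⁻¹ ∈ H₀ ⊓ MulAut.conj t • H := by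
        intro s hs
        have hFs := D_frob H H₀ hH s hs (hex s)
        have hc : Nat.card ((H₀ ⊓ MulAut.conj s • H).subgroupOf H₀) ≤
            Nat.card ((H₀ ⊓ MulAut.conj t • H).subgroupOf H₀) := by
          rw [Nat.card_congr (Subgroup.subgroupOfEquivOfLe
              (inf_le_left : H₀ ⊓ MulAut.conj s • H ≤ H₀)).toEquiv,
            Nat.card_congr (Subgroup.subgroupOfEquivOfLe
              (inf_le_left : H₀ ⊓ MulAut.conj t • H ≤ H₀)).toEquiv]
          exact hmax' s hs
        obtain ⟨x, hx⟩ := IH (Nat.card H₀) hcardH₀ H₀ rfl _ _ hFD hFs hc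
        refine ⟨x, x.2, ?_⟩
        intro z hz
        have hzH₀ : z ∈ H₀ := hz.1
        have h1 : x * ⟨z, hzH₀⟩ * x⁻¹ ∈
            MulAut.conj x • (H₀ ⊓ MulAut.conj s • H).subgroupOf H₀ := by
          rw [fc_mem_conj_smul_iff]
          have h2 : x⁻¹ * (x * ⟨z, hzH₀⟩ * x⁻¹) * x = ⟨z, hzH₀⟩ := by group
          rw [h2, Subgroup.mem_subgroupOf]
          exact hz
        have h3 := hx h1
        rw [Subgroup.mem_subgroupOf] at h3
        simpa using h3
      have hidx : 2 ≤ ((H₀ ⊓ MulAut.conj t • H).subgroupOf H₀).index := by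
        have h1 : ((H₀ ⊓ MulAut.conj t • H).subgroupOf H₀).index ≠ 1 :=
          fun h => hFD.2.1 (Subgroup.index_eq_one.mp h)
        have h2 : ((H₀ ⊓ MulAut.conj t • H).subgroupOf H₀).index ≠ 0 :=
          Subgroup.index_ne_zero_of_finite
        omega
      have hkD := fc_kernel_card _ hFD
      have hy₀ : ∃ y₀ : H₀, y₀ ∈ Cfsg.frobeniusKernel
          ((H₀ ⊓ MulAut.conj t • H).subgroupOf H₀) ∧ y₀ ≠ 1 := by
        by_contra hcon
        push Not at hcon
        have hsub : Cfsg.frobeniusKernel ((H₀ ⊓ MulAut.conj t • H).subgroupOf H₀) ⊆ {1} :=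
          fun y hy => hcon y hy
        have h1 := Set.ncard_le_ncard hsub (Set.finite_singleton _)
        rw [Set.ncard_singleton, ← Nat.card_coe_set_eq, hkD] at h1
        omega
      obtain ⟨y₀, hy₀K, hy₀1⟩ := hy₀
      rw [fc_mem_kernel_iff] at hy₀K
      have hyK := hy₀K.resolve_left hy₀1
      have hy1 : (y₀ : G) ≠ 1 := fun h => hy₀1 (Subtype.ext h)
      have hb : ∀ g : G, g⁻¹ * (y₀ : G) * g ∉ H := by
        intro g hg
        have hyD : (y₀ : G) ∈ H₀ ⊓ MulAut.conj g • H := (mem_D H H₀ g y₀).mpr ⟨y₀.2, hg⟩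
        have hDne : H₀ ⊓ MulAut.conj g • H ≠ ⊥ := by
          intro h
          rw [h, Subgroup.mem_bot] at hyD
          exact hy1 hyD
        obtain ⟨x, hxH₀, hx⟩ := hconj g hDne
        have h1 := hx _ hyD
        apply hyK (⟨x, hxH₀⟩⁻¹)
        rw [Subgroup.mem_subgroupOf]
        simpa using h1
      have h1K : (1 : G) ∈ Cfsg.frobeniusKernel H := (fc_mem_kernel_iff H 1).mpr (Or.inl rfl)
      have hmemK : ∀ c : G, c * (y₀ : G) * c⁻¹ ∈ Cfsg.frobeniusKernel H := by
        intro c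
        rw [fc_mem_kernel_iff]
        right
        intro g hg
        have h2 : g⁻¹ * (c * (y₀ : G) * c⁻¹) * g = (c⁻¹ * g)⁻¹ * (y₀ : G) * (c⁻¹ * g) := by
          group
        rw [h2] at hg
        exact hb _ hg
      have hinj : Function.Injective (fun o : Option (G ⧸ H₀) =>
          (o.elim ⟨1, h1K⟩ (fun q => ⟨q.out * (y₀ : G) * q.out⁻¹, hmemK q.out⟩) :
            Cfsg.frobeniusKernel H)) := by
        intro o o' hoo
        rcases o with _ | q <;> rcases o' with _ | q'
        · rfl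
        · exfalso
          have h2 : (1 : G) = q'.out * (y₀ : G) * q'.out⁻¹ := congrArg Subtype.val hoo
          apply hy1
          have h3 : (y₀ : G) = q'.out⁻¹ * (q'.out * (y₀ : G) * q'.out⁻¹) * q'.out := by group
          rw [h3, ← h2]; group
        · exfalso
          have h2 : q.out * (y₀ : G) * q.out⁻¹ = (1 : G) := congrArg Subtype.val hoo
          apply hy1
          have h3 : (y₀ : G) = q.out⁻¹ * (q.out * (y₀ : G) * q.out⁻¹) * q.out := by group
          rw [h3, h2]; group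
        · have h2 : q.out * (y₀ : G) * q.out⁻¹ = q'.out * (y₀ : G) * q'.out⁻¹ :=
            congrArg Subtype.val hoo
          congr 1
          rw [← QuotientGroup.out_eq' q, ← QuotientGroup.out_eq' q', QuotientGroup.eq]
          apply fc_mal H₀ hH₀ _ (y₀ : G) y₀.2 hy1
          have h3 : (q.out⁻¹ * q'.out)⁻¹ * (y₀ : G) * (q.out⁻¹ * q'.out) =
              q'.out⁻¹ * (q.out * (y₀ : G) * q.out⁻¹) * q'.out := by group
          rw [h3, h2]
          have h4 : q'.out⁻¹ * (q'.out * (y₀ : G) * q'.out⁻¹) * q'.out = (y₀ : G) := by group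
          rw [h4]; exact y₀.2
      have hcard := Nat.card_le_card_of_injective _ hinj
      rw [Finite.card_option, hn] at hcard
      have h5 : Nat.card (G ⧸ H₀) = H₀.index := rfl
      omega

end

/-- Of two Frobenius complements in one finite group, the one of smaller (or equal) order is conjugate to a subgroup of the other. -/
theorem result {G : Type*} [Group G] [Finite G] (H H₀ : Subgroup G)
    (hH : Cfsg.IsFrobeniusComplement H) (hH₀ : Cfsg.IsFrobeniusComplement H₀) (hle : Nat.card H₀ ≤ Nat.card H) :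
    ∃ g : G, MulAut.conj g • H₀ ≤ H := by
  exact main (Nat.card G) G rfl H H₀ hH hH₀ hle

end Cfsg.Agent.S0037
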