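import Cfsg.Statements.S0046
import Mathlib
import Cfsg.Agent.Lib.Helper9.ProperNilp

set_option autoImplicit false
open Cfsg

namespace Cfsg.Agent.S0046

/-- Schmidt's Theorem on minimal non-nilpotent groups: a finite group in which every maximal subgroup is nilpotent is solvable. -/
theorem result {G : Type*} [Group G] [Finite G]
    (h : ∀ M : Subgroup G, IsCoatom M → Group.IsNilpotent M) : Group.IsSolvable G := by
  apply Cfsg.Agent.Lib.Helper9.isSolvable_of_proper_nilpotent (Nat.card G) G le_rfl
  intro H hH
  obtain ⟨M, hM, hHM⟩ := (eq_top_or_exists_le_coatom H).resolve_left hH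
  have hMn := h M hM
  have h1 : Group.IsNilpotent (H.subgroupOf M) := inferInstance
  exact Group.nilpotent_of_mulEquiv (Subgroup.subgroupOfEquivOfLe hHM)

end Cfsg.Agent.S0046
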