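import Cfsg.Statements.S0047
-- import your own Cfsg.Agent.* helpers here
import Mathlib.Tactic.Group
import Mathlib.GroupTheory.Subgroup.Centralizer

set_option autoImplicit false
open Cfsg

namespace Cfsg.Agent.S0047

theorem conj_eq_of_comm {G : Type*} [Group G] {x y : G} (h : x * y = y * x) :
    x * y * x⁻¹ = y := by
  rw [h, mul_inv_cancel_right]

theorem key {G : Type*} [Group G] (A B : Subgroup G)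
    (hA : ∀ x ∈ A, ∀ y ∈ A, x * y = y * x) (hB : ∀ x ∈ B, ∀ y ∈ B, x * y = y * x)
    (hAB : ∀ g : G, ∃ a ∈ A, ∃ b ∈ B, g = a * b)
    (a : G) (ha : a ∈ A) (b : G) (hb : b ∈ B) (a₁ : G) (ha₁ : a₁ ∈ A) (b₁ : G) (hb₁ : b₁ ∈ B) :
    (b₁ * a₁) * (a * b * a⁻¹ * b⁻¹) * (b₁ * a₁)⁻¹ =
      (a₁ * b₁) * (a * b * a⁻¹ * b⁻¹) * (a₁ * b₁)⁻¹ := by
  have hBA : ∀ g : G, ∃ b ∈ B, ∃ a ∈ A, g = b * a := by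
    intro g
    obtain ⟨a, ha, b, hb, h⟩ := hAB g⁻¹
    refine ⟨b⁻¹, B.inv_mem hb, a⁻¹, A.inv_mem ha, ?_⟩
    rw [← mul_inv_rev, ← h, inv_inv]
  obtain ⟨a₃, ha₃, b₃, hb₃, h3⟩ := hAB (b₁ * a * b₁⁻¹)
  obtain ⟨b₂, hb₂, a₂, ha₂, h2⟩ := hBA (a₁ * b * a₁⁻¹)
  have e1 : a₁ * a * a₁⁻¹ = a := conj_eq_of_comm (hA a₁ ha₁ a ha)
  have e2 : a₂ * a⁻¹ * a₂⁻¹ = a⁻¹ := conj_eq_of_comm (hA a₂ ha₂ a⁻¹ (A.inv_mem ha))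
  have e3 : b₁ * b₂ * b₁⁻¹ = b₂ := conj_eq_of_comm (hB b₁ hb₁ b₂ hb₂)
  have e4 : b₃ * b₂ * b₃⁻¹ = b₂ := conj_eq_of_comm (hB b₃ hb₃ b₂ hb₂)
  have e5 : b₁ * b * b₁⁻¹ = b := conj_eq_of_comm (hB b₁ hb₁ b hb)
  have e6 : b₃ * b * b₃⁻¹ = b := conj_eq_of_comm (hB b₃ hb₃ b hb)
  have e7 : a₁ * a₃ * a₁⁻¹ = a₃ := conj_eq_of_comm (hA a₁ ha₁ a₃ ha₃)
  have e8 : a₂ * a₃⁻¹ * a₂⁻¹ = a₃⁻¹ := conj_eq_of_comm (hA a₂ ha₂ a₃⁻¹ (A.inv_mem ha₃))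
  have L : (b₁ * a₁) * (a * b * a⁻¹ * b⁻¹) * (b₁ * a₁)⁻¹ = a₃ * b₂ * a₃⁻¹ * b₂⁻¹ := by
    calc (b₁ * a₁) * (a * b * a⁻¹ * b⁻¹) * (b₁ * a₁)⁻¹
        = b₁ * ((a₁*a*a₁⁻¹) * (a₁*b*a₁⁻¹) * (a₁*a*a₁⁻¹)⁻¹ * (a₁*b*a₁⁻¹)⁻¹) * b₁⁻¹ := by group
      _ = b₁ * (a * (b₂*a₂) * a⁻¹ * (b₂*a₂)⁻¹) * b₁⁻¹ := by rw [e1, h2]
      _ = b₁ * (a * b₂ * (a₂ * a⁻¹ * a₂⁻¹) * b₂⁻¹) * b₁⁻¹ := by group
      _ = b₁ * (a * b₂ * a⁻¹ * b₂⁻¹) * b₁⁻¹ := by rw [e2]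
      _ = (b₁*a*b₁⁻¹) * (b₁*b₂*b₁⁻¹) * (b₁*a*b₁⁻¹)⁻¹ * (b₁*b₂*b₁⁻¹)⁻¹ := by group
      _ = (a₃*b₃) * b₂ * (a₃*b₃)⁻¹ * b₂⁻¹ := by rw [e3, h3]
      _ = a₃ * (b₃ * b₂ * b₃⁻¹) * a₃⁻¹ * b₂⁻¹ := by group
      _ = a₃ * b₂ * a₃⁻¹ * b₂⁻¹ := by rw [e4]
  have R : (a₁ * b₁) * (a * b * a⁻¹ * b⁻¹) * (a₁ * b₁)⁻¹ = a₃ * b₂ * a₃⁻¹ * b₂⁻¹ := by
    calc (a₁ * b₁) * (a * b * a⁻¹ * b⁻¹) * (a₁ * b₁)⁻¹
        = a₁ * ((b₁*a*b₁⁻¹) * (b₁*b*b₁⁻¹) * (b₁*a*b₁⁻¹)⁻¹ * (b₁*b*b₁⁻¹)⁻¹) * a₁⁻¹ := by group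
      _ = a₁ * ((a₃*b₃) * b * (a₃*b₃)⁻¹ * b⁻¹) * a₁⁻¹ := by rw [e5, h3]
      _ = a₁ * (a₃ * (b₃*b*b₃⁻¹) * a₃⁻¹ * b⁻¹) * a₁⁻¹ := by group
      _ = a₁ * (a₃ * b * a₃⁻¹ * b⁻¹) * a₁⁻¹ := by rw [e6]
      _ = (a₁*a₃*a₁⁻¹) * (a₁*b*a₁⁻¹) * (a₁*a₃*a₁⁻¹)⁻¹ * (a₁*b*a₁⁻¹)⁻¹ := by group
      _ = a₃ * (b₂*a₂) * a₃⁻¹ * (b₂*a₂)⁻¹ := by rw [e7, h2]
      _ = a₃ * b₂ * (a₂ * a₃⁻¹ * a₂⁻¹) * b₂⁻¹ := by group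
      _ = a₃ * b₂ * a₃⁻¹ * b₂⁻¹ := by rw [e8]
  rw [L, R]

/-- A finite group which is the product AB of two abelian subgroups A and B is solvable. -/
theorem result {G : Type*} [Group G] [Finite G] (A B : Subgroup G)
    [IsMulCommutative A] [IsMulCommutative B] (hAB : ∀ g : G, ∃ a ∈ A, ∃ b ∈ B, g = a * b) :
    Group.IsSolvable G := by
  classical
  have hA : ∀ x ∈ A, ∀ y ∈ A, x * y = y * x := fun x hx y hy =>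
    congrArg Subtype.val (mul_comm' (⟨x, hx⟩ : A) ⟨y, hy⟩)
  have hB : ∀ x ∈ B, ∀ y ∈ B, x * y = y * x := fun x hx y hy =>
    congrArg Subtype.val (mul_comm' (⟨x, hx⟩ : B) ⟨y, hy⟩)
  let N : Subgroup G := ⁅A, B⁆
  have hsup : A ⊔ B = ⊤ := by
    rw [eq_top_iff]
    intro g _
    obtain ⟨a, ha, b, hb, rfl⟩ := hAB g
    exact Subgroup.mul_mem_sup ha hb
  have hNn : N.Normal := by
    rw [← Subgroup.normalizer_eq_top_iff, eq_top_iff, ← hsup]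
    exact sup_le (Subgroup.normalizer_commutator_ge_left A B) (Subgroup.normalizer_commutator_ge_right A B)
  have hcomm : ∀ a ∈ A, ∀ b ∈ B, ∀ a₁ ∈ A, ∀ b₁ ∈ B,
      (a₁ * b₁ * a₁⁻¹ * b₁⁻¹) * (a * b * a⁻¹ * b⁻¹) =
        (a * b * a⁻¹ * b⁻¹) * (a₁ * b₁ * a₁⁻¹ * b₁⁻¹) := by
    intro a ha b hb a₁ ha₁ b₁ hb₁
    have k := key A B hA hB hAB a ha b hb a₁⁻¹ (A.inv_mem ha₁) b₁⁻¹ (B.inv_mem hb₁)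
    generalize a * b * a⁻¹ * b⁻¹ = c at k ⊢
    have h1 : (b₁ * a₁ * b₁⁻¹ * a₁⁻¹) * c = c * (b₁ * a₁ * b₁⁻¹ * a₁⁻¹) := by
      calc (b₁ * a₁ * b₁⁻¹ * a₁⁻¹) * c
          = (a₁⁻¹ * b₁⁻¹)⁻¹ * ((b₁⁻¹ * a₁⁻¹) * c * (b₁⁻¹ * a₁⁻¹)⁻¹) * (b₁⁻¹ * a₁⁻¹) := by group
        _ = (a₁⁻¹ * b₁⁻¹)⁻¹ * ((a₁⁻¹ * b₁⁻¹) * c * (a₁⁻¹ * b₁⁻¹)⁻¹) * (b₁⁻¹ * a₁⁻¹) := by rw [k]
        _ = c * (b₁ * a₁ * b₁⁻¹ * a₁⁻¹) := by group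
    have h2 : Commute (b₁ * a₁ * b₁⁻¹ * a₁⁻¹) c := h1
    have h3 : a₁ * b₁ * a₁⁻¹ * b₁⁻¹ = (b₁ * a₁ * b₁⁻¹ * a₁⁻¹)⁻¹ := by group
    rw [h3]
    exact h2.inv_left.eq
  have hNc : IsMulCommutative N := by
    show IsMulCommutative (⁅A, B⁆ : Subgroup G)
    rw [Subgroup.commutator_def]
    apply Subgroup.isMulCommutative_closure
    rintro x ⟨a₁, ha₁, b₁, hb₁, rfl⟩ y ⟨a, ha, b, hb, rfl⟩
    exact hcomm a ha b hb a₁ ha₁ b₁ hb₁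
  let π := QuotientGroup.mk' N
  have hQc : ∀ x y : G ⧸ N, x * y = y * x := by
    intro x y
    obtain ⟨g, rfl⟩ := QuotientGroup.mk'_surjective N x
    obtain ⟨g', rfl⟩ := QuotientGroup.mk'_surjective N y
    obtain ⟨a, ha, b, hb, rfl⟩ := hAB g
    obtain ⟨a', ha', b', hb', rfl⟩ := hAB g'
    have hab : ∀ a ∈ A, ∀ b ∈ B, π a * π b = π b * π a := by
      intro a ha b hb
      rw [← map_mul, ← map_mul]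
      apply (QuotientGroup.eq).mpr
      have h0 : (a * b)⁻¹ * (b * a) = b⁻¹ * a⁻¹ * b⁻¹⁻¹ * a⁻¹⁻¹ := by group
      rw [h0]
      have h1 : b⁻¹ * a⁻¹ * b⁻¹⁻¹ * a⁻¹⁻¹ ∈ (⁅B, A⁆ : Subgroup G) :=
        Subgroup.commutator_mem_commutator (B.inv_mem hb) (A.inv_mem ha)
      rw [Subgroup.commutator_comm] at h1
      exact h1
    have haa : π a * π a' = π a' * π a := by rw [← map_mul, ← map_mul, hA a ha a' ha']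
    have hbb : π b * π b' = π b' * π b := by rw [← map_mul, ← map_mul, hB b hb b' hb']
    show π (a * b) * π (a' * b') = π (a' * b') * π (a * b)
    simp only [map_mul]
    calc π a * π b * (π a' * π b') = π a * (π b * π a') * π b' := by group
      _ = π a * (π a' * π b) * π b' := by rw [hab a' ha' b hb]
      _ = (π a * π a') * (π b * π b') := by group
      _ = (π a' * π a) * (π b' * π b) := by rw [haa, hbb]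
      _ = π a' * (π a * π b') * π b := by group
      _ = π a' * (π b' * π a) * π b := by rw [hab a ha b' hb']
      _ = π a' * π b' * (π a * π b) := by group
  have hNs : Group.IsSolvable N := Group.isSolvable_of_comm (fun x y => mul_comm' x y)
  have hQs : Group.IsSolvable (G ⧸ N) := Group.isSolvable_of_comm hQc
  exact Group.isSolvable_of_ker_le_range N.subtype (QuotientGroup.mk' N) (by simp)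

end Cfsg.Agent.S0047
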