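import Cfsg.Statements.S0049
-- import your own Cfsg.Agent.* helpers here
import Mathlib.GroupTheory.SchurZassenhaus
import Mathlib.GroupTheory.Sylow

set_option autoImplicit false
open Cfsg

namespace Cfsg.Agent.S0049

/-- A prime divisor of the order of a finite group also divides the index of the Frattini subgroup. -/
theorem result {G : Type*} [Group G] [Finite G] (p : ℕ) (hp : p.Prime) (hdvd : p ∣ Nat.card G) :
    p ∣ (frattini G).index := by
  classical
  have : Fact p.Prime := ⟨hp⟩
  by_contra hnd
  obtain ⟨P⟩ : Nonempty (Sylow p G) := inferInstance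
  have hPle : (P : Subgroup G) ≤ frattini G := by
    rw [← Subgroup.relIndex_eq_one]
    have h1 : (frattini G).relIndex P ∣ (frattini G).index :=
      Subgroup.relIndex_dvd_index_of_normal _ _
    have h2 : (frattini G).relIndex P ∣ Nat.card P := Subgroup.relIndex_dvd_card _ _
    obtain ⟨k, hk⟩ := IsPGroup.iff_card.mp P.isPGroup'
    rw [hk] at h2
    obtain ⟨j, -, hj⟩ := (Nat.dvd_prime_pow hp).mp h2
    rw [hj] at h1 ⊢
    cases j with
    | zero => simp
    | succ j => exact absurd (dvd_trans (dvd_pow_self p (Nat.succ_ne_zero j)) h1) hnd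
  have h3 : Subgroup.normalizer (P : Set G) ⊔ frattini G = ⊤ :=
    Sylow.normalizer_sup_eq_top' P hPle
  have h4 := frattini_nongenerating h3
  have hPn : (P : Subgroup G).Normal := Subgroup.normalizer_eq_top_iff.mp h4
  obtain ⟨H, hc⟩ := Subgroup.exists_right_complement'_of_coprime (N := (P : Subgroup G))
    P.card_coprime_index
  have hsup : (P : Subgroup G) ⊔ H = ⊤ := hc.sup_eq_top
  have hdisj : (P : Subgroup G) ⊓ H = ⊥ := hc.disjoint.eq_bot
  have h5 : H ⊔ frattini G = ⊤ := by
    rw [eq_top_iff, ← hsup]
    exact sup_le (le_sup_of_le_right hPle) le_sup_left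
  have h6 : H = ⊤ := frattini_nongenerating h5
  rw [h6, inf_top_eq] at hdisj
  exact P.ne_bot_of_dvd_card hdvd hdisj

end Cfsg.Agent.S0049
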