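import Cfsg.Statements.S0050
-- import your own Cfsg.Agent.* helpers here
import Cfsg.Agent.Lib.Helper7.Hall

set_option autoImplicit false
open Cfsg

namespace Cfsg.Agent.S0050

section
open scoped Pointwise
open Cfsg.Agent.Lib.Helper7

theorem main {G : Type*} [Group G] [Finite G] (L : Subgroup G) [L.Normal] (hL : Group.IsSolvable L)
    (H : Subgroup G) (hHL : H ≤ L) (hHall : (Nat.card H).Coprime (H.relIndex L)) :
    L ⊔ Subgroup.normalizer (H : Set G) = ⊤ := by
  rw [eq_top_iff]
  intro g _
  have hBL : MulAut.conj g • H ≤ L := by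
    intro x hx
    rw [mem_conj_smul_iff] at hx
    have h1 : x = g * (g⁻¹ * x * g) * g⁻¹ := by group
    rw [h1]
    exact ‹L.Normal›.conj_mem _ (hHL hx) g
  have hcL : Nat.card L = Nat.card H * H.relIndex L := (card_mul_relIndex_of_le hHL).symm
  obtain ⟨l, hl⟩ := hall_conj (Nat.card L) L le_rfl (Nat.card H) (H.relIndex L) hcL hHall
    (H.subgroupOf L) ((MulAut.conj g • H).subgroupOf L) (card_subgroupOf_of_le hHL)
    (by rw [card_subgroupOf_of_le hBL, card_conj_smul])
  have h2 : MulAut.conj (l : G) • H = MulAut.conj g • H := conj_of_subgroupOf hHL hBL l hl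
  have h3 : (l : G)⁻¹ * g ∈ Subgroup.normalizer (H : Set G) := by
    rw [mem_normalizer_iff_conj_smul, ← conj_smul_conj_smul, ← h2, conj_smul_conj_smul,
      inv_mul_cancel, map_one, one_smul]
  have h4 : g = (l : G) * ((l : G)⁻¹ * g) := by group
  rw [h4]
  exact Subgroup.mul_mem_sup l.2 h3

end

/-- Frattini argument for Hall subgroups: if L is a solvable normal subgroup and H a subgroup of L of order coprime to its index in L, then L together with the normaliser of H generates the whole group. -/
theorem result {G : Type*} [Group G] [Finite G] (L : Subgroup G) [L.Normal] (hL : Group.IsSolvable L)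
    (H : Subgroup G) (hHL : H ≤ L) (hHall : (Nat.card H).Coprime (H.relIndex L)) :
    L ⊔ Subgroup.normalizer (H : Set G) = ⊤ := by
  exact main L hL H hHL hHall

end Cfsg.Agent.S0050
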