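import Cfsg.Statements.S0053
-- import your own Cfsg.Agent.* helpers here
import Mathlib.Tactic.Group

set_option autoImplicit false
open Cfsg

namespace Cfsg.Agent.S0053

/-- An abelian minimal normal subgroup N of a finite group is complemented exactly when N is not inside the Frattini subgroup. -/
theorem result {G : Type*} [Group G] [Finite G]
    (N : Subgroup G) [N.Normal] [IsMulCommutative N] (hN : N ≠ ⊥)
    (hmin : ∀ M : Subgroup G, M.Normal → M ≤ N → M = ⊥ ∨ M = N) :
    (∃ H : Subgroup G, Subgroup.IsComplement' N H) ↔ ¬ N ≤ frattini G := by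
  classical
  constructor
  · rintro ⟨H, hc⟩ hle
    have hsup : N ⊔ H = ⊤ := hc.sup_eq_top
    have hdisj : N ⊓ H = ⊥ := hc.disjoint.eq_bot
    have h1 : H ⊔ frattini G = ⊤ := by
      rw [eq_top_iff, ← hsup]
      exact sup_le (le_sup_of_le_right hle) le_sup_left
    have h2 : H = ⊤ := frattini_nongenerating h1
    apply hN
    rw [h2, inf_top_eq] at hdisj
    exact hdisj
  · intro hnle
    have hex : ∃ M : Subgroup G, IsCoatom M ∧ ¬ N ≤ M := by
      by_contra hcon
      apply hnle
      unfold frattini Order.radical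
      simp only [le_iInf_iff]
      intro M hM
      by_contra hNM
      exact hcon ⟨M, hM, hNM⟩
    obtain ⟨M, hM, hNM⟩ := hex
    have hsup : N ⊔ M = ⊤ := by
      apply hM.2
      refine lt_of_le_of_ne le_sup_right ?_
      intro h
      apply hNM
      rw [h]; exact le_sup_left
    have hinfn : (N ⊓ M).Normal := by
      constructor
      intro x hx g
      have hg : g ∈ N ⊔ M := by rw [hsup]; trivial
      obtain ⟨n, hn, m, hm, rfl⟩ := Subgroup.mem_sup_of_normal_left.mp hg
      obtain ⟨hxN, hxM⟩ := Subgroup.mem_inf.mp hx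
      have hyN : m * x * m⁻¹ ∈ N := ‹N.Normal›.conj_mem x hxN m
      have hyM : m * x * m⁻¹ ∈ M := M.mul_mem (M.mul_mem hm hxM) (M.inv_mem hm)
      have hcomm : n * (m * x * m⁻¹) = (m * x * m⁻¹) * n := by
        have h0 := mul_comm' (⟨n, hn⟩ : N) ⟨m * x * m⁻¹, hyN⟩
        exact congrArg Subtype.val h0
      have h3 : n * m * x * (n * m)⁻¹ = m * x * m⁻¹ := by
        calc n * m * x * (n * m)⁻¹ = n * (m * x * m⁻¹) * n⁻¹ := by group
          _ = (m * x * m⁻¹) * n * n⁻¹ := by rw [hcomm]
          _ = m * x * m⁻¹ := by rw [mul_inv_cancel_right]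
      rw [h3]
      exact Subgroup.mem_inf.mpr ⟨hyN, hyM⟩
    have hinf : N ⊓ M = ⊥ := by
      rcases hmin (N ⊓ M) hinfn inf_le_left with h | h
      · exact h
      · exact absurd (h ▸ inf_le_right : N ≤ M) hNM
    refine ⟨M, Subgroup.isComplement'_of_disjoint_and_mul_eq_univ (disjoint_iff.mpr hinf) ?_⟩
    rw [← Subgroup.normal_mul, hsup, Subgroup.coe_top]

end Cfsg.Agent.S0053
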