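import Cfsg.Statements.S0054
-- import your own Cfsg.Agent.* helpers here
import Mathlib

set_option autoImplicit false
open Cfsg

namespace Cfsg.Agent.S0054

/-- A regular normal subgroup of a finite 2-transitive group is elementary abelian: it is commutative and all its elements have order dividing one prime. -/
theorem result {G : Type*} [Group G] [Finite G]
    {X : Type*} [Nonempty X] [MulAction G X] (h2 : MulAction.IsMultiplyPretransitive G X 2)
    (N : Subgroup G) [N.Normal] (htrans : MulAction.IsPretransitive N X) (hreg : ∀ x : X, MulAction.stabilizer N x = ⊥) :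
    IsMulCommutative N ∧ ∃ p : ℕ, p.Prime ∧ ∀ n ∈ N, n ^ p = 1 := by
  classical
  obtain ⟨x⟩ := ‹Nonempty X›
  have hNn : N.Normal := inferInstance
  have h2' : ∀ (a b c d : X), a ≠ b → c ≠ d → ∃ g : G, g • a = c ∧ g • b = d :=
    fun a b c d hab hcd => MulAction.is_two_pretransitive_iff.mp h2 hab hcd
  have hfree : ∀ n : G, n ∈ N → n • x = x → n = 1 := by
    intro n hn hnx
    have h0 : (⟨n, hn⟩ : N) ∈ MulAction.stabilizer N x := hnx
    rw [hreg x, Subgroup.mem_bot] at h0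
    exact congrArg Subtype.val h0
  have hconj : ∀ n n' : G, n ∈ N → n' ∈ N → n ≠ 1 → n' ≠ 1 → ∃ g : G, g * n * g⁻¹ = n' := by
    intro n n' hn hn' h1 h1'
    have hx1 : x ≠ n • x := fun h => h1 (hfree n hn h.symm)
    have hx2 : x ≠ n' • x := fun h => h1' (hfree n' hn' h.symm)
    obtain ⟨g, hg1, hg2⟩ := h2' _ _ _ _ hx1 hx2
    refine ⟨g, ?_⟩
    have h3 : (n'⁻¹ * (g * n * g⁻¹)) • x = x := by
      rw [mul_smul, mul_smul, mul_smul]
      have h5 : g⁻¹ • x = x := by rw [inv_smul_eq_iff, hg1]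
      rw [h5, hg2, inv_smul_smul]
    have h4 := hfree _ (N.mul_mem (N.inv_mem hn') (hNn.conj_mem n hn g)) h3
    exact (inv_mul_eq_one.mp h4).symm
  by_cases hN : N = ⊥
  · subst hN
    refine ⟨⟨⟨fun a b => Subsingleton.elim _ _⟩⟩, 2, Nat.prime_two, ?_⟩
    intro n hn
    rw [Subgroup.mem_bot.mp hn, one_pow]
  · obtain ⟨z0, hz0N, hz01⟩ : ∃ z ∈ N, z ≠ 1 := by
      by_contra hcon
      push Not at hcon
      exact hN ((Subgroup.eq_bot_iff_forall N).mpr hcon)
    have ho : orderOf z0 ≠ 1 := fun h => hz01 (orderOf_eq_one_iff.mp h)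
    obtain ⟨p, hp, hpd⟩ := Nat.exists_prime_and_dvd ho
    obtain ⟨z1, hz1⟩ : ∃ z1, z1 = z0 ^ (orderOf z0 / p) := ⟨_, rfl⟩
    have hz1o : orderOf z1 = p := by
      rw [hz1, orderOf_pow_orderOf_div (orderOf_pos z0).ne' hpd]
    have hz1N : z1 ∈ N := by
      rw [hz1]; exact N.pow_mem hz0N _
    have hz11 : z1 ≠ 1 := by
      intro h
      rw [h, orderOf_one] at hz1o
      exact hp.one_lt.ne hz1o
    have hpow : ∀ n ∈ N, n ^ p = 1 := by
      intro n hn
      by_cases hn1 : n = 1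
      · rw [hn1, one_pow]
      · obtain ⟨g, hg⟩ := hconj z1 n hz1N hn hz11 hn1
        rw [← hg, conj_pow, ← hz1o, pow_orderOf_eq_one]
        group
    haveI : Fact p.Prime := ⟨hp⟩
    have hNp : IsPGroup p N := fun n => ⟨1, by rw [pow_one]; exact Subtype.ext (hpow n n.2)⟩
    haveI : Nontrivial N := (Subgroup.nontrivial_iff_ne_bot N).mpr hN
    obtain ⟨z, hzc, hz1'⟩ : ∃ z : N, z ∈ Subgroup.center N ∧ z ≠ 1 := by
      haveI := hNp.center_nontrivial
      obtain ⟨⟨z, hzc⟩, hz1⟩ := exists_ne (1 : Subgroup.center N)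
      exact ⟨z, hzc, fun h => hz1 (Subtype.ext h)⟩
    have hzcomm : ∀ n ∈ N, (z : G) * n = n * z := by
      intro n hn
      have h6 := Subgroup.mem_center_iff.mp hzc ⟨n, hn⟩
      exact (congrArg Subtype.val h6).symm
    refine ⟨⟨⟨fun a b => ?_⟩⟩, p, hp, hpow⟩
    apply Subtype.ext
    show (a : G) * b = b * a
    by_cases ha1 : (a : G) = 1
    · rw [ha1, one_mul, mul_one]
    · obtain ⟨g, hg⟩ := hconj z a z.2 a.2 (fun h => hz1' (Subtype.ext h)) ha1
      rw [← hg]
      have hb : g⁻¹ * b * g ∈ N := by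
        have h7 := hNn.conj_mem b b.2 g⁻¹
        simpa using h7
      have h5 := hzcomm _ hb
      calc g * z * g⁻¹ * b = g * (z * (g⁻¹ * b * g)) * g⁻¹ := by group
        _ = g * ((g⁻¹ * b * g) * z) * g⁻¹ := by rw [h5]
        _ = b * (g * z * g⁻¹) := by group

end Cfsg.Agent.S0054
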