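import Cfsg.Statements.S0057
import Mathlib
import Cfsg.Agent.S0055
import Cfsg.Agent.S0560
import Cfsg.Agent.Lib.Helper7.Coprime
import Cfsg.Agent.Lib.Helper7.Coprime2
import Cfsg.Agent.Lib.Helper7.CoprimeSylow
import Cfsg.Agent.Lib.Helper7.Compl
import Cfsg.Agent.Lib.Helper9.CarterSys2

set_option autoImplicit false
open Cfsg

namespace Cfsg.Agent.S0057

open Subgroup
open scoped Pointwise commutatorElement
open Cfsg.Agent.Lib.Helper7

theorem pgroup_case {G : Type*} [Group G] [Finite G] (p : ℕ) [hpf : Fact p.Prime] :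
    ∀ (n : ℕ) (A P : Subgroup G), Nat.card P ≤ n → IsPGroup p P →
      A ≤ normalizer (P : Set G) → (Nat.card A).Coprime (Nat.card P) →
      (P ⊓ centralizer (A : Set G)).relIndex P = p → Nat.card (⁅P, A⁆ : Subgroup G) = p := by
  intro n
  induction n with
  | zero =>
    intro A P hn
    exact absurd hn (by have := Nat.card_pos (α := P); omega)
  | succ n ih =>
    intro A P hn hP hAP hcop hidx
    have hp : p.Prime := hpf.out
    have hnil : Group.IsNilpotent P := hP.isNilpotent
    have hsolv : Group.IsSolvable A ∨ Group.IsSolvable P := Or.inr inferInstance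
    have hLP : ⁅P, A⁆ ≤ P := commutator_le_of_le_normalizer hAP
    have hcardP : Nat.card (P ⊓ centralizer (A : Set G) : Subgroup G) * p = Nat.card P := by
      rw [← hidx]; exact Cfsg.Agent.Lib.Helper9.card_mul_relIndex_of_le inf_le_left
    by_cases hL : ⁅P, A⁆ = P
    · have hCn : P ≤ normalizer ((P ⊓ centralizer (A : Set G) : Subgroup G) : Set G) := by
        rw [← Subgroup.normal_subgroupOf_iff_le_normalizer inf_le_left]
        apply Subgroup.normal_of_index_eq_minFac_card
        show (P ⊓ centralizer (A : Set G)).relIndex P = _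
        rw [hidx]
        obtain ⟨k, hk⟩ := IsPGroup.iff_card.mp hP
        have hk0 : k ≠ 0 := by
          intro h0
          rw [h0, pow_zero] at hk
          rw [hk] at hcardP
          have h1 : p ∣ 1 := Dvd.intro_left _ hcardP
          exact hp.one_lt.ne' (Nat.dvd_one.mp h1)
        rw [hk, Nat.Prime.pow_minFac hp hk0]
      have hAC : ⁅A, P ⊓ centralizer (A : Set G)⁆ = ⊥ := by
        rw [Subgroup.commutator_comm, Subgroup.commutator_eq_bot_iff_le_centralizer]
        exact inf_le_right
      have h1 : ⁅⁅A, P ⊓ centralizer (A : Set G)⁆, P⁆ = ⊥ := by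
        rw [hAC, Subgroup.commutator_bot_left]
      have h2 : ⁅⁅P ⊓ centralizer (A : Set G), P⁆, A⁆ = ⊥ := by
        have hCP : ⁅P ⊓ centralizer (A : Set G), P⁆ ≤ P ⊓ centralizer (A : Set G) :=
          commutator_le_of_le_normalizer hCn
        have hCA : ⁅P ⊓ centralizer (A : Set G), A⁆ = ⊥ := by
          rw [Subgroup.commutator_eq_bot_iff_le_centralizer]; exact inf_le_right
        rw [eq_bot_iff, ← hCA]; exact Subgroup.commutator_mono hCP le_rfl
      have h3 := Subgroup.commutator_commutator_eq_bot_of_rotate h1 h2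
      rw [hL, Subgroup.commutator_eq_bot_iff_le_centralizer] at h3
      have hab : ∀ x ∈ P, ∀ y ∈ P, x * y = y * x := by
        intro x hx y hy
        by_cases hxC : x ∈ P ⊓ centralizer (A : Set G)
        · exact (Subgroup.mem_centralizer_iff.mp (h3 hy)) x hxC
        · have hsup : P ≤ zpowers x ⊔ (P ⊓ centralizer (A : Set G)) := by
            have h4 : (P ⊓ centralizer (A : Set G)).relIndex
                (zpowers x ⊔ (P ⊓ centralizer (A : Set G))) *
                (zpowers x ⊔ (P ⊓ centralizer (A : Set G))).relIndex P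
                = (P ⊓ centralizer (A : Set G)).relIndex P :=
              Subgroup.relIndex_mul_relIndex _ _ _ le_sup_right
                (sup_le ((Subgroup.zpowers_le).mpr hx) inf_le_left)
            rw [hidx] at h4
            have h5 : (zpowers x ⊔ (P ⊓ centralizer (A : Set G))).relIndex P ∣ p :=
              Dvd.intro_left _ h4
            rcases (Nat.dvd_prime hp).mp h5 with h6 | h6
            · exact Subgroup.relIndex_eq_one.mp h6
            · exfalso
              rw [h6] at h4
              have h7 : (P ⊓ centralizer (A : Set G)).relIndex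
                  (zpowers x ⊔ (P ⊓ centralizer (A : Set G))) = 1 := by
                have h8 : (P ⊓ centralizer (A : Set G)).relIndex
                    (zpowers x ⊔ (P ⊓ centralizer (A : Set G))) * p = 1 * p := by
                  rw [h4, one_mul]
                exact Nat.eq_of_mul_eq_mul_right hp.pos h8
              have h9 := Subgroup.relIndex_eq_one.mp h7
              exact hxC (h9 (Subgroup.mem_sup_left (Subgroup.mem_zpowers x)))
          have hle : zpowers x ⊔ (P ⊓ centralizer (A : Set G)) ≤ centralizer ({x} : Set G) := by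
            refine sup_le ?_ ?_
            · rw [Subgroup.zpowers_le, Subgroup.mem_centralizer_iff]
              intro z hz
              rw [Set.mem_singleton_iff.mp hz]
            · intro c hc
              rw [Subgroup.mem_centralizer_iff]
              intro z hz
              rw [Set.mem_singleton_iff.mp hz]
              exact ((Subgroup.mem_centralizer_iff.mp (h3 hx)) c hc).symm
          exact Subgroup.mem_centralizer_iff.mp (hle (hsup hy)) x rfl
      have hcomm : IsMulCommutative P := ⟨⟨fun a b => Subtype.ext (hab a a.2 b b.2)⟩⟩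
      have h5 := (Cfsg.Agent.S0055.result A P hAP hcop).1
      rw [hL] at h5
      have hCbot : P ⊓ centralizer (A : Set G) = ⊥ := by
        rw [← h5]; exact (inf_eq_left.mpr inf_le_left).symm
      rw [hL, ← hcardP, hCbot, Subgroup.card_bot, one_mul]
    · have hLA : A ≤ normalizer ((⁅P, A⁆ : Subgroup G) : Set G) := le_normalizer_commutator_right P A
      have hLL : ⁅⁅P, A⁆, A⁆ = ⁅P, A⁆ := commutator_commutator_eq A P hAP hcop hsolv
      have hlt : Nat.card (⁅P, A⁆ : Subgroup G) < Nat.card P := card_lt_of_lt (lt_of_le_of_ne hLP hL)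
      have hidxL : (⁅P, A⁆ ⊓ centralizer (A : Set G)).relIndex ⁅P, A⁆ = p := by
        have hset : ((⁅P, A⁆ : Subgroup G) : Set G) *
            ((P ⊓ centralizer (A : Set G) : Subgroup G) : Set G) = (P : Set G) := by
          apply Set.Subset.antisymm
          · rintro _ ⟨x, hx, c, hc, rfl⟩
            exact P.mul_mem (hLP hx) ((inf_le_left : P ⊓ centralizer (A : Set G) ≤ P) hc)
          · intro k hk
            obtain ⟨x, hx, c, hc, rfl⟩ := exists_commutator_mul_centralizer A P hAP hcop hsolv k hk
            exact ⟨x, hx, c, hc, rfl⟩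
        have h6 := Cfsg.Agent.S0560.card_mul_card_eq ⁅P, A⁆ (P ⊓ centralizer (A : Set G))
        rw [hset] at h6
        have h7 : ⁅P, A⁆ ⊓ (P ⊓ centralizer (A : Set G)) = ⁅P, A⁆ ⊓ centralizer (A : Set G) := by
          rw [← inf_assoc, inf_eq_left.mpr hLP]
        rw [h7] at h6
        have h8 := Cfsg.Agent.Lib.Helper9.card_mul_relIndex_of_le
          (inf_le_left : ⁅P, A⁆ ⊓ centralizer (A : Set G) ≤ ⁅P, A⁆)
        have h9 : Nat.card ((P : Subgroup G) : Set G) = Nat.card P := rfl
        rw [h9, ← hcardP, ← h8] at h6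
        have hXpos : 0 < Nat.card (⁅P, A⁆ ⊓ centralizer (A : Set G) : Subgroup G) := Nat.card_pos
        have hCpos : 0 < Nat.card (P ⊓ centralizer (A : Set G) : Subgroup G) := Nat.card_pos
        have h10 : Nat.card (⁅P, A⁆ ⊓ centralizer (A : Set G) : Subgroup G) *
            Nat.card (P ⊓ centralizer (A : Set G) : Subgroup G) *
            (⁅P, A⁆ ⊓ centralizer (A : Set G)).relIndex ⁅P, A⁆ =
            Nat.card (⁅P, A⁆ ⊓ centralizer (A : Set G) : Subgroup G) *
            Nat.card (P ⊓ centralizer (A : Set G) : Subgroup G) * p := by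
          calc _ = Nat.card (⁅P, A⁆ ⊓ centralizer (A : Set G) : Subgroup G) *
                (⁅P, A⁆ ⊓ centralizer (A : Set G)).relIndex ⁅P, A⁆ *
                Nat.card (P ⊓ centralizer (A : Set G) : Subgroup G) := by ring
            _ = Nat.card (P ⊓ centralizer (A : Set G) : Subgroup G) * p *
                Nat.card (⁅P, A⁆ ⊓ centralizer (A : Set G) : Subgroup G) := h6
            _ = _ := by ring
        exact Nat.eq_of_mul_eq_mul_left (Nat.mul_pos hXpos hCpos) h10
      have hLp : IsPGroup p (⁅P, A⁆ : Subgroup G) := hP.to_le hLP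
      have hcopL : (Nat.card A).Coprime (Nat.card (⁅P, A⁆ : Subgroup G)) :=
        Nat.Coprime.coprime_dvd_right (Subgroup.card_dvd_of_le hLP) hcop
      have hfin := ih A ⁅P, A⁆ (by omega) hLp hLA hcopL hidxL
      rwa [hLL] at hfin


/-- Under coprime action, if the centraliser of A in K has prime index p in K then the commutator subgroup [K, A] has order exactly p. -/
theorem result {G : Type*} [Group G] [Finite G] (A K : Subgroup G) (hAK : A ≤ Subgroup.normalizer (K : Set G))
    (hcop : (Nat.card A).Coprime (Nat.card K)) (hsolv : Group.IsSolvable A ∨ Group.IsSolvable K)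
    (p : ℕ) (hp : p.Prime) (hidx : (K ⊓ Subgroup.centralizer (A : Set G)).relIndex K = p) :
    Nat.card (⁅K, A⁆ : Subgroup G) = p := by
  have hpf : Fact p.Prime := ⟨hp⟩
  obtain ⟨P₀, hP₀⟩ := exists_invariant_sylow A K hAK hcop hsolv p
  have hPK : (P₀ : Subgroup K).map K.subtype ≤ K := Subgroup.map_subtype_le _
  have hPp : IsPGroup p ((P₀ : Subgroup K).map K.subtype) := P₀.isPGroup'.map K.subtype
  have hPcard : Nat.card ((P₀ : Subgroup K).map K.subtype) = p ^ (Nat.card K).factorization p := by
    rw [Subgroup.card_map_of_injective K.subtype_injective]; exact P₀.card_eq_multiplicity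
  generalize (P₀ : Subgroup K).map K.subtype = P at hP₀ hPK hPp hPcard
  have hcardK : Nat.card (K ⊓ centralizer (A : Set G) : Subgroup G) * p = Nat.card K := by
    rw [← hidx]; exact Cfsg.Agent.Lib.Helper9.card_mul_relIndex_of_le inf_le_left
  have hPC : P ⊓ centralizer (A : Set G) = P ⊓ (K ⊓ centralizer (A : Set G)) := by
    rw [← inf_assoc, inf_eq_left.mpr hPK]
  have hrel : (K ⊓ centralizer (A : Set G)).relIndex P = p := by
    have h1 : (K ⊓ centralizer (A : Set G)).relIndex P ≤ p := by
      rw [← hidx]
      exact Subgroup.relIndex_le_of_le_right hPK (by rw [hidx]; exact hp.ne_zero)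
    have h2 : (K ⊓ centralizer (A : Set G)).relIndex P ∣ p ^ (Nat.card K).factorization p := by
      rw [← hPcard]; exact Subgroup.relIndex_dvd_card _ _
    obtain ⟨j, -, hj⟩ := (Nat.dvd_prime_pow hp).mp h2
    rcases Nat.eq_zero_or_pos j with hj0 | hj0
    · exfalso
      rw [hj0, pow_zero] at hj
      have h3 : P ≤ K ⊓ centralizer (A : Set G) := Subgroup.relIndex_eq_one.mp hj
      have h4 : p ^ (Nat.card K).factorization p ∣
          Nat.card (K ⊓ centralizer (A : Set G) : Subgroup G) := by
        rw [← hPcard]; exact Subgroup.card_dvd_of_le h3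
      have h5 : p ^ ((Nat.card K).factorization p + 1) ∣ Nat.card K := by
        have h5' := Nat.mul_dvd_mul h4 (dvd_refl p)
        rw [hcardK] at h5'
        rw [pow_succ]; exact h5'
      exact Nat.pow_succ_factorization_not_dvd Nat.card_pos.ne' hp h5
    · apply le_antisymm h1
      rw [hj]
      calc p = p ^ 1 := (pow_one p).symm
        _ ≤ p ^ j := Nat.pow_le_pow_right hp.pos hj0
  have hidxP : (P ⊓ centralizer (A : Set G)).relIndex P = p := by
    rw [hPC, Subgroup.inf_relIndex_left]; exact hrel
  have hset : (P : Set G) * ((K ⊓ centralizer (A : Set G) : Subgroup G) : Set G) = (K : Set G) := by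
    apply Set.eq_of_subset_of_ncard_le
    · rintro _ ⟨x, hx, c, hc, rfl⟩
      exact K.mul_mem (hPK hx) ((inf_le_left : K ⊓ centralizer (A : Set G) ≤ K) hc)
    · have h6 := Cfsg.Agent.S0560.card_mul_card_eq P (K ⊓ centralizer (A : Set G))
      have h7 := Cfsg.Agent.Lib.Helper9.card_mul_relIndex_of_le
        (inf_le_left : P ⊓ (K ⊓ centralizer (A : Set G)) ≤ P)
      rw [Subgroup.inf_relIndex_left, hrel] at h7
      rw [← h7] at h6
      have hXpos : 0 < Nat.card (P ⊓ (K ⊓ centralizer (A : Set G)) : Subgroup G) := Nat.card_pos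
      have h8 : Nat.card (P ⊓ (K ⊓ centralizer (A : Set G)) : Subgroup G) *
          Nat.card ((P : Set G) * ((K ⊓ centralizer (A : Set G) : Subgroup G) : Set G) : Set G) =
          Nat.card (P ⊓ (K ⊓ centralizer (A : Set G)) : Subgroup G) * Nat.card K := by
        rw [← hcardK, mul_comm _ (Nat.card _), ← h6]; ring
      have h9 := Nat.eq_of_mul_eq_mul_left hXpos h8
      rw [← _root_.Nat.card_coe_set_eq, ← _root_.Nat.card_coe_set_eq, h9]
      exact le_of_eq rfl
    · exact Set.toFinite _
  have hcomm : ⁅K, A⁆ = ⁅P, A⁆ := by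
    apply le_antisymm _ (Subgroup.commutator_mono hPK le_rfl)
    rw [Subgroup.commutator_le]
    intro k hk a ha
    have hk' : k ∈ (P : Set G) * ((K ⊓ centralizer (A : Set G) : Subgroup G) : Set G) := by
      rw [hset]; exact hk
    obtain ⟨x, hx, c, hc, rfl⟩ := hk'
    have hca : a * c = c * a := (Subgroup.mem_centralizer_iff.mp (Subgroup.mem_inf.mp hc).2) a ha
    have he : ⁅x * c, a⁆ = ⁅x, a⁆ := by
      rw [commutatorElement_def, commutatorElement_def]
      calc x * c * a * (x * c)⁻¹ * a⁻¹ = x * (c * a) * c⁻¹ * x⁻¹ * a⁻¹ := by group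
        _ = x * (a * c) * c⁻¹ * x⁻¹ * a⁻¹ := by rw [hca]
        _ = x * a * x⁻¹ * a⁻¹ := by group
    rw [he]
    exact Subgroup.commutator_mem_commutator hx ha
  rw [hcomm]
  exact pgroup_case p _ A P le_rfl hPp hP₀
    (Nat.Coprime.coprime_dvd_right (Subgroup.card_dvd_of_le hPK) hcop) hidxP

end Cfsg.Agent.S0057
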