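import Cfsg.Statements.S0060
-- import your own Cfsg.Agent.* helpers here
import Cfsg.Agent.S0010
import Mathlib.Tactic.Group
import Mathlib.Data.Fintype.Lattice

set_option autoImplicit false
open Pointwise
open Cfsg

namespace Cfsg.Agent.S0060

section
open scoped Pointwise

theorem mem_conj_smul_iff {G : Type*} [Group G] {H : Subgroup G} {g x : G} :
    x ∈ MulAut.conj g • H ↔ g⁻¹ * x * g ∈ H := by
  rw [Subgroup.mem_pointwise_smul_iff_inv_smul_mem]
  simp [MulAut.smul_def]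

theorem key {G : Type*} [Group G] [Finite G] (p : ℕ) [Fact p.Prime]
    (hcomm : ∀ P : Sylow p G, ∀ a ∈ P, ∀ b ∈ P, a * b = b * a)
    (S T : Sylow p G)
    (hmin : ∀ P Q : Sylow p G, Nat.card ((S : Subgroup G) ⊓ T : Subgroup G) ≤
      Nat.card ((P : Subgroup G) ⊓ Q : Subgroup G))
    (P : Sylow p G) : (S : Subgroup G) ⊓ T ≤ P := by
  classical
  set D : Subgroup G := (S : Subgroup G) ⊓ T with hD
  let N : Subgroup G := Subgroup.normalizer (D : Set G)
  have hcent : ∀ R : Sylow p G, D ≤ R → (R : Subgroup G) ≤ N := by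
    intro R hDR
    refine le_trans ?_ (Subgroup.centralizer_le_normalizer _)
    intro r hr
    rw [Subgroup.mem_centralizer_iff]
    intro d hd
    exact hcomm R d (hDR hd) r hr
  have hSN : (S : Subgroup G) ≤ N := hcent S inf_le_left
  have hTN : (T : Subgroup G) ≤ N := hcent T inf_le_right
  let SN : Sylow p N := S.subtype hSN
  have hpg : IsPGroup p (((P : Subgroup G) ⊓ N).subgroupOf N) :=
    IsPGroup.comap_of_injective (P.isPGroup'.to_le inf_le_left) N.subtype Subtype.coe_injective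
  obtain ⟨Q, hQ⟩ := hpg.exists_le_sylow
  obtain ⟨n, hn⟩ := MulAction.exists_smul_eq N SN Q
  have h1 : ∀ y, y ∈ P → y ∈ N → (n : G)⁻¹ * y * n ∈ (S : Subgroup G) := by
    intro y hyP hyN
    have h2 : (⟨y, hyN⟩ : N) ∈ Q :=
      hQ (by rw [Subgroup.mem_subgroupOf]; exact Subgroup.mem_inf.mpr ⟨hyP, hyN⟩)
    have h3 : (⟨y, hyN⟩ : N) ∈ MulAut.conj n • (SN : Subgroup N) := by
      rw [← Sylow.coe_subgroup_smul, hn]; exact h2
    rw [mem_conj_smul_iff] at h3
    have h4 : n⁻¹ * ⟨y, hyN⟩ * n ∈ (S : Subgroup G).subgroupOf N := by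
      rw [← Sylow.coe_subtype]; exact h3
    rw [Subgroup.mem_subgroupOf] at h4
    simpa using h4
  let x : G := (n : G)⁻¹
  have hxN : x ∈ N := N.inv_mem n.2
  let P' : Sylow p G := x • P
  have hP'T : (P' : Subgroup G) ⊓ T ≤ D := by
    intro z hz
    obtain ⟨hzP', hzT⟩ := Subgroup.mem_inf.mp hz
    have hzN : z ∈ N := hTN hzT
    rw [Sylow.coe_subgroup_smul, mem_conj_smul_iff] at hzP'
    have hyN : x⁻¹ * z * x ∈ N := N.mul_mem (N.mul_mem (N.inv_mem hxN) hzN) hxN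
    have h5 := h1 _ hzP' hyN
    have h6 : (n : G)⁻¹ * (x⁻¹ * z * x) * n = z := by
      simp only [x]; group
    rw [h6] at h5
    exact Subgroup.mem_inf.mpr ⟨h5, hzT⟩
  have hEq : (P' : Subgroup G) ⊓ T = D := Subgroup.eq_of_le_of_card_ge hP'T (hmin P' T)
  intro d hd
  have hd' : x * d * x⁻¹ ∈ D := (Subgroup.mem_normalizer_iff.mp hxN d).mp hd
  have h7 : x * d * x⁻¹ ∈ (P' : Subgroup G) := by
    have h9 : x * d * x⁻¹ ∈ (P' : Subgroup G) ⊓ T := by rw [hEq]; exact hd'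
    exact (Subgroup.mem_inf.mp h9).1
  rw [Sylow.coe_subgroup_smul, mem_conj_smul_iff] at h7
  have h8 : x⁻¹ * (x * d * x⁻¹) * x = d := by group
  rw [h8] at h7
  exact h7

theorem main {G : Type*} [Group G] [Finite G] (p : ℕ) [Fact p.Prime]
    (S : Sylow p G) (hS : IsMulCommutative S) (hOp : Cfsg.pCore p G = ⊥) :
    ∃ g : G, (S : Subgroup G) ⊓ MulAut.conj g • (S : Subgroup G) = ⊥ := by
  classical
  have hcomm : ∀ P : Sylow p G, ∀ a ∈ P, ∀ b ∈ P, a * b = b * a := by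
    intro P a ha b hb
    obtain ⟨g, rfl⟩ := MulAction.exists_smul_eq G S P
    have ha' : g⁻¹ * a * g ∈ (S : Subgroup G) := mem_conj_smul_iff.mp ha
    have hb' : g⁻¹ * b * g ∈ (S : Subgroup G) := mem_conj_smul_iff.mp hb
    have h := congrArg Subtype.val (mul_comm' (⟨_, ha'⟩ : S) ⟨_, hb'⟩)
    have h' : g⁻¹ * (a * b) * g = g⁻¹ * (b * a) * g := by
      calc g⁻¹ * (a * b) * g = g⁻¹ * a * g * (g⁻¹ * b * g) := by group
        _ = g⁻¹ * b * g * (g⁻¹ * a * g) := h
        _ = g⁻¹ * (b * a) * g := by group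
    exact mul_left_cancel (mul_right_cancel h')
  obtain ⟨⟨S', T'⟩, hmin⟩ := Finite.exists_min
    (fun PQ : Sylow p G × Sylow p G => Nat.card ((PQ.1 : Subgroup G) ⊓ PQ.2 : Subgroup G))
  have hle : (S' : Subgroup G) ⊓ T' ≤ Cfsg.pCore p G := by
    rw [Cfsg.Agent.S0010.result p]
    apply le_iInf
    intro P
    exact key p hcomm S' T' (fun P Q => hmin (P, Q)) P
  rw [hOp] at hle
  have hbot : (S' : Subgroup G) ⊓ T' = ⊥ := le_bot_iff.mp hle
  obtain ⟨a, rfl⟩ := MulAction.exists_smul_eq G S S'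
  obtain ⟨b, rfl⟩ := MulAction.exists_smul_eq G S T'
  refine ⟨a⁻¹ * b, ?_⟩
  rw [Sylow.coe_subgroup_smul, Sylow.coe_subgroup_smul] at hbot
  rw [Subgroup.eq_bot_iff_forall] at hbot ⊢
  intro y hy
  obtain ⟨hy1, hy2⟩ := Subgroup.mem_inf.mp hy
  rw [mem_conj_smul_iff] at hy2
  have h1 : a * y * a⁻¹ = 1 := by
    apply hbot
    refine Subgroup.mem_inf.mpr ⟨?_, ?_⟩
    · rw [mem_conj_smul_iff]
      have h2 : a⁻¹ * (a * y * a⁻¹) * a = y := by group
      rw [h2]; exact hy1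
    · rw [mem_conj_smul_iff]
      have h2 : b⁻¹ * (a * y * a⁻¹) * b = (a⁻¹ * b)⁻¹ * y * (a⁻¹ * b) := by group
      rw [h2]; exact hy2
  have h3 : y = a⁻¹ * (a * y * a⁻¹) * a := by group
  rw [h3, h1]; group

end

/-- Brodkey's Theorem: in a finite group with abelian Sylow p-subgroups and no nontrivial normal p-subgroup, some conjugate of a Sylow p-subgroup meets it trivially. -/
theorem result {G : Type*} [Group G] [Finite G] (p : ℕ) [Fact p.Prime]
    (S : Sylow p G) (hS : IsMulCommutative S) (hOp : Cfsg.pCore p G = ⊥) :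
    ∃ g : G, (S : Subgroup G) ⊓ MulAut.conj g • (S : Subgroup G) = ⊥ := by
  exact main p S hS hOp

end Cfsg.Agent.S0060
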