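import Cfsg.Statements.S0063
-- import your own Cfsg.Agent.* helpers here

set_option autoImplicit false
open Cfsg

namespace Cfsg.Agent.S0063

universe u

theorem aux (p : ℕ) [Fact p.Prime] : ∀ (m : ℕ) (G : Type u) [Group G] [Finite G],
    Nat.card G = p ^ m → Group.nilpotencyClass G ≤ max (m - 1) 1 := by
  intro m
  induction m using Nat.strong_induction_on with
  | _ m ih =>
    intro G _ _ hG
    have hp : p.Prime := Fact.out
    have hpG : IsPGroup p G := IsPGroup.of_card hG
    have : Group.IsNilpotent G := hpG.isNilpotent
    by_cases hcomm : IsMulCommutative G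
    · exact le_trans (Group.IsNilpotent.nilpotencyClass_le_one_iff.mpr hcomm) (le_max_right _ _)
    · have hnt : Nontrivial G := by
        by_contra h
        rw [not_nontrivial_iff_subsingleton] at h
        exact hcomm ⟨⟨fun a b => Subsingleton.elim _ _⟩⟩
      rw [Group.nilpotencyClass_eq_quotient_center_plus_one]
      have hcard : Nat.card (G ⧸ Subgroup.center G) * Nat.card (Subgroup.center G) = p ^ m := by
        rw [← hG, ← Subgroup.card_eq_card_quotient_mul_card_subgroup]
      obtain ⟨k, hk⟩ : ∃ k, Nat.card (G ⧸ Subgroup.center G) = p ^ k := by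
        have h1 : Nat.card (G ⧸ Subgroup.center G) ∣ p ^ m := Dvd.intro _ hcard
        obtain ⟨k, _, hk⟩ := (Nat.dvd_prime_pow hp).mp h1
        exact ⟨k, hk⟩
      have hcne : Subgroup.center G ≠ ⊥ := Group.IsNilpotent.center_ne_bot G
      have hc1 : 1 < Nat.card (Subgroup.center G) := (Subgroup.center G).one_lt_card_iff_ne_bot.mpr hcne
      have hkm : k < m := by
        by_contra hkm
        rw [not_lt] at hkm
        have h2 : p ^ m ≤ p ^ k := Nat.pow_le_pow_right hp.pos hkm
        rw [hk] at hcard
        have h3 : 0 < p ^ k := pow_pos hp.pos k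
        nlinarith
      have ih' := ih k hkm (G ⧸ Subgroup.center G) hk
      have hk2 : 2 ≤ k := by
        by_contra hk2
        rw [not_le] at hk2
        have hcyc : IsCyclic (G ⧸ Subgroup.center G) := by
          interval_cases k
          · have : Subsingleton (G ⧸ Subgroup.center G) :=
              (Nat.card_eq_one_iff_unique.mp (by simpa using hk)).1
            infer_instance
          · exact isCyclic_of_prime_card (p := p) (by simpa using hk)
        apply hcomm
        exact MonoidHom.isMulCommutative_of_isCyclic_of_ker_le_center
          (QuotientGroup.mk' (Subgroup.center G)) (by simp)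
      have h4 : max (k - 1) 1 = k - 1 := by omega
      rw [h4] at ih'
      have h5 : m - 1 ≤ max (m - 1) 1 := le_max_left _ _
      omega

/-- A finite group of prime-power order p ^ m with m > 1 is nilpotent of class at most m - 1. -/
theorem result {G : Type*} [Group G] [Finite G] (p m : ℕ) [Fact p.Prime]
    (hG : Nat.card G = p ^ m) (hm : 1 < m) : Group.nilpotencyClass G ≤ m - 1 := by
  have h := aux p m G hG
  rwa [max_eq_left (by omega)] at h

end Cfsg.Agent.S0063
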