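import Cfsg.Statements.S0068
-- import your own Cfsg.Agent.* helpers here
import Mathlib.GroupTheory.FixedPointFree
import Mathlib.Tactic.Group

set_option autoImplicit false
open Cfsg

namespace Cfsg.Agent.S0068

/-- Frobenius complements of even order: if H complements a nontrivial normal subgroup K, each nonidentity element of H has trivial centraliser in K, and H has even order, then H contains a unique involution s, K is abelian, and s inverts every element of K. -/
theorem result {G : Type*} [Group G] [Finite G] (K H : Subgroup G) [K.Normal]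
    (hc : Subgroup.IsComplement' K H) (hK : K ≠ ⊥) (hfpf : ∀ h ∈ H, h ≠ 1 → K ⊓ Subgroup.centralizer {h} = ⊥)
    (heven : 2 ∣ Nat.card H) :
    (∃ s ∈ H, orderOf s = 2 ∧ (∀ t ∈ H, orderOf t = 2 → t = s) ∧ ∀ k ∈ K, s * k * s⁻¹ = k⁻¹) ∧ IsMulCommutative K := by
  classical
  have inv_of_invol : ∀ t ∈ H, orderOf t = 2 →
      (∀ k ∈ K, t * k * t⁻¹ = k⁻¹) ∧ IsMulCommutative K := by
    intro t ht hot
    have ht1 : t ≠ 1 := by
      rintro rfl
      simp at hot
    have ht2 : t * t = 1 := by
      have h0 := pow_orderOf_eq_one t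
      rw [hot, pow_two] at h0
      exact h0
    let φ : MulAut K := MulAut.conjNormal t
    have hφ : MonoidHom.FixedPointFree φ := by
      intro k hk
      have h1 : t * (k : G) * t⁻¹ = k := by
        have h0 := congrArg Subtype.val hk
        simpa [φ] using h0
      have h2 : (k : G) ∈ K ⊓ Subgroup.centralizer {t} := by
        refine ⟨k.2, Subgroup.mem_centralizer_singleton_iff.mpr ?_⟩
        calc (k : G) * t = (t * k * t⁻¹) * t := by rw [h1]
          _ = t * k := by rw [inv_mul_cancel_right]
      rw [hfpf t ht ht1] at h2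
      exact Subtype.ext (Subgroup.mem_bot.mp h2)
    have hinv : Function.Involutive φ := by
      intro k
      apply Subtype.ext
      simp only [φ, MulAut.conjNormal_apply]
      have h0 : t⁻¹ = t := inv_eq_of_mul_eq_one_left ht2
      rw [h0]
      calc t * (t * ↑k * t) * t = (t * t) * k * (t * t) := by simp only [mul_assoc]
        _ = k := by rw [ht2, one_mul, mul_one]
    refine ⟨?_, ?_⟩
    · intro k hk
      have h0 := hφ.coe_eq_inv_of_involutive hinv
      have h3 := congrFun h0 ⟨k, hk⟩
      have h4 := congrArg Subtype.val h3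
      simpa [φ] using h4
    · exact ⟨⟨fun a b => hφ.commute_all_of_involutive hinv a b⟩⟩
  haveI : Fact (Nat.Prime 2) := ⟨Nat.prime_two⟩
  obtain ⟨s', hs'⟩ := exists_prime_orderOf_dvd_card' 2 heven
  have hs : orderOf (s' : G) = 2 := by rw [Subgroup.orderOf_coe]; exact hs'
  obtain ⟨hsinv, hcomm⟩ := inv_of_invol s' s'.2 hs
  refine ⟨⟨s', s'.2, hs, ?_, hsinv⟩, hcomm⟩
  intro t ht hot
  obtain ⟨htinv, -⟩ := inv_of_invol t ht hot
  by_contra hne
  have hst : (s' : G) * t ≠ 1 := by
    intro h1
    apply hne
    have hs2 : (s' : G) * s' = 1 := by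
      have h0 := pow_orderOf_eq_one (s' : G)
      rw [hs, pow_two] at h0; exact h0
    exact mul_left_cancel (h1.trans hs2.symm)
  have hbot := hfpf _ (H.mul_mem s'.2 ht) hst
  apply hK
  rw [Subgroup.eq_bot_iff_forall]
  intro k hk
  have hmem : k ∈ K ⊓ Subgroup.centralizer {(s' : G) * t} := by
    refine ⟨hk, Subgroup.mem_centralizer_singleton_iff.mpr ?_⟩
    have h1 := htinv k hk
    have h2 := hsinv k⁻¹ (K.inv_mem hk)
    rw [inv_inv] at h2
    rw [← h1] at h2
    calc k * (↑s' * t) = (↑s' * (t * k * t⁻¹) * (↑s')⁻¹) * (↑s' * t) := by rw [h2]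
      _ = ↑s' * t * k := by group
  rw [hbot] at hmem
  exact Subgroup.mem_bot.mp hmem

end Cfsg.Agent.S0068
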