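import Cfsg.Statements.S0070
-- import your own Cfsg.Agent.* helpers here
import Cfsg.Agent.Lib.Helper7.PCore

set_option autoImplicit false
open Cfsg

namespace Cfsg.Agent.S0070

open Cfsg.Agent.Lib.Helper7 in
theorem main {G : Type*} [Group G] [Finite G] :
    Cfsg.fittingSubgroup (G ⧸ frattini G) =
      (Cfsg.fittingSubgroup G).map (QuotientGroup.mk' (frattini G)) := by
  classical
  set Φ := frattini G with hΦ
  let π := QuotientGroup.mk' Φ
  have hπ : Function.Surjective π := QuotientGroup.mk'_surjective Φ
  set F := Cfsg.fittingSubgroup G with hF
  set Fb := Cfsg.fittingSubgroup (G ⧸ Φ) with hFb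
  have hFn : F.Normal := fitting_normal G
  have hFbn : Fb.Normal := fitting_normal _
  have hFnil : Group.IsNilpotent F := fitting_isNilpotent G
  have hFbnil : Group.IsNilpotent Fb := fitting_isNilpotent _
  apply le_antisymm
  · let N := Fb.comap π
    have hNn : N.Normal := hFbn.comap π
    have hNnil : Group.IsNilpotent N := by
      have hq := (Group.isNilpotent_of_finite_tfae (G := N)).out 0 3
      rw [hq]
      intro q hq Q
      let Q' : Subgroup G := (Q : Subgroup N).map N.subtype
      have hQ'N : Q' ≤ N := Subgroup.map_subtype_le _
      let f : N →* Fb := π.subgroupComap Fb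
      have hf : Function.Surjective f := π.subgroupComap_surjective_of_surjective Fb hπ
      let Qb : Sylow q Fb := Q.mapSurjective hf
      have hQbn : (Qb : Subgroup Fb).Normal := inferInstance
      have hQbc : (Qb : Subgroup Fb).Characteristic := Sylow.characteristic_of_normal Qb hQbn
      have hQbG : ((Qb : Subgroup Fb).map Fb.subtype).Normal :=
        ConjAct.normal_of_characteristic_of_normal
      have hmapeq : (Qb : Subgroup Fb).map Fb.subtype = Q'.map π := by
        rw [Sylow.coe_mapSurjective, Subgroup.map_map, Subgroup.map_map]
        rfl
      let L : Subgroup G := (Q'.map π).comap π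
      have hLn : L.Normal := by
        have h0 : (Q'.map π).Normal := hmapeq ▸ hQbG
        exact h0.comap π
      have hLeq : L = Q' ⊔ Φ := by
        show (Q'.map π).comap π = _
        rw [Subgroup.comap_map_eq, QuotientGroup.ker_mk']
      have hQ'L : Q' ≤ L := by rw [hLeq]; exact le_sup_left
      have hΦN : Φ ≤ N := by
        intro z hz
        show π z ∈ Fb
        have h1 : π z = 1 := (QuotientGroup.eq_one_iff z).mpr hz
        rw [h1]; exact Fb.one_mem
      have hLN : L ≤ N := by rw [hLeq]; exact sup_le hQ'N hΦN
      have hpg : IsPGroup q (Q'.subgroupOf L) :=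
        IsPGroup.comap_of_injective (Q.isPGroup'.map N.subtype) L.subtype Subtype.coe_injective
      have hidx : ¬ q ∣ (Q'.subgroupOf L).index := by
        intro hdvd
        have h1 : Q'.relIndex L * L.relIndex N = Q'.relIndex N :=
          Subgroup.relIndex_mul_relIndex Q' L N hQ'L hLN
        have h2 : Q'.relIndex N = (Q : Subgroup N).index := by
          show (Q'.subgroupOf N).index = _
          congr 1
          exact Subgroup.comap_map_eq_self_of_injective Subtype.coe_injective _
        have h3 : q ∣ (Q : Subgroup N).index := by
          rw [← h2, ← h1]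
          exact Dvd.dvd.mul_right hdvd _
        exact Q.not_dvd_index h3
      let PL : Sylow q L := hpg.toSylow hidx
      have hPL : (PL : Subgroup L).map L.subtype = Q' := by
        show (Q'.subgroupOf L).map L.subtype = Q'
        exact Subgroup.map_subgroupOf_eq_of_le hQ'L
      have h4 := Sylow.normalizer_sup_eq_top PL
      rw [hPL] at h4
      have h5 : Subgroup.normalizer (Q' : Set G) ⊔ Φ = ⊤ := by
        have hle : Q' ≤ Subgroup.normalizer (Q' : Set G) := Subgroup.le_normalizer
        rw [hLeq, ← sup_assoc, sup_eq_left.mpr hle] at h4
        exact h4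
      have h6 := frattini_nongenerating h5
      have hQ'n : Q'.Normal := Subgroup.normalizer_eq_top_iff.mp h6
      exact Subgroup.Normal.of_map_subtype hQ'n
    have hNF : N ≤ F := le_fitting hNn hNnil
    calc Fb = N.map π := (Subgroup.map_comap_eq_self_of_surjective hπ Fb).symm
      _ ≤ F.map π := Subgroup.map_mono hNF
  · apply le_fitting (Subgroup.Normal.map hFn π hπ)
    exact Group.nilpotent_of_surjective (π.subgroupMap F) (π.subgroupMap_surjective F)

/-- The Fitting subgroup commutes with passing to the Frattini quotient: the Fitting subgroup of G modulo its Frattini subgroup is the image of the Fitting subgroup of G. -/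
theorem result {G : Type*} [Group G] [Finite G] :
    Cfsg.fittingSubgroup (G ⧸ frattini G) = (Cfsg.fittingSubgroup G).map (QuotientGroup.mk' (frattini G)) := by
  exact main

end Cfsg.Agent.S0070
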