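import Cfsg.Statements.S0073
import Cfsg.Agent.Lib.Helper2.Burnside
import Mathlib.GroupTheory.SpecificGroups.Cyclic
-- import your own Cfsg.Agent.* helpers here

set_option autoImplicit false
open Cfsg

namespace Cfsg.Agent.S0073

/-- For a finite non-abelian simple group, either the cube of the least prime divisor of the order divides the order, or 12 does. -/
theorem result {G : Type*} [Group G] [Finite G] [IsSimpleGroup G] (hG : ∃ x y : G, x * y ≠ y * x) : (Nat.card G).minFac ^ 3 ∣ Nat.card G ∨ 12 ∣ Nat.card G := by
  have hcard1 : Nat.card G ≠ 1 := by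
    intro h
    obtain ⟨x, y, hxy⟩ := hG
    have := (Nat.card_eq_one_iff_unique.mp h).1
    exact hxy (Subsingleton.elim _ _)
  have hpp : (Nat.card G).minFac.Prime := Nat.minFac_prime hcard1
  generalize hp : (Nat.card G).minFac = p at hpp ⊢
  have hfact : Fact p.Prime := ⟨hpp⟩
  have hpG : p ∣ Nat.card G := hp ▸ Nat.minFac_dvd _
  by_contra hcon
  push Not at hcon
  obtain ⟨hc3, hc12⟩ := hcon
  obtain ⟨P⟩ : Nonempty (Sylow p G) := inferInstance
  obtain ⟨k, hk⟩ := P.2.exists_card_eq
  have hk3 : k < 3 := by
    by_contra h
    push Not at h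
    exact hc3 ((Nat.pow_dvd_pow p h).trans (hk ▸ Subgroup.card_subgroup_dvd_card _))
  have hk0 : k ≠ 0 := by
    rintro rfl
    exact P.ne_bot_of_dvd_card hpG ((Subgroup.card_eq_one).mp (by simpa using hk))
  have hcomm : IsMulCommutative (P : Subgroup G) := by
    interval_cases k
    · exact absurd rfl hk0
    · have : Nat.card (P : Subgroup G) = p := by simpa using hk
      exact (isCyclic_of_prime_card this).isMulCommutative
    · exact IsPGroup.isMulCommutative_of_card_eq_prime_sq hk
  rcases Lib.Helper2.normalComplement_or_exists_prime P hcomm with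
    ⟨N, hN, hNP⟩ | ⟨q, hq, hqp, hqG, F, hF, hmod⟩
  · rcases hN.eq_bot_or_eq_top with h0 | h0
    · subst h0
      have hPtop : (P : Subgroup G) = ⊤ := Subgroup.isComplement'_bot_left.mp hNP
      obtain ⟨x, y, hxy⟩ := hG
      have hx : x ∈ (P : Subgroup G) := hPtop ▸ Subgroup.mem_top x
      have hy : y ∈ (P : Subgroup G) := hPtop ▸ Subgroup.mem_top y
      have := hcomm.is_comm.comm (⟨x, hx⟩ : (P : Subgroup G)) ⟨y, hy⟩
      exact hxy (congrArg Subtype.val this)
    · subst h0
      exact P.ne_bot_of_dvd_card hpG (Subgroup.isComplement'_top_left.mp hNP)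
  · have hpq : p < q := by
      have h1 : p ≤ q := hp ▸ Nat.minFac_le_of_dvd hq.two_le hqG
      exact lt_of_le_of_ne h1 (Ne.symm hqp)
    have hFd : Nat.card F ∣ p ^ k := hk ▸ Subgroup.card_subgroup_dvd_card F
    obtain ⟨j, hjk, hj⟩ := (Nat.dvd_prime_pow hpp).mp hFd
    have hjne : j ≠ k := by
      rintro rfl
      exact hF ((Subgroup.card_eq_iff_eq_top F).mp (hj.trans hk.symm))
    rw [hk, hj] at hmod
    have hle : p ^ j ≤ p ^ k := Nat.pow_le_pow_right hpp.pos hjk
    have hq' : q ∣ p ^ k - p ^ j := (Nat.modEq_iff_dvd' hle).mp hmod.symm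
    have hp2 : 2 ≤ p := hpp.two_le
    have hno : ¬ q ∣ p - 1 := by
      intro h
      have := Nat.le_of_dvd (by omega) h
      omega
    have hnop : ¬ q ∣ p := by
      intro h
      exact hqp ((Nat.prime_dvd_prime_iff_eq hq hpp).mp h)
    interval_cases k
    · exact absurd rfl hk0
    · have hj0 : j = 0 := by omega
      subst hj0
      simp only [pow_one, pow_zero] at hq'
      exact hno hq'
    · have hj01 : j = 0 ∨ j = 1 := by omega
      rcases hj01 with rfl | rfl
      · have e : p ^ 2 - p ^ 0 = (p - 1) * (p + 1) := by
          obtain ⟨m, rfl⟩ : ∃ m, p = m + 1 := ⟨p - 1, by omega⟩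
          simp only [pow_zero, Nat.add_sub_cancel]
          have : (m + 1) ^ 2 = m * (m + 1 + 1) + 1 := by ring
          omega
        rw [e] at hq'
        rcases (Nat.Prime.dvd_mul hq).mp hq' with h | h
        · exact hno h
        · have h1 := Nat.le_of_dvd (by omega) h
          have hqe : q = p + 1 := by omega
          rcases hpp.eq_two_or_odd' with h2 | hodd
          · subst h2
            have hq3 : q = 3 := by omega
            subst hq3
            apply hc12
            have h4 : 4 ∣ Nat.card G := by
              have := Subgroup.card_subgroup_dvd_card (P : Subgroup G)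
              rw [hk] at this
              exact this
            exact Nat.Coprime.mul_dvd_of_dvd_of_dvd (by norm_num : Nat.Coprime 4 3) h4 hqG
          · have heven : Even q := by
              rw [hqe]
              exact hodd.add_one
            have hq2 : q = 2 := (Nat.Prime.even_iff hq).mp heven
            omega
      · have e : p ^ 2 - p ^ 1 = p * (p - 1) := by
          obtain ⟨m, rfl⟩ : ∃ m, p = m + 1 := ⟨p - 1, by omega⟩
          simp only [pow_one, Nat.add_sub_cancel]
          have : (m + 1) ^ 2 = (m + 1) * m + (m + 1) := by ring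
          omega
        rw [e] at hq'
        rcases (Nat.Prime.dvd_mul hq).mp hq' with h | h
        · exact hnop h
        · exact hno h

end Cfsg.Agent.S0073
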