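import Cfsg.Statements.S0075
import Cfsg.Agent.Lib.Helper2.PResidual
-- import your own Cfsg.Agent.* helpers here

set_option autoImplicit false
open Cfsg

namespace Cfsg.Agent.S0075

/-- For an abelian Sylow p-subgroup T, its intersection with the subgroup generated by the elements of order prime to p is the commutator of T with its normalizer. -/
theorem result {G : Type*} [Group G] [Finite G] {p : ℕ} [Fact p.Prime] (T : Sylow p G) (hT : IsMulCommutative T) : (T : Subgroup G) ⊓ Cfsg.pResidual p G = ⁅(T : Subgroup G), Subgroup.normalizer (T : Set G)⁆ := by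
  rw [← Lib.Helper2.focalSubgroup_eq_commutator_normalizer T hT]
  apply le_antisymm
  · rw [← Subgroup.ker_transferFocal_inf_eq_focalSubgroup, inf_comm]
    refine inf_le_inf_right _ (Lib.Helper2.pResidual_le_ker _ ?_)
    exact T.2.to_quotient _
  · refine le_inf (Subgroup.focalSubgroup_le _) ?_
    exact (Subgroup.focalSubgroup_le_commutator _).trans
      (Lib.Helper2.commutator_le_pResidual_of_abelian_sylow T hT)

end Cfsg.Agent.S0075
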