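import Cfsg.Statements.S0076
-- import your own Cfsg.Agent.* helpers here

set_option autoImplicit false
open Cfsg

namespace Cfsg.Agent.S0076

theorem conjf_mul {G : Type*} [Group G] (a b : G) (S : Set G) :
    (fun y => (a * b) * y * (a * b)⁻¹) '' S =
      (fun y => a * y * a⁻¹) '' ((fun y => b * y * b⁻¹) '' S) := by
  rw [Set.image_image]
  congr 1
  ext y
  simp [mul_assoc]

theorem conjf_one {G : Type*} [Group G] (S : Set G) :
    (fun y => (1 : G) * y * (1 : G)⁻¹) '' S = S := by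
  simp

theorem mem_normalizer_iff_conjf {G : Type*} [Group G] (a : G) (S : Set G) :
    a ∈ Subgroup.normalizer S ↔ (fun y => a * y * a⁻¹) '' S = S := by
  rw [Subgroup.mem_normalizer_iff_conj_image_eq]
  rfl

/-- Two P-invariant subsets of a Sylow p-subgroup P that are conjugate in G are conjugate under the normalizer of P. -/
theorem result {G : Type*} [Group G] [Finite G] {p : ℕ} [Fact p.Prime] (P : Sylow p G) (X Y : Set G) (hXP : X ⊆ P) (hYP : Y ⊆ P) (hX : ∀ x ∈ P, (fun y => x * y * x⁻¹) '' X = X) (hY : ∀ x ∈ P, (fun y => x * y * x⁻¹) '' Y = Y) (g : G) (hg : (fun y => g * y * g⁻¹) '' X = Y) : ∃ n ∈ Subgroup.normalizer (P : Set G), (fun y => n * y * n⁻¹) '' X = Y := by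
  have hXg : (fun y => g⁻¹ * y * g⁻¹⁻¹) '' Y = X := by
    rw [← hg, ← conjf_mul, inv_mul_cancel, conjf_one]
  have h1 : (P : Subgroup G) ≤ Subgroup.normalizer Y := by
    intro x hx
    rw [mem_normalizer_iff_conjf]
    exact hY x hx
  have h2 : ↑(g • P) ≤ Subgroup.normalizer Y := by
    rintro - ⟨z, hz, rfl⟩
    rw [mem_normalizer_iff_conjf]
    have e : (MulAut.conj g) z = g * z * g⁻¹ := rfl
    show (fun y => (MulAut.conj g) z * y * ((MulAut.conj g) z)⁻¹) '' Y = Y
    rw [e, conjf_mul, conjf_mul, hXg, hX z hz, hg]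
  obtain ⟨c, hc⟩ :=
    MulAction.exists_smul_eq (Subgroup.normalizer Y) ((g • P).subtype h2) (P.subtype h1)
  simp_rw [Sylow.smul_subtype, Subgroup.smul_def, smul_smul] at hc
  refine ⟨c * g, Sylow.smul_eq_iff_mem_normalizer.mp (Sylow.subtype_injective hc), ?_⟩
  rw [conjf_mul, hg]
  exact (mem_normalizer_iff_conjf _ _).mp c.2

end Cfsg.Agent.S0076
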