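import Cfsg.Statements.S0079
import Cfsg.Agent.Lib.Helper9.Stability
import Cfsg.Agent.Lib.Helper2.Frobenius
import Cfsg.Agent.Lib.Helper8.CoprimeSylow

set_option autoImplicit false
open Cfsg

namespace Cfsg.Agent.S0079


open Cfsg.Agent.Lib.Helper9 Cfsg.Agent.Lib.Helper2
open Subgroup
open scoped Pointwise

universe u

/-- one prime: normal `p`-complement from the conjugacy condition. -/
theorem npc_of_fusion {G : Type u} [Group G] [Finite G] (H : Subgroup G)
    (hH : Group.IsNilpotent H) (hHall : Nat.Coprime (Nat.card H) H.index)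
    (hfus : ∀ x ∈ H, ∀ y ∈ H, (∃ g : G, g * x * g⁻¹ = y) → ∃ h ∈ H, h * x * h⁻¹ = y)
    (p : ℕ) (hp : p.Prime) (hpd : p ∣ Nat.card H) :
    ∃ K : Subgroup G, K.Normal ∧ (Nat.card K).Coprime p ∧ ∃ a : ℕ, K.index = p ^ a := by
  have hpf : Fact p.Prime := ⟨hp⟩
  rw [← hasNormalPComplement_iff]
  obtain ⟨S⟩ : Nonempty (Sylow p H) := inferInstance
  have hPH : IsPGroup p ((S : Subgroup H).map H.subtype) := S.isPGroup'.map _
  have hidx : ¬ p ∣ ((S : Subgroup H).map H.subtype).relIndex ⊤ := by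
    rw [Subgroup.relIndex_top_right, Subgroup.index_map_subtype]
    intro hdvd
    rcases (Nat.Prime.dvd_mul hp).mp hdvd with h | h
    · exact S.not_dvd_index h
    · exact hp.one_lt.ne' (Nat.eq_one_of_dvd_coprimes hHall hpd h)
  obtain ⟨P₀⟩ : Nonempty (Sylow p G) := inferInstance
  obtain ⟨l, -, hl⟩ := Cfsg.Agent.Lib.Helper8.h8_exists_conj_le_of_relIndex
    (L := ⊤) (P := (S : Subgroup H).map H.subtype) (R := (P₀ : Subgroup G)) le_top le_top hPH
    P₀.isPGroup' hidx
  have hPle : ((l • P₀ : Sylow p G) : Subgroup G) ≤ H := by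
    intro x hx
    have hx' : x ∈ MulAut.conj l • (P₀ : Subgroup G) := hx
    rw [mem_conj_smul_iff] at hx'
    have h1 : l * (l⁻¹ * x * l) * l⁻¹ ∈ (S : Subgroup H).map H.subtype := hl ⟨_, hx', rfl⟩
    have h2 : l * (l⁻¹ * x * l) * l⁻¹ = x := by group
    rw [h2] at h1
    exact Subgroup.map_subtype_le _ h1
  apply Cfsg.Agent.Lib.Helper2.frobenius
  apply frobCond_of_sylow (l • P₀)
  intro Q hQP g hg hgp
  have hQp : IsPGroup p Q := (l • P₀).isPGroup'.to_le hQP
  obtain ⟨k, hk⟩ := IsPGroup.iff_card.mp hQp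
  have key := centralizes_of_conj_in H Q hH (hQP.trans hPle) g hg
    (by rw [hk]; exact hgp.pow_right k)
    (fun y hy => by
      obtain ⟨h, hh, hhy⟩ := hfus y (hPle (hQP hy)) (g * y * g⁻¹)
        (hPle (hQP ((Subgroup.mem_normalizer_iff.mp hg y).mp hy))) ⟨g, rfl⟩
      exact ⟨h, hh, hhy.symm⟩)
  rw [Subgroup.mem_centralizer_iff]
  intro y hy
  exact (key y hy).symm

theorem main {G : Type u} [Group G] [Finite G] (H : Subgroup G) (hH : Group.IsNilpotent H)
    (hHall : Nat.Coprime (Nat.card H) H.index) :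
    (∃ N : Subgroup G, N.Normal ∧ N.IsComplement' H) ↔
      ∀ x ∈ H, ∀ y ∈ H, (∃ g : G, g * x * g⁻¹ = y) → ∃ h ∈ H, h * x * h⁻¹ = y := by
  constructor
  · rintro ⟨N, hNn, hc⟩ x hx y hy ⟨g, rfl⟩
    have hg : g ∈ N ⊔ H := by rw [hc.sup_eq_top]; exact Subgroup.mem_top g
    obtain ⟨n, hn, h, hh, rfl⟩ := Subgroup.mem_sup_of_normal_left.mp hg
    refine ⟨h, hh, ?_⟩
    have hx' : h * x * h⁻¹ ∈ H := H.mul_mem (H.mul_mem hh hx) (H.inv_mem hh)
    have h1 : n * h * x * (n * h)⁻¹ * (h * x * h⁻¹)⁻¹ ∈ N := by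
      have h2 : n * h * x * (n * h)⁻¹ * (h * x * h⁻¹)⁻¹ =
          n * ((h * x * h⁻¹) * n⁻¹ * (h * x * h⁻¹)⁻¹) := by group
      rw [h2]
      exact N.mul_mem hn (hNn.conj_mem _ (N.inv_mem hn) _)
    have h3 : n * h * x * (n * h)⁻¹ * (h * x * h⁻¹)⁻¹ ∈ H := H.mul_mem hy (H.inv_mem hx')
    have h4 := Subgroup.disjoint_def.mp hc.disjoint h1 h3
    exact (mul_inv_eq_one.mp h4).symm
  · intro hfus
    have hK := npc_of_fusion H hH hHall hfus
    choose K hKn hKc hKi using hK
    obtain ⟨N, hNdef⟩ : ∃ N : Subgroup G, N = ⨅ (p : ℕ) (hp : p.Prime) (hd : p ∣ Nat.card H),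
        K p hp hd := ⟨_, rfl⟩
    have hNn : N.Normal := by
      rw [hNdef]
      exact Subgroup.normal_iInf_normal (fun p => Subgroup.normal_iInf_normal (fun hp =>
        Subgroup.normal_iInf_normal (fun hd => hKn p hp hd)))
    have hNle : ∀ (p : ℕ) (hp : p.Prime) (hd : p ∣ Nat.card H), N ≤ K p hp hd := by
      intro p hp hd
      rw [hNdef]
      exact iInf_le_of_le p (iInf_le_of_le hp (iInf_le _ hd))
    have hmemN : ∀ x : G, (∀ (p : ℕ) (hp : p.Prime) (hd : p ∣ Nat.card H), x ∈ K p hp hd) →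
        x ∈ N := by
      intro x hx
      rw [hNdef]
      simp only [Subgroup.mem_iInf]
      exact hx
    refine ⟨N, hNn, ?_⟩
    have hcop : (Nat.card H).Coprime (Nat.card N) := by
      apply Nat.coprime_of_dvd
      intro q hq hqH hqN
      have h1 : q ∣ Nat.card (K q hq hqH) := hqN.trans (Subgroup.card_dvd_of_le (hNle q hq hqH))
      exact hq.one_lt.ne' (Nat.Coprime.eq_one_of_dvd (hKc q hq hqH).symm h1)
    have hprime : ∀ q : ℕ, q.Prime → q ∣ N.index → q ∣ Nat.card H := by
      intro q hq hqN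
      by_contra hqH
      have hqf : Fact q.Prime := ⟨hq⟩
      rw [Subgroup.index_eq_card] at hqN
      obtain ⟨xb, hxb⟩ := exists_prime_orderOf_dvd_card' q hqN
      obtain ⟨x, rfl⟩ := QuotientGroup.mk_surjective xb
      have hxq : x ^ q ∈ N := by
        rw [← QuotientGroup.eq_one_iff, QuotientGroup.mk_pow, ← hxb, pow_orderOf_eq_one]
      have hxN : x ∈ N := by
        apply hmemN
        intro p hp hd
        have hn := hKn p hp hd
        obtain ⟨a, ha⟩ := hKi p hp hd
        have h1 : ((x : G ⧸ K p hp hd)) ^ q = 1 := by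
          rw [← QuotientGroup.mk_pow, QuotientGroup.eq_one_iff]
          exact hNle p hp hd hxq
        have h2 : ((x : G ⧸ K p hp hd)) ^ (p ^ a) = 1 := by
          rw [← ha, Subgroup.index_eq_card]
          exact pow_card_eq_one'
        have hpq : p ≠ q := fun h => hqH (h ▸ hd)
        have h3 := pow_gcd_eq_one.mpr ⟨h1, h2⟩
        have h4 : Nat.gcd q (p ^ a) = 1 :=
          Nat.Coprime.pow_right a ((Nat.coprime_primes hq hp).mpr hpq.symm)
        rw [h4, pow_one, QuotientGroup.eq_one_iff] at h3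
        exact h3
      have h5 : ((x : G ⧸ N)) = 1 := (QuotientGroup.eq_one_iff x).mpr hxN
      rw [h5, orderOf_one] at hxb
      exact hq.one_lt.ne hxb
    have hG1 : Nat.card N * N.index = Nat.card G := N.card_mul_index
    have hG2 : Nat.card H * H.index = Nat.card G := H.card_mul_index
    have hcop2 : (N.index).Coprime H.index := by
      apply Nat.coprime_of_dvd
      intro q hq hqN hqH
      exact hq.one_lt.ne' (Nat.eq_one_of_dvd_coprimes hHall (hprime q hq hqN) hqH)
    have hd1 : N.index ∣ Nat.card H := by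
      have h1 : N.index ∣ Nat.card H * H.index := by rw [hG2, ← hG1]; exact Dvd.intro_left _ rfl
      exact Nat.Coprime.dvd_of_dvd_mul_right hcop2 h1
    have hd2 : Nat.card N ∣ H.index := by
      have h1 : Nat.card N ∣ Nat.card H * H.index := by rw [hG2, ← hG1]; exact Dvd.intro _ rfl
      exact Nat.Coprime.dvd_of_dvd_mul_left hcop.symm h1
    have hHpos : 0 < Nat.card H := Nat.card_pos
    have hipos : 0 < H.index := Nat.pos_of_ne_zero (Subgroup.index_ne_zero_of_finite)
    have hl1 : N.index ≤ Nat.card H := Nat.le_of_dvd hHpos hd1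
    have hl2 : Nat.card N ≤ H.index := Nat.le_of_dvd hipos hd2
    have hNpos : 0 < Nat.card N := Nat.card_pos
    have heq : N.index = Nat.card H := by
      by_contra hne
      have hlt : N.index < Nat.card H := lt_of_le_of_ne hl1 hne
      have h1 : Nat.card N * N.index < Nat.card N * Nat.card H := Nat.mul_lt_mul_of_pos_left hlt hNpos
      have h2 : Nat.card N * Nat.card H ≤ H.index * Nat.card H := Nat.mul_le_mul_right _ hl2
      rw [hG1, ← hG2, mul_comm (Nat.card H) H.index] at h1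
      omega
    apply Subgroup.isComplement'_of_coprime
    · rw [← heq]; exact hG1
    · exact hcop.symm


/-- A nilpotent Hall subgroup has a normal complement exactly when elements of it that are conjugate in the whole group are already conjugate inside it. -/
theorem result {G : Type*} [Group G] [Finite G] (H : Subgroup G) (hH : Group.IsNilpotent H) (hHall : Nat.Coprime (Nat.card H) H.index) : (∃ N : Subgroup G, N.Normal ∧ N.IsComplement' H) ↔ ∀ x ∈ H, ∀ y ∈ H, (∃ g : G, g * x * g⁻¹ = y) → ∃ h ∈ H, h * x * h⁻¹ = y := by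
  exact main H hH hHall

end Cfsg.Agent.S0079
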