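import Cfsg.Statements.S0080
import Cfsg.Agent.Lib.Helper2.FocalCoprime
-- import your own Cfsg.Agent.* helpers here

set_option autoImplicit false
open Cfsg

namespace Cfsg.Agent.S0080

open scoped commutatorElement

/-- When the index of H is prime to the order of H/H', the focal subgroup of H is G' ∩ H, and H/(G' ∩ H) has a normal complement. -/
theorem result {G : Type*} [Group G] [Finite G] (H : Subgroup G) (h : Nat.Coprime H.index (⁅H, H⁆.relIndex H)) : Subgroup.focalSubgroup H = commutator G ⊓ H ∧ ∃ N : Subgroup G, N.Normal ∧ N ⊓ H = commutator G ⊓ H ∧ N ⊔ H = ⊤ := by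
  have e1 : ⁅H, H⁆.subgroupOf H = commutator H := by
    rw [← Subgroup.map_subtype_commutator, Subgroup.subgroupOf,
      Subgroup.comap_map_eq_self_of_injective H.subtype_injective]
  have hdvd : Nat.card (H ⧸ H.focalSubgroupOf) ∣ ⁅H, H⁆.relIndex H := by
    rw [← Subgroup.index_eq_card, Subgroup.relIndex, e1]
    exact Subgroup.index_dvd_of_le H.commutator_le_focalSubgroupOf
  have hcop : (Nat.card (H ⧸ H.focalSubgroupOf)).Coprime H.index :=
    Nat.Coprime.coprime_dvd_left hdvd h.symm
  have h1 := Lib.Helper2.commutator_inf_eq_focalSubgroup_of_coprime H hcop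
  refine ⟨h1.symm, H.transferFocal.ker, MonoidHom.normal_ker _, ?_,
    Lib.Helper2.ker_transferFocal_sup_eq_top_of_coprime H hcop⟩
  rw [h1]
  exact Lib.Helper2.ker_transferFocal_inf_eq_of_coprime H hcop

end Cfsg.Agent.S0080
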