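import Mathlib
import Cfsg.Statements.S0081
import Cfsg.Agent.Lib.Helper2.Frobenius
import Cfsg.Agent.Lib.Helper7.Coprime
import Cfsg.Agent.Lib.Helper8.PGroupNormal
import Cfsg.Agent.Lib.Helper8.Gaschutz

set_option autoImplicit false

namespace Cfsg.Agent.S0081

open Cfsg.Agent.Lib.Helper2 Cfsg.Agent.Lib.Helper7 Cfsg.Agent.Lib.Helper8

universe u

/-- In a finite `p`-group, below a nontrivial normal subgroup `Q` there is a normal subgroup `K`
with `Q / K` central of order `p`. -/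
theorem exists_K {R₀ : Type u} [Group R₀] [Finite R₀] {p : ℕ} [Fact p.Prime] (hR : IsPGroup p R₀)
    (Q : Subgroup R₀) [hQn : Q.Normal] (hQ : Q ≠ ⊥) :
    ∃ (K : Subgroup R₀) (_ : K.Normal), K < Q ∧ ∃ z : R₀ ⧸ K, z ∈ Subgroup.center (R₀ ⧸ K) ∧
      z ^ p = 1 ∧ Q.map (QuotientGroup.mk' K) ≤ Subgroup.zpowers z := by
  have hp : p.Prime := Fact.out
  let S : Set (Subgroup R₀) := {K | K.Normal ∧ K < Q}
  have hne : S.Nonempty := ⟨⊥, Subgroup.normal_bot, bot_lt_iff_ne_bot.mpr hQ⟩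
  obtain ⟨K, ⟨hKn, hKQ⟩, hmax⟩ := WellFounded.has_min (wellFounded_gt (α := Subgroup R₀)) S hne
  haveI := hKn
  refine ⟨K, hKn, hKQ, ?_⟩
  set π := QuotientGroup.mk' K with hπ
  have hπs : Function.Surjective π := QuotientGroup.mk'_surjective K
  haveI hQmn : (Q.map π).Normal := Subgroup.Normal.map hQn π hπs
  have hQ' : Q.map π ≠ ⊥ := by
    intro h0
    have h1 : Q ≤ K := by
      intro x hx
      have h2 : π x ∈ Q.map π := Subgroup.mem_map_of_mem π hx
      rw [h0, Subgroup.mem_bot] at h2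
      exact (QuotientGroup.eq_one_iff x).mp h2
    exact not_le_of_gt hKQ h1
  have hRq : IsPGroup p (R₀ ⧸ K) := hR.to_quotient K
  have h1 := h8_normal_inf_center_ne_bot hRq (Q.map π) hQ'
  have hpg : IsPGroup p ↥(Q.map π ⊓ Subgroup.center (R₀ ⧸ K)) := hRq.to_subgroup _
  obtain ⟨k, hk⟩ := IsPGroup.iff_card.1 hpg
  have hk0 : k ≠ 0 := by
    rintro rfl
    rw [pow_zero] at hk
    exact h1 (Subgroup.card_eq_one.1 hk)
  have hdvd : p ∣ Nat.card ↥(Q.map π ⊓ Subgroup.center (R₀ ⧸ K)) := by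
    rw [hk]; exact dvd_pow_self p hk0
  obtain ⟨w, hw⟩ := exists_prime_orderOf_dvd_card' p hdvd
  have hzQ : (w : R₀ ⧸ K) ∈ Q.map π := (Subgroup.mem_inf.1 w.2).1
  have hzc : (w : R₀ ⧸ K) ∈ Subgroup.center (R₀ ⧸ K) := (Subgroup.mem_inf.1 w.2).2
  have hzo : orderOf (w : R₀ ⧸ K) = p := by rw [← hw]; exact Subgroup.orderOf_coe w
  have hz1 : (w : R₀ ⧸ K) ≠ 1 := by
    intro h; rw [h, orderOf_one] at hzo; exact hp.one_lt.ne hzo
  have hzp : (w : R₀ ⧸ K) ^ p = 1 := by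
    have := pow_orderOf_eq_one (w : R₀ ⧸ K)
    rwa [hzo] at this
  refine ⟨(w : R₀ ⧸ K), hzc, hzp, ?_⟩
  let T : Subgroup R₀ := (Subgroup.zpowers (w : R₀ ⧸ K)).comap π
  have hZn : (Subgroup.zpowers (w : R₀ ⧸ K)).Normal := by
    constructor
    intro n hn g
    have h2 : g * n * g⁻¹ = n := by
      obtain ⟨i, rfl⟩ := Subgroup.mem_zpowers_iff.1 hn
      have hc : (w : R₀ ⧸ K) ^ i ∈ Subgroup.center (R₀ ⧸ K) := Subgroup.zpow_mem _ hzc i
      rw [Subgroup.mem_center_iff] at hc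
      rw [hc g]
      group
    rw [h2]; exact hn
  have hTn : T.Normal := Subgroup.Normal.comap hZn π
  have hKT : K < T := by
    refine lt_of_le_of_ne ?_ ?_
    · intro x hx
      show π x ∈ Subgroup.zpowers (w : R₀ ⧸ K)
      have h2 : π x = 1 := (QuotientGroup.eq_one_iff x).mpr hx
      rw [h2]; exact one_mem _
    · intro hTK
      obtain ⟨x, hx⟩ := hπs (w : R₀ ⧸ K)
      have h2 : x ∈ T := by
        show π x ∈ Subgroup.zpowers (w : R₀ ⧸ K)
        rw [hx]; exact Subgroup.mem_zpowers _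
      rw [← hTK] at h2
      exact hz1 (hx ▸ (QuotientGroup.eq_one_iff x).mpr h2)
  have hTQ : T ≤ Q := by
    intro x hx
    have h2 : π x ∈ Q.map π := (Subgroup.zpowers_le.2 hzQ) hx
    obtain ⟨q, hq, hqx⟩ := Subgroup.mem_map.1 h2
    have h3 : q⁻¹ * x ∈ K := by
      rw [← QuotientGroup.eq_one_iff]
      show π (q⁻¹ * x) = 1
      rw [map_mul, map_inv, hqx, inv_mul_cancel]
    have h4 : x = q * (q⁻¹ * x) := by group
    rw [h4]; exact Q.mul_mem hq (hKQ.le h3)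
  have hTeq : T = Q := by
    by_contra hne
    exact hmax T ⟨hTn, lt_of_le_of_ne hTQ hne⟩ hKT
  exact (Subgroup.map_mono hTeq.ge).trans (Subgroup.map_comap_le _ _)

theorem tau_mul {R : Type*} [Group R] (X Y u v : R) (m' : ℕ) (hu : ∀ r : R, r * u = u * r)
    (hv : ∀ r : R, r * v = v * r) :
    X * Y * ((u * v) ^ m')⁻¹ = X * (u ^ m')⁻¹ * (Y * (v ^ m')⁻¹) := by
  have huv : Commute u v := hv u
  have hU : ∀ r : R, r * (u ^ m')⁻¹ = (u ^ m')⁻¹ * r := fun r =>
    ((show Commute r u from hu r).pow_right m').inv_right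
  rw [huv.mul_pow m', mul_inv_rev]
  calc X * Y * ((v ^ m')⁻¹ * (u ^ m')⁻¹) = X * ((Y * (v ^ m')⁻¹) * (u ^ m')⁻¹) := by
        simp only [mul_assoc]
    _ = X * ((u ^ m')⁻¹ * (Y * (v ^ m')⁻¹)) := by rw [hU]
    _ = X * (u ^ m')⁻¹ * (Y * (v ^ m')⁻¹) := by rw [mul_assoc]

/-- Tate's theorem, core: if `O^p(G) ∩ P` lies in every normal subgroup of index `p` of `P`,
then `O^p(G) ∩ P = 1`. -/
theorem core {G : Type u} [Group G] [Finite G] {p : ℕ} [Fact p.Prime] (P : Subgroup G)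
    (hP : IsPGroup p P) (hidx : ¬ p ∣ P.index)
    (hfrat : ∀ M : Subgroup ↥P, M.Normal → M.index = p →
      (Cfsg.pResidual p G).subgroupOf P ≤ M) :
    (Cfsg.pResidual p G).subgroupOf P = ⊥ := by
  classical
  have hp : p.Prime := Fact.out
  set O := Cfsg.pResidual p G with hO
  haveI hOn : O.Normal := pResidual_normal p G
  by_contra hQne
  haveI hQn : (O.subgroupOf P).Normal := inferInstance
  obtain ⟨K', hK'n, hK'lt, z, hzc, hzp, hQz⟩ := exists_K hP (O.subgroupOf P) hQne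
  haveI := hK'n
  let R := ↥P ⧸ K'
  let π : ↥P →* R := QuotientGroup.mk' K'
  have hzcen : ∀ y ∈ Subgroup.zpowers z, ∀ r : R, r * y = y * r := by
    intro y hy r
    obtain ⟨i, rfl⟩ := Subgroup.mem_zpowers_iff.1 hy
    have hc : z ^ i ∈ Subgroup.center R := Subgroup.zpow_mem _ hzc i
    exact (Subgroup.mem_center_iff.1 hc) r
  have hzpow : ∀ y ∈ Subgroup.zpowers z, y ^ p = 1 := by
    intro y hy
    obtain ⟨i, rfl⟩ := Subgroup.mem_zpowers_iff.1 hy
    rw [← zpow_natCast, ← zpow_mul, mul_comm, zpow_mul, zpow_natCast, hzp, one_zpow]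
  have hOP : ∀ g : G, ∃ x : ↥P, g * (x : G)⁻¹ ∈ O := by
    intro g
    have h1 : g ∈ O ⊔ P := by
      have h2 := sylow_sup_pResidual_eq_top (IsPGroup.toSylow hP hidx)
      rw [IsPGroup.toSylow_coe, sup_comm] at h2
      rw [h2]; exact Subgroup.mem_top g
    obtain ⟨n, hn, a, ha, rfl⟩ := exists_mul_of_mem_sup (N := O) (A := P)
      (by rw [Subgroup.normalizer_eq_top]; exact le_top) h1
    exact ⟨⟨a, ha⟩, by simpa using hn⟩
  let fib : Subgroup (G × R) :=
    { carrier := {w | ∃ x : ↥P, w.1 * (x : G)⁻¹ ∈ O ∧ π x = w.2}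
      one_mem' := ⟨1, by simp, by simp⟩
      mul_mem' := by
        rintro ⟨g₁, r₁⟩ ⟨g₂, r₂⟩ ⟨x₁, h1, h1'⟩ ⟨x₂, h2, h2'⟩
        refine ⟨x₁ * x₂, ?_, ?_⟩
        · have e : (g₁ * g₂) * ((x₁ * x₂ : ↥P) : G)⁻¹
              = (g₁ * (x₁ : G)⁻¹) * ((x₁ : G) * (g₂ * (x₂ : G)⁻¹) * (x₁ : G)⁻¹) := by
            rw [Subgroup.coe_mul]; group
          show (g₁ * g₂) * ((x₁ * x₂ : ↥P) : G)⁻¹ ∈ O
          rw [e]
          exact O.mul_mem h1 (hOn.conj_mem _ h2 _)
        · show π (x₁ * x₂) = r₁ * r₂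
          rw [map_mul, h1', h2']
      inv_mem' := by
        rintro ⟨g, r⟩ ⟨x, h1, h1'⟩
        refine ⟨x⁻¹, ?_, ?_⟩
        · have e : g⁻¹ * ((x⁻¹ : ↥P) : G)⁻¹
              = (x : G)⁻¹ * (g * (x : G)⁻¹)⁻¹ * ((x : G)⁻¹)⁻¹ := by
            rw [Subgroup.coe_inv]; group
          show g⁻¹ * ((x⁻¹ : ↥P) : G)⁻¹ ∈ O
          rw [e]
          exact hOn.conj_mem _ (O.inv_mem h1) _
        · show π x⁻¹ = r⁻¹
          rw [map_inv, h1'] }
  let pr₁ : ↥fib →* G := (MonoidHom.fst G R).comp fib.subtype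
  let pr₂ : ↥fib →* R := (MonoidHom.snd G R).comp fib.subtype
  have hpr₂ : ∀ w : ↥fib, pr₂ w = w.1.2 := fun _ => rfl
  have hsurj : Function.Surjective pr₁ := by
    intro g
    obtain ⟨x, hx⟩ := hOP g
    exact ⟨⟨(g, π x), x, hx, rfl⟩, rfl⟩
  have hfib : ∀ w : ↥fib, ∃ x : ↥P, w.1.1 * (x : G)⁻¹ ∈ O ∧ π x = w.1.2 := fun w => w.2
  let A : Subgroup ↥fib := pr₁.ker
  haveI hAn : A.Normal := MonoidHom.normal_ker pr₁
  have hA2 : ∀ a ∈ A, pr₂ a ∈ Subgroup.zpowers z := by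
    intro a ha
    obtain ⟨x, hx, hx'⟩ := hfib a
    have ha1 : a.1.1 = 1 := MonoidHom.mem_ker.1 ha
    rw [ha1, one_mul] at hx
    have hxQ : x⁻¹ ∈ O.subgroupOf P := by
      rw [Subgroup.mem_subgroupOf, Subgroup.coe_inv]; exact hx
    have hxQ' : x ∈ O.subgroupOf P := by simpa using (O.subgroupOf P).inv_mem hxQ
    have h3 : π x ∈ Subgroup.zpowers z := hQz (Subgroup.mem_map_of_mem _ hxQ')
    rw [hpr₂, ← hx']; exact h3
  have hext : ∀ a b : ↥fib, pr₁ a = pr₁ b → pr₂ a = pr₂ b → a = b := by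
    intro a b h1 h2
    exact Subtype.ext (Prod.ext h1 h2)
  have hAcen : ∀ a ∈ A, ∀ w : ↥fib, w * a = a * w := by
    intro a ha w
    apply hext
    · rw [map_mul, map_mul, MonoidHom.mem_ker.1 ha, mul_one, one_mul]
    · rw [map_mul, map_mul]; exact hzcen _ (hA2 a ha) _
  haveI hAcomm : IsMulCommutative A := ⟨⟨fun a b => Subtype.ext (hAcen b.1 b.2 a.1)⟩⟩
  let d : ↥P →* ↥fib := (MonoidHom.prod P.subtype π).codRestrict fib
    (fun x => ⟨x, by simp, rfl⟩)
  have hd1 : ∀ x : ↥P, pr₁ (d x) = (x : G) := fun _ => rfl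
  have hd2 : ∀ x : ↥P, pr₂ (d x) = π x := fun _ => rfl
  let K : Subgroup ↥fib := d.range
  let H : Subgroup ↥fib := P.comap pr₁
  have hKA : K ⊓ A = ⊥ := by
    rw [eq_bot_iff]
    rintro w ⟨⟨x, rfl⟩, hw⟩
    have h1 : (x : G) = 1 := MonoidHom.mem_ker.1 hw
    have hx : x = 1 := Subtype.ext h1
    rw [hx, map_one]; exact Subgroup.mem_bot.2 rfl
  have hKH : K ⊔ A = H := by
    apply le_antisymm
    · rw [sup_le_iff]
      constructor
      · rintro w ⟨x, rfl⟩
        show pr₁ (d x) ∈ P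
        rw [hd1]; exact x.2
      · intro a ha
        show pr₁ a ∈ P
        rw [MonoidHom.mem_ker.1 ha]; exact P.one_mem
    · intro w hw
      have hw' : pr₁ w ∈ P := hw
      have h1 : (d ⟨pr₁ w, hw'⟩)⁻¹ * w ∈ A := by
        rw [MonoidHom.mem_ker, map_mul, map_inv, hd1, inv_mul_cancel]
      have h2 : w = d ⟨pr₁ w, hw'⟩ * ((d ⟨pr₁ w, hw'⟩)⁻¹ * w) := by group
      rw [h2]
      exact Subgroup.mul_mem_sup ⟨_, rfl⟩ h1
  have hHidx : H.index = P.index := Subgroup.index_comap_of_surjective P hsurj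
  obtain ⟨δ, hδ1, hδ2⟩ := h8_der_transfer A H K hKA hKH
  have hconj : ∀ (g : ↥fib) (a : ↥A), MulAut.conjNormal g a = a := by
    intro g a
    apply Subtype.ext
    rw [MulAut.conjNormal_apply, hAcen a.1 a.2 g]; group
  have hδmul : ∀ g h : ↥fib, δ (g * h) = δ g * δ h := by
    intro g h; rw [hδ1, hconj]
  have hmp : Nat.Coprime H.index p := by
    rw [hHidx]; exact (Nat.Coprime.symm (hp.coprime_iff_not_dvd.2 hidx))
  obtain ⟨m', -, hm'⟩ := Nat.exists_mul_mod_eq_one_of_coprime hmp hp.one_lt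
  have hkey : ∀ y ∈ Subgroup.zpowers z, (y ^ H.index) ^ m' = y := by
    intro y hy
    rw [← pow_mul]
    have h1 : H.index * m' = p * (H.index * m' / p) + 1 := by
      have := Nat.div_add_mod (H.index * m') p
      omega
    rw [h1, pow_add, pow_mul, hzpow y hy, one_pow, one_mul, pow_one]
  have hδz : ∀ w : ↥fib, pr₂ (δ w : ↥fib) ∈ Subgroup.zpowers z := fun w => hA2 _ (δ w).2
  have hCz : ∀ w : ↥fib, ((pr₂ (δ w : ↥fib)) ^ m')⁻¹ ∈ Subgroup.zpowers z := fun w =>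
    Subgroup.inv_mem _ (Subgroup.pow_mem _ (hδz w) m')
  let τ : ↥fib →* R := MonoidHom.mk' (fun w => pr₂ w * ((pr₂ (δ w : ↥fib)) ^ m')⁻¹) (by
    intro a b
    show pr₂ (a * b) * ((pr₂ (δ (a * b) : ↥fib)) ^ m')⁻¹
      = pr₂ a * ((pr₂ (δ a : ↥fib)) ^ m')⁻¹ * (pr₂ b * ((pr₂ (δ b : ↥fib)) ^ m')⁻¹)
    rw [hδmul, Subgroup.coe_mul, map_mul, map_mul]
    exact tau_mul _ _ _ _ m' (fun r => hzcen _ (hδz a) r) (fun r => hzcen _ (hδz b) r))
  have hτ : ∀ w : ↥fib, τ w = pr₂ w * ((pr₂ (δ w : ↥fib)) ^ m')⁻¹ := fun _ => rfl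
  have hτA : ∀ a ∈ A, τ a = 1 := by
    intro a ha
    have h1 : (δ a : ↥fib) = a ^ H.index := by
      have h2 := congrArg Subtype.val (hδ2 ⟨a, ha⟩)
      rw [Subgroup.coe_zpow, zpow_natCast] at h2
      exact h2
    rw [hτ, h1, map_pow, hkey _ (hA2 a ha), mul_inv_cancel]
  have hτfib : ∀ w w' : ↥fib, pr₁ w = pr₁ w' → τ w = τ w' := by
    intro w w' h
    have h1 : w'⁻¹ * w ∈ A := by
      rw [MonoidHom.mem_ker, map_mul, map_inv, h, inv_mul_cancel]
    have h2 := hτA _ h1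
    rw [map_mul, map_inv, inv_mul_eq_one] at h2
    exact h2.symm
  let σ : G →* R := MonoidHom.mk' (fun g => τ (Classical.choose (hsurj g))) (by
    intro a b
    show τ (Classical.choose (hsurj (a * b)))
      = τ (Classical.choose (hsurj a)) * τ (Classical.choose (hsurj b))
    rw [← map_mul]
    apply hτfib
    rw [map_mul, Classical.choose_spec (hsurj (a * b)), Classical.choose_spec (hsurj a),
      Classical.choose_spec (hsurj b)])
  have hσ : ∀ w : ↥fib, σ (pr₁ w) = τ w := by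
    intro w
    show τ (Classical.choose (hsurj (pr₁ w))) = τ w
    exact hτfib _ _ (Classical.choose_spec (hsurj (pr₁ w)))
  have hζz : ∀ x : ↥P, σ (x : G) * (π x)⁻¹ = ((pr₂ (δ (d x) : ↥fib)) ^ m')⁻¹ := by
    intro x
    have h1 : σ (x : G) = τ (d x) := hσ (d x)
    rw [h1, hτ, hd2, hzcen _ (hCz (d x)) (π x), mul_assoc, mul_inv_cancel, mul_one]
  let ζ : ↥P →* R := MonoidHom.mk' (fun x => σ (x : G) * (π x)⁻¹) (by
    intro a b
    show σ ((a * b : ↥P) : G) * (π (a * b))⁻¹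
      = σ (a : G) * (π a)⁻¹ * (σ (b : G) * (π b)⁻¹)
    have hb : σ (b : G) * (π b)⁻¹ ∈ Subgroup.zpowers z := by rw [hζz]; exact hCz _
    rw [Subgroup.coe_mul, map_mul, map_mul, mul_inv_rev, mul_assoc (σ (a : G)) (π a)⁻¹,
      hzcen _ hb (π a)⁻¹]
    simp only [mul_assoc])
  have hζ : ∀ x : ↥P, ζ x = σ (x : G) * (π x)⁻¹ := fun _ => rfl
  have hζrange : ζ.range ≤ Subgroup.zpowers z := by
    rintro _ ⟨x, rfl⟩
    rw [hζ, hζz]; exact hCz _
  have hQker : O.subgroupOf P ≤ ζ.ker := by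
    have hcard : Nat.card ζ.range ∣ p := by
      have h1 : Nat.card ζ.range ∣ Nat.card (Subgroup.zpowers z) :=
        Subgroup.card_dvd_of_le hζrange
      have h2 : Nat.card (Subgroup.zpowers z) ∣ p := by
        rw [Nat.card_zpowers]; exact orderOf_dvd_of_pow_eq_one hzp
      exact h1.trans h2
    have hidx' : ζ.ker.index = Nat.card ζ.range := Subgroup.index_ker ζ
    rcases (Nat.dvd_prime hp).1 hcard with h1 | h1
    · have h2 : ζ.ker = ⊤ := by rw [← Subgroup.index_eq_one, hidx', h1]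
      rw [h2]; exact le_top
    · exact hfrat ζ.ker (MonoidHom.normal_ker ζ) (by rw [hidx', h1])
  have hσO : O ≤ σ.ker := pResidual_le_ker σ (hP.to_quotient K')
  apply not_le_of_gt hK'lt
  intro x hx
  have h1 : ζ x = 1 := hQker hx
  have h2 : σ (x : G) = 1 := hσO (Subgroup.mem_subgroupOf.1 hx)
  rw [hζ, h2, one_mul, inv_eq_one] at h1
  exact (QuotientGroup.eq_one_iff x).1 h1

theorem core2 {G : Type u} [Group G] [Finite G] {p : ℕ} [Fact p.Prime] (P : Subgroup G)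
    (hP : IsPGroup p P) (hidx : ¬ p ∣ P.index)
    (hfrat : ∀ M : Subgroup ↥P, M.Normal → M.index = p →
      (Cfsg.pResidual p G).subgroupOf P ≤ M) :
    (Nat.card (Cfsg.pResidual p G)).Coprime p := by
  have hp : p.Prime := Fact.out
  have h0 := core P hP hidx hfrat
  haveI hOn : (Cfsg.pResidual p G).Normal := pResidual_normal p G
  rw [Nat.coprime_comm, hp.coprime_iff_not_dvd]
  intro hdvd
  obtain ⟨w, hw⟩ := exists_prime_orderOf_dvd_card' p hdvd
  have hZ : IsPGroup p (Subgroup.zpowers (w : G)) := by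
    apply IsPGroup.of_card (n := 1)
    rw [Nat.card_zpowers, Subgroup.orderOf_coe, hw, pow_one]
  obtain ⟨S', hS'⟩ := hZ.exists_le_sylow
  obtain ⟨g, hg⟩ := MulAction.exists_smul_eq G (IsPGroup.toSylow hP hidx) S'
  have h1 : g⁻¹ * (w : G) * g ∈ P := by
    have h2 : (w : G) ∈ (S' : Subgroup G) := hS' (Subgroup.mem_zpowers _)
    rw [← hg, Sylow.coe_subgroup_smul, Subgroup.mem_pointwise_smul_iff_inv_smul_mem] at h2
    have h3 : (MulAut.conj g)⁻¹ • (w : G) ∈ P := h2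
    simpa [MulAut.smul_def] using h3
  have h4 : g⁻¹ * (w : G) * g ∈ Cfsg.pResidual p G := by
    have := hOn.conj_mem _ w.2 g⁻¹
    rwa [inv_inv] at this
  have h5 : (⟨g⁻¹ * (w : G) * g, h1⟩ : ↥P) ∈ (Cfsg.pResidual p G).subgroupOf P :=
    Subgroup.mem_subgroupOf.2 h4
  rw [h0, Subgroup.mem_bot] at h5
  have h6 : g⁻¹ * (w : G) * g = 1 := congrArg Subtype.val h5
  have h7 : (w : G) = 1 := by
    have h8 : (w : G) = g * (g⁻¹ * (w : G) * g) * g⁻¹ := by group
    rw [h8, h6]; group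
  have h8 : w = 1 := Subtype.ext h7
  rw [h8, orderOf_one] at hw
  exact hp.one_lt.ne hw

/-- If a normal subgroup meets a Sylow p-subgroup P inside the Frattini subgroup of P, then it has a normal p-complement. -/
theorem result {G : Type*} [Group G] [Finite G] {p : ℕ} [Fact p.Prime] (P : Sylow p G) (N : Subgroup G) [N.Normal] (h : N ⊓ (P : Subgroup G) ≤ (frattini P).map (P : Subgroup G).subtype) : Cfsg.HasNormalPComplement p N := by
  classical
  have hp : p.Prime := Fact.out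
  set G₁ : Subgroup G := N ⊔ (P : Subgroup G) with hG₁
  have hNG : N ≤ G₁ := le_sup_left
  have hPG : (P : Subgroup G) ≤ G₁ := le_sup_right
  let P' : Subgroup ↥G₁ := (P : Subgroup G).subgroupOf G₁
  let N' : Subgroup ↥G₁ := N.subgroupOf G₁
  haveI hN'n : N'.Normal := inferInstance
  have hP'p : IsPGroup p ↥P' := P.2.comap_subtype
  have hP'idx : ¬ p ∣ P'.index := by
    have h1 : (P : Subgroup G).relIndex G₁ * G₁.index = (P : Subgroup G).index :=
      Subgroup.relIndex_mul_index hPG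
    intro hd
    apply P.not_dvd_index
    rw [← h1]
    exact Dvd.dvd.mul_right hd _
  have hO₁N : Cfsg.pResidual p ↥G₁ ≤ N' := by
    have hq : IsPGroup p (↥G₁ ⧸ N') := by
      intro x
      obtain ⟨g, rfl⟩ := QuotientGroup.mk_surjective x
      obtain ⟨n, hn, a, ha, hga⟩ := exists_mul_of_mem_sup (N := N) (A := (P : Subgroup G))
        (by rw [Subgroup.normalizer_eq_top]; exact le_top) g.2
      obtain ⟨k, hk⟩ := P.2 ⟨a, ha⟩
      refine ⟨k, ?_⟩
      rw [← QuotientGroup.mk_pow, QuotientGroup.eq_one_iff]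
      show ((g ^ p ^ k : ↥G₁) : G) ∈ N
      have h1 : ((g : G) : G ⧸ N) = ((a : G) : G ⧸ N) := by
        rw [hga, QuotientGroup.mk_mul, (QuotientGroup.eq_one_iff n).2 hn, one_mul]
      rw [Subgroup.coe_pow, ← QuotientGroup.eq_one_iff, QuotientGroup.mk_pow, h1,
        ← QuotientGroup.mk_pow]
      have h2 : a ^ p ^ k = 1 := congrArg Subtype.val hk
      rw [h2]; rfl
    have h3 := pResidual_le_ker (QuotientGroup.mk' N') hq
    rwa [QuotientGroup.ker_mk'] at h3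
  have hfrat : ∀ M : Subgroup ↥P', M.Normal → M.index = p →
      (Cfsg.pResidual p ↥G₁).subgroupOf P' ≤ M := by
    intro M hMn hMi
    let e : ↥P' ≃* ↥(P : Subgroup G) := Subgroup.subgroupOfEquivOfLe hPG
    let M₂ : Subgroup ↥(P : Subgroup G) := M.map (e : ↥P' →* ↥(P : Subgroup G))
    have hM₂i : M₂.index = p := by rw [Subgroup.index_map_equiv]; exact hMi
    have hM₂co : IsCoatom M₂ := by
      refine ⟨?_, ?_⟩
      · intro htop
        rw [htop, Subgroup.index_top] at hM₂i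
        exact hp.one_lt.ne hM₂i
      · intro L hL
        have h1 : M₂.relIndex L * L.index = M₂.index := Subgroup.relIndex_mul_index hL.le
        rw [hM₂i] at h1
        have h2 : M₂.relIndex L ≠ 1 := by
          intro h3
          rw [Subgroup.relIndex_eq_one] at h3
          exact not_le_of_gt hL h3
        have h3 : M₂.relIndex L ∣ p := Dvd.intro _ h1
        rcases (Nat.dvd_prime hp).1 h3 with h4 | h4
        · exact absurd h4 h2
        · rw [h4] at h1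
          have h5 : L.index = 1 :=
            Nat.eq_of_mul_eq_mul_left hp.pos (h1.trans (mul_one p).symm)
          exact Subgroup.index_eq_one.1 h5
    have hfr := frattini_le_coatom hM₂co
    intro x hx
    have hx1 : (x : ↥G₁) ∈ Cfsg.pResidual p ↥G₁ := Subgroup.mem_subgroupOf.1 hx
    have hx2 : ((x : ↥G₁) : G) ∈ N := Subgroup.mem_subgroupOf.1 (hO₁N hx1)
    have hx3 : ((x : ↥G₁) : G) ∈ (P : Subgroup G) := Subgroup.mem_subgroupOf.1 x.2
    obtain ⟨y, hy, hyx⟩ := Subgroup.mem_map.1 (h ⟨hx2, hx3⟩)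
    have hy2 : y ∈ M₂ := hfr hy
    obtain ⟨x', hx', hx'y⟩ := Subgroup.mem_map.1 hy2
    have hxx : x' = x := by
      apply Subtype.ext; apply Subtype.ext
      have h6 : ((e x' : ↥(P : Subgroup G)) : G) = (y : G) := congrArg Subtype.val hx'y
      exact h6.trans hyx
    rw [← hxx]; exact hx'
  have hcop : (Nat.card (Cfsg.pResidual p ↥G₁)).Coprime p := core2 P' hP'p hP'idx hfrat
  haveI hO₁n : (Cfsg.pResidual p ↥G₁).Normal := pResidual_normal p ↥G₁
  have hnpc : Cfsg.HasNormalPComplement p ↥G₁ := by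
    rw [hasNormalPComplement_iff]
    refine ⟨Cfsg.pResidual p ↥G₁, hO₁n, hcop, ?_⟩
    have hq := isPGroup_quotient_pResidual p ↥G₁
    obtain ⟨k, hk⟩ := IsPGroup.iff_card.1 hq
    exact ⟨k, by rw [Subgroup.index_eq_card]; exact hk⟩
  have hnpcN' : Cfsg.HasNormalPComplement p ↥N' := hasNormalPComplement_subgroup hnpc N'
  let e : ↥N' ≃* ↥N := Subgroup.subgroupOfEquivOfLe hNG
  rw [hasNormalPComplement_iff] at hnpcN' ⊢
  obtain ⟨K, hKn, hKc, a, ha⟩ := hnpcN'
  refine ⟨K.map (e : ↥N' →* ↥N), Subgroup.Normal.map hKn _ e.surjective, ?_, a, ?_⟩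
  · rw [Subgroup.card_map_of_injective e.injective]
    exact hKc
  · rw [Subgroup.index_map_equiv]; exact ha

end Cfsg.Agent.S0081
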