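import Cfsg.Statements.S0083
import Cfsg.Agent.Lib.Helper2.Burnside
-- import your own Cfsg.Agent.* helpers here

set_option autoImplicit false
open Cfsg

namespace Cfsg.Agent.S0083

/-- For an abelian Sylow p-subgroup P, a normal p-complement exists exactly when the normalizer of P is an internal direct product of P with some subgroup. -/
theorem result {G : Type*} [Group G] [Finite G] {p : ℕ} [Fact p.Prime] (P : Sylow p G) (hP : IsMulCommutative P) : Cfsg.HasNormalPComplement p G ↔ ∃ Q : Subgroup G, Q ≤ Subgroup.centralizer (P : Set G) ∧ Q ⊓ (P : Subgroup G) = ⊥ ∧ Q ⊔ (P : Subgroup G) = Subgroup.normalizer (P : Set G) := by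
  have hPC : (P : Subgroup G) ≤ Subgroup.centralizer ((P : Subgroup G) : Set G) := P.le_centralizer
  constructor
  · intro h
    obtain ⟨N, hN, hNP⟩ := Lib.Helper2.exists_isComplement'_of_hasNormalPComplement h P
    have hdisj : N ⊓ (P : Subgroup G) = ⊥ := disjoint_iff.mp hNP.disjoint
    refine ⟨N ⊓ Subgroup.normalizer ((P : Subgroup G) : Set G), ?_, ?_, ?_⟩
    · rintro n ⟨hnN, hnP⟩
      rw [Subgroup.mem_centralizer_iff]
      intro x hx
      have h1 : n * x * n⁻¹ * x⁻¹ ∈ N := by
        have : n * x * n⁻¹ * x⁻¹ = n * (x * n⁻¹ * x⁻¹) := by group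
        rw [this]
        exact Subgroup.mul_mem _ hnN (hN.conj_mem _ (Subgroup.inv_mem _ hnN) x)
      have h2 : n * x * n⁻¹ * x⁻¹ ∈ (P : Subgroup G) :=
        Subgroup.mul_mem _ ((Subgroup.mem_normalizer_iff.mp hnP x).mp hx) (Subgroup.inv_mem _ hx)
      have h3 : n * x * n⁻¹ * x⁻¹ ∈ N ⊓ (P : Subgroup G) := ⟨h1, h2⟩
      rw [hdisj, Subgroup.mem_bot] at h3
      calc x * n = (n * x * n⁻¹ * x⁻¹)⁻¹ * n * x := by group
        _ = n * x := by rw [h3]; group
    · rw [eq_bot_iff, ← hdisj]
      exact inf_le_inf_right _ inf_le_left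
    · apply le_antisymm
      · exact sup_le inf_le_right Subgroup.le_normalizer
      · intro g hg
        have hgtop : g ∈ N ⊔ (P : Subgroup G) := hNP.sup_eq_top ▸ Subgroup.mem_top g
        obtain ⟨n, hn, x, hx, rfl⟩ := Subgroup.mem_sup_of_normal_left.mp hgtop
        refine Subgroup.mul_mem_sup ⟨hn, ?_⟩ hx
        have : n = n * x * x⁻¹ := by group
        rw [this]
        exact Subgroup.mul_mem _ hg (Subgroup.inv_mem _ (Subgroup.le_normalizer hx))
  · rintro ⟨Q, hQC, -, hQP⟩
    apply Lib.Helper2.hasNormalPComplement_of_normalizer_le_centralizer P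
    have : Subgroup.normalizer ((P : Subgroup G) : Set G) = Q ⊔ (P : Subgroup G) := hQP.symm
    rw [this]
    exact sup_le hQC hPC

end Cfsg.Agent.S0083
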