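import Cfsg.Statements.S0084
import Cfsg.Agent.Lib.Helper2.Burnside
import Mathlib.GroupTheory.SpecificGroups.KleinFour
-- import your own Cfsg.Agent.* helpers here

set_option autoImplicit false
open Cfsg

namespace Cfsg.Agent.S0084

/-- A group whose Sylow 2-subgroups are Klein four-groups and whose order is prime to 3 has a normal 2-complement. -/
theorem result {G : Type*} [Group G] [Finite G] (T : Sylow 2 G) (hT : IsKleinFour T) (h3 : ¬ 3 ∣ Nat.card G) : Cfsg.HasNormalPComplement 2 G := by
  have hcomm : IsMulCommutative (T : Subgroup G) := IsKleinFour.isMulCommutative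
  rcases Lib.Helper2.hasNormalPComplement_or_exists_prime T hcomm with
    h | ⟨q, hq, hq2, hqG, F, hF, hmod⟩
  · exact h
  · exfalso
    have hcard : Nat.card (T : Subgroup G) = 4 := hT.card_four
    rw [hcard] at hmod
    have hFd : Nat.card F ∣ 4 := hcard ▸ Subgroup.card_subgroup_dvd_card F
    have hFne : Nat.card F ≠ 4 :=
      fun h => hF ((Subgroup.card_eq_iff_eq_top F).mp (h.trans hcard.symm))
    have hFle : Nat.card F ≤ 4 := Nat.le_of_dvd (by norm_num) hFd
    have hFpos : 0 < Nat.card F := Nat.card_pos
    have hq' : q ∣ 4 - Nat.card F := (Nat.modEq_iff_dvd' hFle).mp hmod.symm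
    generalize Nat.card F = c at *
    interval_cases c
    · have : q = 3 := (Nat.prime_dvd_prime_iff_eq hq Nat.prime_three).mp hq'
      exact h3 (this ▸ hqG)
    · exact hq2 ((Nat.prime_dvd_prime_iff_eq hq Nat.prime_two).mp hq')
    · norm_num at hFd
    · exact hFne rfl

end Cfsg.Agent.S0084
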