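import Cfsg.Statements.S0085
import Cfsg.Agent.Lib.Helper2.Burnside
-- import your own Cfsg.Agent.* helpers here

set_option autoImplicit false
open Cfsg

namespace Cfsg.Agent.S0085

/-- A group whose Sylow 2-subgroups are elementary abelian of order 8 and whose order is prime to 3 and to 7 has a normal 2-complement. -/
theorem result {G : Type*} [Group G] [Finite G] (T : Sylow 2 G) (h8 : Nat.card T = 8) (he : ∀ x : T, x * x = 1) (h3 : ¬ 3 ∣ Nat.card G) (h7 : ¬ 7 ∣ Nat.card G) : Cfsg.HasNormalPComplement 2 G := by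
  have hcomm : IsMulCommutative (T : Subgroup G) := by
    refine ⟨⟨fun a b => ?_⟩⟩
    have ha := he a
    have hb := he b
    symm
    calc b * a = (a * a) * (b * a) * (b * b) := by rw [ha, hb, one_mul, mul_one]
      _ = a * ((a * b) * (a * b)) * b := by simp only [mul_assoc]
      _ = a * b := by rw [he (a * b), mul_one]
  rcases Lib.Helper2.hasNormalPComplement_or_exists_prime T hcomm with
    h | ⟨q, hq, hq2, hqG, F, hF, hmod⟩
  · exact h
  · exfalso
    have hcard : Nat.card (T : Subgroup G) = 8 := h8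
    rw [hcard] at hmod
    have hFd : Nat.card F ∣ 8 := hcard ▸ Subgroup.card_subgroup_dvd_card F
    have hFne : Nat.card F ≠ 8 :=
      fun h => hF ((Subgroup.card_eq_iff_eq_top F).mp (h.trans hcard.symm))
    have hFle : Nat.card F ≤ 8 := Nat.le_of_dvd (by norm_num) hFd
    have hFpos : 0 < Nat.card F := Nat.card_pos
    have hq' : q ∣ 8 - Nat.card F := (Nat.modEq_iff_dvd' hFle).mp hmod.symm
    generalize Nat.card F = c at *
    interval_cases c
    · have : q = 7 := (Nat.prime_dvd_prime_iff_eq hq (by decide : Nat.Prime 7)).mp hq'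
      exact h7 (this ▸ hqG)
    · have h6 : q ∣ 2 * 3 := hq'
      rcases (Nat.Prime.dvd_mul hq).mp h6 with h | h
      · exact hq2 ((Nat.prime_dvd_prime_iff_eq hq Nat.prime_two).mp h)
      · have : q = 3 := (Nat.prime_dvd_prime_iff_eq hq Nat.prime_three).mp h
        exact h3 (this ▸ hqG)
    · norm_num at hFd
    · have h4 : q ∣ 2 ^ 2 := hq'
      exact hq2 ((Nat.prime_dvd_prime_iff_eq hq Nat.prime_two).mp (hq.dvd_of_dvd_pow h4))
    · norm_num at hFd
    · norm_num at hFd
    · norm_num at hFd
    · exact hFne rfl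

end Cfsg.Agent.S0085
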