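import Cfsg.Statements.S0089
-- import your own Cfsg.Agent.* helpers here

set_option autoImplicit false
open Cfsg

namespace Cfsg.Agent.S0089

open scoped IsMulCommutative

/-- When all Sylow subgroups are abelian, the derived subgroup meets the centre trivially. -/
theorem result {G : Type*} [Group G] [Finite G] (h : ∀ p : ℕ, p.Prime → ∀ P : Sylow p G, IsMulCommutative P) : commutator G ⊓ Subgroup.center G = ⊥ := by
  rw [eq_bot_iff]
  rintro z ⟨hzG, hzZ⟩
  rw [Subgroup.mem_bot]
  have key : ∀ (k : ℕ) (g₀ : G), g₀⁻¹ * z ^ k * g₀ = z ^ k := by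
    intro k g₀
    have h0 : z ^ k ∈ Subgroup.center G := Subgroup.pow_mem _ hzZ k
    rw [Subgroup.mem_center_iff] at h0
    rw [mul_assoc, ← h0 g₀]
    simp
  by_contra hz
  have hne : orderOf z ≠ 1 := fun h => hz (orderOf_eq_one_iff.mp h)
  obtain ⟨p, hp, hpz⟩ := Nat.exists_prime_and_dvd hne
  haveI := Fact.mk hp
  obtain ⟨P⟩ : Nonempty (Sylow p G) := inferInstance
  haveI : IsMulCommutative (P : Subgroup G) := h p hp P
  have h1 := MonoidHom.transfer_eq_pow (MonoidHom.id (P : Subgroup G)) z (fun k g₀ _ => key k g₀)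
  have h2 : MonoidHom.transfer (MonoidHom.id (P : Subgroup G)) z = 1 :=
    (Abelianization.commutator_subset_ker _) hzG
  rw [h2] at h1
  have h3 : z ^ (P : Subgroup G).index = 1 := by
    have := congrArg Subtype.val h1
    simpa using this.symm
  have h4 : orderOf z ∣ (P : Subgroup G).index := orderOf_dvd_of_pow_eq_one h3
  exact P.not_dvd_index (hpz.trans h4)

end Cfsg.Agent.S0089
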