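import Cfsg.Statements.S0091
import Cfsg.Agent.Lib.Helper2.Focal
-- import your own Cfsg.Agent.* helpers here

set_option autoImplicit false
open Cfsg

namespace Cfsg.Agent.S0091

open scoped commutatorElement

/-- If a nontrivial Sylow p-subgroup controls its own fusion then it is not contained in the derived subgroup. -/
theorem result {G : Type*} [Group G] [Finite G] {p : ℕ} [Fact p.Prime] (P : Sylow p G) (hp : p ∣ Nat.card G) (h : ∀ x ∈ P, ∀ y ∈ P, (∃ g : G, g * x * g⁻¹ = y) → ∃ z ∈ P, z * x * z⁻¹ = y) : ¬ (P : Subgroup G) ≤ commutator G := by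
  intro hle
  have h1 : commutator G ⊓ (P : Subgroup G) = (P : Subgroup G) := inf_eq_right.mpr hle
  rw [Subgroup.commutator_inf_eq_focalSubgroup] at h1
  have h2 : (P : Subgroup G).focalSubgroup ≤ ⁅(P : Subgroup G), (P : Subgroup G)⁆ := by
    rw [Subgroup.focalSubgroup_def, Subgroup.closure_le]
    rintro g ⟨hgP, x, hxP, u, rfl⟩
    have hy : u * x⁻¹ * u⁻¹ ∈ (P : Subgroup G) := by
      have : u * x⁻¹ * u⁻¹ = x⁻¹ * ⁅x, u⁆ := by rw [commutatorElement_def]; group
      rw [this]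
      exact Subgroup.mul_mem _ (Subgroup.inv_mem _ hxP) hgP
    obtain ⟨z, hzP, hz⟩ := h x⁻¹ (Subgroup.inv_mem _ hxP) _ hy ⟨u, rfl⟩
    have : ⁅x, u⁆ = ⁅x, z⁆ := by
      rw [commutatorElement_def, commutatorElement_def]
      calc x * u * x⁻¹ * u⁻¹ = x * (u * x⁻¹ * u⁻¹) := by group
        _ = x * (z * x⁻¹ * z⁻¹) := by rw [hz]
        _ = x * z * x⁻¹ * z⁻¹ := by group
    rw [this]
    exact Subgroup.commutator_mem_commutator hxP hzP
  rw [h1] at h2
  have h3 := Lib.Helper2.commutator_lt_of_pGroup (P : Subgroup G) P.2 (P.ne_bot_of_dvd_card hp)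
  exact absurd h2 (not_le_of_gt h3)

end Cfsg.Agent.S0091
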