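import Cfsg.Statements.S0094
import Cfsg.Agent.Lib.Helper2.Special
-- import your own Cfsg.Agent.* helpers here

set_option autoImplicit false
open Cfsg

namespace Cfsg.Agent.S0094

/-- In a special p-group every central element has order dividing p. -/
theorem result {P : Type*} [Group P] [Finite P] {p : ℕ} [Fact p.Prime] (h : Cfsg.IsSpecial p P) (z : P) (hz : z ∈ Subgroup.center P) : z ^ p = 1 := by
  exact Lib.Helper2.center_pow_eq_one_of_special h z hz

end Cfsg.Agent.S0094
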