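import Cfsg.Statements.S0097
import Cfsg.Agent.Lib.Helper2.Special
-- import your own Cfsg.Agent.* helpers here

set_option autoImplicit false
open Cfsg

namespace Cfsg.Agent.S0097

open scoped commutatorElement

/-- For odd p and E extraspecial, the subgroup generated by the elements of order dividing p has exponent dividing p and index at most p. -/
theorem result {E : Type*} [Group E] [Finite E] {p : ℕ} [Fact p.Prime] (hp : p ≠ 2) (h : Cfsg.IsExtraspecial p E) : (Subgroup.closure {x : E | x ^ p = 1}).index ≤ p ∧ ∀ g ∈ Subgroup.closure {x : E | x ^ p = 1}, g ^ p = 1 := by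
  have hs : Cfsg.IsSpecial p E := h.1
  have h2 := Lib.Helper2.class_two_of_special hs
  refine ⟨?_, fun g hg => Lib.Helper2.pow_eq_one_of_mem_closure_of_class_two hp h2 g hg⟩
  have hmul : ∀ x y : E, (x * y) ^ p = x ^ p * y ^ p := fun x y =>
    Lib.Helper2.mul_pow_prime_of_class_two hp h2 x y
      (Lib.Helper2.commutator_pow_eq_one_of_special hs x y)
  let φ : E →* Subgroup.center E :=
    { toFun := fun x => ⟨x ^ p, Lib.Helper2.pow_mem_center_of_special hs x⟩
      map_one' := Subtype.ext (one_pow p)
      map_mul' := fun x y => Subtype.ext (hmul x y) }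
  have hker : φ.ker ≤ Subgroup.closure {x : E | x ^ p = 1} := by
    intro x hx
    apply Subgroup.subset_closure
    rw [MonoidHom.mem_ker] at hx
    exact congrArg Subtype.val hx
  have h3 : (Subgroup.closure {x : E | x ^ p = 1}).index ∣ φ.ker.index :=
    Subgroup.index_dvd_of_le hker
  have h4 : φ.ker.index = Nat.card φ.range := Subgroup.index_ker φ
  have h5 : Nat.card φ.range ≤ p := by
    have := Subgroup.card_le_card_group φ.range
    rwa [h.2] at this
  have h6 : 0 < φ.ker.index := by
    rw [h4]; exact Nat.card_pos
  exact le_trans (Nat.le_of_dvd h6 h3) (h4 ▸ h5)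

end Cfsg.Agent.S0097
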