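import Mathlib
import Cfsg.Statements.S0098

set_option autoImplicit false

namespace Cfsg.Agent.S0098

open scoped commutatorElement Pointwise

universe u v

/-- "extraspecial-like of exponent `p`": exponent `p`, class at most 2, centre of order `p`. -/
abbrev XS (p : ℕ) (E : Type*) [Group E] : Prop :=
  (∀ g : E, g ^ p = 1) ∧ (∀ a b : E, ⁅a, b⁆ ∈ Subgroup.center E) ∧
    Nat.card (Subgroup.center E) = p

theorem comm_mul {E : Type*} [Group E] (hcl : ∀ a b : E, ⁅a, b⁆ ∈ Subgroup.center E)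
    (g h u : E) : ⁅g * h, u⁆ = ⁅g, u⁆ * ⁅h, u⁆ := by
  have h1 : ⁅g * h, u⁆ = g * ⁅h, u⁆ * g⁻¹ * ⁅g, u⁆ := by
    simp only [commutatorElement_def]; group
  have h2 : g * ⁅h, u⁆ = ⁅h, u⁆ * g := (Subgroup.mem_center_iff.1 (hcl h u)) g
  rw [h1, h2, mul_assoc ⁅h, u⁆ g g⁻¹, mul_inv_cancel, mul_one]
  exact (Subgroup.mem_center_iff.1 (hcl g u)) ⁅h, u⁆

/-- `g ↦ ⁅g, u⁆` as a homomorphism into the centre. -/
noncomputable def kap {E : Type*} [Group E] (hcl : ∀ a b : E, ⁅a, b⁆ ∈ Subgroup.center E)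
    (u : E) : E →* ↥(Subgroup.center E) :=
  MonoidHom.mk' (fun g => ⟨⁅g, u⁆, hcl g u⟩) (fun a b => Subtype.ext (comm_mul hcl a b u))

/-- the subgroup of elements commuting with `x` and `y` -/
noncomputable def Cxy {E : Type*} [Group E] (hcl : ∀ a b : E, ⁅a, b⁆ ∈ Subgroup.center E)
    (x y : E) : Subgroup E :=
  ((kap hcl x).prod (kap hcl y)).ker

theorem mem_Cxy {E : Type*} [Group E] (hcl : ∀ a b : E, ⁅a, b⁆ ∈ Subgroup.center E)
    (x y g : E) : g ∈ Cxy hcl x y ↔ g * x = x * g ∧ g * y = y * g := by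
  unfold Cxy
  rw [MonoidHom.mem_ker, MonoidHom.prod_apply, Prod.mk_eq_one]
  constructor
  · rintro ⟨h1, h2⟩
    have h1' : ⁅g, x⁆ = 1 := congrArg Subtype.val h1
    have h2' : ⁅g, y⁆ = 1 := congrArg Subtype.val h2
    exact ⟨(commutatorElement_eq_one_iff_commute.1 h1').eq,
      (commutatorElement_eq_one_iff_commute.1 h2').eq⟩
  · rintro ⟨h1, h2⟩
    exact ⟨Subtype.ext (commutatorElement_eq_one_iff_commute.2 h1),
      Subtype.ext (commutatorElement_eq_one_iff_commute.2 h2)⟩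

theorem comm_of_decomp {E : Type*} [Group E] (w g t : E) (h1 : w * (g * t⁻¹) = (g * t⁻¹) * w)
    (h2 : w * t = t * w) : g * w = w * g := by
  calc g * w = (g * t⁻¹) * (t * w) := by group
    _ = (g * t⁻¹) * (w * t) := by rw [h2]
    _ = ((g * t⁻¹) * w) * t := (mul_assoc _ _ _).symm
    _ = (w * (g * t⁻¹)) * t := by rw [h1]
    _ = w * g := by group

theorem card_sup_le' {G : Type*} [Group G] [Finite G] (H K : Subgroup G)
    (hK : K ≤ Subgroup.normalizer (H : Set G)) :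
    Nat.card ↥(H ⊔ K) ≤ Nat.card H * Nat.card K := by
  have h1 : ((H ⊔ K : Subgroup G) : Set G) = (H : Set G) * (K : Set G) :=
    Subgroup.coe_mul_of_right_le_normalizer_left H K hK
  have h2 : Nat.card ↥(H ⊔ K) = Nat.card ((H : Set G) * (K : Set G) : Set G) := by
    rw [← h1]; rfl
  rw [h2]
  exact Set.natCard_mul_le

section pair

variable {E : Type u} [Group E] [Finite E] {p : ℕ} [Fact p.Prime]

theorem zgen (hXS : XS p E) (x y : E) (hz : ⁅x, y⁆ ≠ 1) (w : ↥(Subgroup.center E)) :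
    ∃ i : ℤ, w = (⟨⁅x, y⁆, hXS.2.1 x y⟩ : ↥(Subgroup.center E)) ^ i := by
  have h2 : w ∈ Subgroup.zpowers (⟨⁅x, y⁆, hXS.2.1 x y⟩ : ↥(Subgroup.center E)) :=
    mem_zpowers_of_prime_card hXS.2.2 (fun h => hz (congrArg Subtype.val h))
  obtain ⟨i, hi⟩ := Subgroup.mem_zpowers_iff.1 h2
  exact ⟨i, hi.symm⟩

theorem kap_surj (hXS : XS p E) (x y : E) (hz : ⁅x, y⁆ ≠ 1) (u v : ↥(Subgroup.center E)) :
    ∃ a b : ℤ, kap hXS.2.1 x (x ^ a * y ^ b) = u ∧ kap hXS.2.1 y (x ^ a * y ^ b) = v := by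
  obtain ⟨i, hi⟩ := zgen hXS x y hz u
  obtain ⟨j, hj⟩ := zgen hXS x y hz v
  have hxx : kap hXS.2.1 x x = 1 := Subtype.ext (commutatorElement_self x)
  have hxy : kap hXS.2.1 x y = (⟨⁅x, y⁆, hXS.2.1 x y⟩ : ↥(Subgroup.center E))⁻¹ :=
    Subtype.ext (commutatorElement_inv x y).symm
  have hyx : kap hXS.2.1 y x = (⟨⁅x, y⁆, hXS.2.1 x y⟩ : ↥(Subgroup.center E)) := rfl
  have hyy : kap hXS.2.1 y y = 1 := Subtype.ext (commutatorElement_self y)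
  refine ⟨j, -i, ?_, ?_⟩
  · rw [map_mul, map_zpow, map_zpow, hxx, hxy, one_zpow, one_mul, inv_zpow, zpow_neg, inv_inv, hi]
  · rw [map_mul, map_zpow, map_zpow, hyx, hyy, one_zpow, mul_one, hj]

theorem decomp (hXS : XS p E) (x y : E) (hz : ⁅x, y⁆ ≠ 1) (g : E) :
    ∃ a b : ℤ, g * (x ^ a * y ^ b)⁻¹ ∈ Cxy hXS.2.1 x y := by
  obtain ⟨a, b, h1, h2⟩ := kap_surj hXS x y hz (kap hXS.2.1 x g) (kap hXS.2.1 y g)
  refine ⟨a, b, ?_⟩
  unfold Cxy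
  rw [MonoidHom.mem_ker, MonoidHom.prod_apply, Prod.mk_eq_one]
  constructor
  · rw [map_mul, map_inv, h1, mul_inv_cancel]
  · rw [map_mul, map_inv, h2, mul_inv_cancel]

theorem index_Cxy (hXS : XS p E) (x y : E) (hz : ⁅x, y⁆ ≠ 1) :
    (Cxy hXS.2.1 x y).index = p * p := by
  have hsurj : Function.Surjective ((kap hXS.2.1 x).prod (kap hXS.2.1 y)) := by
    rintro ⟨u, v⟩
    obtain ⟨a, b, h1, h2⟩ := kap_surj hXS x y hz u v
    exact ⟨x ^ a * y ^ b, Prod.ext h1 h2⟩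
  unfold Cxy
  rw [Subgroup.index_ker, MonoidHom.range_eq_top.2 hsurj, Subgroup.card_top, Nat.card_prod,
    hXS.2.2]

theorem center_le_Cxy (hXS : XS p E) (x y : E) (w : E) (hw : w ∈ Subgroup.center E) :
    w ∈ Cxy hXS.2.1 x y := by
  rw [mem_Cxy]
  exact ⟨((Subgroup.mem_center_iff.1 hw) x).symm, ((Subgroup.mem_center_iff.1 hw) y).symm⟩

theorem XS_Cxy (hXS : XS p E) (x y : E) (hz : ⁅x, y⁆ ≠ 1) : XS p ↥(Cxy hXS.2.1 x y) := by
  refine ⟨fun g => Subtype.ext (by rw [Subgroup.coe_pow, hXS.1]; rfl), ?_, ?_⟩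
  · intro a b
    rw [Subgroup.mem_center_iff]
    intro g
    apply Subtype.ext
    exact (Subgroup.mem_center_iff.1 (hXS.2.1 (a : E) (b : E))) (g : E)
  · have hmap : (Subgroup.center ↥(Cxy hXS.2.1 x y)).map (Cxy hXS.2.1 x y).subtype
        = Subgroup.center E := by
      apply le_antisymm
      · rintro _ ⟨w, hw, rfl⟩
        rw [Subgroup.mem_center_iff]
        intro g
        obtain ⟨a, b, hab⟩ := decomp hXS x y hz g
        have hwx : (w : E) * x = x * (w : E) := ((mem_Cxy hXS.2.1 x y _).1 w.2).1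
        have hwy : (w : E) * y = y * (w : E) := ((mem_Cxy hXS.2.1 x y _).1 w.2).2
        have hwc : (w : E) * (g * (x ^ a * y ^ b)⁻¹) = (g * (x ^ a * y ^ b)⁻¹) * (w : E) := by
          have h3 := (Subgroup.mem_center_iff.1 hw) ⟨g * (x ^ a * y ^ b)⁻¹, hab⟩
          exact (congrArg Subtype.val h3).symm
        have hwxy : (w : E) * (x ^ a * y ^ b) = (x ^ a * y ^ b) * (w : E) :=
          (((show Commute (w : E) x from hwx).zpow_right a).mul_right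
            ((show Commute (w : E) y from hwy).zpow_right b)).eq
        exact comm_of_decomp (w : E) g (x ^ a * y ^ b) hwc hwxy
      · intro w hw
        refine ⟨⟨w, center_le_Cxy hXS x y w hw⟩, Subgroup.mem_center_iff.2 (fun g => ?_), rfl⟩
        exact Subtype.ext ((Subgroup.mem_center_iff.1 hw) (g : E))
    have h5 : Nat.card ↥((Subgroup.center ↥(Cxy hXS.2.1 x y)).map (Cxy hXS.2.1 x y).subtype)
        = Nat.card ↥(Subgroup.center ↥(Cxy hXS.2.1 x y)) :=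
      Subgroup.card_map_of_injective (Subgroup.subtype_injective _)
    rw [hmap] at h5
    exact h5.symm.trans hXS.2.2

theorem exists_pair (hXS : XS p E) (hna : ∃ a b : E, a * b ≠ b * a) (z : E)
    (hzc : z ∈ Subgroup.center E) : ∃ x y : E, ⁅x, y⁆ = z := by
  obtain ⟨a, b, hab⟩ := hna
  have hne : ⁅a, b⁆ ≠ 1 := fun h => hab (commutatorElement_eq_one_iff_commute.1 h).eq
  obtain ⟨k, hk⟩ := zgen hXS a b hne ⟨z, hzc⟩
  refine ⟨a ^ k, b, ?_⟩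
  have h1 : kap hXS.2.1 b (a ^ k) = (kap hXS.2.1 b a) ^ k := map_zpow _ _ _
  have h2 := congrArg Subtype.val h1
  have h3 := congrArg Subtype.val hk
  exact h2.trans h3.symm

theorem abelian_iff_card (hXS : XS p E) : (∀ a b : E, a * b = b * a) ↔ Nat.card E = p := by
  constructor
  · intro h
    have h1 : Subgroup.center E = ⊤ := by
      rw [eq_top_iff]
      intro w _
      rw [Subgroup.mem_center_iff]
      intro g
      exact h g w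
    rw [← hXS.2.2, h1, Subgroup.card_top]
  · intro h a b
    have h1 : Subgroup.center E = ⊤ := by
      rw [← Subgroup.card_eq_iff_eq_top, hXS.2.2, h]
    have h2 : b ∈ Subgroup.center E := by rw [h1]; exact Subgroup.mem_top b
    exact (Subgroup.mem_center_iff.1 h2) a

end pair

theorem step {E₁ : Type u} {E₂ : Type v} [Group E₁] [Group E₂] [Finite E₁] [Finite E₂] {p : ℕ}
    [Fact p.Prime] (h₁ : XS p E₁) (h₂ : XS p E₂) (hcard : Nat.card E₁ = Nat.card E₂)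
    (x₁ y₁ : E₁) (x₂ y₂ : E₂) (hz₁ : ⁅x₁, y₁⁆ ≠ 1) (hz₂ : ⁅x₂, y₂⁆ ≠ 1)
    (ψ : ↥(Cxy h₁.2.1 x₁ y₁) ≃* ↥(Cxy h₂.2.1 x₂ y₂))
    (hψ : ∀ c : ↥(Cxy h₁.2.1 x₁ y₁), (c : E₁) = ⁅x₁, y₁⁆ →
      ((ψ c : ↥(Cxy h₂.2.1 x₂ y₂)) : E₂) = ⁅x₂, y₂⁆) :
    ∃ φ : E₁ ≃* E₂, φ ⁅x₁, y₁⁆ = ⁅x₂, y₂⁆ := by
  classical
  have hp : p.Prime := Fact.out
  let f : ↥(Cxy h₁.2.1 x₁ y₁) →* E₁ × E₂ :=
    MonoidHom.prod (Cxy h₁.2.1 x₁ y₁).subtype ((Cxy h₂.2.1 x₂ y₂).subtype.comp ψ.toMonoidHom)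
  have hf1 : ∀ c, (f c).1 = (c : E₁) := fun _ => rfl
  have hf2 : ∀ c, (f c).2 = ((ψ c : ↥(Cxy h₂.2.1 x₂ y₂)) : E₂) := fun _ => rfl
  have hf : Function.Injective f := by
    intro a b hab
    exact Subtype.ext (congrArg Prod.fst hab)
  let D : Subgroup (E₁ × E₂) := f.range
  have hDcard : Nat.card D = Nat.card ↥(Cxy h₁.2.1 x₁ y₁) :=
    (Nat.card_congr (MonoidHom.ofInjective hf).toEquiv).symm
  let X : E₁ × E₂ := (x₁, x₂)
  let Y : E₁ × E₂ := (y₁, y₂)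
  have hXD : ∀ d ∈ D, X * d = d * X := by
    rintro _ ⟨c, rfl⟩
    have e1 := ((mem_Cxy h₁.2.1 x₁ y₁ _).1 c.2).1
    have e2 := ((mem_Cxy h₂.2.1 x₂ y₂ _).1 (ψ c).2).1
    exact Prod.ext e1.symm e2.symm
  have hYD : ∀ d ∈ D, Y * d = d * Y := by
    rintro _ ⟨c, rfl⟩
    have e1 := ((mem_Cxy h₁.2.1 x₁ y₁ _).1 c.2).2
    have e2 := ((mem_Cxy h₂.2.1 x₂ y₂ _).1 (ψ c).2).2
    exact Prod.ext e1.symm e2.symm
  have hz1C : ⁅x₁, y₁⁆ ∈ Cxy h₁.2.1 x₁ y₁ := center_le_Cxy h₁ x₁ y₁ _ (h₁.2.1 x₁ y₁)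
  have hZD : ⁅X, Y⁆ ∈ D := by
    refine ⟨⟨⁅x₁, y₁⁆, hz1C⟩, ?_⟩
    refine Prod.ext rfl ?_
    show ((ψ ⟨⁅x₁, y₁⁆, hz1C⟩ : ↥(Cxy h₂.2.1 x₂ y₂)) : E₂) = (⁅X, Y⁆).2
    rw [hψ ⟨⁅x₁, y₁⁆, hz1C⟩ rfl]; rfl
  let N : Subgroup (E₁ × E₂) := D ⊔ Subgroup.zpowers Y
  let Γ : Subgroup (E₁ × E₂) := N ⊔ Subgroup.zpowers X
  have hpowX : X ^ p = 1 := Prod.ext (h₁.1 x₁) (h₂.1 x₂)
  have hpowY : Y ^ p = 1 := Prod.ext (h₁.1 y₁) (h₂.1 y₂)
  have hcardX : Nat.card (Subgroup.zpowers X) ≤ p := by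
    rw [Nat.card_zpowers]; exact Nat.le_of_dvd hp.pos (orderOf_dvd_of_pow_eq_one hpowX)
  have hcardY : Nat.card (Subgroup.zpowers Y) ≤ p := by
    rw [Nat.card_zpowers]; exact Nat.le_of_dvd hp.pos (orderOf_dvd_of_pow_eq_one hpowY)
  have hYnorm : Subgroup.zpowers Y ≤ Subgroup.normalizer (D : Set (E₁ × E₂)) := by
    rw [Subgroup.zpowers_le, Subgroup.mem_normalizer_iff]
    intro d
    constructor
    · intro hd
      have e : Y * d * Y⁻¹ = d := by rw [hYD d hd, mul_inv_cancel_right]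
      rw [e]; exact hd
    · intro hd
      have e1 := hYD _ hd
      have e2 : Y * d * Y⁻¹ = d := by
        have e3 : Y * (Y * d * Y⁻¹) = Y * d := by rw [e1]; group
        exact mul_left_cancel e3
      rw [← e2]; exact hd
  have hNcard : Nat.card N ≤ Nat.card ↥(Cxy h₁.2.1 x₁ y₁) * p := by
    calc Nat.card N ≤ Nat.card D * Nat.card (Subgroup.zpowers Y) :=
          card_sup_le' D (Subgroup.zpowers Y) hYnorm
      _ ≤ Nat.card ↥(Cxy h₁.2.1 x₁ y₁) * p := by rw [hDcard]; exact Nat.mul_le_mul_left _ hcardY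
  have hXN : Subgroup.zpowers X ≤ Subgroup.normalizer (N : Set (E₁ × E₂)) := by
    rw [Subgroup.zpowers_le]
    have hle : N.map (MulAut.conj X).toMonoidHom ≤ N := by
      show (D ⊔ Subgroup.zpowers Y).map (MulAut.conj X).toMonoidHom ≤ N
      rw [Subgroup.map_sup, sup_le_iff]
      constructor
      · rintro _ ⟨d, hd, rfl⟩
        have e : (MulAut.conj X).toMonoidHom d = d := by
          show X * d * X⁻¹ = d
          rw [hXD d hd, mul_inv_cancel_right]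
        rw [e]; exact Subgroup.mem_sup_left hd
      · rw [MonoidHom.map_zpowers, Subgroup.zpowers_le]
        have e : (MulAut.conj X).toMonoidHom Y = ⁅X, Y⁆ * Y := by
          show X * Y * X⁻¹ = ⁅X, Y⁆ * Y
          rw [commutatorElement_def]; group
        rw [e]
        exact N.mul_mem (Subgroup.mem_sup_left hZD)
          (Subgroup.mem_sup_right (Subgroup.mem_zpowers Y))
    have heq : N.map (MulAut.conj X).toMonoidHom = N := by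
      apply Subgroup.eq_of_le_of_card_ge hle
      rw [Subgroup.card_map_of_injective (MulAut.conj X).injective]
    rw [Subgroup.mem_normalizer_iff]
    intro n
    constructor
    · intro hn
      exact hle (Subgroup.mem_map_of_mem _ hn)
    · intro hn
      rw [← heq] at hn
      obtain ⟨n', hn', hnn⟩ := Subgroup.mem_map.1 hn
      have e : n' = n := (MulAut.conj X).injective hnn
      rw [← e]; exact hn'
  have hΓcard : Nat.card Γ ≤ Nat.card ↥(Cxy h₁.2.1 x₁ y₁) * (p * p) := by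
    calc Nat.card Γ ≤ Nat.card N * Nat.card (Subgroup.zpowers X) :=
          card_sup_le' N (Subgroup.zpowers X) hXN
      _ ≤ (Nat.card ↥(Cxy h₁.2.1 x₁ y₁) * p) * p := Nat.mul_le_mul hNcard hcardX
      _ = Nat.card ↥(Cxy h₁.2.1 x₁ y₁) * (p * p) := by ring
  have hC₁card : Nat.card E₁ = Nat.card ↥(Cxy h₁.2.1 x₁ y₁) * (p * p) := by
    rw [← index_Cxy h₁ x₁ y₁ hz₁]; exact (Subgroup.card_mul_index _).symm
  have hmemΓ : ∀ (c : ↥(Cxy h₁.2.1 x₁ y₁)) (a b : ℤ), f c * (X ^ a * Y ^ b) ∈ Γ := by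
    intro c a b
    refine Γ.mul_mem (Subgroup.mem_sup_left (Subgroup.mem_sup_left ⟨c, rfl⟩)) (Γ.mul_mem ?_ ?_)
    · exact Subgroup.mem_sup_right (Subgroup.zpow_mem _ (Subgroup.mem_zpowers X) a)
    · exact Subgroup.mem_sup_left
        (Subgroup.mem_sup_right (Subgroup.zpow_mem _ (Subgroup.mem_zpowers Y) b))
  let pr₁ : ↥Γ →* E₁ := (MonoidHom.fst E₁ E₂).comp Γ.subtype
  let pr₂ : ↥Γ →* E₂ := (MonoidHom.snd E₁ E₂).comp Γ.subtype
  have hs₁ : Function.Surjective pr₁ := by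
    intro g
    obtain ⟨a, b, hab⟩ := decomp h₁ x₁ y₁ hz₁ g
    refine ⟨⟨f ⟨g * (x₁ ^ a * y₁ ^ b)⁻¹, hab⟩ * (X ^ a * Y ^ b), hmemΓ _ a b⟩, ?_⟩
    show (f ⟨g * (x₁ ^ a * y₁ ^ b)⁻¹, hab⟩ * (X ^ a * Y ^ b)).1 = g
    rw [Prod.fst_mul, Prod.fst_mul, Prod.pow_fst, Prod.pow_fst, hf1]
    show g * (x₁ ^ a * y₁ ^ b)⁻¹ * (x₁ ^ a * y₁ ^ b) = g
    rw [inv_mul_cancel_right]
  have hs₂ : Function.Surjective pr₂ := by
    intro g
    obtain ⟨a, b, hab⟩ := decomp h₂ x₂ y₂ hz₂ g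
    obtain ⟨c, hc⟩ := ψ.surjective ⟨g * (x₂ ^ a * y₂ ^ b)⁻¹, hab⟩
    refine ⟨⟨f c * (X ^ a * Y ^ b), hmemΓ c a b⟩, ?_⟩
    show (f c * (X ^ a * Y ^ b)).2 = g
    rw [Prod.snd_mul, Prod.snd_mul, Prod.pow_snd, Prod.pow_snd, hf2, hc]
    show g * (x₂ ^ a * y₂ ^ b)⁻¹ * (x₂ ^ a * y₂ ^ b) = g
    rw [inv_mul_cancel_right]
  have hb₁ : Function.Bijective pr₁ :=
    hs₁.bijective_of_nat_card_le (by rw [hC₁card]; exact hΓcard)
  have hb₂ : Function.Bijective pr₂ :=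
    hs₂.bijective_of_nat_card_le (by rw [← hcard, hC₁card]; exact hΓcard)
  let e₁ : ↥Γ ≃* E₁ := MulEquiv.ofBijective pr₁ hb₁
  let e₂ : ↥Γ ≃* E₂ := MulEquiv.ofBijective pr₂ hb₂
  refine ⟨e₁.symm.trans e₂, ?_⟩
  have hZΓ : ⁅X, Y⁆ ∈ Γ := Subgroup.mem_sup_left (Subgroup.mem_sup_left hZD)
  have e3 : e₁ ⟨⁅X, Y⁆, hZΓ⟩ = ⁅x₁, y₁⁆ := rfl
  have e4 : e₁.symm ⁅x₁, y₁⁆ = ⟨⁅X, Y⁆, hZΓ⟩ := by rw [← e3, MulEquiv.symm_apply_apply]
  show e₂ (e₁.symm ⁅x₁, y₁⁆) = ⁅x₂, y₂⁆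
  rw [e4]; rfl

theorem main (p : ℕ) [Fact p.Prime] : ∀ n : ℕ, ∀ (E₁ : Type u) (E₂ : Type v) [Group E₁]
    [Group E₂] [Finite E₁] [Finite E₂], XS p E₁ → XS p E₂ → Nat.card E₁ = n → Nat.card E₂ = n →
    ∀ (z₁ : E₁) (z₂ : E₂), z₁ ∈ Subgroup.center E₁ → z₁ ≠ 1 → z₂ ∈ Subgroup.center E₂ →
      z₂ ≠ 1 → ∃ φ : E₁ ≃* E₂, φ z₁ = z₂ := by
  intro n
  induction n using Nat.strong_induction_on with
  | _ n ih =>
    intro E₁ E₂ _ _ _ _ h₁ h₂ hn₁ hn₂ z₁ z₂ hz₁c hz₁ hz₂c hz₂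
    have hp : p.Prime := Fact.out
    by_cases hab : ∀ a b : E₁, a * b = b * a
    · -- both groups are cyclic of order `p`
      have hc₁ : Nat.card E₁ = p := (abelian_iff_card h₁).1 hab
      have hc₂ : Nat.card E₂ = p := by rw [hn₂, ← hn₁, hc₁]
      have hg₁ : ∀ x : E₁, x ∈ Subgroup.zpowers z₁ := fun x => mem_zpowers_of_prime_card hc₁ hz₁
      have hg₂ : ∀ x : E₂, x ∈ Subgroup.zpowers z₂ := fun x => mem_zpowers_of_prime_card hc₂ hz₂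
      have ho : orderOf z₁ = orderOf z₂ := by
        rw [orderOf_eq_prime (h₁.1 z₁) hz₁, orderOf_eq_prime (h₂.1 z₂) hz₂]
      exact ⟨mulEquivOfOrderOfEq hg₁ hg₂ ho, mulEquivOfOrderOfEq_apply_gen hg₁ hg₂ ho⟩
    · have hna₁ : ∃ a b : E₁, a * b ≠ b * a := by
        by_contra hcon
        push Not at hcon
        exact hab hcon
      have hna₂ : ∃ a b : E₂, a * b ≠ b * a := by
        by_contra hcon
        push Not at hcon
        have hc₂ : Nat.card E₂ = p := (abelian_iff_card h₂).1 hcon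
        have hc₁ : Nat.card E₁ = p := by rw [hn₁, ← hn₂, hc₂]
        exact hab ((abelian_iff_card h₁).2 hc₁)
      obtain ⟨x₁, y₁, hxy₁⟩ := exists_pair h₁ hna₁ z₁ hz₁c
      obtain ⟨x₂, y₂, hxy₂⟩ := exists_pair h₂ hna₂ z₂ hz₂c
      subst hxy₁ hxy₂
      have hi₁ := index_Cxy h₁ x₁ y₁ hz₁
      have hi₂ := index_Cxy h₂ x₂ y₂ hz₂
      have hm₁ : Nat.card ↥(Cxy h₁.2.1 x₁ y₁) * (p * p) = n := by
        rw [← hi₁, Subgroup.card_mul_index, hn₁]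
      have hm₂ : Nat.card ↥(Cxy h₂.2.1 x₂ y₂) * (p * p) = n := by
        rw [← hi₂, Subgroup.card_mul_index, hn₂]
      have hpp : 1 < p * p := by nlinarith [hp.one_lt]
      have hpos : 0 < Nat.card ↥(Cxy h₁.2.1 x₁ y₁) := Nat.card_pos
      have hlt : Nat.card ↥(Cxy h₁.2.1 x₁ y₁) < n := by
        rw [← hm₁]; nlinarith
      have hceq : Nat.card ↥(Cxy h₂.2.1 x₂ y₂) = Nat.card ↥(Cxy h₁.2.1 x₁ y₁) := by
        have h3 : Nat.card ↥(Cxy h₂.2.1 x₂ y₂) * (p * p)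
            = Nat.card ↥(Cxy h₁.2.1 x₁ y₁) * (p * p) := by rw [hm₁, hm₂]
        exact Nat.eq_of_mul_eq_mul_right (by omega) h3
      have hz1C : ⁅x₁, y₁⁆ ∈ Cxy h₁.2.1 x₁ y₁ := center_le_Cxy h₁ x₁ y₁ _ hz₁c
      have hz2C : ⁅x₂, y₂⁆ ∈ Cxy h₂.2.1 x₂ y₂ := center_le_Cxy h₂ x₂ y₂ _ hz₂c
      have hcen₁ : (⟨⁅x₁, y₁⁆, hz1C⟩ : ↥(Cxy h₁.2.1 x₁ y₁)) ∈
          Subgroup.center ↥(Cxy h₁.2.1 x₁ y₁) := by
        rw [Subgroup.mem_center_iff]
        intro g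
        exact Subtype.ext ((Subgroup.mem_center_iff.1 hz₁c) (g : E₁))
      have hcen₂ : (⟨⁅x₂, y₂⁆, hz2C⟩ : ↥(Cxy h₂.2.1 x₂ y₂)) ∈
          Subgroup.center ↥(Cxy h₂.2.1 x₂ y₂) := by
        rw [Subgroup.mem_center_iff]
        intro g
        exact Subtype.ext ((Subgroup.mem_center_iff.1 hz₂c) (g : E₂))
      obtain ⟨ψ, hψ⟩ := ih _ hlt ↥(Cxy h₁.2.1 x₁ y₁) ↥(Cxy h₂.2.1 x₂ y₂)
        (XS_Cxy h₁ x₁ y₁ hz₁) (XS_Cxy h₂ x₂ y₂ hz₂) rfl hceq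
        ⟨⁅x₁, y₁⁆, hz1C⟩ ⟨⁅x₂, y₂⁆, hz2C⟩ hcen₁ (fun h => hz₁ (congrArg Subtype.val h))
        hcen₂ (fun h => hz₂ (congrArg Subtype.val h))
      refine step h₁ h₂ (hn₁.trans hn₂.symm) x₁ y₁ x₂ y₂ hz₁ hz₂ ψ ?_
      intro c hc
      have e : c = ⟨⁅x₁, y₁⁆, hz1C⟩ := Subtype.ext hc
      rw [e, hψ]

theorem xs_of_extraspecial {E : Type*} [Group E] {p : ℕ} (h : Cfsg.IsExtraspecial p E)
    (he : Monoid.exponent E = p) : XS p E := by
  refine ⟨fun g => ?_, fun a b => ?_, h.2⟩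
  · rw [← he]; exact Monoid.pow_exponent_eq_one g
  · have h1 : ⁅a, b⁆ ∈ commutator E :=
      Subgroup.commutator_mem_commutator (Subgroup.mem_top a) (Subgroup.mem_top b)
    rw [h.1.2.2] at h1
    exact h1

theorem exists_central_ne_one {E : Type*} [Group E] [Finite E] {p : ℕ} [Fact p.Prime]
    (hX : XS p E) : ∃ z : E, z ∈ Subgroup.center E ∧ z ≠ 1 := by
  have hp : p.Prime := Fact.out
  haveI : Nontrivial ↥(Subgroup.center E) :=
    Finite.one_lt_card_iff_nontrivial.1 (by rw [hX.2.2]; exact hp.one_lt)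
  obtain ⟨w, hw⟩ := exists_ne (1 : ↥(Subgroup.center E))
  exact ⟨w.1, w.2, fun h => hw (Subtype.ext h)⟩

/-- For odd p, extraspecial p-groups of exponent p are determined up to isomorphism by their order. -/
theorem result {E₁ : Type*} {E₂ : Type*} [Group E₁] [Group E₂] [Finite E₁] [Finite E₂] {p : ℕ} [Fact p.Prime] (hp : p ≠ 2) (h₁ : Cfsg.IsExtraspecial p E₁) (h₂ : Cfsg.IsExtraspecial p E₂) (he₁ : Monoid.exponent E₁ = p) (he₂ : Monoid.exponent E₂ = p) (hc : Nat.card E₁ = Nat.card E₂) : Nonempty (E₁ ≃* E₂) := by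
  have hX₁ : XS p E₁ := xs_of_extraspecial h₁ he₁
  have hX₂ : XS p E₂ := xs_of_extraspecial h₂ he₂
  obtain ⟨z₁, hz₁⟩ := exists_central_ne_one hX₁
  obtain ⟨z₂, hz₂⟩ := exists_central_ne_one hX₂
  obtain ⟨φ, -⟩ := main p (Nat.card E₁) E₁ E₂ hX₁ hX₂ rfl hc.symm z₁ z₂ hz₁.1 hz₁.2 hz₂.1 hz₂.2
  exact ⟨φ⟩

end Cfsg.Agent.S0098
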