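import Cfsg.Statements.S0102
import Cfsg.Agent.Lib.Helper2.Transfer
-- import your own Cfsg.Agent.* helpers here

set_option autoImplicit false
open Cfsg

namespace Cfsg.Agent.S0102

/-- A finite perfect group with cyclic Sylow p-subgroups has no perfect central extension whose kernel has order divisible by p. -/
theorem result {G : Type*} {H : Type*} [Group G] [Group H] [Finite G] [Finite H] (hG : commutator G = ⊤) {p : ℕ} [Fact p.Prime] (hcyc : ∀ P : Sylow p G, IsCyclic P) (σ : H →* G) (hσ : Function.Surjective σ) (hz : σ.ker ≤ Subgroup.center H) (hH : commutator H = ⊤) : ¬ p ∣ Nat.card σ.ker := by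
  intro hdvd
  obtain ⟨⟨z, hzk⟩, hzo⟩ := exists_prime_orderOf_dvd_card' p hdvd
  rw [Subgroup.orderOf_mk] at hzo
  have hzZ := hz hzk
  have hzC : z ∈ commutator H := by rw [hH]; trivial
  have hzp : IsPGroup p (Subgroup.zpowers z) := by
    apply IsPGroup.of_card (n := 1)
    rw [Nat.card_zpowers, hzo, pow_one]
  obtain ⟨Q, hQ⟩ := hzp.exists_le_sylow
  have hzQ : z ∈ (Q : Subgroup H) := hQ (Subgroup.mem_zpowers z)
  have hcyc' : IsCyclic ((Q : Subgroup H).map σ) := hcyc (Q.mapSurjective hσ)
  have hker : (σ.subgroupMap (Q : Subgroup H)).ker ≤ Subgroup.center (Q : Subgroup H) := by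
    intro x hx
    rw [MonoidHom.mem_ker] at hx
    have hx' : σ (x : H) = 1 := congrArg Subtype.val hx
    have hxZ : (x : H) ∈ Subgroup.center H := hz hx'
    rw [Subgroup.mem_center_iff] at hxZ ⊢
    intro g
    exact Subtype.ext (hxZ g)
  have hcomm : IsMulCommutative (Q : Subgroup H) :=
    (σ.subgroupMap (Q : Subgroup H)).isMulCommutative_of_isCyclic_of_ker_le_center hker
  have h1 := Lib.Helper2.central_mem_commutator_sylow Q z hzQ hzZ hzC
  rw [commutator_eq_bot, Subgroup.mem_bot] at h1
  have h2 : z = 1 := congrArg Subtype.val h1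
  rw [h2, orderOf_one] at hzo
  exact (Fact.out : p.Prime).one_lt.ne hzo

end Cfsg.Agent.S0102
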