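import Cfsg.Statements.S0104
-- import your own Cfsg.Agent.* helpers here

set_option autoImplicit false
open Cfsg

namespace Cfsg.Agent.S0104

/-- A subgroup Z of a Sylow p-subgroup P that is normalized by N_G(P) is weakly closed in P exactly when it is normal in every Sylow p-subgroup containing it. -/
theorem result {G : Type*} [Group G] [Finite G] {p : ℕ} [Fact p.Prime] (P : Sylow p G) (Z : Subgroup G) (hZP : Z ≤ (P : Subgroup G)) (hZN : Subgroup.normalizer (P : Set G) ≤ Subgroup.normalizer (Z : Set G)) : Cfsg.IsWeaklyClosed Z P ↔ ∀ R : Sylow p G, Z ≤ (R : Subgroup G) → (R : Subgroup G) ≤ Subgroup.normalizer (Z : Set G) := by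
  constructor
  · rintro ⟨-, hW⟩ R hZR
    obtain ⟨g, rfl⟩ := MulAction.exists_smul_eq G P R
    have h1 : Z.map (MulAut.conj g⁻¹).toMonoidHom ≤ (P : Subgroup G) := by
      rintro - ⟨z, hz, rfl⟩
      obtain ⟨y, hy, hyz⟩ := hZR hz
      have e : g * y * g⁻¹ = z := hyz
      show g⁻¹ * z * g⁻¹⁻¹ ∈ (P : Subgroup G)
      rw [← e]
      have e2 : g⁻¹ * (g * y * g⁻¹) * g⁻¹⁻¹ = y := by group
      rw [e2]
      exact hy
    have h2 := hW g⁻¹ h1
    have h3 : g⁻¹ ∈ Subgroup.normalizer (Z : Set G) :=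
      Subgroup.mem_normalizer_iff_map_conj_eq.mpr h2
    have h4 : g ∈ Subgroup.normalizer (Z : Set G) := by simpa using Subgroup.inv_mem _ h3
    rintro - ⟨x, hx, rfl⟩
    show g * x * g⁻¹ ∈ Subgroup.normalizer (Z : Set G)
    exact Subgroup.mul_mem _ (Subgroup.mul_mem _ h4 (hZN (Subgroup.le_normalizer hx)))
      (Subgroup.inv_mem _ h4)
  · intro h
    refine ⟨hZP, fun g hg => ?_⟩
    have h1 : (P : Subgroup G) ≤ Subgroup.normalizer (Z : Set G) := h P hZP
    have hZR : Z ≤ ((g⁻¹ • P : Sylow p G) : Subgroup G) := by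
      intro z hz
      refine ⟨g * z * g⁻¹, hg ⟨z, hz, rfl⟩, ?_⟩
      show g⁻¹ * (g * z * g⁻¹) * g⁻¹⁻¹ = z
      group
    have h2 : ((g⁻¹ • P : Sylow p G) : Subgroup G) ≤ Subgroup.normalizer (Z : Set G) :=
      h (g⁻¹ • P) hZR
    obtain ⟨c, hc⟩ :=
      MulAction.exists_smul_eq (Subgroup.normalizer (Z : Set G)) ((g⁻¹ • P).subtype h2) (P.subtype h1)
    simp_rw [Sylow.smul_subtype, Subgroup.smul_def, smul_smul] at hc
    have h3 : (c : G) * g⁻¹ ∈ Subgroup.normalizer (P : Set G) :=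
      Sylow.smul_eq_iff_mem_normalizer.mp (Sylow.subtype_injective hc)
    have h4 : (c : G) * g⁻¹ ∈ Subgroup.normalizer (Z : Set G) := hZN h3
    have h5 : g⁻¹ ∈ Subgroup.normalizer (Z : Set G) := by
      have := Subgroup.mul_mem _ (Subgroup.inv_mem _ c.2) h4
      simpa using this
    have h6 : g ∈ Subgroup.normalizer (Z : Set G) := by simpa using Subgroup.inv_mem _ h5
    exact Subgroup.mem_normalizer_iff_map_conj_eq.mp h6

end Cfsg.Agent.S0104
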