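import Mathlib
import Cfsg.Statements.S0105
import Cfsg.Agent.Lib.Helper1.CoprimeAb

set_option autoImplicit false
open Cfsg

namespace Cfsg.Agent.S0105

open scoped IsMulCommutative
open Cfsg.Agent.Lib.Helper1

/-- With an abelian Sylow p-subgroup P, some quotient of G is isomorphic to the part of P central in N_G(P). -/
theorem result {G : Type*} [Group G] [Finite G] {p : ℕ} [Fact p.Prime] (P : Sylow p G) (hP : IsMulCommutative P) : ∃ (N : Subgroup G) (hN : N.Normal), Nonempty (G ⧸ N ≃* ((P : Subgroup G) ⊓ Subgroup.centralizer (Subgroup.normalizer (P : Set G) : Set G) : Subgroup G)) := by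
  classical
  haveI hPc : IsMulCommutative ↥(P : Subgroup G) := hP
  let f : ↥(Subgroup.normalizer ((P : Subgroup G) : Set G)) →* MulAut ↥(P : Subgroup G) :=
    (P : Subgroup G).normalizerMonoidHom
  have hf : ∀ (n : ↥(Subgroup.normalizer ((P : Subgroup G) : Set G))) (v : ↥(P : Subgroup G)),
      ((f n v : ↥(P : Subgroup G)) : G) = (n : G) * (v : G) * (n : G)⁻¹ := fun n v => rfl
  have hfixZ : ∀ x : ↥(P : Subgroup G), (∀ α ∈ f.range, α x = x) →
      x ∈ ((P : Subgroup G) ⊓ Subgroup.centralizer
        (Subgroup.normalizer ((P : Subgroup G) : Set G) : Set G)).subgroupOf (P : Subgroup G) := by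
    intro x hx
    rw [Subgroup.mem_subgroupOf]
    have hc : (x : G) ∈ Subgroup.centralizer
        (Subgroup.normalizer ((P : Subgroup G) : Set G) : Set G) := by
      rw [Subgroup.mem_centralizer_iff]
      intro n hn
      have h1 := hx (f ⟨n, hn⟩) ⟨⟨n, hn⟩, rfl⟩
      have h2 : n * (x : G) * n⁻¹ = (x : G) := by
        have h3 := congrArg Subtype.val h1
        rwa [hf] at h3
      calc n * (x : G) = (n * (x : G) * n⁻¹) * n := by group
        _ = (x : G) * n := by rw [h2]
    exact ⟨x.2, hc⟩
  have hZfix : ∀ x ∈ ((P : Subgroup G) ⊓ Subgroup.centralizer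
        (Subgroup.normalizer ((P : Subgroup G) : Set G) : Set G)).subgroupOf (P : Subgroup G),
      ∀ α ∈ f.range, α x = x := by
    rintro x hx _ ⟨n, rfl⟩
    rw [Subgroup.mem_subgroupOf] at hx
    apply Subtype.ext
    rw [hf]
    have h1 := Subgroup.mem_centralizer_iff.mp hx.2 n n.2
    rw [h1]; group
  let ϕ : ↥(P : Subgroup G) →* ↥(((P : Subgroup G) ⊓ Subgroup.centralizer
        (Subgroup.normalizer ((P : Subgroup G) : Set G) : Set G)).subgroupOf (P : Subgroup G)) :=
    (normHom f.range).codRestrict _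
      (fun x => hfixZ _ (fun α hα => normHom_fix f.range α hα x))
  have key : ∀ z : G, z ∈ (P : Subgroup G) ⊓ Subgroup.centralizer
        (Subgroup.normalizer ((P : Subgroup G) : Set G) : Set G) →
      ∀ (k : ℕ) (g₀ : G), g₀⁻¹ * z ^ k * g₀ ∈ (P : Subgroup G) →
        g₀⁻¹ * z ^ k * g₀ = z ^ k := by
    intro z hz k g₀ hk
    obtain ⟨n, hn, hn2⟩ := P.conj_eq_normalizer_conj_of_mem (z ^ k) g₀
      ((P : Subgroup G).pow_mem hz.1 k) hk
    rw [hn2]
    have hzk : z ^ k ∈ Subgroup.centralizer
        (Subgroup.normalizer ((P : Subgroup G) : Set G) : Set G) := Subgroup.pow_mem _ hz.2 k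
    have h1 := Subgroup.mem_centralizer_iff.mp hzk n hn
    rw [mul_assoc, ← h1, inv_mul_cancel_left]
  have hψ : ∀ z : ↥(((P : Subgroup G) ⊓ Subgroup.centralizer
        (Subgroup.normalizer ((P : Subgroup G) : Set G) : Set G)).subgroupOf (P : Subgroup G)),
      MonoidHom.transfer ϕ ((z : ↥(P : Subgroup G)) : G) =
        z ^ (Nat.card f.range * (P : Subgroup G).index) := by
    intro z
    have hz : ((z : ↥(P : Subgroup G)) : G) ∈ (P : Subgroup G) ⊓ Subgroup.centralizer
        (Subgroup.normalizer ((P : Subgroup G) : Set G) : Set G) :=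
      Subgroup.mem_subgroupOf.mp z.2
    rw [MonoidHom.transfer_eq_pow ϕ _ (key _ hz)]
    have e1 : (⟨((z : ↥(P : Subgroup G)) : G) ^ (P : Subgroup G).index,
        MonoidHom.transfer_eq_pow_aux _ (key _ hz)⟩ : ↥(P : Subgroup G)) =
        (z : ↥(P : Subgroup G)) ^ (P : Subgroup G).index := Subtype.ext rfl
    rw [e1, map_pow]
    have e2 : ϕ (z : ↥(P : Subgroup G)) = z ^ Nat.card f.range := by
      apply Subtype.ext
      show normHom f.range (z : ↥(P : Subgroup G)) = _
      rw [normHom_of_fixed f.range _ (hZfix _ z.2)]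
      rfl
    rw [e2, ← pow_mul]
  have hcop : (Nat.card ↥(((P : Subgroup G) ⊓ Subgroup.centralizer
        (Subgroup.normalizer ((P : Subgroup G) : Set G) : Set G)).subgroupOf
          (P : Subgroup G))).Coprime (Nat.card f.range * (P : Subgroup G).index) := by
    have hp : p.Prime := Fact.out
    have hPp : IsPGroup p ↥(P : Subgroup G) := P.isPGroup'
    obtain ⟨k, hk⟩ := IsPGroup.iff_card.mp (hPp.to_subgroup (((P : Subgroup G) ⊓
      Subgroup.centralizer (Subgroup.normalizer ((P : Subgroup G) : Set G) : Set G)).subgroupOf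
        (P : Subgroup G)))
    rw [hk]
    apply Nat.Coprime.pow_left
    rw [Nat.Prime.coprime_iff_not_dvd hp, Nat.Prime.dvd_mul hp]
    have hidx : ¬ p ∣ (P : Subgroup G).index := P.not_dvd_index
    have hA : Nat.card f.range ∣ (P : Subgroup G).index := by
      rw [← Subgroup.index_ker f]
      have h1 : (P : Subgroup G).subgroupOf (Subgroup.normalizer ((P : Subgroup G) : Set G)) ≤
          f.ker := by
        rw [Subgroup.normalizerMonoidHom_ker]
        intro x hx
        rw [Subgroup.mem_subgroupOf] at hx ⊢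
        exact (P : Subgroup G).le_centralizer hx
      exact (Subgroup.index_dvd_of_le h1).trans
        (Subgroup.relIndex_dvd_index_of_le Subgroup.le_normalizer)
    rintro (h | h)
    · exact hidx (h.trans hA)
    · exact hidx h
  have hsurj : Function.Surjective (MonoidHom.transfer ϕ) := by
    intro t
    refine ⟨((((powCoprime hcop).symm t : ↥(((P : Subgroup G) ⊓ Subgroup.centralizer
        (Subgroup.normalizer ((P : Subgroup G) : Set G) : Set G)).subgroupOf
          (P : Subgroup G))) : ↥(P : Subgroup G)) : G), ?_⟩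
    rw [hψ]
    exact (powCoprime hcop).apply_symm_apply t
  refine ⟨(MonoidHom.transfer ϕ).ker, inferInstance, ⟨?_⟩⟩
  exact (QuotientGroup.quotientKerEquivOfSurjective _ hsurj).trans
    (Subgroup.subgroupOfEquivOfLe inf_le_left)

end Cfsg.Agent.S0105
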