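import Cfsg.Statements.S0111
import Mathlib.GroupTheory.IndexNormal
import Mathlib.GroupTheory.SpecificGroups.Cyclic
-- import your own Cfsg.Agent.* helpers here

set_option autoImplicit false
open Cfsg

namespace Cfsg.Agent.S0111

open scoped IsMulCommutative

/-- The Thompson transfer lemma states that an involution of a Sylow 2-subgroup P lying outside a subgroup Q of index 2 in P either lies outside some normal subgroup of index 2 in G or is conjugate to an element of Q. -/
theorem result {G : Type*} [Group G] [Finite G] (P : Sylow 2 G) (Q : Subgroup G) (hQP : Q ≤ (P : Subgroup G)) (hQi : Q.relIndex (P : Subgroup G) = 2) (u : G) (hu : orderOf u = 2) (huP : u ∈ (P : Subgroup G)) (huQ : u ∉ Q) : (∃ M : Subgroup G, M.Normal ∧ M.index = 2 ∧ u ∉ M) ∨ ∃ g : G, g * u * g⁻¹ ∈ Q := by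
  by_contra hcon
  push Not at hcon
  obtain ⟨h1, h2⟩ := hcon
  have hidx : (Q.subgroupOf (P : Subgroup G)).index = 2 := hQi
  have hnormal : (Q.subgroupOf (P : Subgroup G)).Normal := Subgroup.normal_of_index_eq_two hidx
  have hcard : Nat.card ((P : Subgroup G) ⧸ Q.subgroupOf (P : Subgroup G)) = 2 := by
    rw [← Subgroup.index_eq_card, hidx]
  have hcyc : IsCyclic ((P : Subgroup G) ⧸ Q.subgroupOf (P : Subgroup G)) :=
    isCyclic_of_prime_card hcard
  have hcomm : IsMulCommutative ((P : Subgroup G) ⧸ Q.subgroupOf (P : Subgroup G)) :=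
    hcyc.isMulCommutative
  have hu2 : u ^ 2 = 1 := by rw [← hu, pow_orderOf_eq_one]
  have ha : (QuotientGroup.mk' (Q.subgroupOf (P : Subgroup G))) ⟨u, huP⟩ ≠ 1 := by
    intro h
    rw [QuotientGroup.mk'_apply, QuotientGroup.eq_one_iff] at h
    exact huQ h
  have ha2 : ((QuotientGroup.mk' (Q.subgroupOf (P : Subgroup G))) ⟨u, huP⟩) ^ 2 = 1 := by
    rw [← map_pow]
    have : (⟨u, huP⟩ : (P : Subgroup G)) ^ 2 = 1 := Subtype.ext hu2
    rw [this, map_one]
  have hterm : ∀ (d : ℕ) (g : G) (hmem : g⁻¹ * u ^ d * g ∈ (P : Subgroup G)), d ∣ 2 →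
      (QuotientGroup.mk' (Q.subgroupOf (P : Subgroup G))) ⟨g⁻¹ * u ^ d * g, hmem⟩ =
        ((QuotientGroup.mk' (Q.subgroupOf (P : Subgroup G))) ⟨u, huP⟩) ^ d := by
    intro d g hmem hd
    rcases (Nat.dvd_prime Nat.prime_two).mp hd with rfl | rfl
    · conv_rhs => rw [pow_one]
      simp only [QuotientGroup.mk'_apply]
      rw [QuotientGroup.eq, Subgroup.mul_mem_iff_of_index_two hidx, inv_mem_iff]
      have hn1 : (⟨g⁻¹ * u ^ 1 * g, hmem⟩ : (P : Subgroup G)) ∉ Q.subgroupOf (P : Subgroup G) := by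
        intro hq
        rw [Subgroup.mem_subgroupOf] at hq
        have := h2 g⁻¹
        simp only [pow_one, inv_inv] at hq this
        exact this hq
      have hn2 : (⟨u, huP⟩ : (P : Subgroup G)) ∉ Q.subgroupOf (P : Subgroup G) := huQ
      exact ⟨fun h => absurd h hn1, fun h => absurd h hn2⟩
    · rw [ha2]
      have : (⟨g⁻¹ * u ^ 2 * g, hmem⟩ : (P : Subgroup G)) = 1 := by
        apply Subtype.ext
        simp [hu2]
      rw [this, map_one]
  have key : MonoidHom.transfer (QuotientGroup.mk' (Q.subgroupOf (P : Subgroup G))) u =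
      (QuotientGroup.mk' (Q.subgroupOf (P : Subgroup G))) ⟨u, huP⟩ := by
    classical
    haveI : Fintype (Quotient (MulAction.orbitRel (Subgroup.zpowers u) (G ⧸ (P : Subgroup G)))) :=
      Fintype.ofFinite _
    rw [MonoidHom.transfer_eq_prod_quotient_orbitRel_zpowers_quot]
    have hdvd : ∀ q : Quotient (MulAction.orbitRel (Subgroup.zpowers u) (G ⧸ (P : Subgroup G))),
        Function.minimalPeriod (u • ·) q.out ∣ 2 := by
      intro q
      rw [← MulAction.pow_smul_eq_iff_minimalPeriod_dvd, hu2, one_smul]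
    rw [Finset.prod_congr rfl (fun q _ => hterm _ _ _ (hdvd q)), Finset.prod_pow_eq_pow_sum,
      ← Subgroup.index_eq_sum_minimalPeriod]
    have hodd : ¬ 2 ∣ (P : Subgroup G).index := P.not_dvd_index
    obtain ⟨k, hk⟩ : Odd (P : Subgroup G).index := Nat.not_even_iff_odd.mp (fun h => hodd h.two_dvd)
    rw [hk, pow_succ, pow_mul, ha2, one_pow, one_mul]
  set V := MonoidHom.transfer (QuotientGroup.mk' (Q.subgroupOf (P : Subgroup G))) with hV
  have huV : u ∉ V.ker := by
    intro h
    rw [MonoidHom.mem_ker, key] at h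
    exact ha h
  refine huV (h1 V.ker (MonoidHom.normal_ker V) ?_)
  rw [Subgroup.index_ker]
  have hd : Nat.card V.range ∣ 2 := by
    have := Subgroup.card_subgroup_dvd_card V.range
    rwa [hcard] at this
  rcases (Nat.dvd_prime Nat.prime_two).mp hd with h | h
  · exfalso
    rw [Subgroup.card_eq_one] at h
    have : V u ∈ V.range := ⟨u, rfl⟩
    rw [h, Subgroup.mem_bot] at this
    exact huV this
  · exact h

end Cfsg.Agent.S0111
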