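import Cfsg.Statements.S0107
import Mathlib
import Cfsg.Agent.Lib.Helper8.MaxClass2
import Cfsg.Agent.S0111
import Cfsg.Agent.Lib.Helper9.ConjLemmas
import Cfsg.Agent.Lib.Helper2.NPC

set_option autoImplicit false
open Cfsg

namespace Cfsg.Agent.S0107


open Cfsg.Agent.Lib.Helper8 (h8_sq_one_in_zpowers)
open Cfsg.Agent.Lib.Helper9 (mem_conj_smul_iff)


/-- A finite group with no nontrivial 2-group quotient and dihedral Sylow 2-subgroups of order at least 8 has a single class of involutions. -/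
theorem result {G : Type*} [Group G] [Finite G] (T : Sylow 2 G) (n : ℕ) (hn : 2 ≤ n) (hT : Nonempty ((T : Subgroup G) ≃* DihedralGroup (2 ^ n))) (hO : Cfsg.pResidual 2 G = ⊤) (x y : G) (hx : orderOf x = 2) (hy : orderOf y = 2) : ∃ g : G, g * x * g⁻¹ = y := by
  classical
  obtain ⟨e⟩ := hT
  have : Fact (Nat.Prime 2) := ⟨Nat.prime_two⟩
  have hcT : ((e.symm (DihedralGroup.r 1) : (T : Subgroup G)) : G) ∈ (T : Subgroup G) :=
    (e.symm (DihedralGroup.r 1)).2
  obtain ⟨c, hcdef⟩ : ∃ c : G, c = ((e.symm (DihedralGroup.r 1) : (T : Subgroup G)) : G) :=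
    ⟨_, rfl⟩
  have hco : orderOf c = 2 ^ n := by
    rw [hcdef, Subgroup.orderOf_coe, MulEquiv.orderOf_eq, DihedralGroup.orderOf_r_one]
  have hQT : Subgroup.zpowers c ≤ (T : Subgroup G) := by
    rw [Subgroup.zpowers_le, hcdef]; exact hcT
  have hcardT : Nat.card (T : Subgroup G) = 2 * 2 ^ n := by
    rw [Nat.card_congr e.toEquiv, DihedralGroup.nat_card]
  have hQi : (Subgroup.zpowers c).relIndex (T : Subgroup G) = 2 := by
    have h1 := Subgroup.card_mul_index ((Subgroup.zpowers c).subgroupOf (T : Subgroup G))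
    rw [Nat.card_congr (Subgroup.subgroupOfEquivOfLe hQT).toEquiv, Nat.card_zpowers, hco,
      hcardT, mul_comm 2 (2 ^ n)] at h1
    exact Nat.eq_of_mul_eq_mul_left (by positivity) h1
  have hnoM : ¬ ∃ M : Subgroup G, M.Normal ∧ M.index = 2 := by
    rintro ⟨M, hMn, hMi⟩
    have := hMn
    have hle : Cfsg.pResidual 2 G ≤ M := by
      unfold Cfsg.pResidual
      rw [Subgroup.closure_le]
      intro g hg
      exact Cfsg.Agent.Lib.Helper2.mem_of_index_pow_of_coprime_orderOf M (a := 1)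
        (by rw [pow_one]; exact hMi) g hg
    rw [hO, top_le_iff] at hle
    rw [hle, Subgroup.index_top] at hMi
    omega
  -- every involution is conjugate to the central involution
  have key : ∀ x : G, orderOf x = 2 → ∃ g : G, g * x * g⁻¹ = c ^ (2 ^ (n - 1)) := by
    intro x hx
    have hinQ : ∀ u : G, orderOf u = 2 → u ∈ Subgroup.zpowers c → u = c ^ (2 ^ (n - 1)) := by
      intro u hu huQ
      have hu2 : u ^ 2 = 1 := by rw [← hu]; exact pow_orderOf_eq_one u
      rcases h8_sq_one_in_zpowers c n (by omega) hco u huQ hu2 with h | h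
      · rw [h, orderOf_one] at hu; omega
      · exact h
    -- conjugate x into T
    have hxp : IsPGroup 2 (Subgroup.zpowers x) := by
      apply IsPGroup.of_card (n := 1)
      rw [Nat.card_zpowers, hx, pow_one]
    obtain ⟨T', hT'⟩ := hxp.exists_le_sylow
    obtain ⟨g, hg⟩ := MulAction.exists_smul_eq G T T'
    have hxT' : x ∈ (T' : Subgroup G) := hT' (Subgroup.mem_zpowers x)
    rw [← hg, Sylow.coe_subgroup_smul, mem_conj_smul_iff] at hxT'
    have hu : orderOf (g⁻¹ * x * g) = 2 := by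
      have h1 := MulEquiv.orderOf_eq (MulAut.conj g⁻¹) x
      rw [MulAut.conj_apply, inv_inv] at h1
      rw [h1]
      exact hx
    by_cases huQ : g⁻¹ * x * g ∈ Subgroup.zpowers c
    · refine ⟨g⁻¹, ?_⟩
      rw [inv_inv]
      exact hinQ _ hu huQ
    · rcases Cfsg.Agent.S0111.result T (Subgroup.zpowers c) hQT hQi (g⁻¹ * x * g) hu hxT' huQ with
        ⟨M, hMn, hMi, -⟩ | ⟨k, hk⟩
      · exact absurd ⟨M, hMn, hMi⟩ hnoM
      · refine ⟨k * g⁻¹, ?_⟩
        have h2 : k * g⁻¹ * x * (k * g⁻¹)⁻¹ = k * (g⁻¹ * x * g) * k⁻¹ := by group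
        rw [h2]
        apply hinQ _ _ hk
        have h4 := MulEquiv.orderOf_eq (MulAut.conj k) (g⁻¹ * x * g)
        rw [MulAut.conj_apply] at h4
        rw [h4]
        exact hu
  obtain ⟨g₁, hg₁⟩ := key x hx
  obtain ⟨g₂, hg₂⟩ := key y hy
  refine ⟨g₂⁻¹ * g₁, ?_⟩
  have h3 : g₂⁻¹ * g₁ * x * (g₂⁻¹ * g₁)⁻¹ = g₂⁻¹ * (g₁ * x * g₁⁻¹) * g₂ := by group
  rw [h3, hg₁, ← hg₂]
  group

end Cfsg.Agent.S0107
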