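import Cfsg.Statements.S0110
-- import your own Cfsg.Agent.* helpers here
import Cfsg.Agent.Lib.Helper7.EsInner

set_option autoImplicit false
open Cfsg

namespace Cfsg.Agent.S0110

open Cfsg.Agent.Lib.Helper7
open scoped commutatorElement

/-- In a p-group G, an extraspecial subgroup E with [G, E] ≤ Z(E) satisfies G = E C_G(E). -/
theorem result {G : Type*} [Group G] [Finite G] {p : ℕ} [Fact p.Prime] (hG : IsPGroup p G) (E : Subgroup G) (hE : Cfsg.IsExtraspecial p E) (h : ⁅(⊤ : Subgroup G), E⁆ ≤ E ⊓ Subgroup.centralizer (E : Set G)) : E ⊔ Subgroup.centralizer (E : Set G) = ⊤ := by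
  rw [eq_top_iff]
  intro g _
  have hmem : ∀ x ∈ E, g * x * g⁻¹ * x⁻¹ ∈ E ⊓ Subgroup.centralizer (E : Set G) := by
    intro x hx
    apply h
    have h0 := Subgroup.commutator_mem_commutator (Subgroup.mem_top g) hx
    rwa [commutatorElement_def] at h0
  have hcen : ∀ x ∈ E, ∀ y ∈ E, y * (g * x * g⁻¹ * x⁻¹) = (g * x * g⁻¹ * x⁻¹) * y := by
    intro x hx y hy
    have h0 := (Subgroup.mem_inf.mp (hmem x hx)).2
    rw [Subgroup.mem_centralizer_iff] at h0
    exact h0 y hy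
  let δ : E →* E :=
    { toFun := fun x => ⟨g * x * g⁻¹ * (x : G)⁻¹, (Subgroup.mem_inf.mp (hmem x x.2)).1⟩
      map_one' := by apply Subtype.ext; simp
      map_mul' := fun x y => by
        apply Subtype.ext
        show g * ((x : G) * y) * g⁻¹ * ((x : G) * y)⁻¹ =
          (g * x * g⁻¹ * (x:G)⁻¹) * (g * y * g⁻¹ * (y:G)⁻¹)
        have hy := hcen y y.2 (x:G)⁻¹ (E.inv_mem x.2)
        calc g * ((x : G) * y) * g⁻¹ * ((x : G) * y)⁻¹
            = g * x * g⁻¹ * ((g * y * g⁻¹ * (y:G)⁻¹) * (x:G)⁻¹) := by group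
          _ = g * x * g⁻¹ * ((x:G)⁻¹ * (g * y * g⁻¹ * (y:G)⁻¹)) := by rw [← hy]
          _ = _ := by group }
  have hδ : ∀ x, δ x ∈ Subgroup.center E := by
    intro x
    rw [Subgroup.mem_center_iff]
    intro y
    apply Subtype.ext
    exact hcen x x.2 y y.2
  obtain ⟨e, he⟩ := es_hom_inner p hE δ hδ
  have hconj : ∀ x ∈ E, g * x * g⁻¹ = e * x * (e:G)⁻¹ := by
    intro x hx
    have h1 := congrArg Subtype.val (he ⟨x, hx⟩)
    have h2 : g * x * g⁻¹ * x⁻¹ = e * x * (e:G)⁻¹ * x⁻¹ := h1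
    exact mul_right_cancel h2
  have hc : (e:G)⁻¹ * g ∈ Subgroup.centralizer (E : Set G) := by
    rw [Subgroup.mem_centralizer_iff]
    intro x hx
    have h1 := hconj x hx
    calc x * ((e:G)⁻¹ * g) = (e:G)⁻¹ * (e * x * (e:G)⁻¹) * g := by group
      _ = (e:G)⁻¹ * (g * x * g⁻¹) * g := by rw [h1]
      _ = (e:G)⁻¹ * g * x := by group
  have hg : g = e * ((e:G)⁻¹ * g) := by group
  rw [hg]
  exact Subgroup.mul_mem _ (Subgroup.mem_sup_left e.2) (Subgroup.mem_sup_right hc)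

end Cfsg.Agent.S0110
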