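import Cfsg.Statements.S0112
import Mathlib
import Cfsg.Agent.Lib.Helper8.MaxClass

set_option autoImplicit false
open Cfsg

namespace Cfsg.Agent.S0112



/-- A p-group with a self-centralizing subgroup of order p^2 is of maximal class. -/
theorem result {X : Type*} [Group X] [Finite X] {p : ℕ} [Fact p.Prime] (n : ℕ) (hX : Nat.card X = p ^ n) (A : Subgroup X) (hA : Nat.card A = p ^ 2) (hC : Subgroup.centralizer (A : Set X) = A) : Group.nilpotencyClass X = n - 1 := by
  have hcomm : ∀ x ∈ A, ∀ y ∈ A, x * y = y * x := by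
    intro x hx y hy
    have hx' : x ∈ Subgroup.centralizer (A : Set X) := by rw [hC]; exact hx
    exact (Subgroup.mem_centralizer_iff.mp hx' y hy).symm
  exact Cfsg.Agent.Lib.Helper8.h8_suzuki_maxclass p n X hX A hA hcomm hC.le

end Cfsg.Agent.S0112
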