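import Cfsg.Statements.S0113
import Mathlib
import Cfsg.Agent.Lib.Helper8.MaxClass2

set_option autoImplicit false
open Cfsg

namespace Cfsg.Agent.S0113




/-- A 2-group of maximal class contains a cyclic subgroup of index 2. -/
theorem result {X : Type*} [Group X] [Finite X] (n : ℕ) (hn : 3 ≤ n) (hX : Nat.card X = 2 ^ n) (hc : Group.nilpotencyClass X = n - 1) : ∃ C : Subgroup X, IsCyclic C ∧ C.index = 2 := by
  obtain ⟨c, hco⟩ := Cfsg.Agent.Lib.Helper8.h8_maxclass2_cyclic_max n X hX hn hc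
  refine ⟨Subgroup.zpowers c, inferInstance, ?_⟩
  have h1 := Subgroup.card_mul_index (Subgroup.zpowers c)
  rw [Nat.card_zpowers, hco, hX] at h1
  have h2 : 2 ^ n = 2 ^ (n - 1) * 2 := by rw [← pow_succ]; congr 1; omega
  rw [h2] at h1
  exact Nat.eq_of_mul_eq_mul_left (by positivity) h1

end Cfsg.Agent.S0113
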