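import Cfsg.Statements.S0114
import Mathlib
import Cfsg.Agent.Lib.Helper8.MaxClass2
import Cfsg.Agent.S0206
import Cfsg.Agent.Lib.Helper7.Hall

set_option autoImplicit false
open Cfsg

namespace Cfsg.Agent.S0114


open Cfsg.Agent.Lib.Helper8 (h8_maxclass2_cyclic_max h8_maxclass2_center h8_class_le_one_of_comm)

/-- structure of a nonabelian group with a cyclic subgroup `⟨c⟩` of index 2 modulo its centre -/
theorem dih_quot {X : Type*} [Group X] [Finite X] (c : X) (m : ℕ)
    (hidx : (Subgroup.zpowers c).index = 2) (hna : ¬ ∀ a b : X, a * b = b * a)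
    (hZ : Nat.card (Subgroup.center X) = 2) (hco : orderOf c = 2 * m) (hm : 2 ≤ m) :
    Nonempty (X ⧸ Subgroup.center X ≃* DihedralGroup m) := by
  classical
  have hcc : ∀ i j : ℤ, c ^ i * c ^ j = c ^ j * c ^ i := fun i j =>
    (Commute.zpow_zpow (Commute.refl c) i j).eq
  have hout : ∀ g y : X, g ∉ Subgroup.zpowers c → y ∉ Subgroup.zpowers c →
      ∃ i : ℤ, y = g * c ^ i := by
    intro g y hg hy
    have h2 : g⁻¹ * y ∈ Subgroup.zpowers c := by
      rw [Subgroup.mul_mem_iff_of_index_two hidx]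
      constructor
      · intro h; exact absurd ((Subgroup.inv_mem_iff _).mp h) hg
      · intro h; exact absurd h hy
    obtain ⟨i, hi⟩ := Subgroup.mem_zpowers_iff.mp h2
    exact ⟨i, by rw [hi]; group⟩
  have hZC : Subgroup.center X ≤ Subgroup.zpowers c := by
    intro z hz
    by_contra hzc
    apply hna
    have hz' : ∀ g : X, g * z = z * g := Subgroup.mem_center_iff.mp hz
    have key : ∀ g : X, ∃ i : ℤ, g = c ^ i ∨ g = z * c ^ i := by
      intro g
      by_cases hg : g ∈ Subgroup.zpowers c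
      · obtain ⟨i, rfl⟩ := Subgroup.mem_zpowers_iff.mp hg
        exact ⟨i, Or.inl rfl⟩
      · obtain ⟨i, hi⟩ := hout z g hzc hg
        exact ⟨i, Or.inr hi⟩
    intro a b
    obtain ⟨i, hi | hi⟩ := key a <;> obtain ⟨j, hj | hj⟩ := key b
    · rw [hi, hj]; exact hcc i j
    · rw [hi, hj, ← mul_assoc, hz', mul_assoc, hcc i j, mul_assoc]
    · rw [hi, hj, mul_assoc, hcc i j, ← mul_assoc, ← hz', mul_assoc]
    · rw [hi, hj]
      calc z * c ^ i * (z * c ^ j) = z * (c ^ i * z) * c ^ j := by group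
        _ = z * (z * c ^ i) * c ^ j := by rw [hz']
        _ = z * z * (c ^ i * c ^ j) := by group
        _ = z * z * (c ^ j * c ^ i) := by rw [hcc i j]
        _ = z * (z * c ^ j) * c ^ i := by group
        _ = z * (c ^ j * z) * c ^ i := by rw [hz']
        _ = z * c ^ j * (z * c ^ i) := by group
  have hcbar : orderOf (QuotientGroup.mk' (Subgroup.center X) c) = m := by
    have h1 : ((Subgroup.zpowers c).map (QuotientGroup.mk' (Subgroup.center X))).comap
        (QuotientGroup.mk' (Subgroup.center X)) = Subgroup.zpowers c := by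
      rw [Subgroup.comap_map_eq, QuotientGroup.ker_mk', sup_eq_left.mpr hZC]
    have h2 := Cfsg.Agent.Lib.Helper7.card_comap_mk' (Subgroup.center X)
      ((Subgroup.zpowers c).map (QuotientGroup.mk' (Subgroup.center X)))
    rw [h1, Nat.card_zpowers, hco, hZ, MonoidHom.map_zpowers, Nat.card_zpowers] at h2
    omega
  obtain ⟨b, hb⟩ : ∃ b, b ∉ Subgroup.zpowers c := by
    by_contra h
    have h1 : Subgroup.zpowers c = ⊤ :=
      eq_top_iff.mpr (fun x _ => by_contra (fun hx => h ⟨x, hx⟩))
    rw [h1, Subgroup.index_top] at hidx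
    omega
  have hsq : ∀ g : X, g ∉ Subgroup.zpowers c → g ^ 2 ∈ Subgroup.center X := by
    intro g hg
    have h1 : g ^ 2 ∈ Subgroup.zpowers c := Subgroup.sq_mem_of_index_two hidx g
    obtain ⟨j, hj⟩ := Subgroup.mem_zpowers_iff.mp h1
    rw [Subgroup.mem_center_iff]
    intro y
    by_cases hy : y ∈ Subgroup.zpowers c
    · obtain ⟨i, rfl⟩ := Subgroup.mem_zpowers_iff.mp hy
      rw [← hj]; exact hcc i j
    · obtain ⟨i, hi⟩ := hout g y hg hy
      rw [hi]
      calc g * c ^ i * g ^ 2 = g * (c ^ i * c ^ j) := by rw [hj, mul_assoc]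
        _ = g * (c ^ j * c ^ i) := by rw [hcc i j]
        _ = g ^ 2 * (g * c ^ i) := by rw [hj]; group
  have : Fact (Nat.Prime 2) := ⟨Nat.prime_two⟩
  have hbZ : ∀ g : X, g ∉ Subgroup.zpowers c →
      orderOf (QuotientGroup.mk' (Subgroup.center X) g) = 2 := by
    intro g hg
    apply orderOf_eq_prime
    · rw [← map_pow]; exact (QuotientGroup.eq_one_iff _).mpr (hsq g hg)
    · intro h; exact hg (hZC ((QuotientGroup.eq_one_iff _).mp h))
  have hbc : b * c ∉ Subgroup.zpowers c := by
    intro h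
    rw [Subgroup.mul_mem_iff_of_index_two hidx] at h
    exact hb (h.mpr (Subgroup.mem_zpowers c))
  have hx := hbZ b hb
  have hy := hbZ (b * c) hbc
  have hxy_mul : QuotientGroup.mk' (Subgroup.center X) b *
      QuotientGroup.mk' (Subgroup.center X) (b * c) = QuotientGroup.mk' (Subgroup.center X) c := by
    rw [map_mul, ← mul_assoc, ← sq, ← map_pow]
    have h1 : QuotientGroup.mk' (Subgroup.center X) (b ^ 2) = 1 :=
      (QuotientGroup.eq_one_iff _).mpr (hsq b hb)
    rw [h1, one_mul]
  have hne : QuotientGroup.mk' (Subgroup.center X) b ≠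
      QuotientGroup.mk' (Subgroup.center X) (b * c) := by
    intro h
    have h1 : QuotientGroup.mk' (Subgroup.center X) c = 1 := by
      rw [map_mul] at h
      exact mul_eq_left.mp h.symm
    rw [h1, orderOf_one] at hcbar
    omega
  obtain ⟨e⟩ := Cfsg.Agent.S0206.result _ _ hx hy hne
  rw [hxy_mul, hcbar] at e
  have hm0 : NeZero m := ⟨by omega⟩
  have hcard : Nat.card (Subgroup.closure ({QuotientGroup.mk' (Subgroup.center X) b,
      QuotientGroup.mk' (Subgroup.center X) (b * c)} : Set (X ⧸ Subgroup.center X))) =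
      Nat.card (X ⧸ Subgroup.center X) := by
    rw [Nat.card_congr e.toEquiv, DihedralGroup.nat_card]
    have h1 := Subgroup.card_mul_index (Subgroup.center X)
    have h2 := Subgroup.card_mul_index (Subgroup.zpowers c)
    rw [Nat.card_zpowers, hco, hidx] at h2
    rw [hZ, ← h2, Subgroup.index_eq_card] at h1
    omega
  have htop := Subgroup.eq_top_of_card_eq _ hcard
  exact ⟨(Subgroup.topEquiv.symm.trans (MulEquiv.subgroupCongr htop.symm)).trans e⟩


/-- The central quotient of a 2-group of maximal class is dihedral. -/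
theorem result {X : Type*} [Group X] [Finite X] (n : ℕ) (hn : 3 ≤ n) (hX : Nat.card X = 2 ^ n) (hc : Group.nilpotencyClass X = n - 1) : Nonempty (X ⧸ Subgroup.center X ≃* DihedralGroup (2 ^ (n - 2))) := by
  obtain ⟨c, hco⟩ := h8_maxclass2_cyclic_max n X hX hn hc
  obtain ⟨hZ, -, -⟩ := h8_maxclass2_center n X hX hn hc
  have h2 : 2 ^ n = 2 ^ (n - 1) * 2 := by rw [← pow_succ]; congr 1; omega
  have h3 : 2 ^ (n - 1) = 2 * 2 ^ (n - 2) := by rw [← pow_succ']; congr 1; omega
  have hidx : (Subgroup.zpowers c).index = 2 := by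
    have h1 := Subgroup.card_mul_index (Subgroup.zpowers c)
    rw [Nat.card_zpowers, hco, hX, h2] at h1
    exact Nat.eq_of_mul_eq_mul_left (by positivity) h1
  have : Fact (Nat.Prime 2) := ⟨Nat.prime_two⟩
  have hnil : Group.IsNilpotent X := (IsPGroup.of_card hX).isNilpotent
  have hna : ¬ ∀ a b : X, a * b = b * a := by
    intro h
    have := h8_class_le_one_of_comm h
    omega
  have hm : 2 ≤ 2 ^ (n - 2) := by
    calc 2 = 2 ^ 1 := rfl
      _ ≤ 2 ^ (n - 2) := Nat.pow_le_pow_right (by norm_num) (by omega)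
  exact dih_quot c (2 ^ (n - 2)) hidx hna hZ (hco.trans h3) hm

end Cfsg.Agent.S0114
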