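import Cfsg.Statements.S0130
import Mathlib

set_option autoImplicit false
open Cfsg

namespace Cfsg.Agent.S0130

open scoped commutatorElement

theorem b2 {G : Type*} [Group G] (a b : G) (hwa : Commute ⁅b, a⁆ a) (hwb : Commute ⁅b, a⁆ b)
    (m : ℕ) : b ^ m * a = ⁅b, a⁆ ^ m * a * b ^ m := by
  have h1 : b * a = ⁅b, a⁆ * a * b := by
    simp [commutatorElement_def, mul_assoc]
  induction m with
  | zero => simp
  | succ m ih =>
    have h2 : b ^ m * ⁅b, a⁆ = ⁅b, a⁆ * b ^ m := (hwb.pow_right m).eq.symm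
    calc b ^ (m + 1) * a = b ^ m * (b * a) := by rw [pow_succ, mul_assoc]
      _ = (b ^ m * ⁅b, a⁆) * a * b := by rw [h1]; simp only [mul_assoc]
      _ = ⁅b, a⁆ * (b ^ m * a) * b := by rw [h2]; simp only [mul_assoc]
      _ = ⁅b, a⁆ ^ (m + 1) * a * b ^ (m + 1) := by
        rw [ih, pow_succ', pow_succ]; simp only [mul_assoc]

theorem b1 {G : Type*} [Group G] (a b : G) (hwa : Commute ⁅b, a⁆ a) (hwb : Commute ⁅b, a⁆ b)
    (m : ℕ) : b * a ^ m = ⁅b, a⁆ ^ m * a ^ m * b := by
  have h1 : b * a = ⁅b, a⁆ * a * b := by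
    simp [commutatorElement_def, mul_assoc]
  induction m with
  | zero => simp
  | succ m ih =>
    have h2 : a ^ m * ⁅b, a⁆ = ⁅b, a⁆ * a ^ m := (hwa.pow_right m).eq.symm
    calc b * a ^ (m + 1) = (b * a ^ m) * a := by rw [pow_succ, mul_assoc]
      _ = ⁅b, a⁆ ^ m * a ^ m * (b * a) := by rw [ih]; simp only [mul_assoc]
      _ = ⁅b, a⁆ ^ m * (a ^ m * ⁅b, a⁆) * a * b := by rw [h1]; simp only [mul_assoc]
      _ = ⁅b, a⁆ ^ (m + 1) * a ^ (m + 1) * b := by
        rw [h2, pow_succ, pow_succ]; simp only [mul_assoc]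

theorem mul_pow_class2 {G : Type*} [Group G] (a b : G) (hwa : Commute ⁅b, a⁆ a)
    (hwb : Commute ⁅b, a⁆ b) (m : ℕ) :
    (a * b) ^ m = ⁅b, a⁆ ^ (m.choose 2) * a ^ m * b ^ m := by
  induction m with
  | zero => simp
  | succ m ih =>
    have h3 := b2 a b hwa hwb m
    have hc : (m + 1).choose 2 = m.choose 2 + m := by
      rw [Nat.choose_succ_succ', Nat.choose_one_right, add_comm]
    have h6 : a ^ m * ⁅b, a⁆ ^ m = ⁅b, a⁆ ^ m * a ^ m := ((hwa.pow_left m).pow_right m).eq.symm
    calc (a * b) ^ (m + 1) = ⁅b, a⁆ ^ (m.choose 2) * a ^ m * b ^ m * (a * b) := by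
          rw [pow_succ, ih]
      _ = ⁅b, a⁆ ^ (m.choose 2) * a ^ m * (b ^ m * a) * b := by simp only [mul_assoc]
      _ = ⁅b, a⁆ ^ (m.choose 2) * a ^ m * (⁅b, a⁆ ^ m * a * b ^ m) * b := by rw [h3]
      _ = ⁅b, a⁆ ^ (m.choose 2) * (a ^ m * ⁅b, a⁆ ^ m) * a * b ^ m * b := by
          simp only [mul_assoc]
      _ = ⁅b, a⁆ ^ (m.choose 2) * (⁅b, a⁆ ^ m * a ^ m) * a * b ^ m * b := by rw [h6]
      _ = (⁅b, a⁆ ^ (m.choose 2) * ⁅b, a⁆ ^ m) * (a ^ m * a) * (b ^ m * b) := by
          simp only [mul_assoc]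
      _ = ⁅b, a⁆ ^ ((m + 1).choose 2) * a ^ (m + 1) * b ^ (m + 1) := by
          rw [← pow_add, ← pow_succ, ← pow_succ, hc]


/-- If A is maximal among the normal abelian subgroups of exponent dividing p^n of a p-group (p^n ≠ 2), then A contains every element of order dividing p^n in its centralizer. -/
theorem result {G : Type*} [Group G] [Finite G] {p : ℕ} [Fact p.Prime] (hG : IsPGroup p G) (n : ℕ) (hn : p ^ n ≠ 2) (A : Subgroup G) [A.Normal] (hA : IsMulCommutative A) (hAe : ∀ a ∈ A, a ^ p ^ n = 1) (hmax : ∀ B : Subgroup G, B.Normal → IsMulCommutative B → (∀ b ∈ B, b ^ p ^ n = 1) → A ≤ B → B = A) (x : G) (hx : x ∈ Subgroup.centralizer (A : Set G)) (hxn : x ^ p ^ n = 1) : x ∈ A := by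
  classical
  have hp := (Fact.out : p.Prime)
  rcases Nat.eq_zero_or_pos n with h0 | hnpos
  · subst h0
    have : x = 1 := by simpa using hxn
    rw [this]; exact A.one_mem
  have hAC : ∀ a ∈ A, ∀ c ∈ Subgroup.centralizer (A : Set G), a * c = c * a := by
    intro a ha c hc
    exact (Subgroup.mem_centralizer_iff.mp hc a ha)
  have hCn : ∀ c ∈ Subgroup.centralizer (A : Set G), ∀ g : G,
      g * c * g⁻¹ ∈ Subgroup.centralizer (A : Set G) := by
    intro c hc g
    rw [Subgroup.mem_centralizer_iff]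
    intro a ha
    have ha' : g⁻¹ * a * g ∈ A := by
      have := ‹A.Normal›.conj_mem a ha g⁻¹
      simpa using this
    have h1 := hAC _ ha' c hc
    calc a * (g * c * g⁻¹) = g * ((g⁻¹ * a * g) * c) * g⁻¹ := by group
      _ = g * (c * (g⁻¹ * a * g)) * g⁻¹ := by rw [h1]
      _ = g * c * g⁻¹ * a := by group
  have hAcomm : ∀ a ∈ A, ∀ b ∈ A, a * b = b * a := by
    intro a ha b hb
    have := hA.is_comm.comm ⟨a, ha⟩ ⟨b, hb⟩
    exact congrArg Subtype.val this
  let N : ℕ → Subgroup G := fun i =>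
    (Subgroup.upperCentralSeries (G ⧸ A) i).comap (QuotientGroup.mk' A)
  have hN0 : ∀ y, y ∈ N 0 → y ∈ A := by
    intro y hy
    have h1 : (QuotientGroup.mk' A y) ∈ Subgroup.upperCentralSeries (G ⧸ A) 0 := hy
    rw [Subgroup.upperCentralSeries_zero, Subgroup.mem_bot] at h1
    exact (QuotientGroup.eq_one_iff y).mp h1
  have hNs : ∀ i y, y ∈ N (i + 1) → ∀ g : G, ⁅g, y⁆ ∈ N i := by
    intro i y hy g
    have h1 : (QuotientGroup.mk' A y) ∈ Subgroup.upperCentralSeries (G ⧸ A) (i + 1) := hy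
    rw [Subgroup.mem_upperCentralSeries_succ_iff] at h1
    have h2 := h1 (QuotientGroup.mk' A g)
    have h3 := Subgroup.inv_mem _ h2
    show QuotientGroup.mk' A ⁅g, y⁆ ∈ Subgroup.upperCentralSeries (G ⧸ A) i
    convert h3 using 1
    simp [commutatorElement_def, mul_assoc]
  have P : ∀ i, ∀ y ∈ Subgroup.centralizer (A : Set G), y ^ p ^ n = 1 → y ∈ N i → y ∈ A := by
    intro i
    induction i with
    | zero => intro y _ _ hy; exact hN0 y hy
    | succ i ih =>
      intro y hyC hyn hyN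
      obtain ⟨k, hk⟩ := (Subgroup.nilpotent_iff_lowerCentralSeries).mp hG.isNilpotent
      have Q : ∀ d, d ≤ k → ∀ g ∈ (⊤ : Subgroup G).lowerCentralSeries (k - d), ⁅g, y⁆ ∈ A := by
        intro d
        induction d with
        | zero =>
          intro _ g hg
          rw [Nat.sub_zero, hk, Subgroup.mem_bot] at hg
          subst hg
          simp
        | succ d ihd =>
          intro hd g hg
          have ihd' := ihd (by omega)
          have hcγ : ⁅g, y⁆ ∈ (⊤ : Subgroup G).lowerCentralSeries (k - d) := by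
            have : k - d = (k - (d+1)) + 1 := by omega
            rw [this, Subgroup.lowerCentralSeries_succ]
            exact Subgroup.commutator_mem_commutator hg (Subgroup.mem_top y)
          have hw : ⁅⁅g, y⁆, y⁆ ∈ A := ihd' _ hcγ
          have hcC : ⁅g, y⁆ ∈ Subgroup.centralizer (A : Set G) := by
            have h1 : g * y * g⁻¹ ∈ Subgroup.centralizer (A : Set G) := hCn _ hyC g
            have : ⁅g, y⁆ = (g * y * g⁻¹) * y⁻¹ := by rw [commutatorElement_def]
            rw [this]; exact Subgroup.mul_mem _ h1 (Subgroup.inv_mem _ hyC)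
          have hcN : ⁅g, y⁆ ∈ N i := hNs i y hyN g
          have hwA : ⁅y, ⁅g, y⁆⁆ ∈ A := by
            have : ⁅y, ⁅g, y⁆⁆ = (⁅⁅g, y⁆, y⁆)⁻¹ := by rw [commutatorElement_inv]
            rw [this]; exact A.inv_mem hw
          have hwc : Commute ⁅y, ⁅g, y⁆⁆ ⁅g, y⁆ := hAC _ hwA _ hcC
          have hwy : Commute ⁅y, ⁅g, y⁆⁆ y := hAC _ hwA y hyC
          have hcy : ⁅g, y⁆ * y = g * y * g⁻¹ := by rw [commutatorElement_def]; group
          have hpow : (⁅g, y⁆ * y) ^ p ^ n = 1 := by
            rw [hcy, conj_pow, hyn]; group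
          have hform := mul_pow_class2 ⁅g, y⁆ y hwc hwy (p ^ n)
          rw [hpow, hyn, mul_one] at hform
          have hwe : ⁅y, ⁅g, y⁆⁆ ^ ((p ^ n).choose 2) = 1 := by
            by_cases hp2 : p = 2
            · have hn2 : 2 ≤ n := by
                rcases Nat.lt_or_ge n 2 with h | h
                · exfalso
                  have : n = 1 := by omega
                  rw [this, hp2] at hn
                  exact hn rfl
                · exact h
              have hq : p ^ n = 2 * 2 ^ (n - 1) := by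
                rw [hp2, ← pow_succ']
                congr 1; omega
              have he : (p ^ n).choose 2 = 2 ^ (n - 1) * (2 * 2 ^ (n - 1) - 1) := by
                rw [Nat.choose_two_right, hq, mul_assoc, Nat.mul_div_cancel_left _ (by norm_num)]
              have hqq : 2 ^ (n - 1) * 2 ^ (n - 1) = p ^ n * 2 ^ (n - 2) := by
                rw [hp2, ← pow_add, ← pow_add]; congr 1; omega
              have hwn : ⁅y, ⁅g, y⁆⁆ ^ p ^ n = 1 := hAe _ hwA
              have hu : (⁅g, y⁆ ^ 2 ^ (n - 1)) ^ p ^ n = 1 := by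
                have h1 : ⁅g, y⁆ ^ p ^ n = (⁅y, ⁅g, y⁆⁆ ^ ((p ^ n).choose 2))⁻¹ :=
                  eq_inv_of_mul_eq_one_right hform.symm
                rw [← pow_mul, mul_comm, pow_mul, h1, inv_pow, ← pow_mul, he]
                have : 2 ^ (n - 1) * (2 * 2 ^ (n - 1) - 1) * 2 ^ (n - 1)
                    = p ^ n * (2 ^ (n - 2) * (2 * 2 ^ (n - 1) - 1)) := by
                  calc 2 ^ (n - 1) * (2 * 2 ^ (n - 1) - 1) * 2 ^ (n - 1)
                      = (2 ^ (n - 1) * 2 ^ (n - 1)) * (2 * 2 ^ (n - 1) - 1) := by ring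
                    _ = _ := by rw [hqq]; ring
                rw [this, pow_mul, hwn, one_pow, inv_one]
              have huA : ⁅g, y⁆ ^ 2 ^ (n - 1) ∈ A :=
                ih _ (Subgroup.pow_mem _ hcC _) hu ((N i).pow_mem hcN _)
              have h2 := b1 ⁅g, y⁆ y hwc hwy (2 ^ (n - 1))
              have h3 : ⁅g, y⁆ ^ 2 ^ (n - 1) * y = y * ⁅g, y⁆ ^ 2 ^ (n - 1) := hAC _ huA y hyC
              have h4 : ⁅y, ⁅g, y⁆⁆ ^ 2 ^ (n - 1) = 1 := by
                rw [mul_assoc, h3] at h2
                exact (mul_eq_right.mp h2.symm)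
              rw [he, pow_mul, h4, one_pow]
            · have hodd : Odd (p ^ n) := (hp.eq_two_or_odd'.resolve_left hp2).pow
              obtain ⟨t, ht⟩ := hodd
              have he : (p ^ n).choose 2 = p ^ n * t := by
                rw [Nat.choose_two_right]
                have : p ^ n - 1 = 2 * t := by omega
                rw [this, mul_left_comm, Nat.mul_div_cancel_left _ (by norm_num)]
              rw [he, pow_mul, hAe _ hwA, one_pow]
          have hcn : ⁅g, y⁆ ^ p ^ n = 1 := by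
            rw [hwe, one_mul] at hform; exact hform.symm
          exact ih _ hcC hcn hcN
      have hall : ∀ g : G, ⁅g, y⁆ ∈ A := fun g => by
        have := Q k le_rfl g (by rw [Nat.sub_self, Subgroup.lowerCentralSeries_zero]; exact Subgroup.mem_top g)
        exact this
      have hmemB : ∀ b, b ∈ A ⊔ Subgroup.zpowers y ↔ ∃ a ∈ A, ∃ z ∈ Subgroup.zpowers y, a * z = b :=
        fun b => Subgroup.mem_sup_of_normal_left
      have hyA : ∀ a ∈ A, a * y = y * a := fun a ha => hAC a ha y hyC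
      have hzA : ∀ z ∈ Subgroup.zpowers y, ∀ a ∈ A, a * z = z * a := by
        intro z hz a ha
        obtain ⟨k, rfl⟩ := Subgroup.mem_zpowers_iff.mp hz
        exact ((show Commute a y from hyA a ha).zpow_right k).eq
      have hBn : (A ⊔ Subgroup.zpowers y).Normal := by
        constructor
        intro b hb g
        obtain ⟨a, ha, z, hz, rfl⟩ := (hmemB b).mp hb
        obtain ⟨k, rfl⟩ := Subgroup.mem_zpowers_iff.mp hz
        have h1 : g * a * g⁻¹ ∈ A ⊔ Subgroup.zpowers y :=
          (le_sup_left : A ≤ A ⊔ Subgroup.zpowers y) (‹A.Normal›.conj_mem a ha g)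
        have h2 : g * y * g⁻¹ ∈ A ⊔ Subgroup.zpowers y := by
          have : g * y * g⁻¹ = ⁅g, y⁆ * y := by rw [commutatorElement_def]; group
          rw [this]
          exact Subgroup.mul_mem _ ((le_sup_left : A ≤ A ⊔ Subgroup.zpowers y) (hall g))
            ((le_sup_right : Subgroup.zpowers y ≤ A ⊔ Subgroup.zpowers y) (Subgroup.mem_zpowers y))
        have h3 : g * (a * y ^ k) * g⁻¹ = (g * a * g⁻¹) * (g * y * g⁻¹) ^ k := by
          rw [conj_zpow]; group
        rw [h3]; exact Subgroup.mul_mem _ h1 (Subgroup.zpow_mem _ h2 k)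
      have hBc : IsMulCommutative (A ⊔ Subgroup.zpowers y : Subgroup G) := by
        refine ⟨⟨?_⟩⟩
        rintro ⟨b, hb⟩ ⟨b', hb'⟩
        obtain ⟨a, ha, z, hz, rfl⟩ := (hmemB b).mp hb
        obtain ⟨a', ha', z', hz', rfl⟩ := (hmemB b').mp hb'
        apply Subtype.ext
        show a * z * (a' * z') = a' * z' * (a * z)
        have e1 := hzA z hz a' ha'
        have e2 := hzA z' hz' a ha
        have e3 := hAcomm a ha a' ha'
        have e4 : z * z' = z' * z := by
          obtain ⟨k, rfl⟩ := Subgroup.mem_zpowers_iff.mp hz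
          obtain ⟨k', rfl⟩ := Subgroup.mem_zpowers_iff.mp hz'
          rw [← zpow_add, ← zpow_add, add_comm]
        calc a * z * (a' * z') = a * (z * a') * z' := by simp only [mul_assoc]
          _ = a * (a' * z) * z' := by rw [e1]
          _ = (a * a') * (z * z') := by simp only [mul_assoc]
          _ = (a' * a) * (z' * z) := by rw [e3, e4]
          _ = a' * (a * z') * z := by simp only [mul_assoc]
          _ = a' * (z' * a) * z := by rw [e2]
          _ = a' * z' * (a * z) := by simp only [mul_assoc]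
      have hBe : ∀ b ∈ A ⊔ Subgroup.zpowers y, b ^ p ^ n = 1 := by
        intro b hb
        obtain ⟨a, ha, z, hz, rfl⟩ := (hmemB b).mp hb
        have hc : Commute a z := hzA _ hz a ha
        obtain ⟨k, rfl⟩ := Subgroup.mem_zpowers_iff.mp hz
        rw [hc.mul_pow, hAe a ha, one_mul, ← zpow_natCast, ← zpow_mul, mul_comm, zpow_mul,
          zpow_natCast, hyn, one_zpow]
      have hBA := hmax _ hBn hBc hBe le_sup_left
      rw [← hBA]
      exact (le_sup_right : Subgroup.zpowers y ≤ A ⊔ Subgroup.zpowers y) (Subgroup.mem_zpowers y)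
  have hQ : IsPGroup p (G ⧸ A) := hG.to_quotient A
  obtain ⟨k, hk⟩ := hQ.isNilpotent.nilpotent'
  refine P k x hx hxn ?_
  show QuotientGroup.mk' A x ∈ Subgroup.upperCentralSeries (G ⧸ A) k
  rw [hk]; exact Subgroup.mem_top _

end Cfsg.Agent.S0130
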