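import Cfsg.Statements.S0119
import Mathlib
import Cfsg.Agent.S0012
import Cfsg.Agent.S0013
import Cfsg.Agent.S0130

set_option autoImplicit false
open Cfsg

namespace Cfsg.Agent.S0119

open scoped commutatorElement


/-- If a p'-group A of automorphisms of a p-group G satisfies G = [G, A] and acts trivially on every characteristic abelian subgroup, then G is special with centre equal to the fixed points of A. -/
theorem result {G : Type*} [Group G] [Finite G] {p : ℕ} [Fact p.Prime] (hG : IsPGroup p G) (A : Subgroup (MulAut G)) (hA : Nat.Coprime (Nat.card A) p) (hGA : Subgroup.closure {x : G | ∃ g : G, ∃ a ∈ A, x = g⁻¹ * a g} = ⊤) (hchar : ∀ H : Subgroup G, H.Characteristic → IsMulCommutative H → ∀ a ∈ A, ∀ h ∈ H, a h = h) : Cfsg.IsSpecial p G ∧ (∀ g : G, (g ∈ Subgroup.center G ↔ ∀ a ∈ A, a g = g)) := by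
  classical
  have hp : p.Prime := Fact.out
  -- key lemma
  have key : ∀ c : G, (∀ g : G, ∀ a ∈ A, a (g * c * g⁻¹) = g * c * g⁻¹) →
      c ∈ Subgroup.center G := by
    intro c hc
    have h1 : Subgroup.closure {x : G | ∃ g : G, ∃ a ∈ A, x = g⁻¹ * a g}
        ≤ Subgroup.centralizer {c} := by
      rw [Subgroup.closure_le]
      rintro x ⟨g, a, ha, rfl⟩
      rw [SetLike.mem_coe, Subgroup.mem_centralizer_iff]
      intro y hy
      rw [Set.mem_singleton_iff] at hy
      subst hy
      have h2 := hc g a ha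
      have h3 := hc 1 a ha
      simp only [one_mul, inv_one, mul_one] at h3
      rw [map_mul, map_mul, map_inv, h3] at h2
      calc y * (g⁻¹ * a g) = g⁻¹ * (g * y * g⁻¹) * a g := by group
        _ = g⁻¹ * (a g * y * (a g)⁻¹) * a g := by rw [h2]
        _ = g⁻¹ * a g * y := by group
    rw [hGA] at h1
    rw [Subgroup.mem_center_iff]
    intro g
    have h4 := h1 (Subgroup.mem_top g)
    rw [Subgroup.mem_centralizer_iff] at h4
    exact (h4 c rfl).symm
  -- (a) characteristic abelian subgroups are central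
  have charAb : ∀ M : Subgroup G, M.Characteristic → (∀ x ∈ M, ∀ y ∈ M, x * y = y * x) →
      M ≤ Subgroup.center G := by
    intro M hM hMc m hm
    apply key
    intro g a ha
    have hMn : M.Normal := inferInstance
    exact hchar M hM ⟨⟨fun x y => Subtype.ext (hMc x x.2 y y.2)⟩⟩ a ha _ (hMn.conj_mem m hm g)
  -- (b) class at most two
  have hcl : ∀ x y : G, ⁅x, y⁆ ∈ Subgroup.center G := by
    have hex : ∃ n, (⊤ : Subgroup G).lowerCentralSeries n = ⊥ :=
      (Subgroup.nilpotent_iff_lowerCentralSeries).mp hG.isNilpotent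
    have hnbot : (⊤ : Subgroup G).lowerCentralSeries (Nat.find hex) = ⊥ := Nat.find_spec hex
    have hmin : ∀ m < Nat.find hex, (⊤ : Subgroup G).lowerCentralSeries m ≠ ⊥ :=
      fun m hm => Nat.find_min hex hm
    have hn2 : Nat.find hex ≤ 2 := by
      by_contra hn3
      have hn3' : 3 ≤ Nat.find hex := by omega
      have hL1 : ⁅(⊤ : Subgroup G).lowerCentralSeries (Nat.find hex - 2), (⊤ : Subgroup G)⁆
          = (⊤ : Subgroup G).lowerCentralSeries (Nat.find hex - 1) := by
        have : Nat.find hex - 1 = (Nat.find hex - 2) + 1 := by omega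
        rw [this, Subgroup.lowerCentralSeries_succ]
      have hL2 : ⁅(⊤ : Subgroup G).lowerCentralSeries (Nat.find hex - 1), (⊤ : Subgroup G)⁆
          = ⊥ := by
        have : Nat.find hex = (Nat.find hex - 1) + 1 := by omega
        rw [← Subgroup.lowerCentralSeries_succ, ← this, hnbot]
      have h3 : ⁅⁅(⊤ : Subgroup G), (⊤ : Subgroup G)⁆,
          (⊤ : Subgroup G).lowerCentralSeries (Nat.find hex - 2)⁆ = ⊥ := by
        apply Subgroup.commutator_commutator_eq_bot_of_rotate
        · rw [Subgroup.commutator_comm ⊤ _, hL1, hL2]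
        · rw [hL1, hL2]
      have hK1 : (⊤ : Subgroup G).lowerCentralSeries (Nat.find hex - 2)
          ≤ ⁅(⊤ : Subgroup G), (⊤ : Subgroup G)⁆ := by
        have h5 := Subgroup.lowerCentralSeries_antitone (S := (⊤ : Subgroup G))
          (show 1 ≤ Nat.find hex - 2 by omega)
        rwa [Subgroup.lowerCentralSeries_succ, Subgroup.lowerCentralSeries_zero] at h5
      rw [Subgroup.commutator_eq_bot_iff_le_centralizer] at h3
      have hKab : ∀ x ∈ (⊤ : Subgroup G).lowerCentralSeries (Nat.find hex - 2),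
          ∀ y ∈ (⊤ : Subgroup G).lowerCentralSeries (Nat.find hex - 2), x * y = y * x := by
        intro x hx y hy
        exact (Subgroup.mem_centralizer_iff.mp (h3 (hK1 hx)) y hy).symm
      have hKc := charAb _ inferInstance hKab
      have hbot : (⊤ : Subgroup G).lowerCentralSeries (Nat.find hex - 1) = ⊥ := by
        rw [← hL1, Subgroup.commutator_eq_bot_iff_le_centralizer, Subgroup.coe_top,
          Subgroup.centralizer_univ]
        exact hKc
      exact hmin (Nat.find hex - 1) (by omega) hbot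
    have hL2 : (⊤ : Subgroup G).lowerCentralSeries 2 = ⊥ :=
      le_bot_iff.mp (hnbot ▸ Subgroup.lowerCentralSeries_antitone (⊤ : Subgroup G) hn2)
    intro x y
    have h5 : ⁅x, y⁆ ∈ (⊤ : Subgroup G).lowerCentralSeries 1 := by
      rw [Subgroup.lowerCentralSeries_succ, Subgroup.lowerCentralSeries_zero]
      exact Subgroup.commutator_mem_commutator (Subgroup.mem_top x) (Subgroup.mem_top y)
    have h4 : (⊤ : Subgroup G).lowerCentralSeries 1
        ≤ Subgroup.centralizer ((⊤ : Subgroup G) : Set G) := by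
      rw [← Subgroup.commutator_eq_bot_iff_le_centralizer, ← Subgroup.lowerCentralSeries_succ]
      exact hL2
    have h6 := h4 h5
    rw [Subgroup.coe_top, Subgroup.centralizer_univ] at h6
    exact h6
  have hcen : ∀ z ∈ Subgroup.center G, ∀ g : G, z * g = g * z := fun z hz g =>
    (Subgroup.mem_center_iff.mp hz g).symm
  -- (c)
  have hZA : ∀ z ∈ Subgroup.center G, ∀ a ∈ A, a z = z := fun z hz a ha =>
    hchar (Subgroup.center G) inferInstance inferInstance a ha z hz
  have hCZ : ∀ c : G, (∀ a ∈ A, a c = c) → c ∈ Subgroup.center G := by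
    intro c hc
    apply key
    intro g a ha
    have h1 : g * c * g⁻¹ = ⁅g, c⁆ * c := by rw [commutatorElement_def]; group
    rw [h1, map_mul, hZA _ (hcl g c) a ha, hc a ha]
  -- (d)
  have hCcomm : ∀ z : G, (∀ a ∈ A, a z = z) → z ∈ commutator G := by
    intro z hz
    have : Fintype A := Fintype.ofFinite A
    let N : G →* Abelianization G :=
      ∏ a : A, (Abelianization.of).comp ((a : MulAut G) : G ≃* G).toMonoidHom
    have hNapply : ∀ x, N x = ∏ a : A, Abelianization.of ((a : MulAut G) x) := fun x => by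
      simp [N, MonoidHom.finsetProd_apply]
    have hNinv : ∀ (a₀ : A) (g : G), N ((a₀ : MulAut G) g) = N g := by
      intro a₀ g
      rw [hNapply, hNapply]
      exact Fintype.prod_equiv (Equiv.mulRight a₀) _ _ (fun a => by simp [MulAut.mul_apply])
    have hNker : N.ker = ⊤ := by
      rw [eq_top_iff, ← hGA, Subgroup.closure_le]
      rintro x ⟨g, a, ha, rfl⟩
      rw [SetLike.mem_coe, MonoidHom.mem_ker, map_mul, map_inv, hNinv ⟨a, ha⟩ g, inv_mul_cancel]
    have hNz : N z = (Abelianization.of z) ^ Nat.card A := by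
      rw [hNapply, Finset.prod_congr rfl (fun a _ => by rw [hz a a.2]), Finset.prod_const,
        Finset.card_univ, Nat.card_eq_fintype_card]
    have h1 : (Abelianization.of z) ^ Nat.card A = 1 := by
      rw [← hNz]
      exact MonoidHom.mem_ker.mp (hNker ▸ Subgroup.mem_top z)
    obtain ⟨k, hk⟩ := hG z
    have h2 : (Abelianization.of z) ^ p ^ k = 1 := by rw [← map_pow, hk, map_one]
    have h3 : Abelianization.of z = 1 := by
      have h4 := pow_gcd_eq_one.mpr ⟨h1, h2⟩
      rwa [show Nat.gcd (Nat.card A) (p ^ k) = 1 from Nat.Coprime.pow_right k hA, pow_one] at h4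
    have h5 : z ∈ (Abelianization.of (G := G)).ker := h3
    rwa [Abelianization.ker_of] at h5
  -- (e) exponent
  have hpowL : ∀ (m : ℕ) (u v : G), u ^ m ∈ Subgroup.center G → ⁅u, v⁆ ^ m = 1 := by
    intro m u v hu
    have h1 := Cfsg.Agent.S0130.b2 v u (hcen _ (hcl u v) v) (hcen _ (hcl u v) u) m
    rw [hcen _ hu v, mul_assoc] at h1
    exact mul_eq_right.mp h1.symm
  have hpowR : ∀ (m : ℕ) (u v : G), v ^ m ∈ Subgroup.center G → ⁅u, v⁆ ^ m = 1 := by
    intro m u v hv
    have h1 := Cfsg.Agent.S0130.b1 v u (hcen _ (hcl u v) v) (hcen _ (hcl u v) u) m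
    rw [← hcen _ hv u, mul_assoc] at h1
    exact mul_eq_right.mp h1.symm
  have hQc : ∀ a b : G ⧸ Subgroup.center G, a * b = b * a := by
    intro a b
    obtain ⟨a, rfl⟩ := QuotientGroup.mk_surjective a
    obtain ⟨b, rfl⟩ := QuotientGroup.mk_surjective b
    rw [← commutatorElement_eq_one_iff_mul_comm]
    have h1 : ⁅(a : G ⧸ Subgroup.center G), (b : G ⧸ Subgroup.center G)⁆
        = QuotientGroup.mk' (Subgroup.center G) ⁅a, b⁆ := by
      rw [map_commutatorElement]; rfl
    rw [h1]
    exact (QuotientGroup.eq_one_iff _).mpr (hcl a b)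
  have hstep : ∀ e : ℕ, 1 ≤ e → (∀ x : G, x ^ p ^ (e + 1) ∈ Subgroup.center G) →
      ∀ x : G, x ^ p ^ e ∈ Subgroup.center G := by
    intro e he hall
    let V : Subgroup (G ⧸ Subgroup.center G) :=
      { carrier := {y | ∃ x, y = x ^ p ^ e}
        mul_mem' := by
          rintro a b ⟨x, rfl⟩ ⟨x', rfl⟩
          exact ⟨x * x', ((show Commute x x' from hQc x x').mul_pow _).symm⟩
        one_mem' := ⟨1, (one_pow _).symm⟩
        inv_mem' := by
          rintro a ⟨x, rfl⟩
          exact ⟨x⁻¹, (inv_pow x _).symm⟩ }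
    have hUmem : ∀ y : G, y ∈ V.comap (QuotientGroup.mk' (Subgroup.center G)) ↔
        ∃ x : G, ∃ z ∈ Subgroup.center G, y = x ^ p ^ e * z := by
      intro y
      constructor
      · rintro ⟨xb, hxb⟩
        obtain ⟨x, rfl⟩ := QuotientGroup.mk_surjective xb
        refine ⟨x, (x ^ p ^ e)⁻¹ * y, ?_, by group⟩
        rw [← QuotientGroup.eq_one_iff]
        have h1 : ((((x ^ p ^ e)⁻¹ * y : G)) : G ⧸ Subgroup.center G)
            = ((x : G ⧸ Subgroup.center G) ^ p ^ e)⁻¹ * QuotientGroup.mk' (Subgroup.center G) y :=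
          rfl
        rw [h1, hxb, inv_mul_cancel]
      · rintro ⟨x, z, hz, rfl⟩
        refine ⟨(x : G ⧸ Subgroup.center G), ?_⟩
        have h1 : QuotientGroup.mk' (Subgroup.center G) (x ^ p ^ e * z)
            = (x : G ⧸ Subgroup.center G) ^ p ^ e * QuotientGroup.mk' (Subgroup.center G) z := rfl
        have hz1 : QuotientGroup.mk' (Subgroup.center G) z = 1 :=
          (QuotientGroup.eq_one_iff z).mpr hz
        rw [h1, hz1, mul_one]
    have hUchar : (V.comap (QuotientGroup.mk' (Subgroup.center G))).Characteristic := by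
      rw [Subgroup.characteristic_iff_map_le]
      rintro φ _ ⟨y, hy, rfl⟩
      obtain ⟨x, z, hz, rfl⟩ := (hUmem y).mp hy
      rw [hUmem]
      refine ⟨φ x, φ z, ?_, ?_⟩
      · have hZchar : (Subgroup.center G).Characteristic := inferInstance
        have h1 := Subgroup.characteristic_iff_map_le.mp hZchar φ
        exact h1 ⟨z, hz, rfl⟩
      · show φ (x ^ p ^ e * z) = φ x ^ p ^ e * φ z
        rw [map_mul, map_pow]
    have hUab : ∀ y₁ ∈ V.comap (QuotientGroup.mk' (Subgroup.center G)),
        ∀ y₂ ∈ V.comap (QuotientGroup.mk' (Subgroup.center G)), y₁ * y₂ = y₂ * y₁ := by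
      intro y₁ hy₁ y₂ hy₂
      obtain ⟨x₁, z₁, hz₁, rfl⟩ := (hUmem y₁).mp hy₁
      obtain ⟨x₂, z₂, hz₂, rfl⟩ := (hUmem y₂).mp hy₂
      have h1 : ⁅x₁, x₂ ^ p ^ e⁆ ^ p = 1 := by
        apply hpowR
        rw [← pow_mul, ← pow_succ]
        exact hall x₂
      have key2 : ∀ w : G, w ^ p = 1 → w ^ p ^ e = 1 := by
        intro w hw
        have : p ^ e = p * p ^ (e - 1) := by
          rw [← pow_succ']; congr 1; omega
        rw [this, pow_mul, hw, one_pow]
      have h2 : ⁅x₁, x₂ ^ p ^ e⁆ ^ p ^ e = 1 := key2 _ h1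
      have h3 := Cfsg.Agent.S0130.b2 (x₂ ^ p ^ e) x₁
        (hcen _ (hcl x₁ (x₂ ^ p ^ e)) _) (hcen _ (hcl x₁ (x₂ ^ p ^ e)) _) (p ^ e)
      rw [h2, one_mul] at h3
      calc x₁ ^ p ^ e * z₁ * (x₂ ^ p ^ e * z₂)
          = x₁ ^ p ^ e * (z₁ * x₂ ^ p ^ e) * z₂ := by simp only [mul_assoc]
        _ = x₁ ^ p ^ e * (x₂ ^ p ^ e * z₁) * z₂ := by rw [hcen z₁ hz₁]
        _ = (x₁ ^ p ^ e * x₂ ^ p ^ e) * (z₁ * z₂) := by simp only [mul_assoc]
        _ = (x₂ ^ p ^ e * x₁ ^ p ^ e) * (z₂ * z₁) := by rw [h3, hcen z₁ hz₁]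
        _ = x₂ ^ p ^ e * (x₁ ^ p ^ e * z₂) * z₁ := by simp only [mul_assoc]
        _ = x₂ ^ p ^ e * (z₂ * x₁ ^ p ^ e) * z₁ := by rw [hcen z₂ hz₂]
        _ = x₂ ^ p ^ e * z₂ * (x₁ ^ p ^ e * z₁) := by simp only [mul_assoc]
    have hUc := charAb _ hUchar hUab
    intro x
    apply hUc
    rw [hUmem]
    exact ⟨x, 1, Subgroup.one_mem _, (mul_one _).symm⟩
  have hexp : ∀ x : G, x ^ p ∈ Subgroup.center G := by
    obtain ⟨K, hK⟩ := IsPGroup.iff_card.mp hG
    have hdesc : ∀ d, d ≤ K → ∀ x : G, x ^ p ^ (K - d + 1) ∈ Subgroup.center G := by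
      intro d
      induction d with
      | zero =>
        intro _ x
        have h1 : x ^ p ^ K = 1 := by rw [← hK]; exact pow_card_eq_one'
        rw [Nat.sub_zero, pow_succ, pow_mul, h1, one_pow]
        exact Subgroup.one_mem _
      | succ d ih =>
        intro hd
        have ih' := ih (by omega)
        apply hstep (K - (d + 1) + 1) (by omega)
        have : K - (d + 1) + 1 + 1 = K - d + 1 := by omega
        rw [this]
        exact ih'
    intro x
    have := hdesc K le_rfl x
    rwa [Nat.sub_self, zero_add, pow_one] at this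
  -- assemble
  have hcomm_le : commutator G ≤ Subgroup.center G := by
    rw [commutator_def, Subgroup.commutator_le]
    intro x _ y _
    exact hcl x y
  have hcomm_eq : commutator G = Subgroup.center G :=
    le_antisymm hcomm_le (fun z hz => hCcomm z (hZA z hz))
  refine ⟨⟨hG, ?_, hcomm_eq⟩, fun g => ⟨fun hg => hZA g hg, hCZ g⟩⟩
  apply le_antisymm
  · exact Cfsg.Agent.S0013.result p hG (Subgroup.center G) hcomm_le hexp
  · rw [← hcomm_eq]
    exact (Cfsg.Agent.S0012.result p hG).1

end Cfsg.Agent.S0119
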