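import Cfsg.Statements.S0120
import Cfsg.Agent.Lib.Helper8.CoprimeOmega

set_option autoImplicit false
open Cfsg

namespace Cfsg.Agent.S0120


open Cfsg.Agent.Lib.Helper8

universe u

theorem main {G : Type u} [Group G] [Finite G] {p : ℕ} [Fact p.Prime] (hp : p ≠ 2)
    (hG : IsPGroup p G) (a : MulAut G) (ha : Nat.Coprime (orderOf a) p)
    (h : ∀ x : G, x ^ p = 1 → a x = x) : a = 1 := by
  have hpp := (Fact.out : p.Prime)
  have hfinA : Finite (MulAut G) :=
    Finite.of_injective (fun f : MulAut G => (f : G → G)) DFunLike.coe_injective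
  have hfinX : Finite (G ⋊[MonoidHom.id (MulAut G)] MulAut G) :=
    Finite.of_equiv _ SemidirectProduct.equivProd.symm
  have hp3 : 2 < p := lt_of_le_of_ne hpp.two_le (Ne.symm hp)
  have hch : p ∣ p.choose 2 := hpp.dvd_choose_self (by norm_num) hp3
  have han : (SemidirectProduct.inr a : G ⋊[MonoidHom.id (MulAut G)] MulAut G) ^ orderOf a = 1 := by
    rw [← map_pow, pow_orderOf_eq_one, map_one]
  have hP : IsPGroup p
      ((SemidirectProduct.inl : G →* G ⋊[MonoidHom.id (MulAut G)] MulAut G).range) :=
    hG.of_surjective _ (MonoidHom.rangeRestrict_surjective _)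
  have hconj : ∀ g : G, (SemidirectProduct.inr a : G ⋊[MonoidHom.id (MulAut G)] MulAut G) *
      SemidirectProduct.inl g * (SemidirectProduct.inr a)⁻¹ = SemidirectProduct.inl (a g) := by
    intro g
    rw [← map_inv]
    exact (SemidirectProduct.inl_aut (φ := MonoidHom.id (MulAut G)) a g).symm
  have key := h8_coprime_aut_omega p p dvd_rfl hch
    (SemidirectProduct.inr a : G ⋊[MonoidHom.id (MulAut G)] MulAut G) (orderOf a) ha han _
    ((SemidirectProduct.inl : G →* G ⋊[MonoidHom.id (MulAut G)] MulAut G).range) rfl hP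
    (by
      rintro x ⟨g, rfl⟩
      rw [hconj g]
      exact ⟨a g, rfl⟩)
    (by
      rintro x ⟨g, rfl⟩ hx
      rw [← map_pow] at hx
      have hg : g ^ p = 1 := SemidirectProduct.inl_injective (by rw [hx, map_one])
      have h1 := hconj g
      rw [h g hg] at h1
      nth_rewrite 2 [← h1]
      group)
  ext g
  have h2 := key (SemidirectProduct.inl g) ⟨g, rfl⟩
  have h3 := hconj g
  rw [h2] at h3
  have h4 : (SemidirectProduct.inl g : G ⋊[MonoidHom.id (MulAut G)] MulAut G) =
      SemidirectProduct.inl (a g) := by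
    rw [← h3]; group
  exact (SemidirectProduct.inl_injective h4).symm


/-- For odd p, a p'-automorphism of a p-group acting trivially on the elements of order dividing p is trivial. -/
theorem result {G : Type*} [Group G] [Finite G] {p : ℕ} [Fact p.Prime] (hp : p ≠ 2) (hG : IsPGroup p G) (a : MulAut G) (ha : Nat.Coprime (orderOf a) p) (h : ∀ x : G, x ^ p = 1 → a x = x) : a = 1 := by
  exact main hp hG a ha h

end Cfsg.Agent.S0120
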