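import Cfsg.Statements.S0121

set_option autoImplicit false
open Cfsg

namespace Cfsg.Agent.S0121

/-- A p'-automorphism of a p-group acting trivially on a critical subgroup is trivial. -/
theorem result {G : Type*} [Group G] [Finite G] {p : ℕ} [Fact p.Prime] (hG : IsPGroup p G) (H : Subgroup G) (hH : H.Characteristic) (h1 : (frattini H).map H.subtype ≤ Subgroup.centralizer (H : Set G)) (h2 : ⁅H, (⊤ : Subgroup G)⁆ ≤ H ⊓ Subgroup.centralizer (H : Set G)) (h3 : Subgroup.centralizer (H : Set G) ≤ H) (a : MulAut G) (ha : Nat.Coprime (orderOf a) p) (h : ∀ x ∈ H, a x = x) : a = 1 := by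
  have hn : H.Normal := inferInstance
  ext g
  have hc : g⁻¹ * a g ∈ Subgroup.centralizer (H : Set G) := by
    rw [Subgroup.mem_centralizer_iff]
    intro x hx
    have h4 : a (g * x * g⁻¹) = g * x * g⁻¹ := h _ (hn.conj_mem x hx g)
    have h5 : a x = x := h x hx
    simp only [map_mul, map_inv, h5] at h4
    have h6 : a g * x = g * x * g⁻¹ * a g := by
      rw [← h4]; group
    calc x * (g⁻¹ * a g) = g⁻¹ * (g * x * g⁻¹ * a g) := by group
      _ = g⁻¹ * a g * x := by rw [← h6]; group
  have hfix : a (g⁻¹ * a g) = g⁻¹ * a g := h _ (h3 hc)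
  have hpow : ∀ k : ℕ, (a ^ k) g = g * (g⁻¹ * a g) ^ k := by
    intro k
    induction k with
    | zero => simp
    | succ k ih =>
      rw [pow_succ', MulAut.mul_apply, ih, map_mul, map_pow, hfix, pow_succ']
      simp [mul_assoc]
  have h6 := hpow (orderOf a)
  rw [pow_orderOf_eq_one] at h6
  have h7 : (g⁻¹ * a g) ^ orderOf a = 1 := by
    have : g * 1 = g * (g⁻¹ * a g) ^ orderOf a := by simpa using h6
    exact (mul_left_cancel this).symm
  obtain ⟨j, hj⟩ := hG (g⁻¹ * a g)
  have h8 : orderOf (g⁻¹ * a g) ∣ orderOf a := orderOf_dvd_of_pow_eq_one h7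
  have h9 : orderOf (g⁻¹ * a g) ∣ p ^ j := orderOf_dvd_of_pow_eq_one hj
  have h10 : orderOf (g⁻¹ * a g) = 1 :=
    Nat.eq_one_of_dvd_coprimes (Nat.Coprime.pow_right j ha) h8 h9
  rw [orderOf_eq_one_iff] at h10
  have : a g = g := by
    calc a g = g * (g⁻¹ * a g) := by group
      _ = g := by rw [h10, mul_one]
  simpa using this

end Cfsg.Agent.S0121
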