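import Cfsg.Statements.S0123
import Cfsg.Agent.Lib.Helper2.ClassThree
-- import your own Cfsg.Agent.* helpers here

set_option autoImplicit false
open Cfsg

namespace Cfsg.Agent.S0123

open scoped commutatorElement

/-- For a p-group of small class relative to p (class ≤ 2 with p odd, or class ≤ 3 with p > 3) whose derived subgroup is generated by elements of order dividing p, the p-th power map is multiplicative. -/
theorem result {R : Type*} [Group R] [Finite R] {p : ℕ} [Fact p.Prime] (hR : IsPGroup p R) (hcl : (p ≠ 2 ∧ ⁅commutator R, (⊤ : Subgroup R)⁆ = ⊥) ∨ (3 < p ∧ ⁅⁅commutator R, (⊤ : Subgroup R)⁆, (⊤ : Subgroup R)⁆ = ⊥)) (hder : commutator R ≤ Subgroup.closure {x : R | x ^ p = 1}) (x y : R) : (x * y) ^ p = x ^ p * y ^ p := by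
  rcases hcl with ⟨hp, h2⟩ | ⟨hp, h3⟩
  · have hc : ⁅y, x⁆ ^ p = 1 := by
      apply Lib.Helper2.pow_eq_one_of_mem_closure_of_class_two hp h2
      exact hder (Lib.Helper2.c3_mem_comm y x)
    exact Lib.Helper2.mul_pow_prime_of_class_two hp h2 x y hc
  · have hcomm : ∀ c ∈ commutator R, c ^ p = 1 := fun c hc =>
      Lib.Helper2.pow_eq_one_of_mem_closure_of_class_three hp h3 c (hder hc)
    have ht := hcomm _ (Lib.Helper2.c3_mem_comm x y)
    have hz := hcomm _ (Lib.Helper2.c3_mem_comm x ⁅x, y⁆)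
    have hs := hcomm _ (Lib.Helper2.c3_mem_comm ⁅x, y⁆ y)
    rw [Lib.Helper2.mul_pow_prime_c3 hp h3 x y ht hz hs]
    have hc := Lib.Helper2.pow_prime_comm_c3 hp h3 x y ht hz
    exact ((show Commute (x ^ p) y from hc).pow_right p).eq.symm

end Cfsg.Agent.S0123
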