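import Cfsg.Statements.S0125
import Cfsg.Agent.Lib.Helper2.Burnside
import Cfsg.Agent.Lib.Helper2.Index
-- import your own Cfsg.Agent.* helpers here

set_option autoImplicit false
open Cfsg

namespace Cfsg.Agent.S0125

/-- The centralizer of a self-centralizing normal subgroup A of a Sylow p-subgroup is the direct product of A with a normal p'-subgroup. -/
theorem result {G : Type*} [Group G] [Finite G] {p : ℕ} [Fact p.Prime] (R : Sylow p G) (A : Subgroup G) (hAR : A ≤ (R : Subgroup G)) (hAn : (R : Subgroup G) ≤ Subgroup.normalizer (A : Set G)) (hC : (R : Subgroup G) ⊓ Subgroup.centralizer (A : Set G) = A) : ∃ H : Subgroup G, H ≤ Subgroup.centralizer (A : Set G) ∧ Nat.Coprime (Nat.card H) p ∧ Subgroup.centralizer (A : Set G) ≤ Subgroup.normalizer (H : Set G) ∧ H ⊓ A = ⊥ ∧ H ⊔ A = Subgroup.centralizer (A : Set G) := by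
  have hAC : A ≤ Subgroup.centralizer (A : Set G) := by
    conv_lhs => rw [← hC]
    exact inf_le_right
  have hCN : Subgroup.centralizer (A : Set G) ≤ Subgroup.normalizer (A : Set G) :=
    Subgroup.centralizer_le_normalizer _
  have hnorm : ((Subgroup.centralizer (A : Set G)).subgroupOf
      (Subgroup.normalizer (A : Set G))).Normal := inferInstance
  have hcent : ∀ c ∈ Subgroup.centralizer (A : Set G), ∀ a ∈ A, a * c = c * a :=
    fun c hc => Subgroup.mem_centralizer_iff.mp hc
  generalize Subgroup.centralizer (A : Set G) = C at *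
  have hidx : ¬ p ∣ A.relIndex C := by
    have h1 := Lib.Helper2.sylow_not_dvd_relIndex_of_normal (R.subtype hAn)
      (C.subgroupOf (Subgroup.normalizer (A : Set G)))
    rw [Sylow.coe_subtype, Subgroup.relIndex_subgroupOf hCN, ← Subgroup.inf_relIndex_right, hC] at h1
    exact h1
  have hpA : IsPGroup p (A.subgroupOf C) := (R.2.to_le hAR).comap_subtype
  obtain ⟨S, hScoe⟩ : ∃ S : Sylow p C, (S : Subgroup C) = A.subgroupOf C :=
    ⟨hpA.toSylow hidx, rfl⟩
  have hScent : (S : Subgroup C) ≤ Subgroup.center C := by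
    intro c hc
    rw [hScoe] at hc
    rw [Subgroup.mem_center_iff]
    intro d
    apply Subtype.ext
    exact (hcent d.1 d.2 c.1 hc).symm
  obtain ⟨K, hKn, hKS⟩ := Lib.Helper2.exists_normal_complement_of_central_sylow S hScent
  have hA : A = (S : Subgroup C).map C.subtype := by
    rw [hScoe, Subgroup.subgroupOf_map_subtype, inf_of_le_left hAC]
  refine ⟨K.map C.subtype, Subgroup.map_subtype_le K, ?_, ?_, ?_, ?_⟩
  · rw [Subgroup.card_map_of_injective (Subgroup.subtype_injective _), ← hKS.index_eq_card]
    exact Nat.Coprime.symm ((Fact.out : p.Prime).coprime_iff_not_dvd.mpr S.not_dvd_index)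
  · have h1 := Subgroup.le_normalizer_map (H := K) C.subtype
    rw [Subgroup.normalizer_eq_top, ← MonoidHom.range_eq_map, Subgroup.range_subtype] at h1
    exact h1
  · rw [hA, ← Subgroup.map_inf _ _ _ (Subgroup.subtype_injective _), disjoint_iff.mp hKS.disjoint,
      Subgroup.map_bot]
  · rw [hA, ← Subgroup.map_sup, hKS.sup_eq_top, ← MonoidHom.range_eq_map, Subgroup.range_subtype]

end Cfsg.Agent.S0125
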