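import Cfsg.Statements.S0127
import Mathlib
import Cfsg.Agent.Lib.Helper8.CyclicMax

set_option autoImplicit false
open Cfsg
open Cfsg.Agent.Lib.Helper8

namespace Cfsg.Agent.S0127

/-- For odd p, in a non-cyclic p-group with a cyclic subgroup of index p, the elements of order dividing p generate an elementary abelian subgroup of order p^2. -/
theorem result {R : Type*} [Group R] [Finite R] {p : ℕ} [Fact p.Prime] (hp : p ≠ 2) (hR : IsPGroup p R) (hnc : ¬ IsCyclic R) (C : Subgroup R) (hC : IsCyclic C) (hCi : C.index = p) : Cfsg.IsElementaryAbelian p (Subgroup.closure {x : R | x ^ p = 1}) ∧ Nat.card (Subgroup.closure {x : R | x ^ p = 1}) = p ^ 2 := by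
  obtain ⟨K, hK, hKc⟩ := h8_omega_cyclic_max hp hR hnc C hC hCi
  have hcl : Subgroup.closure {x : R | x ^ p = 1} = K := by
    apply le_antisymm
    · rw [Subgroup.closure_le]; intro x hx; exact (hK x).2 hx
    · intro x hx; exact Subgroup.subset_closure ((hK x).1 hx)
  rw [hcl]
  refine ⟨⟨?_, fun a ha => (hK a).1 ha⟩, hKc⟩
  exact ⟨⟨h8_comm_of_card_le_sq p 2 hKc le_rfl⟩⟩

end Cfsg.Agent.S0127
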