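import Cfsg.Statements.S0131
import Cfsg.Agent.Lib.Helper2.Focal
-- import your own Cfsg.Agent.* helpers here

set_option autoImplicit false
open Cfsg

namespace Cfsg.Agent.S0131

/-- P/P' has a normal complement in G exactly when the focal subgroup G' ∩ P is as small as possible, namely P'. -/
theorem result {G : Type*} [Group G] [Finite G] {p : ℕ} [Fact p.Prime] (P : Sylow p G) : (∃ N : Subgroup G, N.Normal ∧ N ⊓ (P : Subgroup G) = ⁅(P : Subgroup G), (P : Subgroup G)⁆ ∧ N ⊔ (P : Subgroup G) = ⊤) ↔ commutator G ⊓ (P : Subgroup G) = ⁅(P : Subgroup G), (P : Subgroup G)⁆ := by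
  have hle : ⁅(P : Subgroup G), (P : Subgroup G)⁆ ≤ commutator G ⊓ (P : Subgroup G) := by
    refine le_inf ?_ (Subgroup.commutator_le_self _)
    rw [commutator_def]
    exact Subgroup.commutator_mono le_top le_top
  constructor
  · rintro ⟨N, hN, h1, h2⟩
    refine le_antisymm ?_ hle
    have h3 : commutator G ≤ N :=
      Lib.Helper2.commutator_le_of_sup_eq_top N (P : Subgroup G) h2 (h1 ▸ inf_le_left)
    rw [← h1]
    exact inf_le_inf_right _ h3
  · intro h
    refine ⟨(P : Subgroup G).transferFocal.ker, MonoidHom.normal_ker _, ?_,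
      Lib.Helper2.ker_transferFocal_sup_eq_top P⟩
    rw [Subgroup.ker_transferFocal_inf_eq_focalSubgroup, ← Subgroup.commutator_inf_eq_focalSubgroup, h]

end Cfsg.Agent.S0131
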