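import Cfsg.Statements.S0164
import Cfsg.Agent.Lib.Lead.CharGC

set_option autoImplicit false

namespace Cfsg.Agent.S0164

open Cfsg Cfsg.Agent.Lib.Lead Cfsg.Agent.Lib.Helper2

theorem result {G : Type*} [Group G] [Finite G] (θ : G → ℂ) (hθ : Cfsg.IsClassFunction G θ) (hE : ∀ (E : Subgroup G) (p : ℕ), p.Prime → Cfsg.IsElementary p E → Cfsg.IsGeneralizedCharacter E (fun e : E => θ e)) : Cfsg.IsGeneralizedCharacter G θ := by
  letI := Fintype.ofFinite G
  exact gc_of_res_elem θ hθ hE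

end Cfsg.Agent.S0164
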