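import Cfsg.Statements.S0165
import Cfsg.Agent.Lib.Lead.CharPReg2
import Cfsg.Agent.Lib.Lead.CharRam

set_option autoImplicit false
set_option maxHeartbeats 800000

namespace Cfsg.Agent.S0165

open Cfsg Cfsg.Agent.Lib.Lead Cfsg.Agent.Lib.Helper2
open scoped ComplexConjugate

theorem result {G : Type*} [Group G] [Finite G] {V : Type*} [AddCommGroup V] [Module ℂ V] [FiniteDimensional ℂ V] (ρ : Representation ℂ G V) [ρ.IsIrreducible] (p n : ℕ) (hp : p.Prime) (hn : p ^ n ∣ Nat.card G) (hn' : ¬ p ^ (n + 1) ∣ Nat.card G) (hdeg : p ^ n ∣ Module.finrank ℂ V) (x : G) (hx : p ∣ orderOf x) : ρ.character x = 0 := by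
  classical
  letI := Fintype.ofFinite G
  haveI : Fact p.Prime := ⟨hp⟩
  have hχ : IsIrrCharacter G ρ.character := isIrrCharacter_character ρ
  obtain ⟨d, hd⟩ : ∃ d, d = Module.finrank ℂ V := ⟨_, rfl⟩
  have hd1 : ρ.character 1 = (d : ℂ) := by rw [hd]; exact Representation.char_one ρ
  have hgc := preg_gc_sharp p hχ d hd1
  have hdpos : 0 < d := by rw [hd]; exact finrank_pos_of_irreducible ρ
  have ha : (Nat.card G).factorization p = n := by
    apply le_antisymm
    · by_contra h
      push_neg at h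
      exact hn' ((hp.pow_dvd_iff_le_factorization Nat.card_pos.ne').mpr h)
    · exact (hp.pow_dvd_iff_le_factorization Nat.card_pos.ne').mp hn
  have hb : n ≤ d.factorization p :=
    (hp.pow_dvd_iff_le_factorization hdpos.ne').mp (hd ▸ hdeg)
  have h0 : (Nat.card G).factorization p - d.factorization p = 0 := by omega
  rw [h0] at hgc
  simp only [pow_zero, Nat.cast_one, one_mul] at hgc
  obtain ⟨a1, a2, h1, h2, heq⟩ := hgc
  obtain ⟨n1, hn1⟩ := classInner_isCharacter_nat h1 (isCharacter_of_isIrrCharacter hχ)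
  obtain ⟨n2, hn2⟩ := classInner_isCharacter_nat h2 (isCharacter_of_isIrrCharacter hχ)
  have hz : classInner (fun x : G => if p ∣ orderOf x then (0 : ℂ) else ρ.character x)
      ρ.character = (n1 : ℂ) - (n2 : ℂ) := by
    rw [heq]
    have : a1 - a2 = a1 + (-1 : ℂ) • a2 := by funext y; simp [sub_eq_add_neg]
    rw [this, classInner_add_left, classInner_smul_left, hn1, hn2]; ring
  obtain ⟨A, hA⟩ : ∃ A : ℝ, A = ∑ g : G,
      (if p ∣ orderOf g then 0 else ‖ρ.character g‖ ^ 2) := ⟨_, rfl⟩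
  obtain ⟨B, hB⟩ : ∃ B : ℝ, B = ∑ g : G,
      (if p ∣ orderOf g then ‖ρ.character g‖ ^ 2 else 0) := ⟨_, rfl⟩
  have hAB : A + B = (Nat.card G : ℝ) := by
    rw [hA, hB, ← Finset.sum_add_distrib, ← sum_norm_sq_irr hχ]
    apply Finset.sum_congr rfl; intro g _; split_ifs <;> simp
  have hG : (Nat.card G : ℝ) ≠ 0 := by exact_mod_cast Nat.card_pos.ne'
  have hinner : classInner (fun x : G => if p ∣ orderOf x then (0 : ℂ) else ρ.character x)
      ρ.character = ((A / Nat.card G : ℝ) : ℂ) := by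
    unfold classInner
    have : ∑ g : G, (if p ∣ orderOf g then (0 : ℂ) else ρ.character g) * conj (ρ.character g) =
        ((A : ℝ) : ℂ) := by
      rw [hA]; push_cast
      apply Finset.sum_congr rfl; intro g _
      split_ifs
      · simp
      · rw [Complex.mul_conj, Complex.normSq_eq_norm_sq]
    rw [this]; push_cast; rw [div_eq_inv_mul]
  have hAeq : A = ((n1 : ℝ) - n2) * Nat.card G := by
    have h3 : ((A / Nat.card G : ℝ) : ℂ) = (((n1 : ℝ) - n2 : ℝ) : ℂ) := by
      rw [← hinner, hz]; push_cast; rfl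
    have h4 := Complex.ofReal_injective h3
    rw [← h4]; field_simp
  have hApos : 0 < A := by
    have h3 := Finset.single_le_sum
      (f := fun g : G => if p ∣ orderOf g then (0 : ℝ) else ‖ρ.character g‖ ^ 2)
      (fun g _ => by split_ifs <;> positivity) (Finset.mem_univ (1 : G))
    rw [← hA] at h3
    have h4 : ¬ p ∣ orderOf (1 : G) := by
      rw [orderOf_one]; exact fun h => hp.one_lt.ne' (Nat.dvd_one.mp h)
    simp only [if_neg h4, hd1] at h3
    have h5 : (0 : ℝ) < ‖(d : ℂ)‖ ^ 2 := by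
      have : ‖(d : ℂ)‖ = (d : ℝ) := by simp
      rw [this]; positivity
    linarith
  have hz1 : (1 : ℝ) ≤ (n1 : ℝ) - n2 := by
    have hpos : (0 : ℝ) < (n1 : ℝ) - n2 := by
      by_contra h; push_neg at h
      have : A ≤ 0 := by rw [hAeq]; exact mul_nonpos_of_nonpos_of_nonneg h (Nat.cast_nonneg _)
      linarith
    have h3 : (n2 : ℝ) < n1 := by linarith
    have h4 : n2 < n1 := by exact_mod_cast h3
    have h5 : ((n2 + 1 : ℕ) : ℝ) ≤ n1 := by exact_mod_cast h4
    push_cast at h5; linarith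
  have hB0 : B ≤ 0 := by
    have : (Nat.card G : ℝ) ≤ A := by
      rw [hAeq]
      calc (Nat.card G : ℝ) = 1 * Nat.card G := (one_mul _).symm
        _ ≤ ((n1 : ℝ) - n2) * Nat.card G := mul_le_mul_of_nonneg_right hz1 (Nat.cast_nonneg _)
    linarith
  have hBx : ‖ρ.character x‖ ^ 2 ≤ B := by
    rw [hB]
    have := Finset.single_le_sum
      (f := fun g : G => if p ∣ orderOf g then ‖ρ.character g‖ ^ 2 else (0 : ℝ))
      (fun g _ => by split_ifs <;> positivity) (Finset.mem_univ x)
    simpa [hx] using this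
  have h5 : ‖ρ.character x‖ = 0 := by nlinarith [norm_nonneg (ρ.character x)]
  exact norm_eq_zero.mp h5

end Cfsg.Agent.S0165
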