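import Cfsg.Statements.S0198
import Cfsg.Agent.Lib.Lead.CharMGroup
import Cfsg.Agent.Lib.Helper2.CharAux2

set_option autoImplicit false
open Cfsg
open Cfsg.Agent.Lib.Lead Cfsg.Agent.Lib.Helper2 Module
open scoped ComplexConjugate

namespace Cfsg.Agent.S0198

/-- The isometry lemma behind exceptional characters. Let τ be a family of generalized characters of a finite group G indexed by Fin n, with τ i₀ = 0, every τ i vanishing at the identity, and inner products ⟨τ i, τ j⟩ = 2 if i = j and 1 otherwise for i, j ≠ i₀. Then there are a sign ε and pairwise distinct irreducible characters μ i with τ i = ε (μ i − μ i₀) for all i. -/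
theorem result {G : Type*} [Group G] [Fintype G] (n : ℕ) (i₀ : Fin n) (τ : Fin n → (G → ℂ)) (h0 : τ i₀ = 0) (hgen : ∀ i, Cfsg.IsGeneralizedCharacter G (τ i)) (hone : ∀ i, τ i 1 = 0) (hgram : ∀ i j, i ≠ i₀ → j ≠ i₀ → Cfsg.classInner (τ i) (τ j) = if i = j then 2 else 1) : ∃ ε : ℂ, (ε = 1 ∨ ε = -1) ∧ ∃ μ : Fin n → (G → ℂ), (∀ i, Cfsg.IsIrrCharacter G (μ i)) ∧ Function.Injective μ ∧ ∀ i, τ i = ε • (μ i - μ i₀) := by
  classical
  have hdec : ∀ i, i ≠ i₀ → ∃ ψ₁ ψ₂ : G → ℂ, IsIrrCharacter G ψ₁ ∧ IsIrrCharacter G ψ₂ ∧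
      ψ₁ ≠ ψ₂ ∧ τ i = ψ₁ - ψ₂ := by
    intro i hi
    have := hgram i i hi hi
    rw [if_pos rfl] at this
    exact genChar_norm_two (hgen i) this (hone i)
  choose! α β hα hβ hne hτ using hdec
  have hpair : ∀ i j, i ≠ i₀ → j ≠ i₀ → i ≠ j →
      (α i = α j ∧ β i ≠ β j) ∨ (α i ≠ α j ∧ β i = β j) := by
    intro i j hi hj hij
    have h := hgram i j hi hj
    rw [if_neg hij, hτ i hi, hτ j hj, classInner_sub_left, classInner_sub_right,
      classInner_sub_right, irr_orthonormal (hα i hi) (hα j hj),
      irr_orthonormal (hα i hi) (hβ j hj), irr_orthonormal (hβ i hi) (hα j hj),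
      irr_orthonormal (hβ i hi) (hβ j hj)] at h
    have hni := hne i hi
    have hnj := hne j hj
    by_cases hA : α i = α j <;> by_cases hB : β i = β j <;> by_cases hC : α i = β j <;>
      by_cases hD : β i = α j <;>
      (first | rw [if_pos hA] at h | rw [if_neg hA] at h) <;>
      (first | rw [if_pos hB] at h | rw [if_neg hB] at h) <;>
      (first | rw [if_pos hC] at h | rw [if_neg hC] at h) <;>
      (first | rw [if_pos hD] at h | rw [if_neg hD] at h) <;>
      first
        | (exfalso; norm_num at h; done)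
        | (exfalso; exact hni (hA.trans hD.symm))
        | (exfalso; exact hni (hC.trans hB.symm))
        | (exfalso; exact hnj (hA.symm.trans hC))
        | (exfalso; exact hnj (hD.symm.trans hB))
        | (left; exact ⟨hA, hB⟩)
        | (right; exact ⟨hA, hB⟩)
  by_cases hex : ∃ i₁, i₁ ≠ i₀
  swap
  · push Not at hex
    refine ⟨1, Or.inl rfl, fun _ => (fun _ => 1), fun _ => isIrrCharacter_one G, ?_, ?_⟩
    · intro i j _
      rw [hex i, hex j]
    · intro i
      rw [hex i, h0]; simp
  obtain ⟨i₁, hi₁⟩ := hex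
  by_cases hb : ∀ j, j ≠ i₀ → β j = β i₁
  · -- common β
    refine ⟨1, Or.inl rfl, fun i => if i = i₀ then β i₁ else α i, ?_, ?_, ?_⟩
    · intro i
      by_cases hi : i = i₀
      · simp only [hi, if_true]; exact hβ i₁ hi₁
      · simp only [hi, if_false]; exact hα i hi
    · intro i j hij
      by_contra hne'
      by_cases hi : i = i₀ <;> by_cases hj : j = i₀
      · exact hne' (hi.trans hj.symm)
      · simp only [hi, hj, if_true, if_false] at hij
        exact hne j hj (by rw [← hij, hb j hj])
      · simp only [hi, hj, if_true, if_false] at hij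
        exact hne i hi (by rw [hij, hb i hi])
      · simp only [hi, hj, if_false] at hij
        rcases hpair i j hi hj hne' with ⟨_, h2⟩ | ⟨h1, _⟩
        · exact h2 (by rw [hb i hi, hb j hj])
        · exact h1 hij
    · intro i
      by_cases hi : i = i₀
      · simp only [hi, if_true, h0]; simp
      · simp only [hi, if_false, if_true, one_smul]
        rw [hτ i hi, hb i hi]
  · -- common α
    push Not at hb
    obtain ⟨j₂, hj₂, hβ₂⟩ := hb
    have hj₂i₁ : j₂ ≠ i₁ := by rintro rfl; exact hβ₂ rfl
    have hα₂ : α j₂ = α i₁ := by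
      rcases hpair j₂ i₁ hj₂ hi₁ hj₂i₁ with ⟨h1, _⟩ | ⟨_, h2⟩
      · exact h1
      · exact absurd h2 hβ₂
    have ha : ∀ j, j ≠ i₀ → α j = α i₁ := by
      intro j hj
      by_contra hcon
      have hj1 : j ≠ i₁ := by rintro rfl; exact hcon rfl
      have hj2 : j ≠ j₂ := by rintro rfl; exact hcon hα₂
      have e1 : β j = β i₁ := by
        rcases hpair j i₁ hj hi₁ hj1 with ⟨h1, _⟩ | ⟨_, h2⟩
        · exact absurd h1 hcon
        · exact h2
      have e2 : β j = β j₂ := by
        rcases hpair j j₂ hj hj₂ hj2 with ⟨h1, _⟩ | ⟨_, h2⟩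
        · exact absurd (h1.trans hα₂) hcon
        · exact h2
      exact hβ₂ (e2.symm.trans e1)
    refine ⟨-1, Or.inr rfl, fun i => if i = i₀ then α i₁ else β i, ?_, ?_, ?_⟩
    · intro i
      by_cases hi : i = i₀
      · simp only [hi, if_true]; exact hα i₁ hi₁
      · simp only [hi, if_false]; exact hβ i hi
    · intro i j hij
      by_contra hne'
      by_cases hi : i = i₀ <;> by_cases hj : j = i₀
      · exact hne' (hi.trans hj.symm)
      · simp only [hi, hj, if_true, if_false] at hij
        exact hne j hj (by rw [← hij, ha j hj])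
      · simp only [hi, hj, if_true, if_false] at hij
        exact hne i hi (by rw [hij, ha i hi])
      · simp only [hi, hj, if_false] at hij
        rcases hpair i j hi hj hne' with ⟨_, h2⟩ | ⟨h1, _⟩
        · exact h2 hij
        · exact h1 (by rw [ha i hi, ha j hj])
    · intro i
      by_cases hi : i = i₀
      · simp only [hi, if_true, h0]; simp
      · simp only [hi, if_false, if_true]
        rw [hτ i hi, ha i hi]
        simp

end Cfsg.Agent.S0198
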