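import Cfsg.Statements.S0170
import Cfsg.Agent.Lib.Lead.CharMGroup
import Cfsg.Agent.S0198
import Cfsg.Agent.Lib.Lead.CharAbQuot

set_option autoImplicit false
open Cfsg
open Cfsg.Agent.Lib.Lead Cfsg.Agent.Lib.Helper2 Module
open scoped ComplexConjugate

namespace Cfsg.Agent.S0170

/-- Exceptional characters. Let S be a subset of a finite group contained in its normalizer N and meeting its conjugates by elements outside N only in the identity. Given n ≥ 2 distinct irreducible characters of N of equal degree that vanish on N away from S, there exist a sign ε and n distinct irreducible characters θ_i of G such that inducing χ_i − χ_j to G gives ε (θ_i − θ_j) for all i, j. -/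
theorem result {G : Type*} [Group G] [Fintype G] (S : Set G) (hSN : S ⊆ Subgroup.normalizer S) (hTI : ∀ g : G, g ∉ Subgroup.normalizer S → ∀ s ∈ S, g * s * g⁻¹ ∈ S → s = 1) (n : ℕ) (hn : 2 ≤ n) (χ : Fin n → (Subgroup.normalizer S → ℂ)) (hirr : ∀ i, Cfsg.IsIrrCharacter (Subgroup.normalizer S) (χ i)) (hinj : Function.Injective χ) (hvan : ∀ i, ∀ x : Subgroup.normalizer S, (x : G) ∉ S → χ i x = 0) (hdeg : ∀ i j, χ i 1 = χ j 1) : ∃ ε : ℂ, (ε = 1 ∨ ε = -1) ∧ ∃ θ : Fin n → (G → ℂ), (∀ i, Cfsg.IsIrrCharacter G (θ i)) ∧ Function.Injective θ ∧ ∀ i j, Cfsg.indFun (Subgroup.normalizer S) (χ i) - Cfsg.indFun (Subgroup.normalizer S) (χ j) = ε • (θ i - θ j) := by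
  classical
  letI : Fintype (Subgroup.normalizer S) := Fintype.ofFinite _
  let i₀ : Fin n := ⟨0, by omega⟩
  have hsub : ∀ i j, indFun (Subgroup.normalizer S) (χ i - χ j) =
      indFun (Subgroup.normalizer S) (χ i) - indFun (Subgroup.normalizer S) (χ j) := by
    intro i j
    have : χ i - χ j = χ i + (-1 : ℂ) • χ j := by rw [neg_one_smul, sub_eq_add_neg]
    rw [this, indFun_add, indFun_smul, neg_one_smul, sub_eq_add_neg]
  let τ : Fin n → (G → ℂ) := fun i => indFun (Subgroup.normalizer S) (χ i - χ i₀)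
  have hcf : ∀ i, IsClassFunction (Subgroup.normalizer S) (χ i) := fun i =>
    isClassFunction_irr ⟨χ i, hirr i⟩
  have hcfsub : ∀ i j, IsClassFunction (Subgroup.normalizer S) (χ i - χ j) := by
    intro i j g h
    simp only [Pi.sub_apply, hcf i g h, hcf j g h]
  have hvansub : ∀ i j, ∀ x : Subgroup.normalizer S, (x : G) ∉ S → (χ i - χ j) x = 0 := by
    intro i j x hx
    simp only [Pi.sub_apply, hvan i x hx, hvan j x hx, sub_zero]
  have h1sub : ∀ i j, (χ i - χ j) 1 = 0 := by
    intro i j
    simp only [Pi.sub_apply, hdeg i j, sub_self]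
  obtain ⟨ε, hε, μ, hμirr, hμinj, hμ⟩ := Cfsg.Agent.S0198.result n i₀ τ
    (by show indFun (Subgroup.normalizer S) (χ i₀ - χ i₀) = 0
        rw [hsub, sub_self])
    (by
      intro i
      refine ⟨indFun (Subgroup.normalizer S) (χ i), indFun (Subgroup.normalizer S) (χ i₀),
        isCharacter_indFun _ (isCharacter_of_isIrrCharacter (hirr i)),
        isCharacter_indFun _ (isCharacter_of_isIrrCharacter (hirr i₀)), hsub i i₀⟩)
    (by
      intro i
      show indFun (Subgroup.normalizer S) (χ i - χ i₀) 1 = 0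
      rw [indFun_one, h1sub, mul_zero])
    (by
      intro i j hi hj
      show classInner (indFun (Subgroup.normalizer S) (χ i - χ i₀))
        (indFun (Subgroup.normalizer S) (χ j - χ i₀)) = _
      rw [classInner_ind_ind_of_TI S hTI _ _ (hcfsub j i₀) (hvansub i i₀) (hvansub j i₀)
        (h1sub i i₀), classInner_sub_left, classInner_sub_right, classInner_sub_right,
        irr_orthonormal (hirr i) (hirr j), irr_orthonormal (hirr i) (hirr i₀),
        irr_orthonormal (hirr i₀) (hirr j), irr_orthonormal (hirr i₀) (hirr i₀), if_pos rfl,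
        if_neg (fun h => hi (hinj h)), if_neg (fun h => hj (hinj h).symm)]
      by_cases hij : i = j
      · rw [if_pos hij, if_pos (by rw [hij])]; norm_num
      · rw [if_neg hij, if_neg (fun h => hij (hinj h))]; norm_num)
  refine ⟨ε, hε, μ, hμirr, hμinj, fun i j => ?_⟩
  have e1 := hμ i
  have e2 := hμ j
  have e3 : indFun (Subgroup.normalizer S) (χ i) - indFun (Subgroup.normalizer S) (χ j) =
      τ i - τ j := by
    show _ = indFun (Subgroup.normalizer S) (χ i - χ i₀) -
      indFun (Subgroup.normalizer S) (χ j - χ i₀)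
    rw [hsub, hsub]; abel
  rw [e3, e1, e2, ← smul_sub]
  congr 1
  abel

end Cfsg.Agent.S0170
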