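import Mathlib
import Cfsg.Statements.S0172

set_option autoImplicit false
open Cfsg

namespace Cfsg.Agent.S0172

theorem card_split {α : Type*} [Finite α] (P Q : α → Prop) :
    Nat.card {a // P a} = Nat.card {a // P a ∧ Q a} + Nat.card {a // P a ∧ ¬ Q a} := by
  classical
  haveI := Fintype.ofFinite α
  have e1 : Nat.card {a // P a} = (Finset.univ.filter P).card := by
    rw [Nat.card_eq_fintype_card, Fintype.card_subtype]
  have e2 : Nat.card {a // P a ∧ Q a} = ((Finset.univ.filter P).filter Q).card := by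
    rw [Nat.card_eq_fintype_card, Fintype.card_subtype, Finset.filter_filter]
  have e3 : Nat.card {a // P a ∧ ¬ Q a} = ((Finset.univ.filter P).filter (fun a => ¬ Q a)).card := by
    rw [Nat.card_eq_fintype_card, Fintype.card_subtype, Finset.filter_filter]
  rw [e1, e2, e3]
  exact (Finset.card_filter_add_card_filter_not _).symm

theorem cnt_one (X : Type*) [Group X] [Finite X] :
    Nat.card {p : X × X // Commute p.1 p.2 ∧ p.1 = 1} = Nat.card X := by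
  refine Nat.card_congr ⟨fun p => p.1.2, fun x => ⟨(1, x), Commute.one_left x, rfl⟩, ?_, ?_⟩
  · rintro ⟨⟨a, b⟩, hc, h1⟩
    simp only at h1
    subst h1
    rfl
  · intro x; rfl

theorem cnt_all (X : Type*) [Group X] [Finite X] :
    Nat.card (ConjClasses X) * Nat.card X
      = Nat.card X + Nat.card {p : X × X // Commute p.1 p.2 ∧ ¬ p.1 = 1} := by
  rw [← card_comm_eq_card_conjClasses_mul_card,
    card_split (fun p : X × X => Commute p.1 p.2) (fun p => p.1 = 1), cnt_one]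

theorem conj_comm {X : Type*} [Group X] {a b : X} (x : X) (h : a * b = b * a) :
    (x⁻¹ * a * x) * (x⁻¹ * b * x) = (x⁻¹ * b * x) * (x⁻¹ * a * x) := by
  calc (x⁻¹ * a * x) * (x⁻¹ * b * x) = x⁻¹ * (a * b) * x := by group
    _ = x⁻¹ * (b * a) * x := by rw [h]
    _ = _ := by group

theorem conj_one {X : Type*} [Group X] {a : X} (x : X) (h : x⁻¹ * a * x = 1) : a = 1 := by
  have e : a = x * (x⁻¹ * a * x) * x⁻¹ := by group
  rw [e, h]; group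

section
variable {G : Type*} [Group G] [Finite G] (K H : Subgroup G) [K.Normal]

theorem conj_rep (hKH' : K ⊔ H = ⊤)
    (hfpf : ∀ h ∈ H, h ≠ 1 → ∀ k ∈ K, h * k = k * h → k = 1) (g : G) (hg : g ∉ K) :
    ∃ x ∈ K, ∃ h ∈ H, h ≠ 1 ∧ g = x⁻¹ * h * x := by
  have hmem : g ∈ K ⊔ H := hKH' ▸ Subgroup.mem_top g
  rw [← SetLike.mem_coe, Subgroup.normal_mul] at hmem
  obtain ⟨k, hk, h, hh, rfl⟩ := Set.mem_mul.mp hmem
  have hh1 : h ≠ 1 := by
    rintro rfl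
    exact hg (by simpa using hk)
  let ψ : K → K := fun x => ⟨(x : G)⁻¹ * (h * x * h⁻¹),
    K.mul_mem (K.inv_mem x.2) (Subgroup.Normal.conj_mem inferInstance _ x.2 h)⟩
  have hinj : Function.Injective ψ := by
    intro x y hxy
    have e : (x : G)⁻¹ * (h * x * h⁻¹) = (y : G)⁻¹ * (h * y * h⁻¹) := congrArg Subtype.val hxy
    have e3 : (x : G)⁻¹ * h * x = (y : G)⁻¹ * h * y := by
      calc (x : G)⁻¹ * h * x = ((x : G)⁻¹ * (h * x * h⁻¹)) * h := by group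
        _ = ((y : G)⁻¹ * (h * y * h⁻¹)) * h := by rw [e]
        _ = _ := by group
    have e2 : h * ((y : G) * (x : G)⁻¹) = ((y : G) * (x : G)⁻¹) * h := by
      calc h * ((y : G) * (x : G)⁻¹) = y * ((y : G)⁻¹ * h * y) * (x : G)⁻¹ := by group
        _ = y * ((x : G)⁻¹ * h * x) * (x : G)⁻¹ := by rw [e3]
        _ = _ := by group
    have e4 := hfpf h hh hh1 _ (K.mul_mem y.2 (K.inv_mem x.2)) e2
    ext
    exact (mul_inv_eq_one.mp e4).symm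
  obtain ⟨x, hx⟩ := (Finite.injective_iff_surjective.mp hinj) ⟨k, hk⟩
  refine ⟨x, x.2, h, hh, hh1, ?_⟩
  have e : (x : G)⁻¹ * (h * x * h⁻¹) = k := congrArg Subtype.val hx
  rw [← e]; group

theorem cent_K (hKH' : K ⊔ H = ⊤)
    (hfpf : ∀ h ∈ H, h ≠ 1 → ∀ k ∈ K, h * k = k * h → k = 1) (k : G) (hk : k ∈ K) (hk1 : k ≠ 1)
    (g : G) (hc : k * g = g * k) : g ∈ K := by
  by_contra hg
  obtain ⟨x, hx, h, hh, hh1, rfl⟩ := conj_rep K H hKH' hfpf g hg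
  have e : h * (x * k * x⁻¹) = (x * k * x⁻¹) * h := by
    calc h * (x * k * x⁻¹) = x * (x⁻¹ * h * x * k) * x⁻¹ := by group
      _ = x * (k * (x⁻¹ * h * x)) * x⁻¹ := by rw [hc]
      _ = _ := by group
  have e1 := hfpf h hh hh1 _ (Subgroup.Normal.conj_mem inferInstance k hk x) e
  apply hk1
  have e2 : k = x⁻¹ * (x * k * x⁻¹) * x := by group
  rw [e2, e1]; group

theorem cent_H (hKH : K ⊓ H = ⊥) (hKH' : K ⊔ H = ⊤)
    (hfpf : ∀ h ∈ H, h ≠ 1 → ∀ k ∈ K, h * k = k * h → k = 1) (h : G) (hh : h ∈ H) (hh1 : h ≠ 1)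
    (g : G) (hc : h * g = g * h) : g ∈ H := by
  have hmem : g ∈ K ⊔ H := hKH' ▸ Subgroup.mem_top g
  rw [← SetLike.mem_coe, Subgroup.normal_mul] at hmem
  obtain ⟨k, hk, h₁, hh₁, rfl⟩ := Set.mem_mul.mp hmem
  obtain ⟨h', hh'⟩ : ∃ h', h' = h₁ * h * h₁⁻¹ := ⟨_, rfl⟩
  have hh'H : h' ∈ H := hh' ▸ H.mul_mem (H.mul_mem hh₁ hh) (H.inv_mem hh₁)
  have e1 : k * h' * k⁻¹ = h := by
    rw [hh']
    calc k * (h₁ * h * h₁⁻¹) * k⁻¹ = (k * h₁ * h) * h₁⁻¹ * k⁻¹ := by group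
      _ = (h * (k * h₁)) * h₁⁻¹ * k⁻¹ := by rw [hc]
      _ = h := by group
  have e2 : k * (h' * k⁻¹ * h'⁻¹) = h * h'⁻¹ := by rw [← e1]; group
  have m1 : k * (h' * k⁻¹ * h'⁻¹) ∈ K :=
    K.mul_mem hk (Subgroup.Normal.conj_mem inferInstance _ (K.inv_mem hk) h')
  have m2 : k * (h' * k⁻¹ * h'⁻¹) ∈ H := by rw [e2]; exact H.mul_mem hh (H.inv_mem hh'H)
  have m3 : k * (h' * k⁻¹ * h'⁻¹) = 1 := by
    have m4 : k * (h' * k⁻¹ * h'⁻¹) ∈ K ⊓ H := ⟨m1, m2⟩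
    rw [hKH] at m4
    exact Subgroup.mem_bot.mp m4
  have e3 : h' = h := by
    rw [m3] at e2
    exact (mul_inv_eq_one.mp e2.symm).symm
  have h'1 : h' ≠ 1 := e3 ▸ hh1
  have e4 : h' * k = k * h' := by
    calc h' * k = (k * (h' * k⁻¹ * h'⁻¹))⁻¹ * (k * h') := by group
      _ = k * h' := by rw [m3]; group
  have k1 : k = 1 := hfpf h' hh'H h'1 k hk e4
  rw [k1, one_mul]; exact hh₁

theorem cnt_B (hKH' : K ⊔ H = ⊤)
    (hfpf : ∀ h ∈ H, h ≠ 1 → ∀ k ∈ K, h * k = k * h → k = 1) :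
    Nat.card {p : G × G // (Commute p.1 p.2 ∧ ¬ p.1 = 1) ∧ p.1 ∈ K}
      = Nat.card {q : K × K // Commute q.1 q.2 ∧ ¬ q.1 = 1} := by
  refine Nat.card_congr ⟨fun p => ⟨(⟨p.1.1, p.2.2⟩,
      ⟨p.1.2, cent_K K H hKH' hfpf p.1.1 p.2.2 p.2.1.2 p.1.2 p.2.1.1.eq⟩),
      ⟨Subtype.ext p.2.1.1.eq, fun e => p.2.1.2 (congrArg Subtype.val e)⟩⟩,
    fun q => ⟨((q.1.1 : G), (q.1.2 : G)),
      ⟨⟨congrArg Subtype.val q.2.1.eq, fun e => q.2.2 (Subtype.ext e)⟩, q.1.1.2⟩⟩, ?_, ?_⟩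
  · rintro ⟨⟨a, b⟩, _⟩; rfl
  · rintro ⟨⟨⟨a, _⟩, ⟨b, _⟩⟩, _⟩; rfl

theorem cnt_C (hKH : K ⊓ H = ⊥) (hKH' : K ⊔ H = ⊤)
    (hfpf : ∀ h ∈ H, h ≠ 1 → ∀ k ∈ K, h * k = k * h → k = 1) :
    Nat.card {p : G × G // (Commute p.1 p.2 ∧ ¬ p.1 = 1) ∧ ¬ p.1 ∈ K}
      = Nat.card K * Nat.card {q : H × H // Commute q.1 q.2 ∧ ¬ q.1 = 1} := by
  rw [← Nat.card_prod]
  symm
  have hnotin : ∀ (x : G) (a : G), x ∈ K → a ∈ H → ¬ a = 1 → ¬ x⁻¹ * a * x ∈ K := by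
    intro x a hx ha ha1 hm
    have e : a = x * (x⁻¹ * a * x) * x⁻¹ := by group
    have m1 : a ∈ K := by
      rw [e]; exact Subgroup.Normal.conj_mem inferInstance _ hm x
    have m2 : a ∈ K ⊓ H := ⟨m1, ha⟩
    rw [hKH] at m2
    exact ha1 (Subgroup.mem_bot.mp m2)
  let f : K × {q : H × H // Commute q.1 q.2 ∧ ¬ q.1 = 1} →
      {p : G × G // (Commute p.1 p.2 ∧ ¬ p.1 = 1) ∧ ¬ p.1 ∈ K} := fun t =>
    ⟨((t.1 : G)⁻¹ * (t.2.1.1 : G) * t.1, (t.1 : G)⁻¹ * (t.2.1.2 : G) * t.1),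
      ⟨⟨conj_comm _ (congrArg Subtype.val t.2.2.1.eq),
        fun e => t.2.2.2 (Subtype.ext (conj_one _ e))⟩,
       hnotin _ _ t.1.2 t.2.1.1.2 (fun e => t.2.2.2 (Subtype.ext e))⟩⟩
  refine Nat.card_congr (Equiv.ofBijective f ⟨?_, ?_⟩)
  · rintro ⟨⟨x, hx⟩, ⟨⟨⟨a, ha⟩, ⟨b, hb⟩⟩, hc, ha1⟩⟩ ⟨⟨y, hy⟩, ⟨⟨⟨a', ha'⟩, ⟨b', hb'⟩⟩, hc', ha1'⟩⟩ hf
    have hf1 : x⁻¹ * a * x = y⁻¹ * a' * y := congrArg (fun p => p.1.1) hf
    have hf2 : x⁻¹ * b * x = y⁻¹ * b' * y := congrArg (fun p => p.1.2) hf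
    have ha1G : a ≠ 1 := fun e => ha1 (Subtype.ext e)
    -- a' = z a z⁻¹ with z = y x⁻¹
    have ea : a' = (y * x⁻¹) * a * (y * x⁻¹)⁻¹ := by
      calc a' = y * (y⁻¹ * a' * y) * y⁻¹ := by group
        _ = y * (x⁻¹ * a * x) * y⁻¹ := by rw [hf1]
        _ = _ := by group
    have hz : y * x⁻¹ ∈ K := K.mul_mem hy (K.inv_mem hx)
    have m1 : (y * x⁻¹) * (a * (y * x⁻¹)⁻¹ * a⁻¹) ∈ K :=
      K.mul_mem hz (Subgroup.Normal.conj_mem inferInstance _ (K.inv_mem hz) a)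
    have e2 : (y * x⁻¹) * (a * (y * x⁻¹)⁻¹ * a⁻¹) = a' * a⁻¹ := by rw [ea]; group
    have m2 : (y * x⁻¹) * (a * (y * x⁻¹)⁻¹ * a⁻¹) ∈ H := by
      rw [e2]; exact H.mul_mem ha' (H.inv_mem ha)
    have m3 : (y * x⁻¹) * (a * (y * x⁻¹)⁻¹ * a⁻¹) = 1 := by
      have m4 : (y * x⁻¹) * (a * (y * x⁻¹)⁻¹ * a⁻¹) ∈ K ⊓ H := ⟨m1, m2⟩
      rw [hKH] at m4
      exact Subgroup.mem_bot.mp m4
    have e4 : a * (y * x⁻¹) = (y * x⁻¹) * a := by
      calc a * (y * x⁻¹) = ((y * x⁻¹) * (a * (y * x⁻¹)⁻¹ * a⁻¹))⁻¹ * ((y * x⁻¹) * a) := by group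
        _ = (y * x⁻¹) * a := by rw [m3]; group
    have z1 : y * x⁻¹ = 1 := hfpf a ha ha1G _ hz e4
    have hxy : y = x := mul_inv_eq_one.mp z1
    subst hxy
    have eaa : a' = a := by
      have := mul_left_cancel (mul_right_cancel hf1)
      exact this.symm
    have ebb : b' = b := by
      have := mul_left_cancel (mul_right_cancel hf2)
      exact this.symm
    subst eaa
    subst ebb
    rfl
  · rintro ⟨⟨g, g'⟩, ⟨hc, hne⟩, hnk⟩
    simp only at hc hne hnk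
    obtain ⟨x, hx, h, hh, hh1, rfl⟩ := conj_rep K H hKH' hfpf g hnk
    have hcb : h * (x * g' * x⁻¹) = (x * g' * x⁻¹) * h := by
      have e := hc.eq
      calc h * (x * g' * x⁻¹) = x * (x⁻¹ * h * x * g') * x⁻¹ := by group
        _ = x * (g' * (x⁻¹ * h * x)) * x⁻¹ := by rw [e]
        _ = _ := by group
    have hb : x * g' * x⁻¹ ∈ H := cent_H K H hKH hKH' hfpf h hh hh1 _ hcb
    refine ⟨(⟨x, hx⟩, ⟨(⟨h, hh⟩, ⟨x * g' * x⁻¹, hb⟩), Subtype.ext hcb,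
      fun e => hh1 (congrArg Subtype.val e)⟩), ?_⟩
    apply Subtype.ext
    apply Prod.ext
    · rfl
    · show x⁻¹ * (x * g' * x⁻¹) * x = g'
      group

end

/-- Class number of a Frobenius group: if G = K H with K normal, K ⊓ H trivial and no non-identity element of H commuting with a non-identity element of K, then |H| * k(G) + 1 = |H| * k(H) + k(K), where k denotes the number of conjugacy classes. -/
theorem result {G : Type*} [Group G] [Finite G] (K H : Subgroup G) [K.Normal] (hKH : K ⊓ H = ⊥) (hKH' : K ⊔ H = ⊤) (hfpf : ∀ h ∈ H, h ≠ 1 → ∀ k ∈ K, h * k = k * h → k = 1) : Nat.card H * Nat.card (ConjClasses G) + 1 = Nat.card H * Nat.card (ConjClasses H) + Nat.card (ConjClasses K) := by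
  have hcompl : Subgroup.IsComplement' K H := by
    apply Subgroup.isComplement'_of_disjoint_and_mul_eq_univ (disjoint_iff.mpr hKH)
    rw [← Subgroup.normal_mul, hKH', Subgroup.coe_top]
  have hcard : Nat.card K * Nat.card H = Nat.card G := hcompl.card_mul_card
  have hKpos : 0 < Nat.card K := Nat.card_pos
  have h1 := cnt_all G
  rw [card_split (fun p : G × G => Commute p.1 p.2 ∧ ¬ p.1 = 1) (fun p => p.1 ∈ K),
    cnt_B K H hKH' hfpf, cnt_C K H hKH hKH' hfpf, ← hcard] at h1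
  have h2 := cnt_all K
  have h3 := cnt_all H
  generalize Nat.card (ConjClasses G) = kG at *
  generalize Nat.card (ConjClasses K) = kK at *
  generalize Nat.card (ConjClasses H) = kH at *
  generalize Nat.card K = nK at *
  generalize Nat.card H = nH at *
  generalize Nat.card {q : K × K // Commute q.1 q.2 ∧ ¬ q.1 = 1} = B at *
  generalize Nat.card {q : H × H // Commute q.1 q.2 ∧ ¬ q.1 = 1} = C at *
  apply Nat.eq_of_mul_eq_mul_left hKpos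
  calc nK * (nH * kG + 1) = kG * (nK * nH) + nK := by ring
    _ = nK * nH + (B + nK * C) + nK := by rw [h1]
    _ = nK * (nH + C) + (nK + B) := by ring
    _ = nK * (kH * nH) + kK * nK := by rw [h3, h2]
    _ = nK * (nH * kH + kK) := by ring

end Cfsg.Agent.S0172
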