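import Cfsg.Statements.S0175
import Cfsg.Agent.Lib.Lead.CharAbQuot
import Cfsg.Agent.Lib.Lead.CharGalois

set_option autoImplicit false
open Cfsg

namespace Cfsg.Agent.S0175

open Cfsg.Agent.Lib.Lead Cfsg.Agent.Lib.Helper2 in
theorem aux {G : Type*} [Group G] [Fintype G] (hM : ∀ χ : G → ℂ, Cfsg.IsIrrCharacter G χ → ∃ (H : Subgroup G) (lam : H →* ℂˣ), χ = Cfsg.indFun H (fun h => (lam h : ℂ))) :
    ∀ d : ℕ, ∀ χ : Cfsg.IrrCharacter G, Cfsg.charDegree (χ : G → ℂ) ≤ d →
      ∃ k : ℕ, ∀ g ∈ derivedSeries G k, (χ : G → ℂ) g = (χ : G → ℂ) 1 := by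
  classical
  haveI : Finite (Cfsg.IrrCharacter G) := irr_finite
  letI : Fintype (Cfsg.IrrCharacter G) := Fintype.ofFinite _
  intro d
  induction d with
  | zero =>
    intro χ hχ
    exfalso
    have := charDegree_pos_of_irr χ.2
    omega
  | succ d ih =>
    intro χ hχ
    by_cases hle : Cfsg.charDegree (χ : G → ℂ) ≤ d
    · exact ih χ hle
    · have hdeg : Cfsg.charDegree (χ : G → ℂ) = d + 1 := by omega
      obtain ⟨H, lam, hlam⟩ := hM χ χ.2
      letI : Fintype H := Fintype.ofFinite H
      have hHcard : (Nat.card H : ℂ) ≠ 0 := by exact_mod_cast (Nat.card_pos (α := H)).ne'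
      -- index
      have hidx : H.index = d + 1 := by
        have h1 := indFun_one H (fun h => (lam h : ℂ))
        rw [← hlam, isIrrCharacter_one_eq_charDegree χ.2, hdeg] at h1
        simp only [map_one, Units.val_one, mul_one] at h1
        exact_mod_cast h1.symm
      set π : G → ℂ := Cfsg.indFun H (fun _ : H => (1 : ℂ)) with hπ
      have hπch : Cfsg.IsCharacter G π := isCharacter_indFun H isCharacter_one
      have hm := fun ψ : Cfsg.IrrCharacter G =>
        classInner_isCharacter_nat hπch (isCharacter_of_isIrrCharacter ψ.2)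
      choose m hm using hm
      have hπdeg : Cfsg.charDegree π = d + 1 := by
        apply charDegree_of_one_eq
        rw [hπ, indFun_one, hidx]; simp
      have hdegsum := charDegree_eq_sum hπch m hm
      set one : Cfsg.IrrCharacter G := ⟨fun _ => 1, isIrrCharacter_one G⟩ with hone
      have hm1 : m one = 1 := by
        have h1 := hm one
        rw [hπ, frobenius_reciprocity H _ _ (isClassFunction_irr one)] at h1
        have h2 : Cfsg.classInner (fun _ : H => (1 : ℂ)) (fun h : H => (one : G → ℂ) h) = 1 := by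
          have := irr_orthonormal (isIrrCharacter_one H) (isIrrCharacter_one H)
          rw [if_pos rfl] at this
          exact this
        rw [h2] at h1
        exact_mod_cast h1.symm
      have hd1 : Cfsg.charDegree (one : G → ℂ) = 1 := charDegree_of_one_eq (by simp [hone])
      -- each constituent has some k
      have hk : ∀ ψ : Cfsg.IrrCharacter G, ∃ k : ℕ, m ψ ≠ 0 →
          ∀ g ∈ derivedSeries G k, (ψ : G → ℂ) g = (ψ : G → ℂ) 1 := by
        intro ψ
        by_cases hψ1 : ψ = one
        · exact ⟨0, fun _ g _ => by rw [hψ1]⟩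
        · by_cases hmψ : m ψ = 0
          · exact ⟨0, fun h => absurd hmψ h⟩
          · have hle2 : Cfsg.charDegree (ψ : G → ℂ) ≤ d := by
              have h1 : m one * Cfsg.charDegree (one : G → ℂ) + m ψ * Cfsg.charDegree (ψ : G → ℂ) ≤
                  ∑ φ : Cfsg.IrrCharacter G, m φ * Cfsg.charDegree (φ : G → ℂ) := by
                rw [← Finset.sum_pair (f := fun φ : Cfsg.IrrCharacter G =>
                  m φ * Cfsg.charDegree (φ : G → ℂ)) (Ne.symm hψ1)]
                exact Finset.sum_le_sum_of_subset (Finset.subset_univ _)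
              rw [← hdegsum, hπdeg, hm1, hd1] at h1
              have h2 : Cfsg.charDegree (ψ : G → ℂ) ≤ m ψ * Cfsg.charDegree (ψ : G → ℂ) :=
                Nat.le_mul_of_pos_left _ (Nat.pos_of_ne_zero hmψ)
              omega
            obtain ⟨k, hk⟩ := ih ψ hle2
            exact ⟨k, fun _ => hk⟩
      choose kf hkf using hk
      set k : ℕ := Finset.univ.sup kf with hkdef
      have hπconst : ∀ g ∈ derivedSeries G k, π g = π 1 := by
        intro g hg
        have hexp := expansion π (isClassFunction_of_isCharacter hπch)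
        rw [hexp]
        simp only [Finset.sum_apply, Pi.smul_apply, smul_eq_mul]
        apply Finset.sum_congr rfl; intro ψ _
        by_cases hmψ : m ψ = 0
        · rw [hm, hmψ]; simp
        · rw [hkf ψ hmψ g (derivedSeries_antitone G (Finset.le_sup (Finset.mem_univ ψ)) hg)]
      -- D_k ≤ H
      have hDH : ∀ g ∈ derivedSeries G k, g ∈ H := by
        intro g hg
        by_contra hgH
        have h1 := hπconst g hg
        rw [hπ] at h1
        unfold Cfsg.indFun at h1
        have h2 := mul_left_cancel₀ (inv_ne_zero hHcard) h1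
        have h3 : ∀ x : G, extendByZero H (fun _ : H => (1 : ℂ)) (x⁻¹ * 1 * x) = 1 := by
          intro x
          have : x⁻¹ * 1 * x ∈ H := by simp
          rw [extendByZero_mem H _ this]
        rw [Finset.sum_congr rfl (fun x _ => h3 x)] at h2
        have h4 : ∀ x : G, (extendByZero H (fun _ : H => (1 : ℂ)) (x⁻¹ * g * x)).re ≤ 1 := by
          intro x
          by_cases hx : x⁻¹ * g * x ∈ H
          · rw [extendByZero_mem H _ hx]; simp
          · rw [extendByZero_not_mem H _ hx]; simp
        have h5 := congrArg Complex.re h2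
        rw [Complex.re_sum, Complex.re_sum] at h5
        have h6 : (extendByZero H (fun _ : H => (1 : ℂ)) ((1 : G)⁻¹ * g * 1)).re < 1 := by
          have : (1 : G)⁻¹ * g * 1 ∉ H := by simpa using hgH
          rw [extendByZero_not_mem H _ this]; simp
        have h7 : ∑ x : G, (extendByZero H (fun _ : H => (1 : ℂ)) (x⁻¹ * g * x)).re <
            ∑ x : G, ((1 : ℂ)).re :=
          Finset.sum_lt_sum (fun x _ => by simpa using h4 x) ⟨1, Finset.mem_univ _, by simpa using h6⟩
        linarith
      refine ⟨k + 1, ?_⟩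
      intro g hg
      have hconj : ∀ x : G, ∃ hx : x⁻¹ * g * x ∈ H, lam ⟨x⁻¹ * g * x, hx⟩ = 1 := by
        intro x
        have h1 : x⁻¹ * g * x ∈ derivedSeries G (k + 1) := by
          have := (derivedSeries_normal G (k + 1)).conj_mem g hg x⁻¹
          rwa [inv_inv] at this
        rw [derivedSeries_succ] at h1
        have h2 : ⁅derivedSeries G k, derivedSeries G k⁆ ≤ ⁅H, H⁆ :=
          Subgroup.commutator_mono (fun y hy => hDH y hy) (fun y hy => hDH y hy)
        have h3 := h2 h1
        rw [← Subgroup.map_subtype_commutator] at h3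
        obtain ⟨h, hh, hheq⟩ := Subgroup.mem_map.mp h3
        have hx : x⁻¹ * g * x ∈ H := by rw [← hheq]; exact h.2
        refine ⟨hx, ?_⟩
        have h4 : (⟨x⁻¹ * g * x, hx⟩ : H) = h := Subtype.ext hheq.symm
        rw [h4]
        exact Abelianization.commutator_subset_ker lam hh
      rw [hlam]
      unfold Cfsg.indFun
      congr 1
      apply Finset.sum_congr rfl; intro x _
      obtain ⟨hx, hx1⟩ := hconj x
      have h1 : x⁻¹ * 1 * x ∈ H := by simp
      rw [extendByZero_mem H _ hx, extendByZero_mem H _ h1, hx1]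
      have : (⟨x⁻¹ * 1 * x, h1⟩ : H) = 1 := Subtype.ext (by simp)
      rw [this, map_one]

open Cfsg.Agent.Lib.Lead in
theorem result {G : Type*} [Group G] [Fintype G] (hM : ∀ χ : G → ℂ, Cfsg.IsIrrCharacter G χ → ∃ (H : Subgroup G) (lam : H →* ℂˣ), χ = Cfsg.indFun H (fun h => (lam h : ℂ))) : Group.IsSolvable G := by
  classical
  haveI : Finite (Cfsg.IrrCharacter G) := irr_finite
  letI : Fintype (Cfsg.IrrCharacter G) := Fintype.ofFinite _
  have h := fun χ : Cfsg.IrrCharacter G => aux hM _ χ (le_refl _)
  choose kf hkf using h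
  rw [Group.isSolvable_def]
  refine ⟨Finset.univ.sup kf, ?_⟩
  rw [eq_bot_iff]
  intro g hg
  rw [Subgroup.mem_bot]
  have h1 : IsConj g 1 := by
    apply isConj_of_forall_irr_eq
    intro χ
    exact hkf χ g (derivedSeries_antitone G (Finset.le_sup (Finset.mem_univ χ)) hg)
  exact isConj_one_left.mp h1

end Cfsg.Agent.S0175
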