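import Cfsg.Statements.S0180
import Cfsg.Agent.Lib.Lead.CharGalois

set_option autoImplicit false
open Cfsg

namespace Cfsg.Agent.S0180

theorem result {G : Type*} [Group G] [Finite G] : (∀ χ : Cfsg.IrrCharacter G, ∀ g : G, ∃ q : ℚ, (χ : G → ℂ) g = (q : ℂ)) ↔ ∀ m : ℕ, m.Coprime (Nat.card G) → ∀ g : G, IsConj g (g ^ m) := by
  constructor
  · intro h m hm g
    apply Cfsg.Agent.Lib.Lead.isConj_of_forall_irr_eq
    intro χ
    obtain ⟨q, hq⟩ := h χ g
    rw [hq]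
    exact (Cfsg.Agent.Lib.Lead.isCharacter_pow_eq_of_rat
      (Cfsg.Agent.Lib.Lead.isCharacter_of_isIrrCharacter χ.2) g q hq m hm).symm
  · intro h χ g
    apply Cfsg.Agent.Lib.Lead.isCharacter_rat_of_forall_pow_eq
      (Cfsg.Agent.Lib.Lead.isCharacter_of_isIrrCharacter χ.2) g
    intro k hk
    obtain ⟨c, hc⟩ := isConj_iff.mp (h k hk g)
    rw [← hc]
    exact Cfsg.Agent.Lib.Lead.isClassFunction_irr χ g c

end Cfsg.Agent.S0180
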