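import Cfsg.Statements.S0184
import Cfsg.Agent.Lib.Lead.CharGalois
import Cfsg.Agent.Lib.Lead.CharBurnside
import Cfsg.Agent.Lib.Helper8.PGroupNormal

set_option autoImplicit false
open Cfsg

namespace Cfsg.Agent.S0184

open Cfsg.Agent.Lib.Lead in
theorem result {G : Type*} [Group G] [Finite G] (p : ℕ) [Fact p.Prime] (hG : IsPGroup p G) : (∃ (n : ℕ) (ρ : Representation ℂ G (Fin n → ℂ)), ρ.IsIrreducible ∧ Function.Injective ρ) ↔ IsCyclic (Subgroup.center G) := by
  classical
  letI := Fintype.ofFinite G
  constructor
  · rintro ⟨n, ρ, hirr, hinj⟩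
    haveI := hirr
    have hsc : ∀ z : Subgroup.center G, ∃ c : ℂ, ρ (z : G) = c • LinearMap.id := by
      intro z
      exact schur_scalar ρ (ρ (z : G)) (fun g v => by
        rw [← Module.End.mul_apply, ← Module.End.mul_apply, ← map_mul, ← map_mul]
        congr 2
        exact (Subgroup.mem_center_iff.mp z.2 g).symm)
    choose c hc using hsc
    have hn : (LinearMap.id : (Fin n → ℂ) →ₗ[ℂ] (Fin n → ℂ)) ≠ 0 := by
      have hpos := finrank_pos_of_irreducible ρ
      intro h0
      have h1 := congrArg (LinearMap.trace ℂ (Fin n → ℂ)) h0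
      rw [LinearMap.trace_id, map_zero] at h1
      have : Module.finrank ℂ (Fin n → ℂ) = 0 := by exact_mod_cast h1
      omega
    have hcmul : ∀ z w, c (z * w) = c z * c w := by
      intro z w
      have h1 : ρ ((z * w : Subgroup.center G) : G) =
          (c z * c w) • (LinearMap.id : (Fin n → ℂ) →ₗ[ℂ] (Fin n → ℂ)) := by
        rw [Subgroup.coe_mul, map_mul, hc z, hc w]
        ext v x
        simp [smul_smul, mul_comm]
      rw [hc (z * w)] at h1
      exact smul_left_injective ℂ hn h1
    have hc1 : c 1 = 1 := by
      have h1 := hc 1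
      rw [Subgroup.coe_one, map_one] at h1
      have h2 : (1 : ℂ) • (LinearMap.id : (Fin n → ℂ) →ₗ[ℂ] (Fin n → ℂ)) = c 1 • LinearMap.id := by
        rw [one_smul]; exact h1
      exact (smul_left_injective ℂ hn h2).symm
    let f : Subgroup.center G →* ℂ := { toFun := c, map_one' := hc1, map_mul' := hcmul }
    have hf : Function.Injective f := by
      intro z w hzw
      apply Subtype.ext; apply hinj
      rw [hc z, hc w]
      have : c z = c w := hzw
      rw [this]
    exact isCyclic_of_subgroup_isDomain f hf
  · intro hcyc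
    by_cases hZ : Subgroup.center G = ⊥
    · have hsub : Subsingleton G := by
        by_contra hns
        rw [not_subsingleton_iff_nontrivial] at hns
        have := hG.bot_lt_center
        rw [hZ] at this; exact lt_irrefl _ this
      obtain ⟨n, ρ, hirr, -⟩ := isIrrCharacter_one G
      exact ⟨n, ρ, hirr, fun a b _ => Subsingleton.elim a b⟩
    · haveI : Nontrivial (Subgroup.center G) := (Subgroup.nontrivial_iff_ne_bot _).mpr hZ
      have hZp : IsPGroup p (Subgroup.center G) := hG.to_subgroup _
      have hpZ : p ∣ Nat.card (Subgroup.center G) := by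
        obtain ⟨k, hk⟩ := IsPGroup.iff_card.mp hZp
        have hk0 : k ≠ 0 := by
          rintro rfl
          rw [pow_zero] at hk
          have := Finite.one_lt_card (α := Subgroup.center G)
          omega
        rw [hk]; exact dvd_pow_self p hk0
      obtain ⟨z₀, hz₀⟩ := exists_prime_orderOf_dvd_card' (G := Subgroup.center G) p hpZ
      have hkey : ∀ K : Subgroup G, K.Normal → K ≠ ⊥ → (z₀ : G) ∈ K := by
        intro K hK hKne
        haveI := hK
        have h1 := Cfsg.Agent.Lib.Helper8.h8_normal_inf_center_ne_bot hG K hKne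
        haveI : Nontrivial (K ⊓ Subgroup.center G : Subgroup G) :=
          (Subgroup.nontrivial_iff_ne_bot _).mpr h1
        have hUp : IsPGroup p (K ⊓ Subgroup.center G : Subgroup G) := hG.to_subgroup _
        have hpU : p ∣ Nat.card (K ⊓ Subgroup.center G : Subgroup G) := by
          obtain ⟨k, hk⟩ := IsPGroup.iff_card.mp hUp
          have hk0 : k ≠ 0 := by
            rintro rfl
            rw [pow_zero] at hk
            have := Finite.one_lt_card (α := (K ⊓ Subgroup.center G : Subgroup G))
            omega
          rw [hk]; exact dvd_pow_self p hk0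
        obtain ⟨w, hw⟩ := exists_prime_orderOf_dvd_card'
          (G := (K ⊓ Subgroup.center G : Subgroup G)) p hpU
        have hwK : (w : G) ∈ K := (Subgroup.mem_inf.mp w.2).1
        have hwZ : (w : G) ∈ Subgroup.center G := (Subgroup.mem_inf.mp w.2).2
        set wZ : Subgroup.center G := ⟨(w : G), hwZ⟩ with hwZdef
        have hwo : orderOf wZ = p := by
          rw [← Subgroup.orderOf_coe wZ, ← hw, ← Subgroup.orderOf_coe w]
        -- Ω
        letI : Fintype (Subgroup.center G) := Fintype.ofFinite _
        have hΩ := IsCyclic.card_pow_eq_one_le (α := Subgroup.center G) (n := p)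
          (Nat.Prime.pos Fact.out)
        have hsub : ((Subgroup.zpowers wZ : Set (Subgroup.center G)).toFinset) ⊆
            Finset.univ.filter (fun a : Subgroup.center G => a ^ p = 1) := by
          intro a ha
          rw [Set.mem_toFinset] at ha
          rw [Finset.mem_filter]
          refine ⟨Finset.mem_univ _, ?_⟩
          obtain ⟨k, rfl⟩ := Subgroup.mem_zpowers_iff.mp ha
          rw [← zpow_natCast, ← zpow_mul, mul_comm, zpow_mul, zpow_natCast, ← hwo,
            pow_orderOf_eq_one, one_zpow]
        have hcardP : ((Subgroup.zpowers wZ : Set (Subgroup.center G)).toFinset).card = p := by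
          rw [Set.toFinset_card, Fintype.card_eq_nat_card]
          exact (Nat.card_zpowers wZ).trans hwo
        have heq := Finset.eq_of_subset_of_card_le hsub (by rw [hcardP]; exact hΩ)
        have hz₀mem : z₀ ∈ Finset.univ.filter (fun a : Subgroup.center G => a ^ p = 1) := by
          rw [Finset.mem_filter]
          exact ⟨Finset.mem_univ _, by rw [← hz₀]; exact pow_orderOf_eq_one z₀⟩
        rw [← heq, Set.mem_toFinset] at hz₀mem
        obtain ⟨k, hk⟩ := Subgroup.mem_zpowers_iff.mp hz₀mem
        have : (z₀ : G) = (w : G) ^ k := by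
          rw [← hk]; simp [hwZdef]
        rw [this]
        exact K.zpow_mem hwK k
      have hz₀ne : (z₀ : G) ≠ 1 := by
        intro h
        have h1 : z₀ = 1 := Subtype.ext h
        rw [h1, orderOf_one] at hz₀
        exact (Nat.Prime.one_lt Fact.out).ne hz₀
      have hex : ∃ χ : Cfsg.IrrCharacter G, (χ : G → ℂ) (z₀ : G) ≠ (χ : G → ℂ) 1 := by
        by_contra hcon
        push Not at hcon
        have := isConj_of_forall_irr_eq (g := (z₀ : G)) (h := 1) hcon
        exact hz₀ne (isConj_one_left.mp this)
      obtain ⟨χ, hχ⟩ := hex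
      obtain ⟨n, ρ, hirr, hρ⟩ := χ.2
      refine ⟨n, ρ, hirr, ?_⟩
      have hker : (ρ : G →* _).ker = ⊥ := by
        by_contra hne
        have h1 := hkey _ (MonoidHom.normal_ker _) hne
        rw [MonoidHom.mem_ker] at h1
        apply hχ
        rw [← hρ]
        have h2 : ρ (z₀ : G) = ρ 1 := by rw [map_one ρ]; exact h1
        show LinearMap.trace ℂ _ (ρ (z₀ : G)) = LinearMap.trace ℂ _ (ρ 1)
        rw [h2]
      intro a b hab
      have h2 : a * b⁻¹ ∈ (ρ : G →* _).ker := by
        rw [MonoidHom.mem_ker, map_mul, hab, ← map_mul, mul_inv_cancel, map_one]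
      rw [hker, Subgroup.mem_bot] at h2
      exact mul_inv_eq_one.mp h2

end Cfsg.Agent.S0184
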