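import Cfsg.Statements.S0186
import Cfsg.Agent.Lib.Lead.CharMGroup

set_option autoImplicit false
open Cfsg
open Cfsg.Agent.Lib.Lead Module

namespace Cfsg.Agent.S0186

/-- Let G be a finite simple group of order n and p a prime dividing n. If G has more than n / p^2 conjugacy classes, then every Sylow p-subgroup of G is abelian. -/
theorem result {G : Type*} [Group G] [Finite G] [IsSimpleGroup G] (p : ℕ) [Fact p.Prime] (hp : p ∣ Nat.card G) (hmany : Nat.card G < p ^ 2 * Nat.card (ConjClasses G)) (P : Sylow p G) (a b : G) (ha : a ∈ P) (hb : b ∈ P) : a * b = b * a := by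
  classical
  letI := Fintype.ofFinite G
  haveI : Finite (IrrCharacter G) := irr_finite
  letI : Fintype (IrrCharacter G) := Fintype.ofFinite _
  by_contra hab
  have hpp : p.Prime := Fact.out
  obtain ⟨m, hm⟩ := P.2.exists_card_eq
  -- degrees
  have hdeg : ∀ χ : IrrCharacter G, (χ : G → ℂ) ≠ (fun _ => 1) →
      ∃ n : ℕ, (χ : G → ℂ) 1 = n ∧ p ≤ n := by
    intro χ hχ1
    obtain ⟨n, ρ, hirr, hρ⟩ := χ.2
    haveI := hirr
    refine ⟨n, ?_, ?_⟩
    · rw [← hρ, Representation.char_one, Module.finrank_fin_fun]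
    · by_contra hlt
      push Not at hlt
      rcases (MonoidHom.normal_ker (ρ : G →* _)).eq_bot_or_eq_top with hk | hk
      · -- faithful
        have hinj : Function.Injective ρ := (MonoidHom.ker_eq_bot_iff _).mp hk
        letI : Fintype (P : Subgroup G) := Fintype.ofFinite _
        have hc := comm_of_faithful_small_degree
          (V := Fin n → ℂ) (ρ.comp (P : Subgroup G).subtype)
          (hinj.comp (Subgroup.subtype_injective _))
          (by
            intro q hq hqd
            rw [hm] at hqd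
            have := (Nat.prime_dvd_prime_iff_eq hq hpp).mp (hq.dvd_of_dvd_pow hqd)
            rw [this, Module.finrank_fin_fun]; exact hlt)
          ⟨a, ha⟩ ⟨b, hb⟩
        apply hab; exact congrArg Subtype.val hc
      · -- trivial
        apply hχ1
        have hall : ∀ g, ρ g = 1 := fun g => by
          have : g ∈ (ρ : G →* _).ker := by rw [hk]; trivial
          exact this
        have h1 : finrank ℂ (Fin n → ℂ) = 1 :=
          finrank_eq_one_of_forall_scalar ρ (fun g => ⟨1, by rw [hall g, one_smul]; rfl⟩)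
        funext g
        rw [← hρ]
        show LinearMap.trace ℂ _ (ρ g) = 1
        rw [hall g, LinearMap.trace_one, h1]; simp
  -- p² divides the order
  have hm2 : 2 ≤ m := by
    by_contra hlt
    push Not at hlt
    have hdv : Nat.card (P : Subgroup G) ∣ p := by
      rw [hm]
      interval_cases m
      · simp
      · simp
    haveI := isCyclic_of_card_dvd_prime hdv
    letI := IsCyclic.commGroup (α := (P : Subgroup G))
    have hc : (⟨a, ha⟩ : (P : Subgroup G)) * ⟨b, hb⟩ = ⟨b, hb⟩ * ⟨a, ha⟩ := mul_comm _ _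
    exact hab (congrArg Subtype.val hc)
  have hdvd : p ^ 2 ∣ Nat.card G :=
    ((pow_dvd_pow p hm2).trans (by rw [← hm])).trans (Subgroup.card_subgroup_dvd_card _)
  obtain ⟨t, ht⟩ := hdvd
  -- counting
  have hsum := sum_sq_degree (G := G)
  have hd : ∀ χ : IrrCharacter G, ∃ n : ℕ, (χ : G → ℂ) 1 = (n : ℂ) := irr_one_eq_natCast
  choose d hd using hd
  have hsumN : ∑ χ : IrrCharacter G, d χ ^ 2 = Nat.card G := by
    have : ∑ χ : IrrCharacter G, ((d χ : ℂ)) ^ 2 = (Nat.card G : ℂ) := by
      rw [← hsum]; exact Finset.sum_congr rfl (fun χ _ => by rw [hd])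
    exact_mod_cast this
  let τ : IrrCharacter G := ⟨fun _ => 1, isIrrCharacter_one G⟩
  have hdτ : d τ = 1 := by
    have := hd τ
    have h1 : (τ : G → ℂ) 1 = 1 := rfl
    rw [h1] at this
    exact_mod_cast this.symm
  have hge : ∀ χ : IrrCharacter G, χ ≠ τ → p ≤ d χ := by
    intro χ hχ
    obtain ⟨n, hn, hpn⟩ := hdeg χ (fun h => hχ (Subtype.ext h))
    have : (d χ : ℂ) = n := by rw [← hd, hn]
    have : d χ = n := by exact_mod_cast this
    omega
  have hk : Fintype.card (IrrCharacter G) = Nat.card (ConjClasses G) := by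
    rw [← Nat.card_eq_fintype_card]; exact card_irr_eq_card_conjClasses
  have hlow : 1 + (Fintype.card (IrrCharacter G) - 1) * p ^ 2 ≤ ∑ χ : IrrCharacter G, d χ ^ 2 := by
    rw [← Finset.add_sum_erase Finset.univ _ (Finset.mem_univ τ), hdτ]
    have : (Fintype.card (IrrCharacter G) - 1) * p ^ 2 ≤
        ∑ χ ∈ Finset.univ.erase τ, d χ ^ 2 := by
      have hcard : (Finset.univ.erase τ).card = Fintype.card (IrrCharacter G) - 1 := by
        rw [Finset.card_erase_of_mem (Finset.mem_univ τ), Finset.card_univ]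
      rw [← hcard, ← smul_eq_mul]
      apply Finset.card_nsmul_le_sum
      intro χ hχ
      exact Nat.pow_le_pow_left (hge χ (Finset.ne_of_mem_erase hχ)) 2
    omega
  rw [hsumN, hk] at hlow
  rw [ht] at hmany hlow
  have hpos : 0 < p ^ 2 := pow_pos hpp.pos 2
  have h1 : t < Nat.card (ConjClasses G) := lt_of_mul_lt_mul_left hmany (Nat.zero_le _)
  have h2 : p ^ 2 * t ≤ (Nat.card (ConjClasses G) - 1) * p ^ 2 := by
    rw [mul_comm]; exact Nat.mul_le_mul_right _ (by omega)
  omega

end Cfsg.Agent.S0186
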