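import Cfsg.Statements.S0191
import Cfsg.Agent.Lib.Lead.CharGalois
import Cfsg.Agent.Lib.Lead.CharRam

set_option autoImplicit false
open Cfsg

namespace Cfsg.Agent.S0191

/-- An irreducible complex representation of a finite group of degree greater than 1 has a character that vanishes somewhere. -/
theorem result {G : Type*} [Group G] [Finite G] {V : Type*} [AddCommGroup V] [Module ℂ V] [FiniteDimensional ℂ V] (ρ : Representation ℂ G V) [ρ.IsIrreducible] (hdeg : 1 < Module.finrank ℂ V) : ∃ g : G, ρ.character g = 0 := by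
  classical
  letI := Fintype.ofFinite G
  by_contra hcon
  push Not at hcon
  have hirr := Cfsg.Agent.Lib.Lead.isIrrCharacter_character ρ
  have hsum := Cfsg.Agent.Lib.Lead.sum_norm_sq_irr hirr
  have key := Cfsg.Agent.Lib.Lead.card_nonvanishing_le_sum_norm_sq ρ (Finset.univ.erase 1) (by
    intro g hg k hk
    rw [Finset.mem_erase] at hg ⊢
    exact ⟨Cfsg.Agent.Lib.Lead.pow_ne_one_of_coprime hg.1 hk, Finset.mem_univ _⟩)
  have hfilter : (Finset.univ.erase (1:G)).filter (fun g => ρ.character g ≠ 0) =
      Finset.univ.erase 1 := Finset.filter_true_of_mem (fun g _ => hcon g)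
  rw [hfilter, Finset.card_erase_of_mem (Finset.mem_univ _), Finset.card_univ] at key
  have h1 : ρ.character 1 = (Module.finrank ℂ V : ℂ) := by simp [Representation.character]
  have hsplit : ∑ g : G, ‖ρ.character g‖ ^ 2 = ‖ρ.character 1‖ ^ 2 +
      ∑ g ∈ Finset.univ.erase 1, ‖ρ.character g‖ ^ 2 :=
    (Finset.add_sum_erase _ _ (Finset.mem_univ 1)).symm
  have h2 : (2:ℝ) ≤ Module.finrank ℂ V := by exact_mod_cast hdeg
  rw [Nat.card_eq_fintype_card] at hsum
  rw [h1, Complex.norm_natCast] at hsplit
  push_cast [Nat.cast_sub (Fintype.card_pos (α := G))] at key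
  nlinarith

end Cfsg.Agent.S0191
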