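import Mathlib
import Cfsg.Statements.S0203
import Cfsg.Agent.Lib.Helper5.Klein

set_option autoImplicit false
open Cfsg

namespace Cfsg.Agent.S0203

open Cfsg.Agent.Lib.Helper5

theorem result {G : Type*} [Group G] [Finite G] (P : Sylow 2 G) (hP : IsKleinFour (P : Subgroup G)) : Nat.card {C : ConjClasses G // ∃ t : G, orderOf t = 2 ∧ ConjClasses.mk t = C} = 3 ↔ ∃ N : Subgroup G, N.Normal ∧ Subgroup.IsComplement' N (P : Subgroup G) := by
  haveI : Fact (Nat.Prime 2) := ⟨Nat.prime_two⟩
  obtain ⟨x, y, hx, hy, hx1, hy1, hxy, h⟩ := klein_classes P hP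
  have hxx := klein_sq P hP x hx
  have e1 : x * y ≠ 1 := by
    intro h
    apply hxy
    have : y = x⁻¹ := eq_inv_of_mul_eq_one_right h
    rw [this, inv_eq_of_mul_eq_one_left hxx]
  constructor
  · intro h3
    rcases h with h | ⟨hn1, hn2, hn3, _⟩
    · rw [h.2] at h3; omega
    · have h1 : ∀ w : G, IsConj (1 : G) w → w = 1 := by
        intro w hw
        obtain ⟨c, hc⟩ := isConj_iff.mp hw
        rw [← hc]; group
      have hnc : ∀ u v : G, u ∈ (P : Subgroup G) → v ∈ (P : Subgroup G) → IsConj u v → u = v := by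
        intro u v hu hv huv
        rcases klein_third P hP x y u hx hy hu hx1 hy1 hxy with hu' | hu' | hu' | hu' <;>
        rcases klein_third P hP x y v hx hy hv hx1 hy1 hxy with hv' | hv' | hv' | hv' <;>
        rw [hu', hv'] at huv ⊢
        · exact absurd (h1 x huv) hx1
        · exact absurd (h1 y huv) hy1
        · exact absurd (h1 _ huv) e1
        · exact absurd (h1 x huv.symm) hx1
        · exact absurd huv hn1
        · exact absurd huv hn2
        · exact absurd (h1 y huv.symm) hy1
        · exact absurd huv.symm hn1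
        · exact absurd huv hn3
        · exact absurd (h1 _ huv.symm) e1
        · exact absurd huv.symm hn2
        · exact absurd huv.symm hn3
      have hNC : Subgroup.normalizer ((P : Subgroup G) : Set G) ≤
          Subgroup.centralizer ((P : Subgroup G) : Set G) := by
        intro n hn
        rw [Subgroup.mem_centralizer_iff]
        intro w hw
        have hmem : n * w * n⁻¹ ∈ (P : Subgroup G) := (Subgroup.mem_normalizer_iff.mp hn w).mp hw
        have := hnc w _ hw hmem (isConj_iff.mpr ⟨n, rfl⟩)
        calc w * n = (n * w * n⁻¹) * n := by rw [← this]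
          _ = n * w := by group
      exact ⟨(MonoidHom.transferSylow P hNC).ker, MonoidHom.normal_ker _,
        MonoidHom.ker_transferSylow_isComplement' P hNC⟩
  · rintro ⟨N, hN, hcomp⟩
    rcases h with h | ⟨_, _, _, h3⟩
    · exfalso
      obtain ⟨g, hg⟩ := isConj_iff.mp h.1
      obtain ⟨⟨⟨n, hn⟩, ⟨p, hp⟩⟩, hnp⟩ := hcomp.2 g
      simp only at hnp
      have hpx : p * x * p⁻¹ = x := by
        rw [klein_comm P hP p x hp hx, mul_inv_cancel_right]
      have hy' : y = n * x * n⁻¹ := by
        rw [← hg, ← hnp]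
        calc n * p * x * (n * p)⁻¹ = n * (p * x * p⁻¹) * n⁻¹ := by group
          _ = n * x * n⁻¹ := by rw [hpx]
      have hmemN : y * x⁻¹ ∈ N := by
        have e : y * x⁻¹ = n * (x * n⁻¹ * x⁻¹) := by rw [hy']; group
        rw [e]
        exact N.mul_mem hn (hN.conj_mem _ (N.inv_mem hn) x)
      have hmemP : y * x⁻¹ ∈ (P : Subgroup G) :=
        Subgroup.mul_mem _ hy (Subgroup.inv_mem _ hx)
      have := Subgroup.disjoint_def.mp hcomp.disjoint hmemN hmemP
      apply hxy
      have e : y = y * x⁻¹ * x := by group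
      rw [e, this, one_mul]
    · exact h3

end Cfsg.Agent.S0203
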