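import Cfsg.Statements.S0210
import Cfsg.Agent.Lib.Helper5.Invol

set_option autoImplicit false
open Cfsg

namespace Cfsg.Agent.S0210

open Cfsg.Agent.Lib.Helper5 in
theorem result {G : Type*} [Group G] [Finite G] (x y : G) (hx : orderOf x = 2) (hy : orderOf y = 2) (heven : Even (orderOf (x * y))) (d : G) (hd : d ∈ Subgroup.closure ({x, y} : Set G)) : d * x * d⁻¹ ≠ y := by
  have hx2 := sq_of_order_two hx
  have hy2 := sq_of_order_two hy
  have hxinv := inv_of_order_two hx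
  have hyinv := inv_of_order_two hy
  obtain ⟨k, hk⟩ := conj_x_of_mem_closure x y hx2 hy2 d hd
  intro h
  rw [hk] at h
  have h1 : (x * y) ^ (2 * k) = (x * y)⁻¹ := by
    rw [mul_inv_rev, hxinv, hyinv]
    calc (x * y) ^ (2 * k) = (x * y) ^ (2 * k) * x * x := by rw [mul_assoc, hx2, mul_one]
      _ = y * x := by rw [h]
  have h2 : (x * y) ^ (2 * k + 1) = 1 := by
    rw [zpow_add, h1, zpow_one, inv_mul_cancel]
  have h3 : (orderOf (x * y) : ℤ) ∣ 2 * k + 1 := orderOf_dvd_iff_zpow_eq_one.mpr h2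
  obtain ⟨m, hm⟩ := heven
  rw [hm] at h3
  have h4 : (2 : ℤ) ∣ 2 * k + 1 := Dvd.dvd.trans ⟨(m : ℤ), by push_cast; ring⟩ h3
  omega

end Cfsg.Agent.S0210
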