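import Cfsg.Statements.S0211
import Cfsg.Agent.Lib.Helper5.Invol

set_option autoImplicit false
open Cfsg

namespace Cfsg.Agent.S0211

open Cfsg.Agent.Lib.Helper5 in
theorem result {G : Type*} [Group G] [Finite G] (x y : G) (hx : orderOf x = 2) (hy : orderOf y = 2) (heven : Even (orderOf (x * y))) : (∃ d ∈ Subgroup.closure ({x, y} : Set G), d * x * d⁻¹ = x * (x * y) ^ (orderOf (x * y) / 2)) ↔ 4 ∣ orderOf (x * y) := by
  have hx2 := sq_of_order_two hx
  have hy2 := sq_of_order_two hy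
  set n := orderOf (x * y) with hn
  obtain ⟨m, hm⟩ := heven
  have hm2 : n / 2 = m := by omega
  rw [hm2]
  have hz2 : (x * y) ^ m * (x * y) ^ m = 1 := by
    rw [← pow_add, ← hm, hn, pow_orderOf_eq_one]
  have hzinv : ((x * y) ^ m)⁻¹ = (x * y) ^ m := inv_eq_of_mul_eq_one_left hz2
  have hxz : x * (x * y) ^ m = (x * y) ^ (m : ℤ) * x := by
    have h := rot_swap x y hx2 hy2 (m : ℤ)
    rw [zpow_neg, zpow_natCast, hzinv] at h
    rw [zpow_natCast, ← h]
  rw [hxz]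
  constructor
  · rintro ⟨d, hd, hdx⟩
    obtain ⟨k, hk⟩ := conj_x_of_mem_closure x y hx2 hy2 d hd
    rw [hk] at hdx
    have h1 : (x * y) ^ (2 * k) = (x * y) ^ (m : ℤ) := mul_right_cancel hdx
    have h2 : (x * y) ^ (2 * k - m) = 1 := by
      rw [zpow_sub, h1, mul_inv_cancel]
    have h3 : (orderOf (x * y) : ℤ) ∣ 2 * k - m := orderOf_dvd_iff_zpow_eq_one.mpr h2
    rw [← hn, hm] at h3
    have h4 : (2 : ℤ) ∣ 2 * k - m := Dvd.dvd.trans ⟨(m : ℤ), by push_cast; ring⟩ h3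
    have h5 : (2 : ℤ) ∣ (m : ℤ) := by omega
    have h6 : 2 ∣ m := by exact_mod_cast h5
    obtain ⟨j, hj⟩ := h6
    exact ⟨j, by omega⟩
  · rintro ⟨j, hj⟩
    have hmj : m = 2 * j := by omega
    refine ⟨(x * y) ^ (j : ℤ), ?_, ?_⟩
    · rw [mem_closure_pair_iff x y hx2 hy2]
      exact ⟨j, Or.inl rfl⟩
    · have h := rot_swap x y hx2 hy2 (-(j : ℤ))
      rw [neg_neg] at h
      rw [← zpow_neg, mul_assoc, h, ← mul_assoc, ← zpow_add]
      congr 2
      rw [hmj]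
      push_cast
      ring

end Cfsg.Agent.S0211
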