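import Mathlib
import Cfsg.Statements.S0233
import Cfsg.Agent.Lib.Helper5.BF

set_option autoImplicit false
open Cfsg

namespace Cfsg.Agent.S0233

open Cfsg.Agent.Lib.Helper5

theorem arith (n m R : ℕ) (hm : 0 < m) (hR : R + 1 + m = n)
    (h : (n + m) * m ^ 2 + 2 * (n + m) * m ≤ (n + m) * m * 1 + 2 * m ^ 2 * m + m ^ 2 * R) : False := by
  subst hR
  nlinarith [Nat.zero_le (R * m), Nat.zero_le (m ^ 2), hm]

theorem result {G : Type*} [Group G] [Finite G] (heven : Even (Nat.card G)) (hZ : Odd (Nat.card (Subgroup.center G))) : ∃ H : Subgroup G, H ≠ ⊤ ∧ (H.index = 2 ∨ 2 * H.index * (Nat.card {t : G // orderOf t = 2}) ^ 2 < Nat.card G * (Nat.card G + Nat.card {t : G // orderOf t = 2})) := by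
  classical
  haveI := Fintype.ofFinite G
  by_contra hcon
  have hcon' : ∀ H : Subgroup G, H ≠ ⊤ → H.index ≠ 2 ∧
      Nat.card G * (Nat.card G + Nat.card {t : G // orderOf t = 2}) ≤
        2 * H.index * (Nat.card {t : G // orderOf t = 2}) ^ 2 := by
    intro H hH
    constructor
    · intro h2; exact hcon ⟨H, hH, Or.inl h2⟩
    · by_contra hlt
      exact hcon ⟨H, hH, Or.inr (not_le.mp hlt)⟩
  have hsum := sum_Bcount (G := G)
  have hB1 := Bcount_one (G := G)
  have hmpos : 0 < Nat.card {t : G // orderOf t = 2} := by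
    haveI : Fact (Nat.Prime 2) := ⟨Nat.prime_two⟩
    obtain ⟨t, ht⟩ := exists_prime_orderOf_dvd_card' (G := G) 2 (even_iff_two_dvd.mp heven)
    exact Nat.card_pos_iff.mpr ⟨⟨⟨t, ht⟩⟩, inferInstance⟩
  have hmcard : Nat.card {t : G // orderOf t = 2} =
      (Finset.univ.filter (fun t : G => orderOf t = 2)).card :=
    Nat.subtype_card _ (by simp)
  have hncard : Nat.card G = (Finset.univ : Finset G).card := by
    rw [Finset.card_univ, Nat.card_eq_fintype_card]
  have hnpos : 0 < Nat.card G := Nat.card_pos
  obtain ⟨n, hn⟩ : ∃ n, Nat.card G = n := ⟨_, rfl⟩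
  obtain ⟨m, hm⟩ : ∃ m, Nat.card {t : G // orderOf t = 2} = m := ⟨_, rfl⟩
  rw [hn] at hnpos hncard
  rw [hm] at hmpos hmcard hsum hB1
  have hkey : ∀ H : Subgroup G, H ≠ ⊤ → (n + m) * Nat.card H ≤ 2 * m ^ 2 := by
    intro H hH
    have h1 := (hcon' H hH).2
    rw [hn, hm] at h1
    have h2 := Subgroup.card_mul_index H
    rw [hn] at h2
    have h3 : n * ((n + m) * Nat.card H) ≤ n * (2 * m ^ 2) := by
      calc n * ((n + m) * Nat.card H) = n * (n + m) * Nat.card H := by ring
        _ ≤ 2 * H.index * m ^ 2 * Nat.card H := Nat.mul_le_mul_right _ h1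
        _ = (Nat.card H * H.index) * (2 * m ^ 2) := by ring
        _ = n * (2 * m ^ 2) := by rw [h2]
    exact Nat.le_of_mul_le_mul_left h3 hnpos
  have hinv : ∀ x : G, orderOf x = 2 → (n + m) * (Bcount x + 2) ≤ 2 * m ^ 2 := by
    intro x hx
    have hne : Subgroup.centralizer ({x} : Set G) ≠ ⊤ := by
      intro htop
      have hxc : x ∈ Subgroup.center G := by
        rw [Subgroup.mem_center_iff]; intro g
        have : g ∈ Subgroup.centralizer ({x} : Set G) := by rw [htop]; trivial
        exact ((Cfsg.Agent.S0237.mem_centralizer_singleton x g).mp this).symm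
      have : 2 ∣ Nat.card (Subgroup.center G) := by
        rw [← hx]; exact Subgroup.orderOf_dvd_natCard _ hxc
      exact (Nat.not_even_iff_odd.mpr hZ) (even_iff_two_dvd.mpr this)
    calc (n + m) * (Bcount x + 2)
        ≤ (n + m) * Nat.card (Subgroup.centralizer ({x} : Set G)) :=
          Nat.mul_le_mul_left _ ((Cfsg.Agent.S0238.result x).2.2 hx)
      _ ≤ 2 * m ^ 2 := hkey _ hne
  have hoth : ∀ x : G, x ≠ 1 → orderOf x ≠ 2 → (n + m) * Bcount x ≤ m ^ 2 := by
    intro x hx1 hx2
    by_cases hreal : IsConj x x⁻¹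
    · have hne : x ≠ x⁻¹ := by
        intro h
        apply hx2
        apply order_two_of_sq hx1
        nth_rewrite 2 [h]; exact mul_inv_cancel x
      have hcard := card_extCentralizer x hreal hne
      have hCne : Subgroup.centralizer ({x} : Set G) ≠ ⊤ := by
        intro htop
        apply hne
        obtain ⟨g, hg⟩ := isConj_iff.mp hreal
        have : g ∈ Subgroup.centralizer ({x} : Set G) := by rw [htop]; trivial
        have h2 := (Cfsg.Agent.S0237.mem_centralizer_singleton x g).mp this
        rw [← hg, ← h2]; group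
      have hEne : extCentralizer x ≠ ⊤ := by
        intro htop
        have h2 : Nat.card (extCentralizer x) = n := by rw [htop, Subgroup.card_top, hn]
        have h3 := Subgroup.card_mul_index (Subgroup.centralizer ({x} : Set G))
        rw [hn] at h3
        have h4 : (Subgroup.centralizer ({x} : Set G)).index = 2 := by
          rw [hcard] at h2
          have hc : 0 < Nat.card (Subgroup.centralizer ({x} : Set G)) := Nat.card_pos
          apply Nat.eq_of_mul_eq_mul_left hc
          rw [h3, ← h2]; ring
        exact (hcon' _ hCne).1 h4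
      have h5 := hkey _ hEne
      rw [hcard] at h5
      have h6 := (Cfsg.Agent.S0238.result x).1
      have h7 := Nat.mul_le_mul_left (n + m) h6
      have h8 : 2 * ((n + m) * Bcount x) ≤ 2 * m ^ 2 := by
        calc 2 * ((n + m) * Bcount x)
            ≤ 2 * ((n + m) * Nat.card (Subgroup.centralizer ({x} : Set G))) :=
              Nat.mul_le_mul_left 2 h7
          _ = (n + m) * (2 * Nat.card (Subgroup.centralizer ({x} : Set G))) := by ring
          _ ≤ 2 * m ^ 2 := h5
      omega
    · have h0 : Bcount x = 0 := (Cfsg.Agent.S0238.result x).2.1 hreal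
      rw [h0]; simp
  -- indicator functions
  let a : G → ℕ := fun x => if x = 1 then 1 else 0
  let i : G → ℕ := fun x => if orderOf x = 2 then 1 else 0
  let r : G → ℕ := fun x => if x ≠ 1 ∧ orderOf x ≠ 2 then 1 else 0
  have hpt : ∀ x : G, (n + m) * Bcount x + 2 * (n + m) * i x ≤
      (n + m) * m * a x + 2 * m ^ 2 * i x + m ^ 2 * r x := by
    intro x
    by_cases hx1 : x = 1
    · have hi : orderOf x ≠ 2 := by rw [hx1, orderOf_one]; norm_num
      have ha : a x = 1 := if_pos hx1
      have hi' : i x = 0 := if_neg hi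
      have hr : r x = 0 := if_neg (fun h => h.1 hx1)
      rw [ha, hi', hr, hx1, hB1]
      omega
    · by_cases hx2 : orderOf x = 2
      · have := hinv x hx2
        have ha : a x = 0 := if_neg hx1
        have hi' : i x = 1 := if_pos hx2
        have hr : r x = 0 := if_neg (fun h => h.2 hx2)
        rw [ha, hi', hr]
        nlinarith [this]
      · have := hoth x hx1 hx2
        have ha : a x = 0 := if_neg hx1
        have hi' : i x = 0 := if_neg hx2
        have hr : r x = 1 := if_pos ⟨hx1, hx2⟩
        rw [ha, hi', hr]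
        nlinarith [this]
  have hS := Finset.sum_le_sum (fun x (_ : x ∈ (Finset.univ : Finset G)) => hpt x)
  simp only [Finset.sum_add_distrib, ← Finset.mul_sum] at hS
  have hsa : ∑ x : G, a x = 1 := by simp [a]
  have hsi : ∑ x : G, i x = m := by
    simp only [i, Finset.sum_boole]
    rw [hmcard]; simp
  have hsr : ∑ x : G, r x + 1 + m = n := by
    rw [← hsa, ← hsi, ← Finset.sum_add_distrib, ← Finset.sum_add_distrib]
    have : ∀ x : G, r x + a x + i x = 1 := by
      intro x
      by_cases hx1 : x = 1
      · have hi : orderOf x ≠ 2 := by rw [hx1, orderOf_one]; norm_num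
        simp [a, i, r, hx1]
      · by_cases hx2 : orderOf x = 2
        · simp [a, i, r, hx1, hx2]
        · simp [a, i, r, hx1, hx2]
    rw [Finset.sum_congr rfl (fun x _ => this x)]
    simp [hncard]
  rw [hsum, hsa, hsi] at hS
  exact arith n m _ hmpos hsr hS

end Cfsg.Agent.S0233
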