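import Mathlib
import Cfsg.Statements.S0212
import Cfsg.Agent.Lib.Helper5.BF2
import Cfsg.Agent.S0233

set_option autoImplicit false
open Cfsg

namespace Cfsg.Agent.S0212

open Cfsg.Agent.Lib.Helper5

theorem result {G : Type*} [Group G] [Finite G] [IsSimpleGroup G] (t : G) (ht : orderOf t = 2) : Nat.card G ≤ Nat.factorial (2 * (Nat.card (Subgroup.centralizer ({t} : Set G))) ^ 2) := by
  have hcpos : 0 < Nat.card (Subgroup.centralizer ({t} : Set G)) := Nat.card_pos
  by_cases htop : Subgroup.centralizer ({t} : Set G) = ⊤
  · rw [htop, Subgroup.card_top]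
    have hn : 0 < Nat.card G := Nat.card_pos
    calc Nat.card G ≤ 2 * Nat.card G ^ 2 := by nlinarith
      _ ≤ Nat.factorial (2 * Nat.card G ^ 2) := Nat.self_le_factorial _
  · have hcenter : Subgroup.center G = ⊥ := by
      rcases (inferInstance : (Subgroup.center G).Normal).eq_bot_or_eq_top with h | h
      · exact h
      · exfalso
        apply htop
        apply top_unique
        intro g _
        rw [Cfsg.Agent.S0237.mem_centralizer_singleton]
        have : t ∈ Subgroup.center G := by rw [h]; trivial
        rw [Subgroup.mem_center_iff] at this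
        exact (this g).symm
    have hZ : Odd (Nat.card (Subgroup.center G)) := by
      rw [hcenter, Subgroup.card_bot]; exact odd_one
    have heven : Even (Nat.card G) := by
      rw [even_iff_two_dvd, ← ht]; exact orderOf_dvd_natCard t
    obtain ⟨H, hH, hidx⟩ := Cfsg.Agent.S0233.result heven hZ
    have hmc := card_le_invol_mul_cent t ht
    have hmpos : 0 < Nat.card {u : G // orderOf u = 2} :=
      Nat.card_pos_iff.mpr ⟨⟨⟨t, ht⟩⟩, inferInstance⟩
    have hle : H.index ≤ 2 * (Nat.card (Subgroup.centralizer ({t} : Set G))) ^ 2 := by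
      rcases hidx with h2 | hlt
      · rw [h2]; nlinarith
      · generalize Nat.card {u : G // orderOf u = 2} = m at *
        generalize Nat.card (Subgroup.centralizer ({t} : Set G)) = c at *
        generalize Nat.card G = n at *
        generalize H.index = k at *
        -- 2 k m^2 < n (n + m) ≤ m c (m c + m) = m^2 c (c+1)
        have h1 : n * (n + m) ≤ m * c * (m * c + m) := Nat.mul_le_mul hmc (by omega)
        have h2 : m ^ 2 * (2 * k) < m ^ 2 * (c * (c + 1)) := by nlinarith
        have h3 : 2 * k < c * (c + 1) := Nat.lt_of_mul_lt_mul_left h2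
        nlinarith
    calc Nat.card G ≤ Nat.factorial H.index := card_le_factorial_index H hH
      _ ≤ Nat.factorial (2 * (Nat.card (Subgroup.centralizer ({t} : Set G))) ^ 2) :=
          Nat.factorial_le hle

end Cfsg.Agent.S0212
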