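import Mathlib
import Cfsg.Statements.S0219

set_option autoImplicit false
open Cfsg

namespace Cfsg.Agent.S0219

theorem result {G : Type*} [Group G] [Finite G] (heven : Even (Nat.card G)) (T : Sylow 2 G) (hT : IsCyclic (T : Subgroup G)) : ∃ H : Subgroup G, H.index = 2 := by
  have hmin : (Nat.card G).minFac = 2 := by
    rw [Nat.minFac_eq_two_iff]; exact even_iff_two_dvd.mp heven
  have hNC := hT.normalizer_le_centralizer hmin
  have hc := IsCyclic.isComplement' hmin hT
  have hcard := hc.card_mul
  have hnd := MonoidHom.not_dvd_card_ker_transferSylow T hNC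
  have hTeven : 2 ∣ Nat.card (T : Subgroup G) := by
    have h2 : 2 ∣ Nat.card (MonoidHom.transferSylow T hNC).ker * Nat.card (T : Subgroup G) := by
      rw [hcard]; exact even_iff_two_dvd.mp heven
    rcases (Nat.Prime.dvd_mul Nat.prime_two).mp h2 with h | h
    · exact absurd h hnd
    · exact h
  have hsurj : Function.Surjective (MonoidHom.transferSylow T hNC) := by
    rw [← MonoidHom.range_eq_top]
    apply Subgroup.eq_top_of_card_eq
    have h1 := Subgroup.card_mul_index (MonoidHom.transferSylow T hNC).ker
    rw [Subgroup.index_ker] at h1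
    have hpos : 0 < Nat.card (MonoidHom.transferSylow T hNC).ker := Nat.card_pos
    have : Nat.card (MonoidHom.transferSylow T hNC).ker * Nat.card (MonoidHom.transferSylow T hNC).range =
        Nat.card (MonoidHom.transferSylow T hNC).ker * Nat.card (T : Subgroup G) := by
      rw [h1, hcard]
    exact Nat.eq_of_mul_eq_mul_left hpos this
  letI : CommGroup (T : Subgroup G) := hT.commGroup
  have hB : (powMonoidHom 2 : (T : Subgroup G) →* (T : Subgroup G)).range.index = 2 := by
    rw [IsCyclic.index_powMonoidHom_range]
    exact Nat.gcd_eq_right hTeven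
  exact ⟨(powMonoidHom 2 : (T : Subgroup G) →* (T : Subgroup G)).range.comap (MonoidHom.transferSylow T hNC),
    by rw [Subgroup.index_comap_of_surjective _ hsurj]; exact hB⟩

end Cfsg.Agent.S0219
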