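import Mathlib
import Cfsg.Statements.S0220
import Cfsg.Agent.S0219

set_option autoImplicit false
open Cfsg

namespace Cfsg.Agent.S0220

theorem unique_invol_cyclic {H : Type*} [Group H] [Finite H] [IsCyclic H] (a b : H)
    (ha : a ^ 2 = 1) (hb : b ^ 2 = 1) (ha1 : a ≠ 1) (hb1 : b ≠ 1) : a = b := by
  classical
  haveI := Fintype.ofFinite H
  by_contra hab
  have h := IsCyclic.card_pow_eq_one_le (α := H) (n := 2) (by norm_num)
  have hsub : ({1, a, b} : Finset H) ⊆ Finset.univ.filter (fun c : H => c ^ 2 = 1) := by
    intro c hc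
    simp only [Finset.mem_insert, Finset.mem_singleton] at hc
    simp only [Finset.mem_filter, Finset.mem_univ, true_and]
    rcases hc with rfl | rfl | rfl
    · simp
    · exact ha
    · exact hb
  have hcard : ({1, a, b} : Finset H).card = 3 := by
    rw [Finset.card_insert_of_notMem, Finset.card_insert_of_notMem, Finset.card_singleton]
    · simpa using hab
    · simp only [Finset.mem_insert, Finset.mem_singleton, not_or]
      exact ⟨fun h => ha1 h.symm, fun h => hb1 h.symm⟩
  have := Finset.card_le_card hsub
  omega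

theorem result {G : Type*} [Group G] [Finite G] (x : G) (hx : orderOf x = 2) (S : Sylow 2 ↥(Subgroup.centralizer ({x} : Set G))) (hS : IsCyclic (S : Subgroup ↥(Subgroup.centralizer ({x} : Set G)))) : ∃ H : Subgroup G, H.index = 2 := by
  classical
  haveI : Fact (Nat.Prime 2) := ⟨Nat.prime_two⟩
  have hmemC : ∀ g : G, g ∈ Subgroup.centralizer ({x} : Set G) ↔ x * g = g * x := by
    intro g
    rw [Subgroup.mem_centralizer_iff]
    constructor
    · intro h; exact h x rfl
    · intro h y hy; rw [Set.mem_singleton_iff] at hy; rw [hy]; exact h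
  have hxC : x ∈ Subgroup.centralizer ({x} : Set G) := (hmemC x).mpr rfl
  have hx2 : x ^ 2 = 1 := by rw [← hx]; exact pow_orderOf_eq_one x
  have hx1 : x ≠ 1 := by intro h; rw [h, orderOf_one] at hx; omega
  -- x ∈ S
  have hxS : (⟨x, hxC⟩ : Subgroup.centralizer ({x} : Set G)) ∈ (S : Subgroup _) := by
    have hN : (Subgroup.zpowers (⟨x, hxC⟩ : Subgroup.centralizer ({x} : Set G))).Normal := by
      constructor
      intro n hn g
      have hcomm : ∀ c : Subgroup.centralizer ({x} : Set G), c * ⟨x, hxC⟩ = ⟨x, hxC⟩ * c := by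
        intro c
        apply Subtype.ext
        exact ((hmemC c.1).mp c.2).symm
      rw [Subgroup.mem_zpowers_iff] at hn
      obtain ⟨k, rfl⟩ := hn
      have : g * (⟨x, hxC⟩ : Subgroup.centralizer ({x} : Set G)) ^ k * g⁻¹ = ⟨x, hxC⟩ ^ k := by
        have hc : Commute g (⟨x, hxC⟩ : Subgroup.centralizer ({x} : Set G)) := hcomm g
        rw [(hc.zpow_right k).eq, mul_inv_cancel_right]
      rw [this]
      exact Subgroup.zpow_mem_zpowers _ k
    have hP : IsPGroup 2 (Subgroup.zpowers (⟨x, hxC⟩ : Subgroup.centralizer ({x} : Set G))) := by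
      apply IsPGroup.of_card (n := 1)
      rw [Nat.card_zpowers]
      rw [pow_one, ← hx]
      exact (Subgroup.orderOf_mk x hxC)
    exact (hP.le_sylow_of_normal S) (Subgroup.mem_zpowers _)
  -- Sylow of G containing the image
  have hS'P : IsPGroup 2 ((S : Subgroup _).map (Subgroup.centralizer ({x} : Set G)).subtype) :=
    S.isPGroup'.map _
  obtain ⟨T, hT⟩ := hS'P.exists_le_sylow
  -- T ⊓ C ≤ S'
  have hTC : ∀ g : G, g ∈ (T : Subgroup G) → ∀ hg : g ∈ Subgroup.centralizer ({x} : Set G),
      (⟨g, hg⟩ : Subgroup.centralizer ({x} : Set G)) ∈ (S : Subgroup _) := by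
    intro g hgT hgC
    have hQ : IsPGroup 2 ((T : Subgroup G).subgroupOf (Subgroup.centralizer ({x} : Set G))) := by
      apply T.isPGroup'.comap_of_injective
      exact Subgroup.subtype_injective _
    have hle : (S : Subgroup _) ≤ (T : Subgroup G).subgroupOf (Subgroup.centralizer ({x} : Set G)) := by
      intro s hs
      rw [Subgroup.mem_subgroupOf]
      exact hT (Subgroup.mem_map_of_mem _ hs)
    have heq := S.is_maximal' hQ hle
    have : (⟨g, hgC⟩ : Subgroup.centralizer ({x} : Set G)) ∈
        (T : Subgroup G).subgroupOf (Subgroup.centralizer ({x} : Set G)) := by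
      rw [Subgroup.mem_subgroupOf]; exact hgT
    rw [heq] at this
    exact this
  -- T = S'
  have hxT : x ∈ (T : Subgroup G) := hT ⟨⟨x, hxC⟩, hxS, rfl⟩
  have hnil : Group.IsNilpotent (T : Subgroup G) := T.isPGroup'.isNilpotent
  have hNC := Group.normalizerCondition_of_isNilpotent (G := (T : Subgroup G))
  rw [normalizerCondition_iff_only_full_group_self_normalizing] at hNC
  have htop := hNC (((S : Subgroup _).map (Subgroup.centralizer ({x} : Set G)).subtype).subgroupOf (T : Subgroup G)) (by
    apply le_antisymm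
    · intro g hg
      rw [Subgroup.mem_normalizer_iff] at hg
      have h1 := (hg ⟨x, hxT⟩).mp (by
        rw [Subgroup.mem_subgroupOf]
        exact ⟨⟨x, hxC⟩, hxS, rfl⟩)
      rw [Subgroup.mem_subgroupOf] at h1
      obtain ⟨s, hs, hsx⟩ := h1
      have hsx' : (s : G) = (g : G) * x * (g : G)⁻¹ := hsx
      -- s is an involution in S
      haveI := hS
      have hs2 : s ^ 2 = 1 := by
        apply Subtype.ext
        rw [Subgroup.coe_pow, hsx', Subgroup.coe_one]
        rw [pow_two]
        have : (g : G) * x * (g : G)⁻¹ * ((g : G) * x * (g : G)⁻¹) = (g : G) * (x ^ 2) * (g : G)⁻¹ := by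
          rw [pow_two]; group
        rw [this, hx2]; group
      have hs1 : s ≠ 1 := by
        intro h
        have h2 : (g : G) * x * (g : G)⁻¹ = 1 := by rw [← hsx', h]; rfl
        apply hx1
        have : x = (g : G)⁻¹ * ((g : G) * x * (g : G)⁻¹) * (g : G) := by group
        rw [this, h2]; group
      have hu := unique_invol_cyclic (H := (S : Subgroup _)) ⟨s, hs⟩ ⟨⟨x, hxC⟩, hxS⟩
        (by apply Subtype.ext; exact hs2)
        (by apply Subtype.ext; apply Subtype.ext; exact hx2)
        (by intro h; apply hs1; exact congrArg Subtype.val h)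
        (by intro h; apply hx1; exact congrArg (fun z : (S : Subgroup (Subgroup.centralizer ({x} : Set G))) => ((z : Subgroup.centralizer ({x} : Set G)) : G)) h)
      have hsx2 : (s : G) = x := congrArg (fun z : (S : Subgroup (Subgroup.centralizer ({x} : Set G))) => ((z : Subgroup.centralizer ({x} : Set G)) : G)) hu
      have hgC : (g : G) ∈ Subgroup.centralizer ({x} : Set G) := by
        rw [hmemC]
        have : (g : G) * x * (g : G)⁻¹ = x := by rw [← hsx', hsx2]
        calc x * (g : G) = ((g : G) * x * (g : G)⁻¹) * (g : G) := by rw [this]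
          _ = (g : G) * x := by group
      rw [Subgroup.mem_subgroupOf]
      exact ⟨⟨(g : G), hgC⟩, hTC _ g.2 hgC, rfl⟩
    · exact Subgroup.le_normalizer)
  have hTle : (T : Subgroup G) ≤ (S : Subgroup _).map (Subgroup.centralizer ({x} : Set G)).subtype := by
    intro g hg
    have : (⟨g, hg⟩ : (T : Subgroup G)) ∈ (⊤ : Subgroup (T : Subgroup G)) := Subgroup.mem_top _
    rw [← htop, Subgroup.mem_subgroupOf] at this
    exact this
  have hTeq : (T : Subgroup G) = (S : Subgroup _).map (Subgroup.centralizer ({x} : Set G)).subtype :=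
    le_antisymm hTle hT
  have hTcyc : IsCyclic (T : Subgroup G) := by
    rw [hTeq]
    haveI := hS
    have hsurj : Function.Surjective ((Subgroup.centralizer ({x} : Set G)).subtype.subgroupMap (S : Subgroup _)) :=
      MonoidHom.subgroupMap_surjective _ _
    exact isCyclic_of_surjective _ hsurj
  have heven : Even (Nat.card G) := by
    rw [even_iff_two_dvd, ← hx]
    exact orderOf_dvd_natCard x
  exact Cfsg.Agent.S0219.result heven T hTcyc

end Cfsg.Agent.S0220
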