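import Mathlib
import Cfsg.Statements.S0213
import Cfsg.Agent.Lib.Helper5.Invol
import Cfsg.Agent.S0208
import Cfsg.Agent.S0209
import Cfsg.Agent.S0220
import Cfsg.Agent.S0230

set_option autoImplicit false
open Cfsg

namespace Cfsg.Agent.S0213

open Cfsg.Agent.Lib.Helper5

theorem orderOf_conj_eq {G : Type*} [Group G] (g x : G) : orderOf (g * x * g⁻¹) = orderOf x := by
  have : orderOf ((MulAut.conj g) x) = orderOf x := MulEquiv.orderOf_eq _ _
  rw [MulAut.conj_apply] at this
  exact this

theorem orderOf_of_isConj {G : Type*} [Group G] {x y : G} (h : IsConj x y) :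
    orderOf y = orderOf x := by
  obtain ⟨c, hc⟩ := isConj_iff.mp h
  rw [← hc, orderOf_conj_eq]

theorem arith (n c1 c2 k1 k2 a1 a2 : ℕ) (hn : 0 < n) (h1 : k1 * c1 = n) (h2 : k2 * c2 = n)
    (h : k1 * k2 = k1 * a1 + k2 * a2) : n = c2 * a1 + c1 * a2 := by
  have : n * n = n * (c2 * a1 + c1 * a2) := by
    calc n * n = (k1 * c1) * (k2 * c2) := by rw [h1, h2]
      _ = c1 * c2 * (k1 * k2) := by ring
      _ = c1 * c2 * (k1 * a1 + k2 * a2) := by rw [h]
      _ = (k1 * c1) * (c2 * a1) + (k2 * c2) * (c1 * a2) := by ring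
      _ = n * (c2 * a1 + c1 * a2) := by rw [h1, h2]; ring
  exact Nat.eq_of_mul_eq_mul_left hn this

theorem result {G : Type*} [Group G] [Finite G] (x₁ x₂ : G) (h₁ : orderOf x₁ = 2) (h₂ : orderOf x₂ = 2) (hnc : ¬ IsConj x₁ x₂) (hall : ∀ t : G, orderOf t = 2 → IsConj x₁ t ∨ IsConj x₂ t) : Nat.card G = Nat.card (Subgroup.centralizer ({x₂} : Set G)) * Nat.card {p : G × G // IsConj x₁ p.1 ∧ IsConj x₂ p.2 ∧ x₁ ∈ Subgroup.zpowers (p.1 * p.2)} + Nat.card (Subgroup.centralizer ({x₁} : Set G)) * Nat.card {p : G × G // IsConj x₁ p.1 ∧ IsConj x₂ p.2 ∧ x₂ ∈ Subgroup.zpowers (p.1 * p.2)} := by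
  classical
  haveI : Fintype G := Fintype.ofFinite G
  let K₁ : Finset G := Finset.univ.filter (fun b => IsConj x₁ b)
  let K₂ : Finset G := Finset.univ.filter (fun b => IsConj x₂ b)
  let P : Finset (G × G) := K₁ ×ˢ K₂
  let F : G → Finset (G × G) := fun z => P.filter (fun p => z ∈ Subgroup.zpowers (p.1 * p.2))
  let zf : G × G → G := fun p => (p.1 * p.2) ^ (orderOf (p.1 * p.2) / 2)
  have hmemP : ∀ p : G × G, p ∈ P ↔ IsConj x₁ p.1 ∧ IsConj x₂ p.2 := by
    intro p; simp [P, K₁, K₂]
  have ha1 : Nat.card {p : G × G // IsConj x₁ p.1 ∧ IsConj x₂ p.2 ∧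
      x₁ ∈ Subgroup.zpowers (p.1 * p.2)} = (F x₁).card :=
    Nat.subtype_card _ (by intro p; simp [F, hmemP, and_assoc])
  have ha2 : Nat.card {p : G × G // IsConj x₁ p.1 ∧ IsConj x₂ p.2 ∧
      x₂ ∈ Subgroup.zpowers (p.1 * p.2)} = (F x₂).card :=
    Nat.subtype_card _ (by intro p; simp [F, hmemP, and_assoc])
  have hk1 : K₁.card * Nat.card (Subgroup.centralizer ({x₁} : Set G)) = Nat.card G := by
    rw [← Cfsg.Agent.S0230.orbit_mul_cent x₁]
    congr 1
    symm
    exact Nat.subtype_card _ (by
      intro b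
      simp only [K₁, Finset.mem_filter, Finset.mem_univ, true_and]
      rw [ConjAct.mem_orbit_conjAct, isConj_comm])
  have hk2 : K₂.card * Nat.card (Subgroup.centralizer ({x₂} : Set G)) = Nat.card G := by
    rw [← Cfsg.Agent.S0230.orbit_mul_cent x₂]
    congr 1
    symm
    exact Nat.subtype_card _ (by
      intro b
      simp only [K₂, Finset.mem_filter, Finset.mem_univ, true_and]
      rw [ConjAct.mem_orbit_conjAct, isConj_comm])
  -- C1
  have hC1 : ∀ p ∈ P, orderOf (zf p) = 2 ∧ zf p ∈ Subgroup.zpowers (p.1 * p.2) := by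
    intro p hp
    rw [hmemP] at hp
    have hu : orderOf p.1 = 2 := by rw [orderOf_of_isConj hp.1, h₁]
    have hv : orderOf p.2 = 2 := by rw [orderOf_of_isConj hp.2, h₂]
    have heven : Even (orderOf (p.1 * p.2)) := by
      by_contra hodd
      rw [Nat.not_even_iff_odd] at hodd
      obtain ⟨d, _, hd⟩ := Cfsg.Agent.S0208.result p.1 p.2 hu hv hodd
      exact hnc ((hp.1.trans (isConj_iff.mpr ⟨d, hd⟩)).trans hp.2.symm)
    exact ⟨(Cfsg.Agent.S0209.result p.1 p.2 hu hv heven).1, Subgroup.pow_mem _ (Subgroup.mem_zpowers _) _⟩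
  -- C2
  have hC2 : ∀ p ∈ P, ∀ z : G, orderOf z = 2 → z ∈ Subgroup.zpowers (p.1 * p.2) → zf p = z := by
    intro p hp z hz hzm
    obtain ⟨h1, h2⟩ := hC1 p hp
    have := Cfsg.Agent.S0220.unique_invol_cyclic (H := Subgroup.zpowers (p.1 * p.2))
      ⟨zf p, h2⟩ ⟨z, hzm⟩
      (by apply Subtype.ext; rw [Subgroup.coe_pow, pow_two]; exact sq_of_order_two h1)
      (by apply Subtype.ext; rw [Subgroup.coe_pow, pow_two]; exact sq_of_order_two hz)
      (by intro h; exact ne_one_of_order_two h1 (congrArg Subtype.val h))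
      (by intro h; exact ne_one_of_order_two hz (congrArg Subtype.val h))
    exact congrArg Subtype.val this
  -- fiber decomposition
  have hfib : P.card = ∑ z : G, (P.filter (fun p => zf p = z)).card :=
    Finset.card_eq_sum_card_fiberwise (fun _ _ => Finset.mem_univ _)
  have hfz : ∀ z : G, (P.filter (fun p => zf p = z)).card =
      if orderOf z = 2 then (F z).card else 0 := by
    intro z
    by_cases hz : orderOf z = 2
    · rw [if_pos hz]
      congr 1
      apply Finset.filter_congr
      intro p hp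
      constructor
      · intro h; rw [← h]; exact (hC1 p hp).2
      · intro h; exact hC2 p hp z hz h
    · rw [if_neg hz, Finset.card_eq_zero, Finset.filter_eq_empty_iff]
      intro p hp h
      apply hz
      rw [← h]; exact (hC1 p hp).1
  -- conjugation invariance
  have hconj : ∀ (x g : G), (F x).card ≤ (F (g * x * g⁻¹)).card := by
    intro x g
    apply Finset.card_le_card_of_injOn (fun p => (g * p.1 * g⁻¹, g * p.2 * g⁻¹))
    · intro q hq
      simp only [F, Finset.coe_filter, Set.mem_ofPred_eq, Finset.mem_filter] at hq ⊢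
      obtain ⟨hqP, hqz⟩ := hq
      rw [hmemP] at hqP ⊢
      refine ⟨⟨hqP.1.trans (isConj_iff.mpr ⟨g, rfl⟩), hqP.2.trans (isConj_iff.mpr ⟨g, rfl⟩)⟩, ?_⟩
      obtain ⟨j, hj⟩ := Subgroup.mem_zpowers_iff.mp hqz
      rw [Subgroup.mem_zpowers_iff]
      refine ⟨j, ?_⟩
      have e : g * q.1 * g⁻¹ * (g * q.2 * g⁻¹) = g * (q.1 * q.2) * g⁻¹ := by group
      rw [e, conj_zpow, hj]
    · intro p _ q _ h
      simp only [Prod.mk.injEq] at h
      have e1 : p.1 = q.1 := by
        have := h.1
        have e : p.1 = g⁻¹ * (g * p.1 * g⁻¹) * g := by group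
        rw [e, this]; group
      have e2 : p.2 = q.2 := by
        have := h.2
        have e : p.2 = g⁻¹ * (g * p.2 * g⁻¹) * g := by group
        rw [e, this]; group
      exact Prod.ext e1 e2
  have hconj' : ∀ (x z : G), IsConj x z → (F z).card = (F x).card := by
    intro x z hxz
    obtain ⟨g, hg⟩ := isConj_iff.mp hxz
    apply le_antisymm
    · have := hconj z g⁻¹
      have e : g⁻¹ * z * g⁻¹⁻¹ = x := by rw [← hg]; group
      rw [e] at this
      exact this
    · have := hconj x g
      rw [hg] at this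
      exact this
  -- split the sum
  have hsum : P.card = K₁.card * (F x₁).card + K₂.card * (F x₂).card := by
    rw [hfib]
    have hterm : ∀ z : G, (P.filter (fun p => zf p = z)).card =
        (if z ∈ K₁ then (F x₁).card else 0) + (if z ∈ K₂ then (F x₂).card else 0) := by
      intro z
      rw [hfz z]
      by_cases hz : orderOf z = 2
      · rw [if_pos hz]
        rcases hall z hz with h | h
        · have hz1 : z ∈ K₁ := by
            simp only [K₁, Finset.mem_filter, Finset.mem_univ, true_and]; exact h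
          have hz2 : z ∉ K₂ := by
            simp only [K₂, Finset.mem_filter, Finset.mem_univ, true_and]
            intro h'
            exact hnc (h.trans h'.symm)
          rw [if_pos hz1, if_neg hz2, add_zero]
          exact hconj' x₁ z h
        · have hz2 : z ∈ K₂ := by
            simp only [K₂, Finset.mem_filter, Finset.mem_univ, true_and]; exact h
          have hz1 : z ∉ K₁ := by
            simp only [K₁, Finset.mem_filter, Finset.mem_univ, true_and]
            intro h'
            exact hnc (h'.trans h.symm)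
          rw [if_neg hz1, if_pos hz2, zero_add]
          exact hconj' x₂ z h
      · rw [if_neg hz]
        have hz1 : z ∉ K₁ := by
          simp only [K₁, Finset.mem_filter, Finset.mem_univ, true_and]
          intro h'
          apply hz
          rw [orderOf_of_isConj h', h₁]
        have hz2 : z ∉ K₂ := by
          simp only [K₂, Finset.mem_filter, Finset.mem_univ, true_and]
          intro h'
          apply hz
          rw [orderOf_of_isConj h', h₂]
        rw [if_neg hz1, if_neg hz2]
    rw [Finset.sum_congr rfl (fun z _ => hterm z), Finset.sum_add_distrib]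
    simp only [Finset.sum_ite_mem, Finset.univ_inter, Finset.sum_const, smul_eq_mul]
  have hPcard : P.card = K₁.card * K₂.card := Finset.card_product K₁ K₂
  rw [ha1, ha2]
  rw [hPcard] at hsum
  exact arith _ _ _ _ _ _ _ Nat.card_pos hk1 hk2 hsum

end Cfsg.Agent.S0213
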