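import Mathlib
import Cfsg.Statements.S0216
import Cfsg.Agent.Lib.Helper5.Invol
import Cfsg.Agent.Lib.Helper5.Isol
import Cfsg.Agent.S0209
import Cfsg.Agent.S0211

set_option autoImplicit false
open Cfsg

namespace Cfsg.Agent.S0216

open Cfsg.Agent.Lib.Helper5

theorem result {G : Type*} [Group G] [Finite G] (P : Sylow 2 G) (u : G) (hu : orderOf u = 2) (huP : u ∈ P) : (∀ g : G, g * u * g⁻¹ ∈ P → g * u * g⁻¹ = u) ↔ (∀ g : G, Odd (orderOf (u * g * u⁻¹ * g⁻¹))) := by
  have huu : u * u = 1 := sq_of_order_two hu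
  have huinv : u⁻¹ = u := inv_of_order_two hu
  constructor
  · intro hiso g
    have e : u * g * u⁻¹ * g⁻¹ = u * (g * u * g⁻¹) := by rw [huinv]; group
    rw [e]
    generalize hv : g * u * g⁻¹ = v
    by_cases hvu : v = u
    · rw [hvu, huu, orderOf_one]; exact odd_one
    have hv2 : orderOf v = 2 := by
      have : orderOf ((MulAut.conj g) u) = orderOf u := MulEquiv.orderOf_eq _ _
      rw [MulAut.conj_apply] at this
      rw [← hv, this, hu]
    by_contra hodd
    rw [Nat.not_odd_iff_even] at hodd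
    obtain ⟨hz2, hzu, hzv⟩ := Cfsg.Agent.S0209.result u v hu hv2 hodd
    have hconj : ∃ d, d * u * d⁻¹ = u * (u * v) ^ (orderOf (u * v) / 2) := by
      by_cases h4 : 4 ∣ orderOf (u * v)
      · obtain ⟨d, _, hd⟩ := (Cfsg.Agent.S0211.result u v hu hv2 hodd).mpr h4
        exact ⟨d, hd⟩
      · obtain ⟨m, hm⟩ := hodd
        have hmodd : Odd m := by
          by_contra hme
          rw [Nat.not_odd_iff_even] at hme
          obtain ⟨j, hj⟩ := hme
          apply h4
          exact ⟨j, by omega⟩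
        obtain ⟨j, hj⟩ := hmodd
        have hn2 : orderOf (u * v) / 2 = 2 * j + 1 := by omega
        refine ⟨(u * v) ^ (-(j:ℤ)) * g, ?_⟩
        rw [hn2]
        have hvv : v * v = 1 := sq_of_order_two hv2
        have h1 := rot_swap u v huu hvv (j : ℤ)
        have h2 : (u * v) ^ (-(j:ℤ)) * g * u * ((u * v) ^ (-(j:ℤ)) * g)⁻¹
            = (u * v) ^ (-(j:ℤ)) * v * (u * v) ^ (j:ℤ) := by
          rw [← hv, mul_inv_rev, ← zpow_neg, neg_neg]; group
        rw [h2]
        calc (u * v) ^ (-(j:ℤ)) * v * (u * v) ^ (j:ℤ)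
            = (u * v) ^ (-(j:ℤ)) * (u * (u * v)) * (u * v) ^ (j:ℤ) := by
              rw [← mul_assoc u u v, huu, one_mul]
          _ = ((u * v) ^ (-(j:ℤ)) * u) * ((u * v) ^ (1 + (j:ℤ))) := by
              rw [zpow_add, zpow_one]; simp only [mul_assoc]
          _ = u * (u * v) ^ (j:ℤ) * (u * v) ^ (1 + (j:ℤ)) := by rw [← h1]
          _ = u * (u * v) ^ ((j:ℤ) + (1 + j)) := by rw [mul_assoc, ← zpow_add]
          _ = u * (u * v) ^ (2 * j + 1) := by
              congr 1
              rw [← zpow_natCast]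
              congr 1
              push_cast; ring
    obtain ⟨d, hd⟩ := hconj
    exact isolated_klein P u hu hiso _ hz2 hzu.symm d hd
  · intro hodd g hg
    have h := hodd g
    have e : u * g * u⁻¹ * g⁻¹ = u * (g * u * g⁻¹) := by rw [huinv]; group
    rw [e] at h
    have hmem : u * (g * u * g⁻¹) ∈ (P : Subgroup G) := Subgroup.mul_mem _ huP hg
    obtain ⟨k, hk⟩ := P.isPGroup' ⟨u * (g * u * g⁻¹), hmem⟩
    have hk' : (u * (g * u * g⁻¹)) ^ 2 ^ k = 1 := by
      have := congrArg Subtype.val hk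
      simpa using this
    have hdvd : orderOf (u * (g * u * g⁻¹)) ∣ 2 ^ k := orderOf_dvd_of_pow_eq_one hk'
    have h1 : orderOf (u * (g * u * g⁻¹)) = 1 := by
      have hcop : Nat.Coprime (orderOf (u * (g * u * g⁻¹))) (2 ^ k) := by
        apply Nat.Coprime.pow_right
        exact Nat.coprime_two_right.mpr h
      exact Nat.Coprime.eq_one_of_dvd hcop hdvd
    rw [orderOf_eq_one_iff] at h1
    have : g * u * g⁻¹ = u⁻¹ := eq_inv_of_mul_eq_one_right h1
    rw [this, huinv]

end Cfsg.Agent.S0216
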