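import Mathlib
import Cfsg.Statements.S0218
import Cfsg.Agent.Lib.Helper5.Invol

set_option autoImplicit false
open Cfsg

namespace Cfsg.Agent.S0218

open Cfsg.Agent.Lib.Helper5 in
theorem order_two_iff (N : ℕ) [NeZero N] (x : QuaternionGroup N) :
    orderOf x = 2 ↔ x = QuaternionGroup.a (N : ZMod (2 * N)) := by
  have hNpos : 0 < N := Nat.pos_of_ne_zero (NeZero.ne N)
  haveI : NeZero (2 * N) := ⟨by omega⟩
  have hN0 : (N : ZMod (2 * N)) ≠ 0 := by
    intro h
    rw [ZMod.natCast_eq_zero_iff] at h
    have := Nat.le_of_dvd hNpos h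
    omega
  constructor
  · intro hx
    cases x with
    | a i =>
      have h1 := sq_of_order_two hx
      have h2 := ne_one_of_order_two hx
      rw [QuaternionGroup.a_mul_a, QuaternionGroup.one_def] at h1
      have h3 : i + i = 0 := QuaternionGroup.a.inj h1
      have h4 : i ≠ 0 := by
        rintro rfl
        exact h2 QuaternionGroup.a_zero
      have h5 : ((i.val + i.val : ℕ) : ZMod (2 * N)) = 0 := by
        push_cast
        rw [ZMod.natCast_zmod_val, h3]
      rw [ZMod.natCast_eq_zero_iff] at h5
      have h6 : N ∣ i.val := by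
        obtain ⟨c, hc⟩ := h5
        exact ⟨c, by nlinarith⟩
      have h7 : i.val < 2 * N := ZMod.val_lt i
      obtain ⟨c, hc⟩ := h6
      have hc1 : c = 1 := by
        have hc0 : c ≠ 0 := by
          rintro rfl
          apply h4
          rw [← ZMod.natCast_zmod_val i, hc]; simp
        have : c < 2 := by
          by_contra hge
          have : 2 ≤ c := by omega
          nlinarith
        omega
      rw [hc1, mul_one] at hc
      rw [← ZMod.natCast_zmod_val i, hc]
    | xa i =>
      rw [QuaternionGroup.orderOf_xa] at hx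
      omega
  · rintro rfl
    apply order_two_of_sq
    · rw [QuaternionGroup.one_def]
      intro h
      exact hN0 (QuaternionGroup.a.inj h)
    · rw [QuaternionGroup.a_mul_a, QuaternionGroup.one_def]
      congr 1
      have : ((N : ZMod (2 * N)) + N) = ((2 * N : ℕ) : ZMod (2 * N)) := by push_cast; ring
      rw [this, ZMod.natCast_self]

theorem result (n : ℕ) : Nat.card {x : QuaternionGroup (2 ^ (n + 1)) // orderOf x = 2} = 1 := by
  haveI : NeZero (2 ^ (n + 1)) := ⟨by positivity⟩
  rw [Nat.card_eq_one_iff_unique]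
  refine ⟨⟨?_⟩, ⟨⟨QuaternionGroup.a ((2 ^ (n + 1) : ℕ) : ZMod (2 * 2 ^ (n + 1))),
    (order_two_iff _ _).mpr rfl⟩⟩⟩
  rintro ⟨x, hx⟩ ⟨y, hy⟩
  apply Subtype.ext
  exact ((order_two_iff _ x).mp hx).trans ((order_two_iff _ y).mp hy).symm

end Cfsg.Agent.S0218
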