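import Cfsg.Statements.S0226
import Cfsg.Agent.Lib.Helper5.Invol

set_option autoImplicit false
open Cfsg

namespace Cfsg.Agent.S0226

open Cfsg.Agent.Lib.Helper5 in
theorem result {G : Type*} [Group G] [Finite G] (heven : Even (Nat.card G)) : Odd (Nat.card {t : G // orderOf t = 2}) := by
  classical
  have := Fintype.ofFinite G
  let f : Function.End G := fun g => g⁻¹
  have hf : f ^ 2 ^ 1 = 1 := by
    rw [pow_one, pow_two]
    funext g
    change (g⁻¹)⁻¹ = g
    exact inv_inv g
  have h1 := Equiv.Perm.card_fixedPoints_modEq (α := G) (f := f) (p := 2) (n := 1) hf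
  change Fintype.card G ≡ Fintype.card (Function.fixedPoints (fun g : G => g⁻¹)) [MOD 2] at h1
  have h2 : Fintype.card (Function.fixedPoints (fun g : G => g⁻¹)) =
      (Finset.univ.filter (fun t : G => orderOf t = 2)).card + 1 := by
    rw [← Set.toFinset_card]
    have h3 : (Function.fixedPoints (fun g : G => g⁻¹)).toFinset =
        insert 1 (Finset.univ.filter (fun t : G => orderOf t = 2)) := by
      ext g
      simp only [Set.mem_toFinset, Function.mem_fixedPoints, Function.IsFixedPt, Finset.mem_insert,
        Finset.mem_filter, Finset.mem_univ, true_and]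
      constructor
      · intro hg
        by_cases hg1 : g = 1
        · left; exact hg1
        · right
          apply order_two_of_sq hg1
          calc g * g = g⁻¹ * g := by rw [hg]
            _ = 1 := inv_mul_cancel g
      · rintro (rfl | hg)
        · simp
        · exact inv_of_order_two hg
    rw [h3, Finset.card_insert_of_notMem]
    simp
  have h4 : Nat.card {t : G // orderOf t = 2} = (Finset.univ.filter (fun t : G => orderOf t = 2)).card := by
    rw [Nat.card_eq_fintype_card, Fintype.card_subtype]
  rw [Nat.card_eq_fintype_card] at heven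
  rw [h4]
  rw [h2] at h1
  have h5 : Fintype.card G % 2 = 0 := Nat.even_iff.mp heven
  have h6 := h1
  unfold Nat.ModEq at h6
  rw [Nat.odd_iff]
  omega

end Cfsg.Agent.S0226
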