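import Mathlib
import Cfsg.Statements.S0228
import Cfsg.Agent.S0237

set_option autoImplicit false
open Cfsg

namespace Cfsg.Agent.S0228

theorem sylow_card_of {G : Type*} [Group G] [Finite G] (p : ℕ) [Fact p.Prime] (P : Sylow p G)
    (k m : ℕ) (hG : Nat.card G = p ^ k * m) (hm : ¬ p ∣ m) : Nat.card (P : Subgroup G) = p ^ k := by
  rw [Sylow.card_eq_multiplicity, hG]
  have hp := (Fact.out : p.Prime)
  have hm0 : m ≠ 0 := by rintro rfl; exact hm (dvd_zero p)
  rw [Nat.factorization_mul (pow_ne_zero k hp.ne_zero) hm0]
  simp [hp.factorization_pow, Nat.factorization_eq_zero_of_not_dvd hm]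

theorem result {G : Type*} [Group G] [Finite G] (hG : Nat.card G = 12) (hz : ∀ z : G, orderOf z = 2 → z ∉ Subgroup.center G) : Nonempty (G ≃* alternatingGroup (Fin 4)) := by
  classical
  haveI : Fact (Nat.Prime 3) := ⟨Nat.prime_three⟩
  haveI : Fact (Nat.Prime 2) := ⟨Nat.prime_two⟩
  have hcard3 : ∀ Q : Sylow 3 G, Nat.card (Q : Subgroup G) = 3 := fun Q => by
    have := sylow_card_of 3 Q 1 4 (by rw [hG]; norm_num) (by norm_num)
    simpa using this
  have hcard2 : ∀ Q : Sylow 2 G, Nat.card (Q : Subgroup G) = 4 := fun Q => by
    have := sylow_card_of 2 Q 2 3 (by rw [hG]; norm_num) (by norm_num)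
    simpa using this
  obtain ⟨P⟩ : Nonempty (Sylow 3 G) := inferInstance
  have hidx : (P : Subgroup G).index = 4 := by
    have := Subgroup.card_mul_index (P : Subgroup G)
    rw [hcard3 P, hG] at this
    omega
  have hn3 : Nat.card (Sylow 3 G) = 1 ∨ Nat.card (Sylow 3 G) = 4 := by
    have h1 := card_sylow_modEq_one 3 G
    have h2 := Sylow.card_dvd_index P
    rw [hidx] at h2
    have h3 : Nat.card (Sylow 3 G) ≤ 4 := Nat.le_of_dvd (by norm_num) h2
    have h4 : Nat.card (Sylow 3 G) % 3 = 1 := h1
    have h5 : 0 < Nat.card (Sylow 3 G) := Nat.card_pos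
    omega
  rcases hn3 with h1 | h4
  · exfalso
    haveI hsub : Subsingleton (Sylow 3 G) := (Nat.card_eq_one_iff_unique.mp h1).1
    obtain ⟨a, ha⟩ := exists_prime_orderOf_dvd_card' (G := G) 3 (by rw [hG]; norm_num)
    have ha1 : a ≠ 1 := by rintro rfl; rw [orderOf_one] at ha; omega
    have ha3 : a ^ 3 = 1 := by rw [← ha]; exact pow_orderOf_eq_one a
    have hPz : ∀ b : G, orderOf b = 3 → b ∈ (P : Subgroup G) := by
      intro b hb
      have hp : IsPGroup 3 (Subgroup.zpowers b) :=
        IsPGroup.of_card (n := 1) (by rw [Nat.card_zpowers, hb, pow_one])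
      obtain ⟨Q, hQ⟩ := hp.exists_le_sylow
      rw [Subsingleton.elim P Q]
      exact hQ (Subgroup.mem_zpowers b)
    have hPeq : (P : Subgroup G) = Subgroup.zpowers a := by
      symm
      apply Subgroup.eq_of_le_of_card_ge
      · rw [Subgroup.zpowers_le]; exact hPz a ha
      · rw [hcard3 P, Nat.card_zpowers, ha]
    have haP : ∀ g : G, g * a * g⁻¹ = a ∨ g * a * g⁻¹ = a⁻¹ := by
      intro g
      have ho : orderOf (g * a * g⁻¹) = 3 := by
        have : orderOf ((MulAut.conj g) a) = orderOf a := MulEquiv.orderOf_eq _ _
        rw [MulAut.conj_apply] at this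
        rw [this, ha]
      have hmem := hPz _ ho
      rw [hPeq, mem_zpowers_iff_mem_range_orderOf, ha] at hmem
      simp only [Finset.mem_image, Finset.mem_range] at hmem
      obtain ⟨k, hk, hk'⟩ := hmem
      interval_cases k
      · exfalso
        rw [pow_zero] at hk'
        rw [← hk', orderOf_one] at ho
        omega
      · left; rw [← hk', pow_one]
      · right; rw [← hk']
        exact eq_inv_of_mul_eq_one_left (by rw [← pow_succ]; exact ha3)
    have hane : a ≠ a⁻¹ := by
      intro h
      have h2 : a ^ 2 = 1 := by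
        rw [pow_two]
        nth_rewrite 2 [h]
        exact mul_inv_cancel a
      have : a = 1 := by
        have e : a = a ^ 3 * (a ^ 2)⁻¹ := by group
        rw [e, ha3, h2]; simp
      exact ha1 this
    have hmemC : ∀ g : G, g ∈ Subgroup.centralizer ({a} : Set G) ↔ g * a * g⁻¹ = a := by
      intro g
      rw [Cfsg.Agent.S0237.mem_centralizer_singleton]
      constructor
      · intro h; rw [← h]; group
      · intro h
        calc a * g = (g * a * g⁻¹) * g := by rw [h]
          _ = g * a := by group
    have hCeven : 2 ∣ Nat.card (Subgroup.centralizer ({a} : Set G)) := by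
      by_cases htop : Subgroup.centralizer ({a} : Set G) = ⊤
      · rw [htop, Subgroup.card_top, hG]; norm_num
      · have hex : ∃ x : G, x ∉ Subgroup.centralizer ({a} : Set G) := by
          by_contra hall
          apply htop
          apply top_unique
          intro g _
          by_contra hg
          exact hall ⟨g, hg⟩
        obtain ⟨x, hx⟩ := hex
        have hx' : x * a * x⁻¹ = a⁻¹ := by
          rcases haP x with h | h
          · exact absurd ((hmemC x).mpr h) hx
          · exact h
        have hidx2 : (Subgroup.centralizer ({a} : Set G)).index = 2 := by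
          rw [Subgroup.index_eq_two_iff_exists_notMem_and]
          refine ⟨x, hx, fun b => ?_⟩
          by_cases hb : b ∈ Subgroup.centralizer ({a} : Set G)
          · right; exact hb
          · left
            have hb' : b * a * b⁻¹ = a⁻¹ := by
              rcases haP b with h | h
              · exact absurd ((hmemC b).mpr h) hb
              · exact h
            rw [hmemC]
            have e : b * x * a * (b * x)⁻¹ = b * (x * a * x⁻¹) * b⁻¹ := by group
            rw [e, hx']
            have e2 : b * a⁻¹ * b⁻¹ = (b * a * b⁻¹)⁻¹ := by group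
            rw [e2, hb', inv_inv]
        have hcm := Subgroup.card_mul_index (Subgroup.centralizer ({a} : Set G))
        rw [hidx2, hG] at hcm
        exact ⟨3, by omega⟩
    obtain ⟨⟨z, hzC⟩, hz2⟩ := exists_prime_orderOf_dvd_card' 2 hCeven
    rw [Subgroup.orderOf_mk] at hz2
    apply hz z hz2
    -- centralizer of z is everything
    have hp2 : IsPGroup 2 (Subgroup.zpowers z) :=
      IsPGroup.of_card (n := 1) (by rw [Nat.card_zpowers, hz2, pow_one])
    obtain ⟨Q, hQ⟩ := hp2.exists_le_sylow
    have hzQ : z ∈ (Q : Subgroup G) := hQ (Subgroup.mem_zpowers z)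
    have hQcomm' := IsPGroup.isMulCommutative_of_card_eq_prime_sq (p := 2) (G := (Q : Subgroup G))
      (by rw [hcard2 Q]; norm_num)
    have hQcomm : ∀ x y : (Q : Subgroup G), x * y = y * x := fun x y => hQcomm'.is_comm.comm x y
    have hQle : (Q : Subgroup G) ≤ Subgroup.centralizer ({z} : Set G) := by
      intro q hq
      rw [Cfsg.Agent.S0237.mem_centralizer_singleton]
      have := hQcomm ⟨z, hzQ⟩ ⟨q, hq⟩
      exact congrArg Subtype.val this
    have haz : a ∈ Subgroup.centralizer ({z} : Set G) := by
      rw [Cfsg.Agent.S0237.mem_centralizer_singleton]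
      have := (Cfsg.Agent.S0237.mem_centralizer_singleton a z).mp hzC
      exact this.symm
    have h4 : 4 ∣ Nat.card (Subgroup.centralizer ({z} : Set G)) := by
      rw [← hcard2 Q]; exact Subgroup.card_dvd_of_le hQle
    have h3 : 3 ∣ Nat.card (Subgroup.centralizer ({z} : Set G)) := by
      rw [← ha]; exact Subgroup.orderOf_dvd_natCard _ haz
    have hle : Nat.card (Subgroup.centralizer ({z} : Set G)) ∣ 12 := by
      rw [← hG]; exact Subgroup.card_subgroup_dvd_card _
    have hc12 : Nat.card (Subgroup.centralizer ({z} : Set G)) = Nat.card G := by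
      rw [hG]
      have hle' := Nat.le_of_dvd (by norm_num) hle
      have hpos : 0 < Nat.card (Subgroup.centralizer ({z} : Set G)) := Nat.card_pos
      omega
    have htop := Subgroup.eq_top_of_card_eq _ hc12
    rw [Subgroup.mem_center_iff]
    intro g
    have : g ∈ Subgroup.centralizer ({z} : Set G) := by rw [htop]; exact Subgroup.mem_top g
    exact ((Cfsg.Agent.S0237.mem_centralizer_singleton z g).mp this).symm
  · have hN : ∀ Q : Sylow 3 G, (Subgroup.normalizer (Q : Set G)) = Q := by
      intro Q
      have h1 : (Subgroup.normalizer (Q : Set G)).index = 4 := by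
        rw [← Sylow.card_eq_index_normalizer, h4]
      have h2 := Subgroup.card_mul_index (Subgroup.normalizer (Q : Set G))
      rw [h1, hG] at h2
      have h3 : Nat.card (Subgroup.normalizer (Q : Set G)) = 3 := by omega
      symm
      apply Subgroup.eq_of_le_of_card_ge Subgroup.le_normalizer
      have h3' : Nat.card ↥(Subgroup.normalizer ((Q : Subgroup G) : Set G)) = 3 := h3
      rw [h3', hcard3 Q]
    have hinj : Function.Injective (MulAction.toPermHom G (Sylow 3 G)) := by
      rw [injective_iff_map_eq_one]
      intro g hg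
      have hfix : ∀ Q : Sylow 3 G, g • Q = Q := fun Q => by
        have := congrArg (fun σ => σ Q) hg
        simpa using this
      have hmem : ∀ Q : Sylow 3 G, g ∈ (Q : Subgroup G) := fun Q => by
        have := Sylow.smul_eq_iff_mem_normalizer.mp (hfix Q)
        rw [hN Q] at this; exact this
      by_contra hg1
      have hall : ∀ Q : Sylow 3 G, (Q : Subgroup G) = Subgroup.zpowers g := by
        intro Q
        symm
        apply Subgroup.eq_of_le_of_card_ge
        · rw [Subgroup.zpowers_le]; exact hmem Q
        · rw [hcard3 Q, Nat.card_zpowers]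
          have hd : orderOf g ∣ 3 := by
            rw [← hcard3 Q]; exact Subgroup.orderOf_dvd_natCard _ (hmem Q)
          have : orderOf g ≠ 1 := by rwa [Ne, orderOf_eq_one_iff]
          rcases (Nat.dvd_prime Nat.prime_three).mp hd with h | h
          · exact absurd h this
          · rw [h]
      have hsub : Subsingleton (Sylow 3 G) :=
        ⟨fun Q1 Q2 => Sylow.ext (by rw [hall Q1, hall Q2])⟩
      have : Nat.card (Sylow 3 G) ≤ 1 := Finite.card_le_one_iff_subsingleton.mpr hsub
      omega
    have e1 : Sylow 3 G ≃ Fin 4 := Finite.equivFinOfCardEq h4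
    let ψ : G →* Equiv.Perm (Fin 4) :=
      (Equiv.permCongrHom e1).toMonoidHom.comp (MulAction.toPermHom G (Sylow 3 G))
    have hψ : Function.Injective ψ := (Equiv.permCongrHom e1).injective.comp hinj
    have hrange : ψ.range = alternatingGroup (Fin 4) := by
      apply Equiv.Perm.eq_alternatingGroup_of_index_eq_two
      have h1 := Subgroup.card_mul_index ψ.range
      have h2 : Nat.card ψ.range = 12 := by
        rw [← hG]; exact (Nat.card_congr (MonoidHom.ofInjective hψ).toEquiv).symm
      have h3 : Nat.card (Equiv.Perm (Fin 4)) = 24 := by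
        rw [Nat.card_eq_fintype_card, Fintype.card_perm, Fintype.card_fin]; rfl
      rw [h2, h3] at h1; omega
    exact ⟨(MonoidHom.ofInjective hψ).trans (MulEquiv.subgroupCongr hrange)⟩

end Cfsg.Agent.S0228
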