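import Mathlib
import Cfsg.Statements.S0229
import Cfsg.Agent.Lib.Helper5.Invol
import Cfsg.Agent.Lib.Helper5.Isol
import Cfsg.Agent.S0208
import Cfsg.Agent.S0209
import Cfsg.Agent.S0211

set_option autoImplicit false
open Cfsg

namespace Cfsg.Agent.S0229

open Cfsg.Agent.Lib.Helper5

theorem result {G : Type*} [Group G] [Finite G] (S : Sylow 2 G) (t : G) (ht : orderOf t = 2) (htS : t ∈ S) (hiso : ∀ g : G, g * t * g⁻¹ ∈ S → g * t * g⁻¹ = t) (s : G) (hs : orderOf s = 2) (hns : ¬ IsConj s t) : orderOf (s * t) % 4 = 2 := by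
  have heven : Even (orderOf (s * t)) := by
    by_contra hodd
    rw [Nat.not_even_iff_odd] at hodd
    obtain ⟨d, _, hd⟩ := Cfsg.Agent.S0208.result s t hs ht hodd
    exact hns (isConj_iff.mpr ⟨d, hd⟩)
  have hcomm : orderOf (t * s) = orderOf (s * t) := by
    have : orderOf ((MulAut.conj t) (s * t)) = orderOf (s * t) := MulEquiv.orderOf_eq _ _
    rw [MulAut.conj_apply] at this
    have e : t * (s * t) * t⁻¹ = t * s := by group
    rw [e] at this
    exact this
  by_contra h
  have h4 : 4 ∣ orderOf (t * s) := by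
    rw [hcomm]
    obtain ⟨m, hm⟩ := heven
    omega
  have heven' : Even (orderOf (t * s)) := by rw [hcomm]; exact heven
  obtain ⟨d, _, hd⟩ := (Cfsg.Agent.S0211.result t s ht hs heven').mpr h4
  obtain ⟨hz2, hzt, _⟩ := Cfsg.Agent.S0209.result t s ht hs heven'
  exact isolated_klein S t ht hiso _ hz2 hzt.symm d hd

end Cfsg.Agent.S0229
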