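import Mathlib
import Cfsg.Statements.S0231
import Cfsg.Agent.Lib.Helper5.Invol
import Cfsg.Agent.Lib.Helper5.Isol
import Cfsg.Agent.S0208
import Cfsg.Agent.S0209

set_option autoImplicit false
open scoped Pointwise
open Cfsg

namespace Cfsg.Agent.S0231

open Cfsg.Agent.Lib.Helper5

theorem sylow_unique {G : Type*} [Group G] [Finite G] (T : Sylow 2 G)
    (hTI : ∀ g : G, MulAut.conj g • (T : Subgroup G) ≠ T → MulAut.conj g • (T : Subgroup G) ⊓ T = ⊥)
    (P1 P2 : Sylow 2 G) (a : G) (ha : a ≠ 1) (h1 : a ∈ P1) (h2 : a ∈ P2) : P1 = P2 := by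
  haveI : Fact (Nat.Prime 2) := ⟨Nat.prime_two⟩
  obtain ⟨g1, rfl⟩ := MulAction.exists_smul_eq G T P1
  obtain ⟨g2, rfl⟩ := MulAction.exists_smul_eq G T P2
  have h1' := (mem_sylow_smul_iff T g1 a).mp h1
  have h2' := (mem_sylow_smul_iff T g2 a).mp h2
  have hfix : MulAut.conj (g1⁻¹ * g2) • (T : Subgroup G) = T := by
    by_contra hne
    have hbot := hTI _ hne
    have hmem : g1⁻¹ * a * g1 ∈ MulAut.conj (g1⁻¹ * g2) • (T : Subgroup G) ⊓ T := by
      refine Subgroup.mem_inf.mpr ⟨?_, h1'⟩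
      rw [Subgroup.mem_pointwise_smul_iff_inv_smul_mem, MulAut.smul_def, MulAut.conj_inv_apply]
      have e : (g1⁻¹ * g2)⁻¹ * (g1⁻¹ * a * g1) * (g1⁻¹ * g2) = g2⁻¹ * a * g2 := by group
      rw [e]; exact h2'
    rw [hbot, Subgroup.mem_bot] at hmem
    apply ha
    have e : a = g1 * (g1⁻¹ * a * g1) * g1⁻¹ := by group
    rw [e, hmem]; group
  have hfix' : (g1⁻¹ * g2) • T = T := by
    apply Sylow.ext
    rw [Sylow.coe_subgroup_smul]
    exact hfix
  rw [mul_smul, inv_smul_eq_iff] at hfix'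
  exact hfix'.symm

theorem exists_sylow_of_commute {G : Type*} [Group G] [Finite G] (a z : G) (ha : orderOf a = 2)
    (hz : orderOf z = 2) (hc : Commute a z) : ∃ P : Sylow 2 G, a ∈ P ∧ z ∈ P := by
  haveI : Fact (Nat.Prime 2) := ⟨Nat.prime_two⟩
  obtain ⟨P, hP⟩ := (isPGroup_two_sup_of_commute a z ha hz hc).exists_le_sylow
  exact ⟨P, hP ((le_sup_left : Subgroup.zpowers a ≤ _) (Subgroup.mem_zpowers a)),
    hP ((le_sup_right : Subgroup.zpowers z ≤ _) (Subgroup.mem_zpowers z))⟩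

theorem conj_of_ne {G : Type*} [Group G] [Finite G] (T : Sylow 2 G)
    (hTI : ∀ g : G, MulAut.conj g • (T : Subgroup G) ≠ T → MulAut.conj g • (T : Subgroup G) ⊓ T = ⊥)
    (P1 P2 : Sylow 2 G) (hne : P1 ≠ P2) (a b : G) (ha : orderOf a = 2) (hb : orderOf b = 2)
    (haP : a ∈ P1) (hbP : b ∈ P2) : IsConj a b := by
  by_cases hodd : Odd (orderOf (a * b))
  · obtain ⟨d, _, hd⟩ := Cfsg.Agent.S0208.result a b ha hb hodd
    exact isConj_iff.mpr ⟨d, hd⟩
  · exfalso
    rw [Nat.not_odd_iff_even] at hodd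
    obtain ⟨hz2, hza, hzb⟩ := Cfsg.Agent.S0209.result a b ha hb hodd
    obtain ⟨Q1, haQ1, hzQ1⟩ := exists_sylow_of_commute a _ ha hz2 hza.symm
    obtain ⟨Q2, hbQ2, hzQ2⟩ := exists_sylow_of_commute b _ hb hz2 hzb.symm
    have e1 : Q1 = P1 := sylow_unique T hTI Q1 P1 a (ne_one_of_order_two ha) haQ1 haP
    have e2 : Q2 = P2 := sylow_unique T hTI Q2 P2 b (ne_one_of_order_two hb) hbQ2 hbP
    rw [e1] at hzQ1
    rw [e2] at hzQ2
    exact hne (sylow_unique T hTI P1 P2 _ (ne_one_of_order_two hz2) hzQ1 hzQ2)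

theorem result {G : Type*} [Group G] [Finite G] (T : Sylow 2 G) (hnn : ¬ (T : Subgroup G).Normal) (hTI : ∀ g : G, MulAut.conj g • (T : Subgroup G) ≠ T → MulAut.conj g • (T : Subgroup G) ⊓ T = ⊥) (s t : G) (hs : orderOf s = 2) (ht : orderOf t = 2) : IsConj s t := by
  haveI : Fact (Nat.Prime 2) := ⟨Nat.prime_two⟩
  have hPs : IsPGroup 2 (Subgroup.zpowers s) :=
    IsPGroup.of_card (n := 1) (by rw [Nat.card_zpowers, hs, pow_one])
  have hPt : IsPGroup 2 (Subgroup.zpowers t) :=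
    IsPGroup.of_card (n := 1) (by rw [Nat.card_zpowers, ht, pow_one])
  obtain ⟨Ps, hPs'⟩ := hPs.exists_le_sylow
  obtain ⟨Pt, hPt'⟩ := hPt.exists_le_sylow
  have hsP : s ∈ Ps := hPs' (Subgroup.mem_zpowers s)
  have htP : t ∈ Pt := hPt' (Subgroup.mem_zpowers t)
  by_cases hne : Ps = Pt
  · -- find another Sylow
    have hex : ∃ g : G, g • Pt ≠ Pt := by
      by_contra hall
      have hall' : ∀ g : G, g • Pt = Pt := by
        intro g
        by_contra h
        exact hall ⟨g, h⟩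
      apply hnn
      obtain ⟨g0, hg0⟩ := MulAction.exists_smul_eq G Pt T
      have hall'' : ∀ g : G, g • T = T := by
        intro g
        rw [← hg0, ← mul_smul, hall', hall']
      rw [← Subgroup.normalizer_eq_top_iff]
      apply top_unique
      intro g _
      exact Sylow.smul_eq_iff_mem_normalizer.mp (hall'' g)
    obtain ⟨g, hg⟩ := hex
    have hb : g * s * g⁻¹ ∈ g • Pt := by
      apply (mem_sylow_smul_iff Pt g _).mpr
      have e : g⁻¹ * (g * s * g⁻¹) * g = s := by group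
      rw [e, ← hne]; exact hsP
    have hb2 : orderOf (g * s * g⁻¹) = 2 := by
      have : orderOf ((MulAut.conj g) s) = orderOf s := MulEquiv.orderOf_eq _ _
      rw [MulAut.conj_apply] at this
      rw [this, hs]
    have c1 : IsConj s (g * s * g⁻¹) := isConj_iff.mpr ⟨g, rfl⟩
    have c2 : IsConj (g * s * g⁻¹) t := conj_of_ne T hTI (g • Pt) Pt hg _ _ hb2 ht hb htP
    exact c1.trans c2
  · exact conj_of_ne T hTI Ps Pt hne s t hs ht hsP htP

end Cfsg.Agent.S0231
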