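import Mathlib
import Cfsg.Statements.S0232
import Cfsg.Agent.Lib.Helper5.BF2
import Cfsg.Agent.S0233
import Cfsg.Agent.S0228
import Cfsg.Agent.S0219

set_option autoImplicit false
open Cfsg

namespace Cfsg.Agent.S0232

open Cfsg.Agent.Lib.Helper5

universe u

theorem of_index_two {G : Type*} [Group G] [Finite G] (hgt : 2 < Nat.card G) (H : Subgroup G)
    (h2 : H.index = 2) : H ≠ ⊤ ∧ Nat.card G < Nat.card H ^ 3 := by
  constructor
  · rintro rfl; rw [Subgroup.index_top] at h2; omega
  · have hc := Subgroup.card_mul_index H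
    rw [h2] at hc
    rw [← hc] at hgt ⊢
    generalize Nat.card H = h at *
    have h2' : 2 ≤ h := by omega
    nlinarith [Nat.mul_le_mul h2' h2']

theorem arith2 (n m h k : ℕ) (hn : 0 < n) (hm : m < n) (hcase : n ^ 2 ≤ m ^ 3)
    (hlt : 2 * k * m ^ 2 < n * (n + m)) (hk : h * k = n) (hle : h ^ 3 ≤ n) : False := by
  have h1 : k * m ^ 2 < n ^ 2 := by nlinarith
  have h2 : n ^ 2 ≤ k ^ 3 := by
    have : n * n ^ 2 ≤ n * k ^ 3 := by
      calc n * n ^ 2 = (h * k) ^ 3 := by rw [hk]; ring
        _ = h ^ 3 * k ^ 3 := by ring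
        _ ≤ n * k ^ 3 := Nat.mul_le_mul_right _ hle
    exact Nat.le_of_mul_le_mul_left this hn
  have h3 : (k * m ^ 2) ^ 3 < (n ^ 2) ^ 3 := Nat.pow_lt_pow_left h1 (by norm_num)
  have h4 : (n ^ 2) ^ 2 ≤ (m ^ 3) ^ 2 := Nat.pow_le_pow_left hcase 2
  have h5 : k ^ 3 * n ^ 4 < n ^ 2 * n ^ 4 := by
    calc k ^ 3 * n ^ 4 = k ^ 3 * (n ^ 2) ^ 2 := by ring
      _ ≤ k ^ 3 * (m ^ 3) ^ 2 := Nat.mul_le_mul_left _ h4
      _ = (k * m ^ 2) ^ 3 := by ring
      _ < (n ^ 2) ^ 3 := h3
      _ = n ^ 2 * n ^ 4 := by ring
  have h6 : k ^ 3 < n ^ 2 := Nat.lt_of_mul_lt_mul_right h5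
  omega

theorem arith1 (n m c : ℕ) (hn : 0 < n) (hmc : n ≤ m * c) (hcase : m ^ 3 < n ^ 2)
    (hle : c ^ 3 ≤ n) : False := by
  have h1 : n ^ 3 ≤ (m * c) ^ 3 := Nat.pow_le_pow_left hmc 3
  have h3 : m ^ 3 * c ^ 3 ≤ m ^ 3 * n := Nat.mul_le_mul_left _ hle
  have h4 : m ^ 3 * n < n ^ 2 * n := Nat.mul_lt_mul_of_pos_right hcase hn
  have h5 : n ^ 3 < n ^ 3 := by
    calc n ^ 3 ≤ (m * c) ^ 3 := h1
      _ = m ^ 3 * c ^ 3 := by ring
      _ ≤ m ^ 3 * n := h3
      _ < n ^ 2 * n := h4
      _ = n ^ 3 := by ring
  omega

theorem main (k : ℕ) : ∀ (G : Type u) [Group G] [Finite G], Nat.card G = k → Even (Nat.card G) →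
    2 < Nat.card G → ∃ H : Subgroup G, H ≠ ⊤ ∧ Nat.card G < (Nat.card H) ^ 3 := by
  induction k using Nat.strong_induction_on with
  | _ k ih =>
    intro G _ _ hk heven hgt
    haveI : Fact (Nat.Prime 2) := ⟨Nat.prime_two⟩
    have hnpos : 0 < Nat.card G := Nat.card_pos
    by_cases hZ : Odd (Nat.card (Subgroup.center G))
    · obtain ⟨t, ht⟩ := exists_prime_orderOf_dvd_card' (G := G) 2 (even_iff_two_dvd.mp heven)
      have hmc := card_le_invol_mul_cent t ht
      have hmlt : Nat.card {u : G // orderOf u = 2} < Nat.card G := by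
        rw [← Nat.add_one_le_iff, ← Finite.card_option]
        apply Nat.card_le_card_of_injective
          (fun o : Option {u : G // orderOf u = 2} => match o with
            | none => (1 : G)
            | some u => u.1)
        intro o1 o2 h
        match o1, o2, h with
        | none, none, _ => rfl
        | none, some u, h => exact absurd h.symm (ne_one_of_order_two u.2)
        | some u, none, h => exact absurd h (ne_one_of_order_two u.2)
        | some u, some v, h => exact congrArg some (Subtype.ext h)
      by_cases hcase : Nat.card {u : G // orderOf u = 2} ^ 3 < Nat.card G ^ 2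
      · refine ⟨Subgroup.centralizer ({t} : Set G), ?_, ?_⟩
        · intro htop
          have hxc : t ∈ Subgroup.center G := by
            rw [Subgroup.mem_center_iff]; intro g
            have : g ∈ Subgroup.centralizer ({t} : Set G) := by rw [htop]; trivial
            exact ((Cfsg.Agent.S0237.mem_centralizer_singleton t g).mp this).symm
          have : 2 ∣ Nat.card (Subgroup.center G) := by
            rw [← ht]; exact Subgroup.orderOf_dvd_natCard _ hxc
          exact (Nat.not_even_iff_odd.mpr hZ) (even_iff_two_dvd.mpr this)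
        · by_contra hle
          rw [not_lt] at hle
          exact arith1 _ _ _ hnpos hmc hcase hle
      · rw [not_lt] at hcase
        obtain ⟨H, hH, hidx⟩ := Cfsg.Agent.S0233.result heven hZ
        rcases hidx with h2 | hlt
        · exact ⟨H, of_index_two hgt H h2⟩
        · refine ⟨H, hH, ?_⟩
          by_contra hle
          rw [not_lt] at hle
          exact arith2 _ _ _ _ hnpos hmlt hcase hlt (Subgroup.card_mul_index H) hle
    · rw [Nat.not_odd_iff_even] at hZ
      obtain ⟨⟨z, hzZ⟩, hz2⟩ := exists_prime_orderOf_dvd_card' 2 (even_iff_two_dvd.mp hZ)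
      rw [Subgroup.orderOf_mk] at hz2
      have hN : (Subgroup.zpowers z).Normal := by
        constructor
        intro x hx g
        have hxZ : x ∈ Subgroup.center G := by
          obtain ⟨j, rfl⟩ := Subgroup.mem_zpowers_iff.mp hx
          exact Subgroup.zpow_mem _ hzZ j
        rw [Subgroup.mem_center_iff] at hxZ
        rw [hxZ g, mul_inv_cancel_right]
        exact hx
      have hNcard : Nat.card (Subgroup.zpowers z) = 2 := by rw [Nat.card_zpowers, hz2]
      have hQ : Nat.card (G ⧸ Subgroup.zpowers z) * 2 = Nat.card G := by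
        rw [← hNcard]; exact (Subgroup.card_eq_card_quotient_mul_card_subgroup _).symm
      by_cases hQeven : Even (Nat.card (G ⧸ Subgroup.zpowers z))
      · by_cases hQ2 : Nat.card (G ⧸ Subgroup.zpowers z) = 2
        · refine ⟨Subgroup.zpowers z, ?_, ?_⟩
          · intro h; rw [h, Subgroup.card_top] at hNcard; omega
          · rw [hNcard]; omega
        · have hQgt : 2 < Nat.card (G ⧸ Subgroup.zpowers z) := by
            obtain ⟨j, hj⟩ := hQeven; omega
          obtain ⟨H', hH', hlt⟩ := ih (Nat.card (G ⧸ Subgroup.zpowers z)) (by omega)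
            (G ⧸ Subgroup.zpowers z) rfl hQeven hQgt
          refine ⟨H'.comap (QuotientGroup.mk' (Subgroup.zpowers z)), ?_, ?_⟩
          · intro h
            apply hH'
            have := Subgroup.map_comap_eq_self_of_surjective
              (QuotientGroup.mk'_surjective (Subgroup.zpowers z)) H'
            rw [h, Subgroup.map_top_of_surjective _
              (QuotientGroup.mk'_surjective (Subgroup.zpowers z))] at this
            exact this.symm
          · have hidx := Subgroup.index_comap_of_surjective H'
              (QuotientGroup.mk'_surjective (Subgroup.zpowers z))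
            have h1 := Subgroup.card_mul_index (H'.comap (QuotientGroup.mk' (Subgroup.zpowers z)))
            have h2 := Subgroup.card_mul_index H'
            rw [hidx] at h1
            have hidxpos : 0 < H'.index := Nat.pos_of_ne_zero Subgroup.index_ne_zero_of_finite
            have h3 : Nat.card (H'.comap (QuotientGroup.mk' (Subgroup.zpowers z))) =
                2 * Nat.card H' := by
              apply Nat.eq_of_mul_eq_mul_right hidxpos
              rw [h1, ← hQ, ← h2]; ring
            rw [h3, ← hQ]
            generalize Nat.card H' = h' at *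
            generalize Nat.card (G ⧸ Subgroup.zpowers z) = q at *
            have : (2 * h') ^ 3 = 8 * h' ^ 3 := by ring
            omega
      · rw [Nat.not_even_iff_odd] at hQeven
        obtain ⟨P⟩ : Nonempty (Sylow 2 G) := inferInstance
        have hP : Nat.card (P : Subgroup G) = 2 := by
          have := Cfsg.Agent.S0228.sylow_card_of 2 P 1 (Nat.card (G ⧸ Subgroup.zpowers z))
            (by rw [← hQ]; ring) hQeven.not_two_dvd_nat
          simpa using this
        have hcyc : IsCyclic (P : Subgroup G) := isCyclic_of_prime_card (p := 2) hP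
        obtain ⟨H, hH⟩ := Cfsg.Agent.S0219.result heven P hcyc
        exact ⟨H, of_index_two hgt H hH⟩

theorem result {G : Type*} [Group G] [Finite G] (heven : Even (Nat.card G)) (hgt : 2 < Nat.card G) : ∃ H : Subgroup G, H ≠ ⊤ ∧ Nat.card G < (Nat.card H) ^ 3 :=
  main (Nat.card G) G rfl heven hgt

end Cfsg.Agent.S0232
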