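import Mathlib
import Cfsg.Statements.S0234
import Cfsg.Agent.Lib.Helper5.BF2
import Cfsg.Agent.S0233
import Cfsg.Agent.S0228
import Cfsg.Agent.S0219

set_option autoImplicit false
open Cfsg

namespace Cfsg.Agent.S0234

open Cfsg.Agent.Lib.Helper5

set_option maxRecDepth 100000 in
theorem a5_count : (Finset.univ.filter
    (fun g : alternatingGroup (Fin 5) => g ≠ 1 ∧ g * g = 1)).card = 15 := by decide

set_option maxRecDepth 100000 in
theorem a4_mul : ∀ a b : alternatingGroup (Fin 4), a * a = 1 → b * b = 1 →
    (a * b) * (a * b) = 1 := by decide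

set_option maxRecDepth 100000 in
theorem a4_ex1 : ∃ a : alternatingGroup (Fin 4), a * a = 1 ∧ a ≠ 1 := by decide

set_option maxRecDepth 100000 in
theorem a4_ex2 : ∃ b : alternatingGroup (Fin 4), ¬ (b * b = 1) := by decide

theorem order_two_iff {G : Type*} [Group G] (x : G) : orderOf x = 2 ↔ x ≠ 1 ∧ x * x = 1 :=
  ⟨fun h => ⟨ne_one_of_order_two h, sq_of_order_two h⟩, fun h => order_two_of_sq h.1 h.2⟩

theorem invol_card_equiv {G H : Type*} [Group G] [Group H] (e : G ≃* H) :
    Nat.card {t : G // orderOf t = 2} = Nat.card {t : H // orderOf t = 2} :=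
  Nat.card_congr (e.toEquiv.subtypeEquiv (fun t => by
    change orderOf t = 2 ↔ orderOf (e t) = 2
    rw [MulEquiv.orderOf_eq]))

theorem a5_invol : Nat.card {t : alternatingGroup (Fin 5) // orderOf t = 2} = 15 := by
  rw [← a5_count]
  exact Nat.subtype_card _ (by intro x; simp [order_two_iff])

/-- V4 inside A4 -/
def a4V : Subgroup (alternatingGroup (Fin 4)) where
  carrier := {g | g * g = 1}
  mul_mem' := fun {a b} ha hb => a4_mul a b ha hb
  one_mem' := by simp
  inv_mem' := by
    intro a ha
    have : a⁻¹ = a := inv_eq_of_mul_eq_one_left ha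
    rw [this]; exact ha

theorem a4V_normal : a4V.Normal := by
  constructor
  intro n hn g
  change g * n * g⁻¹ * (g * n * g⁻¹) = 1
  have hn' : n * n = 1 := hn
  calc g * n * g⁻¹ * (g * n * g⁻¹) = g * (n * n) * g⁻¹ := by group
    _ = 1 := by rw [hn']; group

theorem toPermHom_injective {G : Type*} [Group G] [IsSimpleGroup G]
    (H : Subgroup G) (hH : H ≠ ⊤) : Function.Injective (MulAction.toPermHom G (G ⧸ H)) := by
  have hker : (MulAction.toPermHom G (G ⧸ H)).ker = ⊥ := by
    rcases (MulAction.toPermHom G (G ⧸ H)).normal_ker.eq_bot_or_eq_top with h | h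
    · exact h
    · exfalso
      apply hH
      apply top_unique
      rw [← h, ← Subgroup.normalCore_eq_ker]
      exact Subgroup.normalCore_le H
  exact (MonoidHom.ker_eq_bot_iff _).mp hker

theorem cases60 (n : ℕ) (h : n ∣ 60) (he : Even n) (hgt : 2 < n) :
    n = 4 ∨ n = 6 ∨ n = 10 ∨ n = 12 ∨ n = 20 ∨ n = 30 ∨ n = 60 := by
  have hle : n ≤ 60 := Nat.le_of_dvd (by norm_num) h
  interval_cases n <;> revert h he <;> decide

section
variable {G : Type*} [Group G] [Finite G] [IsSimpleGroup G]

theorem no_index_two (hgt : 2 < Nat.card G) (K : Subgroup G) : K.index ≠ 2 := by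
  intro h2
  have hn := Subgroup.normal_of_index_eq_two h2
  have hc := Subgroup.card_mul_index K
  rcases hn.eq_bot_or_eq_top with h | h
  · rw [h, Subgroup.index_bot] at h2; omega
  · rw [h, Subgroup.index_top] at h2; omega

theorem center_eq_bot (hgt : 2 < Nat.card G) (t : G) (ht : orderOf t = 2) :
    Subgroup.center G = ⊥ := by
  rcases (inferInstance : (Subgroup.center G).Normal).eq_bot_or_eq_top with h | h
  · exact h
  · exfalso
    have hN : (Subgroup.zpowers t).Normal := by
      constructor
      intro x hx g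
      have hxZ : x ∈ Subgroup.center G := by rw [h]; trivial
      rw [Subgroup.mem_center_iff] at hxZ
      rw [hxZ g, mul_inv_cancel_right]
      exact hx
    have hNcard : Nat.card (Subgroup.zpowers t) = 2 := by rw [Nat.card_zpowers, ht]
    rcases hN.eq_bot_or_eq_top with h' | h'
    · rw [h', Subgroup.card_bot] at hNcard; omega
    · rw [h', Subgroup.card_top] at hNcard; omega

theorem not_two_odd (heven : Even (Nat.card G)) (hgt : 2 < Nat.card G) (q : ℕ) (hq : Odd q)
    (hn : Nat.card G = 2 * q) : False := by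
  haveI : Fact (Nat.Prime 2) := ⟨Nat.prime_two⟩
  obtain ⟨P⟩ : Nonempty (Sylow 2 G) := inferInstance
  have hP : Nat.card (P : Subgroup G) = 2 := by
    have := Cfsg.Agent.S0228.sylow_card_of 2 P 1 q (by rw [hn]; ring) hq.not_two_dvd_nat
    simpa using this
  have hcyc : IsCyclic (P : Subgroup G) := isCyclic_of_prime_card (p := 2) hP
  obtain ⟨H, hH⟩ := Cfsg.Agent.S0219.result heven P hcyc
  exact no_index_two hgt H hH

theorem not_four (hgt : 2 < Nat.card G) (t : G) (ht : orderOf t = 2) (hn : Nat.card G = 4) :
    False := by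
  haveI : Fact (Nat.Prime 2) := ⟨Nat.prime_two⟩
  have hc := IsPGroup.isMulCommutative_of_card_eq_prime_sq (p := 2) (G := G) (by rw [hn]; norm_num)
  have hcb := center_eq_bot hgt t ht
  have : t ∈ Subgroup.center G := by
    rw [Subgroup.mem_center_iff]
    intro g
    exact hc.is_comm.comm g t
  rw [hcb, Subgroup.mem_bot] at this
  exact ne_one_of_order_two ht this

theorem not_twelve (hgt : 2 < Nat.card G) (t : G) (ht : orderOf t = 2) (hn : Nat.card G = 12) :
    False := by
  have hcb := center_eq_bot hgt t ht
  obtain ⟨e⟩ := Cfsg.Agent.S0228.result hn (by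
    intro z hz hzc
    rw [hcb, Subgroup.mem_bot] at hzc
    exact ne_one_of_order_two hz hzc)
  haveI := a4V_normal
  have hN : (a4V.comap e.toMonoidHom).Normal := inferInstance
  obtain ⟨a, ha, ha1⟩ := a4_ex1
  obtain ⟨b, hb⟩ := a4_ex2
  rcases hN.eq_bot_or_eq_top with h | h
  · have : e.symm a ∈ a4V.comap e.toMonoidHom := by
      rw [Subgroup.mem_comap]
      change e (e.symm a) ∈ a4V
      rw [MulEquiv.apply_symm_apply]; exact ha
    rw [h, Subgroup.mem_bot] at this
    apply ha1
    have h2 := congrArg e this
    rw [MulEquiv.apply_symm_apply, map_one] at h2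
    exact h2
  · have : e.symm b ∈ a4V.comap e.toMonoidHom := by rw [h]; trivial
    rw [Subgroup.mem_comap] at this
    change e (e.symm b) ∈ a4V at this
    rw [MulEquiv.apply_symm_apply] at this
    exact hb this

theorem not_twenty (hn : Nat.card G = 20) : False := by
  haveI : Fact (Nat.Prime 5) := ⟨by norm_num⟩
  obtain ⟨P⟩ : Nonempty (Sylow 5 G) := inferInstance
  have hP : Nat.card (P : Subgroup G) = 5 := by
    have := Cfsg.Agent.S0228.sylow_card_of 5 P 1 4 (by rw [hn]; norm_num) (by norm_num)
    simpa using this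
  have hidx : (P : Subgroup G).index = 4 := by
    have := Subgroup.card_mul_index (P : Subgroup G)
    rw [hP, hn] at this
    omega
  have h1 := card_sylow_modEq_one 5 G
  have h2 := Sylow.card_dvd_index P
  rw [hidx] at h2
  have h3 : Nat.card (Sylow 5 G) ≤ 4 := Nat.le_of_dvd (by norm_num) h2
  have h4 : Nat.card (Sylow 5 G) % 5 = 1 := h1
  have h5 : Nat.card (Sylow 5 G) = 1 := by omega
  haveI hsub : Subsingleton (Sylow 5 G) := (Nat.card_eq_one_iff_unique.mp h5).1
  have hnorm : (P : Subgroup G).Normal := Sylow.normal_of_subsingleton P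
  rcases hnorm.eq_bot_or_eq_top with h | h
  · rw [h, Subgroup.card_bot] at hP; omega
  · rw [h, Subgroup.card_top] at hP; omega

end

theorem result {G : Type*} [Group G] [Finite G] [IsSimpleGroup G] (heven : Even (Nat.card G)) (hgt : 2 < Nat.card G) : 3 * Nat.card {t : G // orderOf t = 2} < Nat.card G := by
  classical
  haveI : Fact (Nat.Prime 2) := ⟨Nat.prime_two⟩
  by_contra hcon
  rw [not_lt] at hcon
  obtain ⟨t, ht⟩ := exists_prime_orderOf_dvd_card' (G := G) 2 (even_iff_two_dvd.mp heven)
  have hcenter := center_eq_bot hgt t ht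
  have hZ : Odd (Nat.card (Subgroup.center G)) := by
    rw [hcenter, Subgroup.card_bot]; exact odd_one
  have hmpos : 0 < Nat.card {u : G // orderOf u = 2} :=
    Nat.card_pos_iff.mpr ⟨⟨⟨t, ht⟩⟩, inferInstance⟩
  obtain ⟨H, hH, hidx⟩ := Cfsg.Agent.S0233.result heven hZ
  have hk5 : H.index ≤ 5 := by
    rcases hidx with h2 | hlt
    · omega
    · have h1 : Nat.card G * (Nat.card G + Nat.card {u : G // orderOf u = 2}) ≤
          3 * Nat.card {u : G // orderOf u = 2} *
            (3 * Nat.card {u : G // orderOf u = 2} + Nat.card {u : G // orderOf u = 2}) :=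
        Nat.mul_le_mul hcon (by omega)
      generalize Nat.card {u : G // orderOf u = 2} = m at *
      generalize Nat.card G = n at *
      generalize H.index = k at *
      have h2 : m ^ 2 * (2 * k) < m ^ 2 * 12 := by nlinarith
      have h3 : 2 * k < 12 := Nat.lt_of_mul_lt_mul_left h2
      omega
  have hk2 : 2 ≤ H.index := by
    have h0 : H.index ≠ 0 := Subgroup.index_ne_zero_of_finite
    have h1 : H.index ≠ 1 := by rw [Ne, Subgroup.index_eq_one]; exact hH
    omega
  haveI : Fintype (G ⧸ H) := Fintype.ofFinite _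
  have hψ := toPermHom_injective H hH
  have hsign : ∀ g, Equiv.Perm.sign (MulAction.toPermHom G (G ⧸ H) g) = 1 := by
    rcases ((Equiv.Perm.sign.comp (MulAction.toPermHom G (G ⧸ H))).normal_ker).eq_bot_or_eq_top
      with h | h
    · exfalso
      have hinj : Function.Injective (Equiv.Perm.sign.comp (MulAction.toPermHom G (G ⧸ H))) :=
        (MonoidHom.ker_eq_bot_iff _).mp h
      have := Nat.card_le_card_of_injective _ hinj
      rw [Nat.card_eq_fintype_card (α := ℤˣ), Fintype.card_units_int] at this
      omega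
    · intro g
      have : g ∈ (Equiv.Perm.sign.comp (MulAction.toPermHom G (G ⧸ H))).ker := by rw [h]; trivial
      exact this
  let ψ' : G →* alternatingGroup (G ⧸ H) :=
    (MulAction.toPermHom G (G ⧸ H)).codRestrict _
      (fun g => Equiv.Perm.mem_alternatingGroup.mpr (hsign g))
  have hψ' : Function.Injective ψ' := by
    intro a b hab
    apply hψ
    exact congrArg Subtype.val hab
  have hdvd : Nat.card G ∣ Nat.card (alternatingGroup (G ⧸ H)) := by
    have := Subgroup.card_subgroup_dvd_card ψ'.range
    rwa [← Nat.card_congr (MonoidHom.ofInjective hψ').toEquiv] at this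
  haveI : Nontrivial (G ⧸ H) := Finite.one_lt_card_iff_nontrivial.mp hk2
  have hA : 2 * Nat.card (alternatingGroup (G ⧸ H)) = Nat.factorial H.index := by
    rw [two_mul_nat_card_alternatingGroup, Nat.card_perm]; rfl
  have hkc : H.index = 2 ∨ H.index = 3 ∨ H.index = 4 ∨ H.index = 5 := by omega
  have hsmall : ∀ a : ℕ, a = 1 ∨ a = 3 ∨ a = 12 → Nat.card G ∣ a → False := by
    intro a ha hd
    have h12 : Nat.card G ∣ 60 := by
      rcases ha with rfl | rfl | rfl
      · exact hd.trans (by norm_num)
      · exact hd.trans (by norm_num)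
      · exact hd.trans (by norm_num)
    have hle : Nat.card G ≤ 12 := by
      rcases ha with rfl | rfl | rfl <;> exact (Nat.le_of_dvd (by norm_num) hd).trans (by norm_num)
    rcases cases60 _ h12 heven hgt with h | h | h | h | h | h | h
    · exact not_four hgt t ht h
    · exact not_two_odd heven hgt 3 (by decide) (by rw [h])
    · exact not_two_odd heven hgt 5 (by decide) (by rw [h])
    · exact not_twelve hgt t ht h
    · omega
    · omega
    · omega
  have hf2 : Nat.factorial 2 = 2 := by decide
  have hf3 : Nat.factorial 3 = 6 := by decide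
  have hf4 : Nat.factorial 4 = 24 := by decide
  have hf5 : Nat.factorial 5 = 120 := by decide
  rcases hkc with h | h | h | h
  · rw [h, hf2] at hA
    exact hsmall _ (Or.inl (by omega)) hdvd
  · rw [h, hf3] at hA
    exact hsmall _ (Or.inr (Or.inl (by omega))) hdvd
  · rw [h, hf4] at hA
    exact hsmall _ (Or.inr (Or.inr (by omega))) hdvd
  · rw [h, hf5] at hA
    have hA60 : Nat.card (alternatingGroup (G ⧸ H)) = 60 := by omega
    rw [hA60] at hdvd
    rcases cases60 _ hdvd heven hgt with h' | h' | h' | h' | h' | h' | h'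
    · exact not_four hgt t ht h'
    · exact not_two_odd heven hgt 3 (by decide) (by rw [h'])
    · exact not_two_odd heven hgt 5 (by decide) (by rw [h'])
    · exact not_twelve hgt t ht h'
    · exact not_twenty h'
    · exact not_two_odd heven hgt 15 (by decide) (by rw [h'])
    · have hbij : Function.Bijective ψ' :=
        hψ'.bijective_of_nat_card_le (by rw [hA60, h'])
      have e1 : G ≃* alternatingGroup (G ⧸ H) := MulEquiv.ofBijective ψ' hbij
      have h5 : Nat.card (G ⧸ H) = 5 := h
      have e2 : alternatingGroup (G ⧸ H) ≃* alternatingGroup (Fin 5) :=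
        Equiv.altCongrHom (Finite.equivFinOfCardEq h5)
      have hm := invol_card_equiv (e1.trans e2)
      rw [a5_invol] at hm
      rw [hm, h'] at hcon
      omega

end Cfsg.Agent.S0234
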