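import Cfsg.Statements.S0235
import Cfsg.Agent.Lib.Helper5.Invol

set_option autoImplicit false
open Cfsg

namespace Cfsg.Agent.S0235

open Cfsg.Agent.Lib.Helper5 in
theorem result {G : Type*} [Group G] [Finite G] (x : G) (hx : x ^ 2 ≠ 1) : Nat.card {p : G × G // orderOf p.1 = 2 ∧ orderOf p.2 = 2 ∧ p.1 * p.2 = x} = Nat.card {t : G // orderOf t = 2 ∧ t * x * t⁻¹ = x⁻¹} := by
  apply Nat.card_congr
  refine ⟨fun p => ⟨p.1.1, p.2.1, ?_⟩, fun t => ⟨(t.1, t.1 * x), t.2.1, ?_, ?_⟩, ?_, ?_⟩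
  · obtain ⟨⟨u, v⟩, hu, hv, huv⟩ := p
    simp only at hu hv huv ⊢
    rw [← huv, mul_inv_rev, inv_of_order_two hu, inv_of_order_two hv, ← mul_assoc,
      sq_of_order_two hu, one_mul]
  · obtain ⟨t, ht, htx⟩ := t
    simp only
    rw [inv_of_order_two ht] at htx
    apply order_two_of_sq
    · intro h1
      have hxt : x = t := by
        have : x = t⁻¹ := eq_inv_of_mul_eq_one_right h1
        rw [this, inv_of_order_two ht]
      apply hx
      rw [pow_two, hxt]
      exact sq_of_order_two ht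
    · calc t * x * (t * x) = (t * x * t) * x := by group
        _ = 1 := by rw [htx, inv_mul_cancel]
  · obtain ⟨t, ht, htx⟩ := t
    simp only
    rw [← mul_assoc, sq_of_order_two ht, one_mul]
  · rintro ⟨⟨u, v⟩, hu, hv, huv⟩
    simp only at hu hv huv ⊢
    apply Subtype.ext
    simp only
    rw [← huv, ← mul_assoc, sq_of_order_two hu, one_mul]
  · rintro ⟨t, ht, htx⟩
    rfl

end Cfsg.Agent.S0235
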