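import Mathlib
import Cfsg.Statements.S0239

set_option autoImplicit false
open Cfsg

namespace Cfsg.Agent.S0239

/-- in a group of odd order only the identity is conjugate to its inverse -/
theorem eq_one_of_real_of_odd {G : Type*} [Group G] [Finite G] (hodd : Odd (Nat.card G)) (x g : G)
    (hg : g * x * g⁻¹ = x⁻¹) : x = 1 := by
  have hgo : Odd (orderOf g) := hodd.of_dvd_nat (orderOf_dvd_natCard g)
  obtain ⟨k, hk⟩ := hgo
  have h1 : g * x = x⁻¹ * g := by
    calc g * x = g * x * g⁻¹ * g := by group
      _ = x⁻¹ * g := by rw [hg]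
  have h1' : g * x⁻¹ = x * g := by
    have : g * x⁻¹ * g⁻¹ = x := by
      have := congrArg (fun y => y⁻¹) hg
      simp only [mul_inv_rev, inv_inv] at this
      rw [mul_assoc]; exact this
    calc g * x⁻¹ = g * x⁻¹ * g⁻¹ * g := by group
      _ = x * g := by rw [this]
  have h2 : Commute (g ^ 2) x := by
    change g ^ 2 * x = x * g ^ 2
    rw [pow_two]
    calc g * g * x = g * (g * x) := by group
      _ = g * (x⁻¹ * g) := by rw [h1]
      _ = (g * x⁻¹) * g := by group
      _ = x * g * g := by rw [h1']
      _ = x * (g * g) := by group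
  have h3 : Commute g x := by
    have h : g = (g ^ 2) ^ (k + 1) := by
      rw [← pow_mul]
      have : 2 * (k + 1) = orderOf g + 1 := by omega
      rw [this, pow_succ, pow_orderOf_eq_one, one_mul]
    rw [h]; exact h2.pow_left _
  have h4 : x = x⁻¹ := by
    rw [← hg, h3.eq]; group
  have h5 : x * x = 1 := by
    nth_rewrite 2 [h4]; group
  have h6 : orderOf x ∣ 2 := orderOf_dvd_of_pow_eq_one (by rw [pow_two]; exact h5)
  have h7 : Odd (orderOf x) := hodd.of_dvd_nat (orderOf_dvd_natCard x)
  have h8 : orderOf x = 1 := by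
    rcases (Nat.dvd_prime Nat.prime_two).mp h6 with h | h
    · exact h
    · rw [h] at h7; exact absurd h7 (by decide)
  exact orderOf_eq_one_iff.mp h8

theorem result {G : Type*} [Group G] [Finite G] (x : G) (hx : x ≠ 1) (hreal : IsConj x x⁻¹) : Even (Nat.card G) := by
  by_contra hodd
  rw [Nat.not_even_iff_odd] at hodd
  obtain ⟨g, hg⟩ := isConj_iff.mp hreal
  exact hx (eq_one_of_real_of_odd hodd x g hg)

end Cfsg.Agent.S0239
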