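import Mathlib
import Cfsg.Statements.S0240
import Cfsg.Agent.Lib.Helper5.Invol

set_option autoImplicit false
open Cfsg

namespace Cfsg.Agent.S0240

open Cfsg.Agent.Lib.Helper5 in
theorem result {G : Type*} [Group G] [Finite G] (H : Subgroup G) (hH : Nat.card G < Nat.card H * (Nat.card {t : G // orderOf t = 2} + 1)) : ∃ h : G, h ∈ H ∧ h ≠ 1 ∧ ∃ t : G, orderOf t = 2 ∧ t * h * t⁻¹ = h⁻¹ := by
  classical
  let s : Option {t : G // orderOf t = 2} → G := fun o => match o with
    | none => 1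
    | some t => t.1
  let f : H × Option {t : G // orderOf t = 2} → G := fun p => s p.2 * p.1.1
  have hcard : Nat.card G < Nat.card (H × Option {t : G // orderOf t = 2}) := by
    rw [Nat.card_prod, Finite.card_option]; exact hH
  have hninj : ¬ Function.Injective f := by
    intro hinj
    have := Nat.card_le_card_of_injective f hinj
    omega
  rw [Function.not_injective_iff] at hninj
  obtain ⟨⟨h₁, o₁⟩, ⟨h₂, o₂⟩, hf, hne⟩ := hninj
  change s o₁ * h₁.1 = s o₂ * h₂.1 at hf
  have ho : o₁ ≠ o₂ := by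
    intro h
    apply hne
    rw [h] at hf
    have : h₁ = h₂ := Subtype.ext (mul_left_cancel hf)
    rw [this, h]
  have hmem : (s o₁)⁻¹ * s o₂ ∈ H := by
    have : (s o₁)⁻¹ * s o₂ = h₁.1 * h₂.1⁻¹ := by
      calc (s o₁)⁻¹ * s o₂ = (s o₁)⁻¹ * (s o₂ * h₂.1) * h₂.1⁻¹ := by group
        _ = (s o₁)⁻¹ * (s o₁ * h₁.1) * h₂.1⁻¹ := by rw [hf]
        _ = h₁.1 * h₂.1⁻¹ := by group
    rw [this]
    exact H.mul_mem h₁.2 (H.inv_mem h₂.2)
  match o₁, o₂, ho, hmem with
  | none, none, ho, _ => exact absurd rfl ho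
  | none, some t, _, hmem =>
    simp only [s, inv_one, one_mul] at hmem
    refine ⟨t.1, hmem, ne_one_of_order_two t.2, t.1, t.2, ?_⟩
    rw [mul_inv_cancel_right]
    exact (inv_of_order_two t.2).symm
  | some t, none, _, hmem =>
    simp only [s, mul_one] at hmem
    rw [inv_of_order_two t.2] at hmem
    refine ⟨t.1, hmem, ne_one_of_order_two t.2, t.1, t.2, ?_⟩
    rw [mul_inv_cancel_right]
    exact (inv_of_order_two t.2).symm
  | some t₁, some t₂, ho, hmem =>
    simp only [s] at hmem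
    rw [inv_of_order_two t₁.2] at hmem
    refine ⟨t₁.1 * t₂.1, hmem, ?_, t₁.1, t₁.2, ?_⟩
    · intro h
      apply ho
      have : t₁.1 = t₂.1 := by
        have h' : t₁.1 = t₂.1⁻¹ := eq_inv_of_mul_eq_one_left h
        rw [h', inv_of_order_two t₂.2]
      rw [Subtype.ext this]
    · rw [mul_inv_rev, inv_of_order_two t₁.2, inv_of_order_two t₂.2, ← mul_assoc, sq_of_order_two t₁.2,
        one_mul]

end Cfsg.Agent.S0240
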