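import Mathlib
import Cfsg.Statements.S0241
import Cfsg.Agent.S0237
import Cfsg.Agent.Lib.Helper5.Invol

set_option autoImplicit false
open Cfsg

namespace Cfsg.Agent.S0241

open Cfsg.Agent.Lib.Helper5 in
theorem result {G : Type*} [Group G] [Finite G] (x : G) (hx : x ≠ 1) (hreal : IsConj x x⁻¹) (hodd : Odd (Nat.card (Subgroup.centralizer ({x} : Set G)))) : ∃ t : G, orderOf t = 2 ∧ t * x * t⁻¹ = x⁻¹ := by
  obtain ⟨g, hg⟩ := isConj_iff.mp hreal
  have h1 : g * x = x⁻¹ * g := by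
    calc g * x = g * x * g⁻¹ * g := by group
      _ = x⁻¹ * g := by rw [hg]
  have h1' : g * x⁻¹ = x * g := by
    have : g * x⁻¹ * g⁻¹ = x := by
      have := congrArg (fun y => y⁻¹) hg
      simp only [mul_inv_rev, inv_inv] at this
      rw [mul_assoc]; exact this
    calc g * x⁻¹ = g * x⁻¹ * g⁻¹ * g := by group
      _ = x * g := by rw [this]
  have h2 : x * g ^ 2 = g ^ 2 * x := by
    rw [pow_two]
    calc x * (g * g) = x * g * g := by group
      _ = g * x⁻¹ * g := by rw [h1']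
      _ = g * (x⁻¹ * g) := by group
      _ = g * (g * x) := by rw [h1]
      _ = g * g * x := by group
  have hc : g ^ 2 ∈ Subgroup.centralizer ({x} : Set G) :=
    (Cfsg.Agent.S0237.mem_centralizer_singleton x (g ^ 2)).mpr h2
  have hco : Odd (orderOf (g ^ 2)) := by
    have h := orderOf_dvd_natCard (⟨g ^ 2, hc⟩ : Subgroup.centralizer ({x} : Set G))
    rw [Subgroup.orderOf_mk] at h
    exact hodd.of_dvd_nat h
  obtain ⟨j, hj⟩ := hco
  have hcomm : Commute ((g ^ 2) ^ j) x := by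
    have : Commute (g ^ 2) x := h2.symm
    exact this.pow_left j
  refine ⟨g * (g ^ 2) ^ j, ?_, ?_⟩
  · apply order_two_of_sq
    · intro h
      have h3 : g * (g ^ 2) ^ j * x * (g * (g ^ 2) ^ j)⁻¹ = x⁻¹ := by
        calc g * (g ^ 2) ^ j * x * (g * (g ^ 2) ^ j)⁻¹
            = g * ((g ^ 2) ^ j * x) * ((g ^ 2) ^ j)⁻¹ * g⁻¹ := by group
          _ = g * (x * (g ^ 2) ^ j) * ((g ^ 2) ^ j)⁻¹ * g⁻¹ := by rw [hcomm.eq]
          _ = g * x * g⁻¹ := by group
          _ = x⁻¹ := hg
      rw [h] at h3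
      simp only [one_mul, inv_one, mul_one] at h3
      have h5 : x * x = 1 := by
        nth_rewrite 2 [h3]; group
      have h6 : orderOf x ∣ 2 := orderOf_dvd_of_pow_eq_one (by rw [pow_two]; exact h5)
      have hxc : x ∈ Subgroup.centralizer ({x} : Set G) :=
        (Cfsg.Agent.S0237.mem_centralizer_singleton x x).mpr rfl
      have h7 : Odd (orderOf x) := by
        have h := orderOf_dvd_natCard (⟨x, hxc⟩ : Subgroup.centralizer ({x} : Set G))
        rw [Subgroup.orderOf_mk] at h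
        exact hodd.of_dvd_nat h
      have h8 : orderOf x = 1 := by
        rcases (Nat.dvd_prime Nat.prime_two).mp h6 with h | h
        · exact h
        · rw [h] at h7; exact absurd h7 (by decide)
      exact hx (orderOf_eq_one_iff.mp h8)
    · have h9 : g * (g ^ 2) ^ j * (g * (g ^ 2) ^ j) = (g ^ 2) ^ (2 * j + 1) := by
        rw [← pow_mul, ← pow_mul]
        rw [← pow_succ', ← pow_add]
        congr 1
        ring
      rw [h9, ← hj, pow_orderOf_eq_one]
  · calc g * (g ^ 2) ^ j * x * (g * (g ^ 2) ^ j)⁻¹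
        = g * ((g ^ 2) ^ j * x) * ((g ^ 2) ^ j)⁻¹ * g⁻¹ := by group
      _ = g * (x * (g ^ 2) ^ j) * ((g ^ 2) ^ j)⁻¹ * g⁻¹ := by rw [hcomm.eq]
      _ = g * x * g⁻¹ := by group
      _ = x⁻¹ := hg

end Cfsg.Agent.S0241
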