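import Mathlib
import Cfsg.Statements.S0245
import Cfsg.Agent.Lib.Helper5.Symp

set_option autoImplicit false
open Cfsg

namespace Cfsg.Agent.S0245

open Matrix Cfsg.Agent.Lib.Helper5

section
variable {F : Type*} [Field F] (m : ℕ)

/-- index equivalence `Fin 1 ⊕ Fin m ≃ Fin (m + 1)` -/
def e1 : Fin 1 ⊕ Fin m ≃ Fin (m + 1) := finSumFinEquiv.trans (finCongr (add_comm 1 m))

/-- index equivalence splitting off the first hyperbolic pair -/
def ee : (Fin 1 ⊕ Fin 1) ⊕ (Fin m ⊕ Fin m) ≃ Fin (m + 1) ⊕ Fin (m + 1) :=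
  (Equiv.sumSumSumComm (Fin 1) (Fin 1) (Fin m) (Fin m)).trans (Equiv.sumCongr (e1 m) (e1 m))

theorem J_block : (Matrix.J (Fin (m + 1)) F).submatrix (ee m) (ee m) =
    fromBlocks (Matrix.J (Fin 1) F) 0 0 (Matrix.J (Fin m) F) := by
  ext ((a | a) | (a | a)) ((b | b) | (b | b)) <;>
    simp [ee, Matrix.J, Matrix.one_apply, Equiv.sumSumSumComm]

theorem e1_zero : e1 m (Sum.inl 0) = 0 := by
  apply Fin.ext
  simp [e1]

theorem ee_inl0 : ee m (Sum.inl (Sum.inl 0)) = Sum.inl 0 := by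
  simp [ee, Equiv.sumSumSumComm, e1_zero]

theorem ee_inr0 : ee m (Sum.inl (Sum.inr 0)) = Sum.inr 0 := by
  simp [ee, Equiv.sumSumSumComm, e1_zero]

theorem mem_sp_iff (A : Matrix (Fin (m + 1) ⊕ Fin (m + 1)) (Fin (m + 1) ⊕ Fin (m + 1)) F) :
    A ∈ Matrix.symplecticGroup (Fin (m + 1)) F ↔
    A.submatrix (ee m) (ee m) * fromBlocks (Matrix.J (Fin 1) F) 0 0 (Matrix.J (Fin m) F) *
      (A.submatrix (ee m) (ee m))ᵀ = fromBlocks (Matrix.J (Fin 1) F) 0 0 (Matrix.J (Fin m) F) := by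
  rw [← J_block, SymplecticGroup.mem_iff, transpose_submatrix, submatrix_mul_equiv, submatrix_mul_equiv]
  constructor
  · intro h; rw [h]
  · intro h
    have := congrArg (fun M => M.submatrix (ee m).symm (ee m).symm) h
    simpa using this

/-- embedding of the smaller symplectic group -/
def emb (h : Matrix (Fin m ⊕ Fin m) (Fin m ⊕ Fin m) F) :
    Matrix (Fin (m + 1) ⊕ Fin (m + 1)) (Fin (m + 1) ⊕ Fin (m + 1)) F :=
  (fromBlocks (1 : Matrix (Fin 1 ⊕ Fin 1) (Fin 1 ⊕ Fin 1) F) 0 0 h).submatrix (ee m).symm (ee m).symm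

theorem emb_sub (h : Matrix (Fin m ⊕ Fin m) (Fin m ⊕ Fin m) F) :
    (emb m h).submatrix (ee m) (ee m) = fromBlocks (1 : Matrix (Fin 1 ⊕ Fin 1) (Fin 1 ⊕ Fin 1) F) 0 0 h := by
  unfold emb
  rw [submatrix_submatrix]
  simp only [Equiv.symm_comp_self, submatrix_id_id]

theorem emb_mem (h : Matrix (Fin m ⊕ Fin m) (Fin m ⊕ Fin m) F)
    (hh : h ∈ Matrix.symplecticGroup (Fin m) F) :
    emb m h ∈ Matrix.symplecticGroup (Fin (m + 1)) F := by
  rw [mem_sp_iff, emb_sub, fromBlocks_transpose, fromBlocks_multiply, fromBlocks_multiply]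
  simp [SymplecticGroup.mem_iff.1 hh]

theorem col_eq (g : Matrix (Fin (m + 1) ⊕ Fin (m + 1)) (Fin (m + 1) ⊕ Fin (m + 1)) F)
    (j : Fin (m + 1) ⊕ Fin (m + 1)) :
    g *ᵥ Pi.single j 1 = Pi.single j 1 ↔ ∀ a, g a j = if a = j then 1 else 0 := by
  rw [mulVec_single_one]
  constructor
  · intro h a
    have := congrFun h a
    rw [Pi.single_apply] at this
    exact this
  · intro h
    ext a
    rw [Pi.single_apply]
    exact h a

theorem emb_fix_e (h : Matrix (Fin m ⊕ Fin m) (Fin m ⊕ Fin m) F) :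
    emb m h *ᵥ Pi.single (Sum.inl 0) 1 = Pi.single (Sum.inl 0) 1 := by
  rw [col_eq]
  intro a
  obtain ⟨x, rfl⟩ := (ee m).surjective a
  rw [← ee_inl0 m]
  have : emb m h (ee m x) (ee m (Sum.inl (Sum.inl 0))) =
      ((emb m h).submatrix (ee m) (ee m)) x (Sum.inl (Sum.inl 0)) := rfl
  rw [this, emb_sub]
  rcases x with (x | x) | x
  · simp [Matrix.one_apply]
  · simp [Matrix.one_apply]
  · simp

theorem emb_fix_f (h : Matrix (Fin m ⊕ Fin m) (Fin m ⊕ Fin m) F) :
    emb m h *ᵥ Pi.single (Sum.inr 0) 1 = Pi.single (Sum.inr 0) 1 := by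
  rw [col_eq]
  intro a
  obtain ⟨x, rfl⟩ := (ee m).surjective a
  rw [← ee_inr0 m]
  have : emb m h (ee m x) (ee m (Sum.inl (Sum.inr 0))) =
      ((emb m h).submatrix (ee m) (ee m)) x (Sum.inl (Sum.inr 0)) := rfl
  rw [this, emb_sub]
  rcases x with (x | x) | x
  · simp [Matrix.one_apply]
  · simp [Matrix.one_apply]
  · simp

theorem stab_form (g : Matrix (Fin (m + 1) ⊕ Fin (m + 1)) (Fin (m + 1) ⊕ Fin (m + 1)) F)
    (hg : g ∈ Matrix.symplecticGroup (Fin (m + 1)) F)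
    (he : g *ᵥ Pi.single (Sum.inl 0) 1 = Pi.single (Sum.inl 0) 1)
    (hf : g *ᵥ Pi.single (Sum.inr 0) 1 = Pi.single (Sum.inr 0) 1) :
    ∃ h ∈ Matrix.symplecticGroup (Fin m) F, g = emb m h := by
  rw [col_eq] at he hf
  have hA : (g.submatrix (ee m) (ee m)).toBlocks₁₁ = 1 := by
    ext x y
    rcases y with y | y
    · have hy : y = 0 := Subsingleton.elim _ _
      subst hy
      show g (ee m (Sum.inl x)) (ee m (Sum.inl (Sum.inl 0))) = _
      rw [ee_inl0, he, ← ee_inl0 m]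
      simp only [Equiv.apply_eq_iff_eq]
      rcases x with x | x <;> simp [Matrix.one_apply]
    · have hy : y = 0 := Subsingleton.elim _ _
      subst hy
      show g (ee m (Sum.inl x)) (ee m (Sum.inl (Sum.inr 0))) = _
      rw [ee_inr0, hf, ← ee_inr0 m]
      simp only [Equiv.apply_eq_iff_eq]
      rcases x with x | x <;> simp [Matrix.one_apply]
  have hC : (g.submatrix (ee m) (ee m)).toBlocks₂₁ = 0 := by
    ext x y
    rcases y with y | y
    · have hy : y = 0 := Subsingleton.elim _ _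
      subst hy
      show g (ee m (Sum.inr x)) (ee m (Sum.inl (Sum.inl 0))) = _
      rw [ee_inl0, he, ← ee_inl0 m]
      simp only [Equiv.apply_eq_iff_eq]
      simp
    · have hy : y = 0 := Subsingleton.elim _ _
      subst hy
      show g (ee m (Sum.inr x)) (ee m (Sum.inl (Sum.inr 0))) = _
      rw [ee_inr0, hf, ← ee_inr0 m]
      simp only [Equiv.apply_eq_iff_eq]
      simp
  have hM : g.submatrix (ee m) (ee m) = fromBlocks 1 (g.submatrix (ee m) (ee m)).toBlocks₁₂ 0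
      (g.submatrix (ee m) (ee m)).toBlocks₂₂ := by
    conv_lhs => rw [← fromBlocks_toBlocks (g.submatrix (ee m) (ee m)), hA, hC]
  rw [mem_sp_iff, hM, fromBlocks_transpose, fromBlocks_multiply, fromBlocks_multiply, fromBlocks_inj] at hg
  simp only [Matrix.one_mul, Matrix.zero_mul, Matrix.mul_zero, add_zero, zero_add, transpose_one,
    Matrix.mul_one, transpose_zero] at hg
  obtain ⟨-, h12, -, h22⟩ := hg
  have hD : (g.submatrix (ee m) (ee m)).toBlocks₂₂ ∈ Matrix.symplecticGroup (Fin m) F :=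
    SymplecticGroup.mem_iff.2 h22
  have hD' := SymplecticGroup.mem_iff'.1 hD
  have hB : (g.submatrix (ee m) (ee m)).toBlocks₁₂ = 0 := by
    have h1 : (g.submatrix (ee m) (ee m)).toBlocks₁₂ * Matrix.J (Fin m) F *
        ((g.submatrix (ee m) (ee m)).toBlocks₂₂)ᵀ * (Matrix.J (Fin m) F *
          (g.submatrix (ee m) (ee m)).toBlocks₂₂) = 0 := by
      rw [h12, Matrix.zero_mul]
    have h2 : (g.submatrix (ee m) (ee m)).toBlocks₁₂ * Matrix.J (Fin m) F *
        ((g.submatrix (ee m) (ee m)).toBlocks₂₂)ᵀ * (Matrix.J (Fin m) F *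
          (g.submatrix (ee m) (ee m)).toBlocks₂₂) =
        (g.submatrix (ee m) (ee m)).toBlocks₁₂ * (Matrix.J (Fin m) F *
        (((g.submatrix (ee m) (ee m)).toBlocks₂₂)ᵀ * Matrix.J (Fin m) F *
          (g.submatrix (ee m) (ee m)).toBlocks₂₂)) := by
      simp only [Matrix.mul_assoc]
    rw [h2, hD', Matrix.J_squared, Matrix.mul_neg, Matrix.mul_one, neg_eq_zero] at h1
    exact h1
  refine ⟨_, hD, ?_⟩
  unfold emb
  rw [hB] at hM
  rw [← hM, submatrix_submatrix]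
  simp only [Equiv.self_comp_symm, submatrix_id_id]

end

section count
variable {F : Type*} [Field F] [Fintype F] (m : ℕ)

theorem fiber_card (u : Fin m ⊕ Fin m → F) (hu : u ≠ 0) :
    Nat.card {v : Fin m ⊕ Fin m → F // Cfsg.sympForm m F u v = 1} * Fintype.card F =
      Fintype.card F ^ (2 * m) := by
  classical
  obtain ⟨a, ha⟩ := exists_sympForm_ne_zero m u hu
  have hV : Nat.card (Fin m ⊕ Fin m → F) = Fintype.card F ^ (2 * m) := by
    rw [Nat.card_fun, Nat.card_eq_fintype_card, Nat.card_eq_fintype_card, Fintype.card_sum,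
      Fintype.card_fin, two_mul]
  rw [← hV, ← Nat.card_congr (Equiv.sigmaFiberEquiv (fun v : Fin m ⊕ Fin m → F => Cfsg.sympForm m F u v)),
    Nat.card_sigma]
  have hfib : ∀ c : F, Nat.card {v : Fin m ⊕ Fin m → F // Cfsg.sympForm m F u v = c} =
      Nat.card {v : Fin m ⊕ Fin m → F // Cfsg.sympForm m F u v = 1} := by
    intro c
    apply Nat.card_congr
    refine Equiv.subtypeEquiv (Equiv.addRight (((1 - c) / Cfsg.sympForm m F u a) • a)) ?_
    intro v
    simp only [Equiv.coe_addRight]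
    rw [sympForm_add_right, sympForm_smul_right, div_mul_cancel₀ _ ha]
    constructor
    · intro h; rw [h]; ring
    · intro h; linear_combination h
  rw [Finset.sum_congr rfl (fun c _ => hfib c), Finset.sum_const, Finset.card_univ, smul_eq_mul,
    mul_comm]

theorem hp_card :
    Nat.card {p : (Fin m ⊕ Fin m → F) × (Fin m ⊕ Fin m → F) // Cfsg.sympForm m F p.1 p.2 = 1} *
      Fintype.card F = (Fintype.card F ^ (2 * m) - 1) * Fintype.card F ^ (2 * m) := by
  classical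
  rw [Nat.card_congr (Equiv.subtypeProdEquivSigmaSubtype
    (fun (u v : Fin m ⊕ Fin m → F) => Cfsg.sympForm m F u v = 1)), Nat.card_sigma, Finset.sum_mul]
  have h1 : ∀ u : Fin m ⊕ Fin m → F,
      Nat.card {v : Fin m ⊕ Fin m → F // Cfsg.sympForm m F u v = 1} * Fintype.card F =
      if u = 0 then 0 else Fintype.card F ^ (2 * m) := by
    intro u
    by_cases hu : u = 0
    · rw [if_pos hu]
      have : IsEmpty {v : Fin m ⊕ Fin m → F // Cfsg.sympForm m F u v = 1} := by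
        constructor
        rintro ⟨v, hv⟩
        rw [hu, sympForm_zero_left] at hv
        exact zero_ne_one hv
      rw [Nat.card_of_isEmpty, zero_mul]
    · rw [if_neg hu]
      exact fiber_card m u hu
  rw [Finset.sum_congr rfl (fun u _ => h1 u), Finset.sum_ite, Finset.sum_const_zero, zero_add,
    Finset.sum_const, smul_eq_mul]
  congr 1
  have hV : Fintype.card (Fin m ⊕ Fin m → F) = Fintype.card F ^ (2 * m) := by
    rw [Fintype.card_fun, Fintype.card_sum, Fintype.card_fin, two_mul]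
  rw [← hV, Finset.filter_not, Finset.card_sdiff_of_subset (Finset.filter_subset _ _), Finset.card_univ,
    Finset.filter_eq', if_pos (Finset.mem_univ _), Finset.card_singleton]

theorem orbit_stab {G X : Type*} [Group G] [MulAction G X] (b : X) :
    Nat.card (MulAction.orbit G b) * Nat.card (MulAction.stabilizer G b) = Nat.card G := by
  rw [Nat.card_congr (MulAction.orbitEquivQuotientStabilizer G b),
    ← Subgroup.card_eq_card_quotient_mul_card_subgroup]

theorem orbit_stab' {G X : Type*} [Group G] (act : G → X → X) (h1 : ∀ x, act 1 x = x)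
    (hmul : ∀ g h x, act (g * h) x = act g (act h x)) (b : X) :
    Nat.card {x : X // ∃ g : G, act g b = x} * Nat.card {g : G // act g b = b} = Nat.card G := by
  letI : MulAction G X := { smul := act, one_smul := h1, mul_smul := hmul }
  have := orbit_stab (G := G) b
  exact this

theorem step : Nat.card (Matrix.symplecticGroup (Fin (m + 1)) F) * Fintype.card F =
    (Fintype.card F ^ (2 * (m + 1)) - 1) * Fintype.card F ^ (2 * (m + 1)) *
      Nat.card (Matrix.symplecticGroup (Fin m) F) := by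
  classical
  have hos := orbit_stab' (G := Matrix.symplecticGroup (Fin (m + 1)) F)
    (X := (Fin (m + 1) ⊕ Fin (m + 1) → F) × (Fin (m + 1) ⊕ Fin (m + 1) → F))
    (fun g p => ((g : Matrix (Fin (m + 1) ⊕ Fin (m + 1)) (Fin (m + 1) ⊕ Fin (m + 1)) F) *ᵥ p.1,
      (g : Matrix (Fin (m + 1) ⊕ Fin (m + 1)) (Fin (m + 1) ⊕ Fin (m + 1)) F) *ᵥ p.2))
    (by
      intro p
      show ((1 : Matrix (Fin (m + 1) ⊕ Fin (m + 1)) (Fin (m + 1) ⊕ Fin (m + 1)) F) *ᵥ p.1,
        (1 : Matrix (Fin (m + 1) ⊕ Fin (m + 1)) (Fin (m + 1) ⊕ Fin (m + 1)) F) *ᵥ p.2) = p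
      rw [one_mulVec, one_mulVec])
    (by
      intro g h p
      show (((g : Matrix (Fin (m + 1) ⊕ Fin (m + 1)) (Fin (m + 1) ⊕ Fin (m + 1)) F) *
          (h : Matrix (Fin (m + 1) ⊕ Fin (m + 1)) (Fin (m + 1) ⊕ Fin (m + 1)) F)) *ᵥ p.1,
        ((g : Matrix (Fin (m + 1) ⊕ Fin (m + 1)) (Fin (m + 1) ⊕ Fin (m + 1)) F) *
          (h : Matrix (Fin (m + 1) ⊕ Fin (m + 1)) (Fin (m + 1) ⊕ Fin (m + 1)) F)) *ᵥ p.2) = _
      rw [← mulVec_mulVec, ← mulVec_mulVec])
    ((Pi.single (Sum.inr 0) 1, Pi.single (Sum.inl 0) 1) :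
      (Fin (m + 1) ⊕ Fin (m + 1) → F) × (Fin (m + 1) ⊕ Fin (m + 1) → F))
  have hp0 : Cfsg.sympForm (m + 1) F (Pi.single (Sum.inr 0) 1) (Pi.single (Sum.inl 0) 1) = 1 := by
    rw [sympForm_single_inl, Pi.single_eq_same]
  have horb : Nat.card {x : (Fin (m + 1) ⊕ Fin (m + 1) → F) × (Fin (m + 1) ⊕ Fin (m + 1) → F) //
      ∃ g : Matrix.symplecticGroup (Fin (m + 1)) F,
        ((g : Matrix (Fin (m + 1) ⊕ Fin (m + 1)) (Fin (m + 1) ⊕ Fin (m + 1)) F) *ᵥ
          (Pi.single (Sum.inr 0) 1 : Fin (m + 1) ⊕ Fin (m + 1) → F),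
        (g : Matrix (Fin (m + 1) ⊕ Fin (m + 1)) (Fin (m + 1) ⊕ Fin (m + 1)) F) *ᵥ
          (Pi.single (Sum.inl 0) 1 : Fin (m + 1) ⊕ Fin (m + 1) → F)) = x} =
      Nat.card {p : (Fin (m + 1) ⊕ Fin (m + 1) → F) × (Fin (m + 1) ⊕ Fin (m + 1) → F) //
        Cfsg.sympForm (m + 1) F p.1 p.2 = 1} := by
    apply Nat.card_congr
    apply Equiv.subtypeEquivRight
    intro p
    constructor
    · rintro ⟨g, rfl⟩
      show Cfsg.sympForm (m + 1) F ((g : Matrix (Fin (m + 1) ⊕ Fin (m + 1)) (Fin (m + 1) ⊕ Fin (m + 1)) F) *ᵥ _)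
        ((g : Matrix (Fin (m + 1) ⊕ Fin (m + 1)) (Fin (m + 1) ⊕ Fin (m + 1)) F) *ᵥ _) = 1
      rw [sympForm_mulVec_of_mem (m + 1) _ g.2, hp0]
    · intro hp
      obtain ⟨A, _, h1, h2⟩ := trans_pair (m + 1) _ _ p.1 p.2 hp0 hp
      refine ⟨A, ?_⟩
      rw [h1, h2]
  have hstab : Nat.card {g : Matrix.symplecticGroup (Fin (m + 1)) F //
        ((g : Matrix (Fin (m + 1) ⊕ Fin (m + 1)) (Fin (m + 1) ⊕ Fin (m + 1)) F) *ᵥ
          (Pi.single (Sum.inr 0) 1 : Fin (m + 1) ⊕ Fin (m + 1) → F),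
        (g : Matrix (Fin (m + 1) ⊕ Fin (m + 1)) (Fin (m + 1) ⊕ Fin (m + 1)) F) *ᵥ
          (Pi.single (Sum.inl 0) 1 : Fin (m + 1) ⊕ Fin (m + 1) → F)) =
        (Pi.single (Sum.inr 0) 1, Pi.single (Sum.inl 0) 1)} =
      Nat.card (Matrix.symplecticGroup (Fin m) F) := by
    symm
    apply Nat.card_congr
    refine Equiv.ofBijective (fun h => ⟨⟨emb m (h : Matrix (Fin m ⊕ Fin m) (Fin m ⊕ Fin m) F),
      emb_mem m _ h.2⟩, ?_⟩) ⟨?_, ?_⟩
    · show (emb m (h : Matrix (Fin m ⊕ Fin m) (Fin m ⊕ Fin m) F) *ᵥ _,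
        emb m (h : Matrix (Fin m ⊕ Fin m) (Fin m ⊕ Fin m) F) *ᵥ _) = _
      rw [emb_fix_e, emb_fix_f]
    · intro h h' hh
      have h1 : emb m (h : Matrix (Fin m ⊕ Fin m) (Fin m ⊕ Fin m) F) =
          emb m (h' : Matrix (Fin m ⊕ Fin m) (Fin m ⊕ Fin m) F) := by
        have := congrArg (fun x => ((x.1 : Matrix.symplecticGroup (Fin (m + 1)) F) :
              Matrix (Fin (m + 1) ⊕ Fin (m + 1)) (Fin (m + 1) ⊕ Fin (m + 1)) F)) hh
        exact this
      have h2 := congrArg (fun M : Matrix (Fin (m + 1) ⊕ Fin (m + 1)) (Fin (m + 1) ⊕ Fin (m + 1)) F =>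
        M.submatrix (ee m) (ee m)) h1
      simp only [emb_sub] at h2
      rw [fromBlocks_inj] at h2
      exact Subtype.ext h2.2.2.2
    · rintro ⟨g, hg⟩
      rw [Prod.mk.injEq] at hg
      obtain ⟨h, hh, hgh⟩ := stab_form m _ g.2 hg.2 hg.1
      refine ⟨⟨h, hh⟩, ?_⟩
      apply Subtype.ext
      apply Subtype.ext
      exact hgh.symm
  rw [horb, hstab] at hos
  have hc := hp_card (F := F) (m + 1)
  rw [← hos, ← hc]
  ring

theorem card_sp : ∀ m : ℕ, Nat.card (Matrix.symplecticGroup (Fin m) F) =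
    Fintype.card F ^ (m ^ 2) * ∏ i ∈ Finset.range m, (Fintype.card F ^ (2 * (i + 1)) - 1) := by
  intro m
  induction m with
  | zero =>
    have : Subsingleton (Matrix.symplecticGroup (Fin 0) F) := by
      constructor
      intro a b
      apply Subtype.ext
      ext i
      rcases i with i | i <;> exact i.elim0
    simp
  | succ m ih =>
    have hq : 0 < Fintype.card F := Fintype.card_pos
    apply Nat.eq_of_mul_eq_mul_right hq
    rw [step, ih, Finset.prod_range_succ]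
    have : (m + 1) ^ 2 + 1 = 2 * (m + 1) + m ^ 2 := by ring
    calc (Fintype.card F ^ (2 * (m + 1)) - 1) * Fintype.card F ^ (2 * (m + 1)) *
          (Fintype.card F ^ m ^ 2 * ∏ i ∈ Finset.range m, (Fintype.card F ^ (2 * (i + 1)) - 1))
        = Fintype.card F ^ (2 * (m + 1) + m ^ 2) * ((∏ i ∈ Finset.range m, (Fintype.card F ^ (2 * (i + 1)) - 1)) *
            (Fintype.card F ^ (2 * (m + 1)) - 1)) := by rw [pow_add]; ring
      _ = Fintype.card F ^ (m + 1) ^ 2 * ((∏ i ∈ Finset.range m, (Fintype.card F ^ (2 * (i + 1)) - 1)) *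
            (Fintype.card F ^ (2 * (m + 1)) - 1)) * Fintype.card F := by rw [← this, pow_succ]; ring

end count

/-- Order of the finite symplectic group: |Sp_{2m}(q)| = q^(m^2) * prod_{i=1}^{m} (q^(2i) - 1). -/
theorem result {F : Type*} [Field F] [Fintype F] {q : ℕ} (hF : Fintype.card F = q) (m : ℕ) : Nat.card (Matrix.symplecticGroup (Fin m) F) = q ^ (m ^ 2) * ∏ i ∈ Finset.range m, (q ^ (2 * (i + 1)) - 1) := by
  subst hF
  exact card_sp m

end Cfsg.Agent.S0245
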