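import Mathlib
import Cfsg.Statements.S0839

set_option autoImplicit false
open Cfsg

namespace Cfsg.Agent.S0839

open Matrix

section
variable {F : Type*} [Field F] {ι : Type} [Fintype ι] [DecidableEq ι]

theorem cm (A B : SpecialLinearGroup ι F) :
    ((A * B : SpecialLinearGroup ι F) : Matrix ι ι F) = (A : Matrix ι ι F) * (B : Matrix ι ι F) := rfl

theorem c1 : ((1 : SpecialLinearGroup ι F) : Matrix ι ι F) = 1 := rfl

theorem conj_form (g t : SpecialLinearGroup ι F) (a b : ι → F)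
    (ht : (t : Matrix ι ι F) = 1 + vecMulVec a b) :
    ((g⁻¹ * t * g : SpecialLinearGroup ι F) : Matrix ι ι F) =
      1 + vecMulVec (((g⁻¹ : SpecialLinearGroup ι F) : Matrix ι ι F) *ᵥ a) (b ᵥ* (g : Matrix ι ι F)) := by
  have h1 : ((g⁻¹ : SpecialLinearGroup ι F) : Matrix ι ι F) * (g : Matrix ι ι F) = 1 := by
    rw [← cm, inv_mul_cancel, c1]
  rw [cm, cm, ht, mul_add, add_mul, mul_one, h1,
    mul_vecMulVec, vecMulVec_mul]

theorem inv_mulVec_eq (g : SpecialLinearGroup ι F) (x y : ι → F)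
    (h : (g : Matrix ι ι F) *ᵥ y = x) :
    ((g⁻¹ : SpecialLinearGroup ι F) : Matrix ι ι F) *ᵥ x = y := by
  have h1 : ((g⁻¹ : SpecialLinearGroup ι F) : Matrix ι ι F) * (g : Matrix ι ι F) = 1 := by
    rw [← cm, inv_mul_cancel, c1]
  rw [← h, mulVec_mulVec, h1, one_mulVec]

theorem rank_one_decomp (N : Matrix ι ι F) (h : N.rank = 1) :
    ∃ a b : ι → F, N = vecMulVec a b := by
  have hfr : Module.finrank F (LinearMap.range N.mulVecLin) = 1 := h
  obtain ⟨⟨a, ha⟩, ha0, hspan⟩ := finrank_eq_one_iff'.1 hfr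
  have hc : ∀ j : ι, ∃ c : F, c • a = N *ᵥ Pi.single j 1 := by
    intro j
    obtain ⟨c, hc⟩ := hspan ⟨N *ᵥ Pi.single j 1, LinearMap.mem_range.2 ⟨_, rfl⟩⟩
    refine ⟨c, ?_⟩
    have := congrArg Subtype.val hc
    exact this
  choose b hb using hc
  refine ⟨a, b, ?_⟩
  ext i j
  rw [vecMulVec_apply]
  have h1 := congrFun (hb j) i
  rw [mulVec_single_one] at h1
  have h2 : b j * a i = N i j := h1
  rw [← h2, mul_comm]

theorem transv_form (t : Matrix ι ι F) (ht : Cfsg.IsTransvection t) :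
    ∃ a b : ι → F, t = 1 + vecMulVec a b ∧ b ⬝ᵥ a = 0 ∧ a ≠ 0 ∧ b ≠ 0 := by
  obtain ⟨h1, h2⟩ := ht
  obtain ⟨a, b, hab⟩ := rank_one_decomp _ h1
  have hN : vecMulVec a b ≠ 0 := by
    intro h0
    rw [hab, h0, Matrix.rank_zero] at h1
    exact zero_ne_one h1
  refine ⟨a, b, by rw [← hab]; abel, ?_, ?_, ?_⟩
  · rw [hab, vecMulVec_mul_vecMulVec] at h2
    by_contra hne
    apply hN
    ext i j
    have h3 := congrFun (congrFun h2 i) j
    simp only [vecMulVec_apply, Pi.smul_apply, smul_eq_mul, Matrix.zero_apply] at h3 ⊢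
    rcases mul_eq_zero.1 h3 with h | h
    · rw [h, zero_mul]
    · rcases mul_eq_zero.1 h with h' | h'
      · exact absurd h' hne
      · rw [h', mul_zero]
  · rintro rfl; apply hN; ext i j; simp [vecMulVec_apply]
  · rintro rfl; apply hN; ext i j; simp [vecMulVec_apply]

/-- the matrix `1 + u vᵀ` with `vᵀ u = 0`, as an element of the special linear group -/
def elemSL (u v : ι → F) (h : v ⬝ᵥ u = 0) : SpecialLinearGroup ι F :=
  ⟨1 + vecMulVec u v, by
    rw [vecMulVec_eq Unit, det_one_add_replicateCol_mul_replicateRow, h, add_zero]⟩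

theorem vecMul_elemSL (u v : ι → F) (h : v ⬝ᵥ u = 0) (x : ι → F) :
    x ᵥ* ((elemSL u v h : SpecialLinearGroup ι F) : Matrix ι ι F) = x + (x ⬝ᵥ u) • v := by
  show x ᵥ* (1 + vecMulVec u v) = _
  rw [vecMul_add, vecMul_one, vecMul_vecMulVec]

theorem elemSL_mulVec (u v : ι → F) (h : v ⬝ᵥ u = 0) (x : ι → F) :
    ((elemSL u v h : SpecialLinearGroup ι F) : Matrix ι ι F) *ᵥ x = x + (v ⬝ᵥ x) • u := by
  show (1 + vecMulVec u v) *ᵥ x = _
  rw [add_mulVec, one_mulVec, vecMulVec_mulVec, op_smul_eq_smul]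

theorem row_norm (i0 : ι) (b : ι → F) (hb : b ≠ 0) :
    ∃ (g : SpecialLinearGroup ι F) (c : F), c ≠ 0 ∧
      b ᵥ* (g : Matrix ι ι F) = c • Pi.single i0 1 := by
  have main : ∀ b : ι → F, b i0 ≠ 0 → ∃ (g : SpecialLinearGroup ι F) (c : F), c ≠ 0 ∧
      b ᵥ* (g : Matrix ι ι F) = c • Pi.single i0 1 := by
    intro b hb0
    have hu : (Pi.single i0 1 - (b i0)⁻¹ • b : ι → F) ⬝ᵥ (Pi.single i0 1 : ι → F) = 0 := by
      rw [dotProduct_single, mul_one, Pi.sub_apply, Pi.single_eq_same, Pi.smul_apply, smul_eq_mul,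
        inv_mul_cancel₀ hb0, sub_self]
    refine ⟨elemSL (Pi.single i0 1) (Pi.single i0 1 - (b i0)⁻¹ • b) hu, b i0, hb0, ?_⟩
    rw [vecMul_elemSL, dotProduct_single, mul_one, smul_sub, smul_smul, mul_inv_cancel₀ hb0, one_smul]
    abel
  by_cases hb0 : b i0 = 0
  · obtain ⟨k, hk⟩ : ∃ k, b k ≠ 0 := by
      by_contra hcon
      push Not at hcon
      exact hb (funext hcon)
    have hki : k ≠ i0 := fun h => hk (h ▸ hb0)
    have hT : (Pi.single i0 1 : ι → F) ⬝ᵥ (Pi.single k 1 : ι → F) = 0 := by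
      rw [dotProduct_single, mul_one, Pi.single_eq_of_ne hki]
    have hb' : (b ᵥ* ((elemSL (Pi.single k 1) (Pi.single i0 1) hT : SpecialLinearGroup ι F) :
        Matrix ι ι F)) i0 ≠ 0 := by
      rw [vecMul_elemSL, dotProduct_single, mul_one, Pi.add_apply, Pi.smul_apply, Pi.single_eq_same,
        hb0, zero_add, smul_eq_mul, mul_one]
      exact hk
    obtain ⟨g, c, hc, hg⟩ := main _ hb'
    refine ⟨elemSL (Pi.single k 1) (Pi.single i0 1) hT * g, c, hc, ?_⟩
    rw [cm, ← vecMul_vecMul, hg]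
  · exact main b hb0

theorem col_norm (i0 i1 : ι) (h01 : i1 ≠ i0) (v : ι → F) (hv : v ≠ 0) (hv0 : v i0 = 0) :
    ∃ (h : SpecialLinearGroup ι F) (c : F), c ≠ 0 ∧
      (Pi.single i0 1 : ι → F) ᵥ* (h : Matrix ι ι F) = Pi.single i0 1 ∧
      (h : Matrix ι ι F) *ᵥ (c • Pi.single i1 1) = v := by
  have main : ∀ v : ι → F, v i1 ≠ 0 → v i0 = 0 → ∃ (h : SpecialLinearGroup ι F) (c : F), c ≠ 0 ∧
      (Pi.single i0 1 : ι → F) ᵥ* (h : Matrix ι ι F) = Pi.single i0 1 ∧
      (h : Matrix ι ι F) *ᵥ (c • Pi.single i1 1) = v := by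
    intro v hv1 hv0
    have hu : (Pi.single i1 1 : ι → F) ⬝ᵥ ((v i1)⁻¹ • v - Pi.single i1 1 : ι → F) = 0 := by
      rw [single_dotProduct, one_mul, Pi.sub_apply, Pi.single_eq_same, Pi.smul_apply, smul_eq_mul,
        inv_mul_cancel₀ hv1, sub_self]
    refine ⟨elemSL ((v i1)⁻¹ • v - Pi.single i1 1) (Pi.single i1 1) hu, v i1, hv1, ?_, ?_⟩
    · rw [vecMul_elemSL, single_dotProduct, one_mul, Pi.sub_apply, Pi.smul_apply, hv0, smul_eq_mul,
        mul_zero, Pi.single_eq_of_ne h01.symm, sub_zero, zero_smul, add_zero]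
    · rw [elemSL_mulVec, single_dotProduct, one_mul, Pi.smul_apply, Pi.single_eq_same, smul_eq_mul,
        mul_one, smul_sub, smul_smul, mul_inv_cancel₀ hv1, one_smul]
      abel
  by_cases hv1 : v i1 = 0
  · obtain ⟨k, hk⟩ : ∃ k, v k ≠ 0 := by
      by_contra hcon
      push Not at hcon
      exact hv (funext hcon)
    have hk1 : k ≠ i1 := fun h => hk (h ▸ hv1)
    have hT : (Pi.single k 1 : ι → F) ⬝ᵥ (Pi.single i1 1 : ι → F) = 0 := by
      rw [dotProduct_single, mul_one, Pi.single_eq_of_ne hk1.symm]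
    have hTv : ((elemSL (Pi.single i1 1) (Pi.single k 1) hT : SpecialLinearGroup ι F) :
        Matrix ι ι F) *ᵥ v = v + v k • Pi.single i1 1 := by
      rw [elemSL_mulVec, single_dotProduct, one_mul]
    have h1 : (v + v k • (Pi.single i1 1 : ι → F)) i1 ≠ 0 := by
      rw [Pi.add_apply, Pi.smul_apply, Pi.single_eq_same, hv1, zero_add, smul_eq_mul, mul_one]
      exact hk
    have h0 : (v + v k • (Pi.single i1 1 : ι → F)) i0 = 0 := by
      rw [Pi.add_apply, Pi.smul_apply, Pi.single_eq_of_ne h01.symm, hv0, zero_add, smul_eq_mul,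
        mul_zero]
    obtain ⟨h', c, hc, hrow, hcol⟩ := main _ h1 h0
    have hTrow : (Pi.single i0 1 : ι → F) ᵥ*
        ((elemSL (Pi.single i1 1) (Pi.single k 1) hT : SpecialLinearGroup ι F) : Matrix ι ι F) =
        Pi.single i0 1 := by
      rw [vecMul_elemSL, single_dotProduct, one_mul, Pi.single_eq_of_ne h01.symm, zero_smul, add_zero]
    have hTT : ((elemSL (Pi.single i1 1) (Pi.single k 1) hT : SpecialLinearGroup ι F) : Matrix ι ι F) *
        (((elemSL (Pi.single i1 1) (Pi.single k 1) hT)⁻¹ : SpecialLinearGroup ι F) : Matrix ι ι F) = 1 := by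
      rw [← cm, mul_inv_cancel, c1]
    refine ⟨(elemSL (Pi.single i1 1) (Pi.single k 1) hT)⁻¹ * h', c, hc, ?_, ?_⟩
    · rw [cm, ← vecMul_vecMul]
      have : (Pi.single i0 1 : ι → F) ᵥ*
          (((elemSL (Pi.single i1 1) (Pi.single k 1) hT)⁻¹ : SpecialLinearGroup ι F) : Matrix ι ι F) =
          Pi.single i0 1 := by
        conv_lhs => rw [← hTrow]
        rw [vecMul_vecMul, hTT, vecMul_one]
      rw [this, hrow]
    · rw [cm, ← mulVec_mulVec, hcol]
      exact inv_mulVec_eq _ _ _ hTv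
  · exact main v hv1 hv0

theorem normal1 (i0 : ι) (t : SpecialLinearGroup ι F)
    (ht : Cfsg.IsTransvection (t : Matrix ι ι F)) :
    ∃ (g : SpecialLinearGroup ι F) (v : ι → F), v i0 = 0 ∧ v ≠ 0 ∧
      ((g⁻¹ * t * g : SpecialLinearGroup ι F) : Matrix ι ι F) = 1 + vecMulVec v (Pi.single i0 1) := by
  obtain ⟨a, b, hab, hba, ha, hb⟩ := transv_form _ ht
  obtain ⟨g, c, hc, hg⟩ := row_norm i0 b hb
  have hgg : (g : Matrix ι ι F) * ((g⁻¹ : SpecialLinearGroup ι F) : Matrix ι ι F) = 1 := by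
    rw [← cm, mul_inv_cancel, c1]
  refine ⟨g, c • (((g⁻¹ : SpecialLinearGroup ι F) : Matrix ι ι F) *ᵥ a), ?_, ?_, ?_⟩
  · have h1 : (b ᵥ* (g : Matrix ι ι F)) ⬝ᵥ (((g⁻¹ : SpecialLinearGroup ι F) : Matrix ι ι F) *ᵥ a) = 0 := by
      rw [← dotProduct_mulVec, mulVec_mulVec, hgg, one_mulVec, hba]
    rw [hg, smul_dotProduct, single_dotProduct, one_mul] at h1
    exact h1
  · intro h0
    rcases smul_eq_zero.1 h0 with h | h
    · exact hc h
    · apply ha
      have := congrArg (fun x => (g : Matrix ι ι F) *ᵥ x) h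
      simp only [mulVec_mulVec, hgg, one_mulVec, mulVec_zero] at this
      exact this
  · rw [conj_form g t a b hab, hg]
    congr 1
    ext i j
    simp only [vecMulVec_apply, Pi.smul_apply, smul_eq_mul]
    ring

theorem normal2 (i0 i1 : ι) (h01 : i1 ≠ i0) (t : SpecialLinearGroup ι F)
    (ht : Cfsg.IsTransvection (t : Matrix ι ι F)) :
    ∃ (g : SpecialLinearGroup ι F) (c : F), c ≠ 0 ∧
      ((g⁻¹ * t * g : SpecialLinearGroup ι F) : Matrix ι ι F) =
        1 + vecMulVec (c • Pi.single i1 1) (Pi.single i0 1) := by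
  obtain ⟨g1, v, hv0, hv, h1⟩ := normal1 i0 t ht
  obtain ⟨h, c, hc, hrow, hcol⟩ := col_norm i0 i1 h01 v hv hv0
  refine ⟨g1 * h, c, hc, ?_⟩
  have e : (g1 * h)⁻¹ * t * (g1 * h) = h⁻¹ * (g1⁻¹ * t * g1) * h := by group
  rw [e, conj_form h _ _ _ h1, hrow, inv_mulVec_eq h _ _ hcol]

theorem normal3 (i0 i1 i2 : ι) (h01 : i1 ≠ i0) (h02 : i2 ≠ i0) (h12 : i1 ≠ i2)
    (t : SpecialLinearGroup ι F) (ht : Cfsg.IsTransvection (t : Matrix ι ι F)) :
    ∃ (g : SpecialLinearGroup ι F),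
      ((g⁻¹ * t * g : SpecialLinearGroup ι F) : Matrix ι ι F) =
        1 + vecMulVec (Pi.single i1 1) (Pi.single i0 1) := by
  obtain ⟨g1, c, hc, h1⟩ := normal2 i0 i1 h01 t ht
  refine ⟨g1 * SpecialLinearGroup.diag2n h12 c hc, ?_⟩
  have e : (g1 * SpecialLinearGroup.diag2n h12 c hc)⁻¹ * t * (g1 * SpecialLinearGroup.diag2n h12 c hc) =
      (SpecialLinearGroup.diag2n h12 c hc)⁻¹ * (g1⁻¹ * t * g1) * SpecialLinearGroup.diag2n h12 c hc := by
    group
  rw [e, conj_form _ _ _ _ h1]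
  have hcol : ((SpecialLinearGroup.diag2n h12 c hc : SpecialLinearGroup ι F) : Matrix ι ι F) *ᵥ
      (Pi.single i1 1) = c • Pi.single i1 1 := by
    rw [SpecialLinearGroup.diag2n_coe, diagonal_mulVec_single, if_pos rfl, mul_one]
    ext j
    by_cases hj : j = i1
    · subst hj; simp
    · simp [Pi.single_eq_of_ne hj]
  have hrow : (Pi.single i0 1 : ι → F) ᵥ*
      ((SpecialLinearGroup.diag2n h12 c hc : SpecialLinearGroup ι F) : Matrix ι ι F) = Pi.single i0 1 := by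
    rw [SpecialLinearGroup.diag2n_coe, single_vecMul_diagonal, if_neg h01.symm, if_neg h02.symm, mul_one]
  rw [hrow, inv_mulVec_eq _ _ _ hcol]

end

/-- Every transvection t ∈ SL_(n+2)(F) (rank(t − 1) = 1, (t − 1)² = 0) is conjugate in SL_(n+2)(F) to 1 + v·e_0ᵀ for some column vector v with v_0 = 0 (the group A of matrices that are the identity except in the first column below the diagonal); the dimension is written n + 2 ≥ 2. -/
theorem result {F : Type*} [Field F] (n : ℕ) (t : Matrix.SpecialLinearGroup (Fin (n + 2)) F) (ht : Cfsg.IsTransvection (t : Matrix (Fin (n + 2)) (Fin (n + 2)) F)) : ∃ (g : Matrix.SpecialLinearGroup (Fin (n + 2)) F) (v : Fin (n + 2) → F), v 0 = 0 ∧ ((g⁻¹ * t * g : Matrix.SpecialLinearGroup (Fin (n + 2)) F) : Matrix (Fin (n + 2)) (Fin (n + 2)) F) = 1 + Matrix.vecMulVec v (Pi.single 0 1) := by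
  obtain ⟨g, v, hv0, _, h⟩ := normal1 (0 : Fin (n + 2)) t ht
  exact ⟨g, v, hv0, h⟩

end Cfsg.Agent.S0839
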