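import Mathlib
import Cfsg.Statements.S2594
import Cfsg.Agent.Lib.Helper5.Symp
import Cfsg.Agent.S0839
import Cfsg.Agent.S0245

set_option autoImplicit false
open Cfsg

namespace Cfsg.Agent.S2594

open Matrix Cfsg.Agent.Lib.Helper5

section
variable {F : Type*} [Field F] (m : ℕ)

theorem rank_one_transv (g : Matrix.symplecticGroup (Fin m) F)
    (hr : ((g : Matrix (Fin m ⊕ Fin m) (Fin m ⊕ Fin m) F) - 1).rank = 1) :
    ∃ (a : Fin m ⊕ Fin m → F) (c : F), a ≠ 0 ∧ c ≠ 0 ∧ ∀ x : Fin m ⊕ Fin m → F,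
      (g : Matrix (Fin m ⊕ Fin m) (Fin m ⊕ Fin m) F) *ᵥ x = x + (c * Cfsg.sympForm m F x a) • a := by
  obtain ⟨a, b, hab⟩ := Cfsg.Agent.S0839.rank_one_decomp _ hr
  have hN : vecMulVec a b ≠ 0 := by
    intro h0
    rw [hab, h0, Matrix.rank_zero] at hr
    exact zero_ne_one hr
  have ha : a ≠ 0 := by
    rintro rfl; apply hN; ext i j; simp [vecMulVec_apply]
  have hb : b ≠ 0 := by
    rintro rfl; apply hN; ext i j; simp [vecMulVec_apply]
  have hg : ∀ x : Fin m ⊕ Fin m → F,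
      (g : Matrix (Fin m ⊕ Fin m) (Fin m ⊕ Fin m) F) *ᵥ x = x + (b ⬝ᵥ x) • a := by
    intro x
    have h1 : (g : Matrix (Fin m ⊕ Fin m) (Fin m ⊕ Fin m) F) = 1 + vecMulVec a b := by
      rw [← hab]; abel
    rw [h1, add_mulVec, one_mulVec, vecMulVec_mulVec, op_smul_eq_smul]
  have hrel : ∀ x y : Fin m ⊕ Fin m → F,
      (b ⬝ᵥ y) * Cfsg.sympForm m F x a = (b ⬝ᵥ x) * Cfsg.sympForm m F y a := by
    intro x y
    have h := sympForm_mulVec_of_mem m _ g.2 x y
    rw [hg x, hg y, sympForm_add_left, sympForm_add_right, sympForm_add_right, sympForm_smul_left,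
      sympForm_smul_left, sympForm_smul_right, sympForm_smul_right, sympForm_self, mul_zero, mul_zero,
      add_zero, sympForm_swap m a y] at h
    linear_combination h
  obtain ⟨y0, hy0⟩ : ∃ y0, b ⬝ᵥ y0 ≠ 0 := by
    by_contra hcon
    push Not at hcon
    apply hb
    ext i
    have := hcon (Pi.single i 1)
    rw [dotProduct_single, mul_one] at this
    exact this
  have hy0a : Cfsg.sympForm m F y0 a ≠ 0 := by
    intro h0
    obtain ⟨z, hz⟩ := exists_sympForm_ne_zero m a ha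
    have h1 := hrel z y0
    rw [h0, mul_zero] at h1
    rcases mul_eq_zero.1 h1 with h | h
    · exact hy0 h
    · apply hz; rw [sympForm_swap, h, neg_zero]
  refine ⟨a, (b ⬝ᵥ y0) / Cfsg.sympForm m F y0 a, ha, div_ne_zero hy0 hy0a, fun x => ?_⟩
  rw [hg x]
  congr 2
  have h1 := hrel x y0
  field_simp
  linear_combination -h1

theorem ext_mv (A B : Matrix.symplecticGroup (Fin m) F)
    (h : ∀ x : Fin m ⊕ Fin m → F,
      (A : Matrix (Fin m ⊕ Fin m) (Fin m ⊕ Fin m) F) *ᵥ x =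
      (B : Matrix (Fin m ⊕ Fin m) (Fin m ⊕ Fin m) F) *ᵥ x) : A = B := by
  apply Subtype.ext
  apply Matrix.toLin'.injective
  apply LinearMap.ext
  intro x
  rw [Matrix.toLin'_apply, Matrix.toLin'_apply]
  exact h x

theorem mul_mv (A B : Matrix.symplecticGroup (Fin m) F) (x : Fin m ⊕ Fin m → F) :
    ((A * B : Matrix.symplecticGroup (Fin m) F) : Matrix (Fin m ⊕ Fin m) (Fin m ⊕ Fin m) F) *ᵥ x =
      (A : Matrix (Fin m ⊕ Fin m) (Fin m ⊕ Fin m) F) *ᵥ
        ((B : Matrix (Fin m ⊕ Fin m) (Fin m ⊕ Fin m) F) *ᵥ x) := by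
  rw [Matrix.mulVec_mulVec]; rfl

theorem cent_iff [CharP F 2] (t g : Matrix.symplecticGroup (Fin m) F) (a : Fin m ⊕ Fin m → F) (c : F)
    (ha : a ≠ 0) (hc : c ≠ 0)
    (ht : ∀ x : Fin m ⊕ Fin m → F,
      (t : Matrix (Fin m ⊕ Fin m) (Fin m ⊕ Fin m) F) *ᵥ x = x + (c * Cfsg.sympForm m F x a) • a) :
    g ∈ Subgroup.centralizer ({t} : Set (Matrix.symplecticGroup (Fin m) F)) ↔
      (g : Matrix (Fin m ⊕ Fin m) (Fin m ⊕ Fin m) F) *ᵥ a = a := by
  rw [Subgroup.mem_centralizer_iff]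
  constructor
  · intro h
    have h1 := h t (Set.mem_singleton t)
    have h2 : ∀ x : Fin m ⊕ Fin m → F,
        Cfsg.sympForm m F ((g : Matrix (Fin m ⊕ Fin m) (Fin m ⊕ Fin m) F) *ᵥ x) a • a =
        Cfsg.sympForm m F x a • ((g : Matrix (Fin m ⊕ Fin m) (Fin m ⊕ Fin m) F) *ᵥ a) := by
      intro x
      have h3 := congrArg (fun A : Matrix.symplecticGroup (Fin m) F =>
        (A : Matrix (Fin m ⊕ Fin m) (Fin m ⊕ Fin m) F) *ᵥ x) h1
      simp only [mul_mv, ht, mulVec_add, mulVec_smul] at h3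
      have h4 := add_left_cancel h3
      rw [mul_smul, mul_smul] at h4
      exact smul_right_injective _ hc h4
    obtain ⟨x0, hx0⟩ := exists_sympForm_ne_zero m a ha
    have hx0' : Cfsg.sympForm m F x0 a ≠ 0 := by
      intro h; apply hx0; rw [sympForm_swap, h, neg_zero]
    have hga : (g : Matrix (Fin m ⊕ Fin m) (Fin m ⊕ Fin m) F) *ᵥ a =
        (Cfsg.sympForm m F ((g : Matrix (Fin m ⊕ Fin m) (Fin m ⊕ Fin m) F) *ᵥ x0) a /
          Cfsg.sympForm m F x0 a) • a := by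
      have := h2 x0
      rw [div_eq_inv_mul, mul_smul, this, smul_smul, inv_mul_cancel₀ hx0', one_smul]
    have hmu : (Cfsg.sympForm m F ((g : Matrix (Fin m ⊕ Fin m) (Fin m ⊕ Fin m) F) *ᵥ x0) a /
          Cfsg.sympForm m F x0 a) ^ 2 = 1 := by
      have h5 := sympForm_mulVec_of_mem m _ g.2 x0 a
      rw [hga, sympForm_smul_right] at h5
      field_simp
      field_simp at h5
      linear_combination h5
    have hmu1 : (Cfsg.sympForm m F ((g : Matrix (Fin m ⊕ Fin m) (Fin m ⊕ Fin m) F) *ᵥ x0) a /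
          Cfsg.sympForm m F x0 a) = 1 := by
      have h6 : ((Cfsg.sympForm m F ((g : Matrix (Fin m ⊕ Fin m) (Fin m ⊕ Fin m) F) *ᵥ x0) a /
          Cfsg.sympForm m F x0 a) - 1) ^ 2 = 0 := by
        have h2' : (2 : F) = 0 := CharP.cast_eq_zero F 2
        linear_combination hmu - (Cfsg.sympForm m F ((g : Matrix (Fin m ⊕ Fin m) (Fin m ⊕ Fin m) F) *ᵥ x0) a /
          Cfsg.sympForm m F x0 a - 1) * h2'
      exact sub_eq_zero.1 (pow_eq_zero_iff (two_ne_zero)|>.1 h6)
    rw [hga, hmu1, one_smul]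
  · intro hga h hh
    rw [Set.mem_singleton_iff] at hh
    subst hh
    apply ext_mv
    intro x
    rw [mul_mv, mul_mv, ht, ht, mulVec_add, mulVec_smul, hga]
    congr 3
    have h5 := sympForm_mulVec_of_mem m _ g.2 x a
    rw [hga] at h5
    exact h5

end

/-- Over a finite field with q elements, q even, an element t of Sp_2m(F) with rank(t − 1) = 1 (a symplectic transvection) has centraliser in Sp_2m(F) of order q^(2m−1) · |Sp_(2m−2)(q)| = q^(2m−1) · q^((m−1)²) · Π_(i=1)^(m−1) (q^(2i) − 1). -/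
theorem result {F : Type*} [Field F] [Fintype F] [CharP F 2] {q : ℕ} (hF : Fintype.card F = q) {m : ℕ} (hm : 1 ≤ m) (t : Matrix.symplecticGroup (Fin m) F) (ht : ((t : Matrix (Fin m ⊕ Fin m) (Fin m ⊕ Fin m) F) - 1).rank = 1) : Nat.card ↥(Subgroup.centralizer ({t} : Set ↥(Matrix.symplecticGroup (Fin m) F))) = q ^ (2 * m - 1) * (q ^ ((m - 1) ^ 2) * ∏ i : Fin (m - 1), (q ^ (2 * ((i : ℕ) + 1)) - 1)) := by
  classical
  subst hF
  obtain ⟨a, c, ha, hc, hta⟩ := rank_one_transv m t ht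
  have hos := Cfsg.Agent.S0245.orbit_stab' (G := Matrix.symplecticGroup (Fin m) F)
    (X := (Fin m ⊕ Fin m → F))
    (fun g v => (g : Matrix (Fin m ⊕ Fin m) (Fin m ⊕ Fin m) F) *ᵥ v)
    (by intro v; exact one_mulVec v)
    (by intro g h v; exact mul_mv m g h v)
    a
  have horb : Nat.card {x : Fin m ⊕ Fin m → F // ∃ g : Matrix.symplecticGroup (Fin m) F,
      (g : Matrix (Fin m ⊕ Fin m) (Fin m ⊕ Fin m) F) *ᵥ a = x} =
      Fintype.card F ^ (2 * m) - 1 := by
    have h1 : Nat.card {x : Fin m ⊕ Fin m → F // ∃ g : Matrix.symplecticGroup (Fin m) F,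
        (g : Matrix (Fin m ⊕ Fin m) (Fin m ⊕ Fin m) F) *ᵥ a = x} =
        Nat.card {x : Fin m ⊕ Fin m → F // x ≠ 0} := by
      apply Nat.card_congr
      apply Equiv.subtypeEquivRight
      intro x
      constructor
      · rintro ⟨g, rfl⟩ h0
        obtain ⟨z, hz⟩ := exists_sympForm_ne_zero m a ha
        apply hz
        rw [← sympForm_mulVec_of_mem m _ g.2 a z, h0, sympForm_zero_left]
      · intro hx
        obtain ⟨A, _, hA⟩ := trans_vec m a x ha hx
        exact ⟨A, hA⟩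
    rw [h1, Nat.card_eq_fintype_card, Fintype.card_subtype_compl, Fintype.card_subtype_eq,
      Fintype.card_fun, Fintype.card_sum, Fintype.card_fin, two_mul]
  have hstab : Nat.card {g : Matrix.symplecticGroup (Fin m) F //
      (g : Matrix (Fin m ⊕ Fin m) (Fin m ⊕ Fin m) F) *ᵥ a = a} =
      Nat.card ↥(Subgroup.centralizer ({t} : Set ↥(Matrix.symplecticGroup (Fin m) F))) := by
    apply Nat.card_congr
    apply Equiv.subtypeEquivRight
    intro g
    exact (cent_iff m t g a c ha hc hta).symm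
  rw [horb, hstab, Cfsg.Agent.S0245.card_sp] at hos
  rw [Fin.prod_univ_eq_prod_range (fun i => Fintype.card F ^ (2 * (i + 1)) - 1) (m - 1)]
  obtain ⟨k, rfl⟩ : ∃ k, m = k + 1 := ⟨m - 1, by omega⟩
  rw [Finset.prod_range_succ] at hos
  have hq : 1 < Fintype.card F := Fintype.one_lt_card
  have hpos : 0 < Fintype.card F ^ (2 * (k + 1)) - 1 := by
    have : 1 < Fintype.card F ^ (2 * (k + 1)) := Nat.one_lt_pow (by omega) hq
    omega
  apply Nat.eq_of_mul_eq_mul_left hpos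
  rw [hos]
  simp only [Nat.add_sub_cancel]
  have e1 : (k + 1) ^ 2 = (2 * (k + 1) - 1) + k ^ 2 := by
    have : 2 * (k + 1) - 1 = 2 * k + 1 := by omega
    rw [this]; ring
  rw [e1, pow_add]
  ring

end Cfsg.Agent.S2594
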