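import Mathlib
import Cfsg.Statements.S0246
import Cfsg.Agent.Lib.Helper5.Symp
import Cfsg.Agent.S2594

set_option autoImplicit false
open Cfsg

namespace Cfsg.Agent.S0246

open Matrix Cfsg.Agent.Lib.Helper5

section
variable {F : Type*} [Field F] (m : ℕ)

theorem exists_common (u u' : Fin m ⊕ Fin m → F) (hu : u ≠ 0) (hu' : u' ≠ 0) :
    ∃ z, Cfsg.sympForm m F u z ≠ 0 ∧ Cfsg.sympForm m F z u' ≠ 0 := by
  obtain ⟨a, ha⟩ := exists_sympForm_ne_zero m u hu
  obtain ⟨b, hb⟩ := exists_sympForm_ne_zero m u' hu'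
  by_cases h1 : Cfsg.sympForm m F u' a = 0
  · by_cases h2 : Cfsg.sympForm m F u b = 0
    · refine ⟨a + b, ?_, ?_⟩
      · rw [sympForm_add_right, h2, add_zero]; exact ha
      · rw [sympForm_swap, sympForm_add_right, h1, zero_add]; exact neg_ne_zero.mpr hb
    · exact ⟨b, h2, by rw [sympForm_swap]; exact neg_ne_zero.mpr hb⟩
  · exact ⟨a, ha, by rw [sympForm_swap]; exact neg_ne_zero.mpr h1⟩

theorem central_eig (g : Matrix.symplecticGroup (Fin m) F)
    (hg : g ∈ Subgroup.center (Matrix.symplecticGroup (Fin m) F)) (w : Fin m ⊕ Fin m → F) (hw : w ≠ 0) :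
    ∃ μ : F, (g : Matrix (Fin m ⊕ Fin m) (Fin m ⊕ Fin m) F) *ᵥ w = μ • w := by
  rw [Subgroup.mem_center_iff] at hg
  obtain ⟨x0, hx0⟩ := exists_sympForm_ne_zero m w hw
  have hx0' : Cfsg.sympForm m F x0 w ≠ 0 := by
    intro h; apply hx0; rw [sympForm_swap, h, neg_zero]
  have h1 := hg ⟨Cfsg.sympTransvection m w 1, Cfsg.Agent.S0764.result m w 1⟩
  have h2 := congrArg (fun A : Matrix.symplecticGroup (Fin m) F =>
    (A : Matrix (Fin m ⊕ Fin m) (Fin m ⊕ Fin m) F) *ᵥ x0) h1
  simp only [Cfsg.Agent.S2594.mul_mv] at h2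
  have h3 : Cfsg.sympTransvection m w 1 *ᵥ ((g : Matrix (Fin m ⊕ Fin m) (Fin m ⊕ Fin m) F) *ᵥ x0) =
      (g : Matrix (Fin m ⊕ Fin m) (Fin m ⊕ Fin m) F) *ᵥ (Cfsg.sympTransvection m w 1 *ᵥ x0) := h2
  rw [sympTransvection_mulVec, sympTransvection_mulVec, one_mul, one_mul, mulVec_add, mulVec_smul] at h3
  have h4 := add_left_cancel h3
  refine ⟨Cfsg.sympForm m F ((g : Matrix (Fin m ⊕ Fin m) (Fin m ⊕ Fin m) F) *ᵥ x0) w /
    Cfsg.sympForm m F x0 w, ?_⟩
  rw [div_eq_inv_mul, mul_smul, h4, smul_smul, inv_mul_cancel₀ hx0', one_smul]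

theorem central_pair (g : Matrix.symplecticGroup (Fin m) F)
    (hg : g ∈ Subgroup.center (Matrix.symplecticGroup (Fin m) F)) (x y : Fin m ⊕ Fin m → F) (μ ν : F)
    (hxy : Cfsg.sympForm m F x y ≠ 0)
    (hx : (g : Matrix (Fin m ⊕ Fin m) (Fin m ⊕ Fin m) F) *ᵥ x = μ • x)
    (hy : (g : Matrix (Fin m ⊕ Fin m) (Fin m ⊕ Fin m) F) *ᵥ y = ν • y) : μ = ν ∧ μ * ν = 1 := by
  have hne : x + y ≠ 0 := by
    intro h0
    apply hxy
    have : Cfsg.sympForm m F x (x + y) = 0 := by rw [h0, sympForm_zero_right]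
    rw [sympForm_add_right, sympForm_self, zero_add] at this
    exact this
  obtain ⟨ρ, hρ⟩ := central_eig m g hg (x + y) hne
  rw [mulVec_add, hx, hy] at hρ
  have h1 := congrArg (fun v => Cfsg.sympForm m F v y) hρ
  simp only [sympForm_add_left, sympForm_smul_left, sympForm_self, mul_zero, add_zero] at h1
  have h2 := congrArg (fun v => Cfsg.sympForm m F x v) hρ
  simp only [sympForm_add_right, sympForm_smul_right, sympForm_self, mul_zero, zero_add] at h2
  have e1 : μ = ρ := mul_right_cancel₀ hxy h1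
  have e2 : ν = ρ := mul_right_cancel₀ hxy h2
  refine ⟨e1.trans e2.symm, ?_⟩
  have h3 := sympForm_mulVec_of_mem m _ g.2 x y
  rw [hx, hy, sympForm_smul_left, sympForm_smul_right] at h3
  have h4 : (μ * ν) * Cfsg.sympForm m F x y = 1 * Cfsg.sympForm m F x y := by
    rw [one_mul]; linear_combination h3
  exact mul_right_cancel₀ hxy h4

theorem central_scalar (hm : 1 ≤ m) (g : Matrix.symplecticGroup (Fin m) F)
    (hg : g ∈ Subgroup.center (Matrix.symplecticGroup (Fin m) F)) :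
    ∃ lam : F, lam * lam = 1 ∧ ∀ x : Fin m ⊕ Fin m → F,
      (g : Matrix (Fin m ⊕ Fin m) (Fin m ⊕ Fin m) F) *ᵥ x = lam • x := by
  have hw0 : (Pi.single (Sum.inl ⟨0, hm⟩) 1 : Fin m ⊕ Fin m → F) ≠ 0 := by
    intro h
    have := congrFun h (Sum.inl ⟨0, hm⟩)
    rw [Pi.single_eq_same] at this
    exact one_ne_zero this
  obtain ⟨lam, hlam⟩ := central_eig m g hg _ hw0
  obtain ⟨z0, hz0⟩ := exists_sympForm_ne_zero m _ hw0
  have hz0' : z0 ≠ 0 := by
    rintro rfl; exact hz0 (sympForm_zero_right m _)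
  obtain ⟨ν, hν⟩ := central_eig m g hg z0 hz0'
  have h1 := central_pair m g hg _ z0 lam ν hz0 hlam hν
  refine ⟨lam, by rw [← h1.1] at h1; exact h1.2, fun x => ?_⟩
  by_cases hx : x = 0
  · rw [hx, mulVec_zero, smul_zero]
  · obtain ⟨z, hz1, hz2⟩ := exists_common m _ x hw0 hx
    have hz' : z ≠ 0 := by
      rintro rfl; exact hz1 (sympForm_zero_right m _)
    obtain ⟨ν', hν'⟩ := central_eig m g hg z hz'
    obtain ⟨ρ, hρ⟩ := central_eig m g hg x hx
    have h2 := central_pair m g hg _ z lam ν' hz1 hlam hν'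
    have h3 := central_pair m g hg z x ν' ρ hz2 hν' hρ
    rw [hρ, ← h3.1, ← h2.1]

end

/-- The centre of Sp_{2m}(q), m at least 1, is {1, -1}: it has order gcd(2, q-1). -/
theorem result {F : Type*} [Field F] [Fintype F] {q : ℕ} (hF : Fintype.card F = q) (m : ℕ) (hm : 1 ≤ m) : Nat.card (Subgroup.center (Matrix.symplecticGroup (Fin m) F)) = Nat.gcd 2 (q - 1) := by
  classical
  subst hF
  -- the element -1
  obtain ⟨negOne, hnegOne⟩ : ∃ n : Matrix.symplecticGroup (Fin m) F,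
      (n : Matrix (Fin m ⊕ Fin m) (Fin m ⊕ Fin m) F) = -1 :=
    ⟨⟨-1, SymplecticGroup.neg_mem (one_mem _)⟩, rfl⟩
  have hnc : negOne ∈ Subgroup.center (Matrix.symplecticGroup (Fin m) F) := by
    rw [Subgroup.mem_center_iff]
    intro h
    apply Cfsg.Agent.S2594.ext_mv
    intro x
    rw [Cfsg.Agent.S2594.mul_mv, Cfsg.Agent.S2594.mul_mv, hnegOne, neg_mulVec, neg_mulVec, one_mulVec,
      one_mulVec, mulVec_neg]
  have hcl : ∀ g ∈ Subgroup.center (Matrix.symplecticGroup (Fin m) F), g = 1 ∨ g = negOne := by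
    intro g hg
    obtain ⟨lam, hl, hgx⟩ := central_scalar m hm g hg
    have : lam = 1 ∨ lam = -1 := by
      have h0 : (lam - 1) * (lam + 1) = 0 := by linear_combination hl
      rcases mul_eq_zero.1 h0 with h | h
      · left; exact sub_eq_zero.1 h
      · right; exact eq_neg_of_add_eq_zero_left h
    rcases this with h | h
    · left
      apply Cfsg.Agent.S2594.ext_mv
      intro x
      rw [hgx, h, one_smul]
      exact (one_mulVec x).symm
    · right
      apply Cfsg.Agent.S2594.ext_mv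
      intro x
      rw [hgx, h, hnegOne, neg_mulVec, one_mulVec, neg_smul, one_smul]
  by_cases hchar : ringChar F = 2
  · haveI : CharP F 2 := ringChar.of_eq hchar
    have hq := FiniteField.even_card_of_char_two hchar
    have hq1 : 1 < Fintype.card F := Fintype.one_lt_card
    have hbot : Subgroup.center (Matrix.symplecticGroup (Fin m) F) = ⊥ := by
      rw [Subgroup.eq_bot_iff_forall]
      intro g hg
      rcases hcl g hg with h | h
      · exact h
      · rw [h]
        apply Cfsg.Agent.S2594.ext_mv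
        intro x
        rw [hnegOne, neg_mulVec, one_mulVec]
        have h1 : ((1 : Matrix.symplecticGroup (Fin m) F) : Matrix (Fin m ⊕ Fin m) (Fin m ⊕ Fin m) F) *ᵥ x = x :=
          one_mulVec x
        rw [h1]
        ext i
        exact CharTwo.neg_eq (x i)
    rw [hbot, Subgroup.card_bot]
    have : Nat.gcd 2 (Fintype.card F - 1) ∣ 2 := Nat.gcd_dvd_left _ _
    have h2 : ¬ 2 ∣ Fintype.card F - 1 := by omega
    have h3 : Nat.gcd 2 (Fintype.card F - 1) ≠ 2 := by
      intro h; apply h2; rw [← h]; exact Nat.gcd_dvd_right _ _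
    have h4 : Nat.gcd 2 (Fintype.card F - 1) ≤ 2 := Nat.le_of_dvd (by norm_num) this
    have h5 : Nat.gcd 2 (Fintype.card F - 1) ≠ 0 := by
      intro h; rw [h] at this; omega
    omega
  · have hq := FiniteField.odd_card_of_char_ne_two hchar
    have hne : (-1 : F) ≠ 1 := Ring.neg_one_ne_one_of_char_ne_two hchar
    have hdvd : 2 ∣ Fintype.card F - 1 := by omega
    rw [Nat.gcd_eq_left hdvd, Nat.card_eq_two_iff]
    refine ⟨1, ⟨negOne, hnc⟩, ?_, ?_⟩
    · intro h
      have h1 : (1 : Matrix.symplecticGroup (Fin m) F) = negOne := congrArg Subtype.val h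
      have h2 := congrArg (fun A : Matrix.symplecticGroup (Fin m) F =>
        (A : Matrix (Fin m ⊕ Fin m) (Fin m ⊕ Fin m) F) (Sum.inl ⟨0, hm⟩) (Sum.inl ⟨0, hm⟩)) h1
      simp only [hnegOne] at h2
      rw [Matrix.neg_apply, Matrix.one_apply_eq] at h2
      have h3 : ((1 : Matrix.symplecticGroup (Fin m) F) : Matrix (Fin m ⊕ Fin m) (Fin m ⊕ Fin m) F)
            (Sum.inl ⟨0, hm⟩) (Sum.inl ⟨0, hm⟩) = 1 := Matrix.one_apply_eq _
      exact hne (h2.symm.trans h3)
    · ext ⟨g, hg⟩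
      simp only [Set.mem_insert_iff, Set.mem_singleton_iff, Set.mem_univ, iff_true]
      rcases hcl g hg with h | h
      · left; exact Subtype.ext h
      · right; exact Subtype.ext h

end Cfsg.Agent.S0246
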