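import Mathlib
import Cfsg.Statements.S0826

set_option autoImplicit false
open Cfsg

namespace Cfsg.Agent.S0826

open Matrix
set_option linter.unusedSimpArgs false
abbrev X (m : ℕ) := (Fin m ⊕ Fin m) ⊕ Fin 2
abbrev S (m : ℕ) := Fin m ⊕ Fin m

/-- columns = symplectic basis of even-weight vectors mod all-ones -/
def M (m : ℕ) : Matrix (X m) (S m) (ZMod 2) := Matrix.of fun x s =>
  match x, s with
  | Sum.inl (Sum.inl a), Sum.inl i => if a = i then 1 else 0
  | Sum.inl (Sum.inr a), Sum.inl i => if a = i then 1 else 0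
  | Sum.inr _, Sum.inl _ => 0
  | Sum.inl (Sum.inl a), Sum.inr i => if i < a then 1 else 0
  | Sum.inl (Sum.inr a), Sum.inr i => if i ≤ a then 1 else 0
  | Sum.inr t, Sum.inr _ => if t = 0 then 1 else 0

theorem neg_eq (a : ZMod 2) : -a = a := ZMod.neg_eq_self_mod_two a

theorem two_eq : (1 : ZMod 2) + 1 = 0 := by decide

theorem le_ind {m : ℕ} (i a : Fin m) : (if i ≤ a then (1 : ZMod 2) else 0) =
    (if i < a then 1 else 0) + (if i = a then 1 else 0) := by
  rcases lt_trichotomy i a with h | h | h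
  · simp [h, h.le, h.ne]
  · simp [h]
  · simp [h.not_ge, h.not_gt, h.ne']

theorem tri {m : ℕ} (i j : Fin m) : (if i < j then (1 : ZMod 2) else 0) + (if j < i then 1 else 0) =
    1 + (if i = j then 1 else 0) := by
  rcases lt_trichotomy i j with h | h | h
  · simp [h, h.not_gt, h.ne]
  · simp [h, two_eq]
  · simp [h, h.not_gt, h.ne']

theorem L1 {m : ℕ} (P : Fin m → Prop) [DecidablePred P] (i : Fin m) (c : ZMod 2) :
    (∑ x, if P x then (if x = i then c else 0) else 0) = if P i then c else 0 := by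
  rw [Finset.sum_eq_single i]
  · simp
  · intro b _ hb; simp [hb]
  · simp

theorem L1' {m : ℕ} (P : Fin m → Prop) [DecidablePred P] (i : Fin m) (c : ZMod 2) :
    (∑ x, if P x then (if i = x then c else 0) else 0) = if P i then c else 0 := by
  rw [Finset.sum_eq_single i]
  · simp
  · intro b _ hb; simp [Ne.symm hb]
  · simp

theorem R0 (m : ℕ) : (M m)ᵀ * M m = Matrix.J (Fin m) (ZMod 2) := by
  ext s t
  rcases s with i | i <;> rcases t with j | j
  · simp [Matrix.mul_apply, Fintype.sum_sum_type, M, Matrix.J]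
    by_cases h : j = i <;> simp [h, two_eq]
  · simp [Matrix.mul_apply, Fintype.sum_sum_type, M, Matrix.J, L1]
    rw [le_ind, Matrix.one_apply, ← add_assoc]
    by_cases h : j < i <;> simp [h, two_eq, eq_comm]
  · simp [Matrix.mul_apply, Fintype.sum_sum_type, M, Matrix.J]
    rw [le_ind, Matrix.one_apply, ← add_assoc]
    by_cases h : i < j <;> simp [h, two_eq]
  · simp [Matrix.mul_apply, Fintype.sum_sum_type, M, Matrix.J]
    rw [← Finset.sum_add_distrib]
    have key : ∀ x : Fin m, ((if j < x then if i < x then (1:ZMod 2) else 0 else 0) +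
        (if j ≤ x then if i ≤ x then 1 else 0 else 0)) = if x = max i j then 1 else 0 := by
      intro x
      rcases lt_trichotomy (max i j) x with h | h | h
      · have h1 := (max_lt_iff.1 h).1
        have h2 := (max_lt_iff.1 h).2
        simp [h1, h2, h1.le, h2.le, h.ne', two_eq]
      · have h1 : i ≤ x := h ▸ le_max_left i j
        have h2 : j ≤ x := h ▸ le_max_right i j
        have h3 : ¬ (j < x ∧ i < x) := by
          rintro ⟨h3, h4⟩
          have := max_lt h4 h3
          rw [h] at this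
          exact lt_irrefl _ this
        rw [← ite_and, ← ite_and, if_neg h3, if_pos ⟨h2, h1⟩, if_pos h.symm, zero_add]
      · have h3 : ¬ (j < x ∧ i < x) := by
          rintro ⟨h3, h4⟩
          exact lt_irrefl _ (lt_trans (max_lt h4 h3) h)
        have h4 : ¬ (j ≤ x ∧ i ≤ x) := by
          rintro ⟨h3, h4⟩
          exact lt_irrefl _ (lt_of_le_of_lt (max_le h4 h3) h)
        rw [← ite_and, ← ite_and, if_neg h3, if_neg h4, if_neg h.ne, zero_add]
    rw [Finset.sum_congr rfl (fun x _ => key x), Finset.sum_ite_eq']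
    simp [two_eq]

def one (m : ℕ) : X m → ZMod 2 := fun _ => 1
def eps (m : ℕ) : X m → ZMod 2 := Pi.single (Sum.inr 1) 1

theorem R2 (m : ℕ) (x y : X m) : (M m * Matrix.J (Fin m) (ZMod 2) * (M m)ᵀ) x y =
    (if x = y then 1 else 0) + eps m x + eps m y + 1 := by
  rcases x with (a | a) | t <;> rcases y with (b | b) | u
  all_goals simp [Matrix.mul_apply, Fintype.sum_sum_type, M, Matrix.J, L1, L1', eps, Matrix.one_apply]
  · rcases lt_trichotomy a b with h | h | h
    · simp [h, h.le, h.not_ge, h.not_gt, h.ne, two_eq]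
    · subst h; simp [two_eq]
    · simp [h, h.le, h.not_ge, h.not_gt, h.ne', two_eq]
  · rcases lt_trichotomy a b with h | h | h
    · simp [h, h.le, h.not_ge, h.not_gt, h.ne, two_eq]
    · subst h; simp [two_eq]
    · simp [h, h.le, h.not_ge, h.not_gt, h.ne', two_eq]
  · fin_cases u <;> simp [two_eq]
  · rcases lt_trichotomy a b with h | h | h
    · simp [h, h.le, h.not_ge, h.not_gt, h.ne, two_eq]
    · subst h; simp [two_eq]
    · simp [h, h.le, h.not_ge, h.not_gt, h.ne', two_eq]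
  · rcases lt_trichotomy a b with h | h | h
    · simp [h, h.le, h.not_ge, h.not_gt, h.ne, two_eq]
    · subst h; simp [two_eq]
    · simp [h, h.le, h.not_ge, h.not_gt, h.ne', two_eq]
  · fin_cases u <;> simp [two_eq]
  · fin_cases t <;> simp [two_eq]
  · fin_cases t <;> simp [two_eq]
  · fin_cases t <;> fin_cases u <;> simp [two_eq]

theorem R3 (m : ℕ) : one m ᵥ* M m = 0 := by
  ext s
  rcases s with i | i
  · simp [Matrix.vecMul, dotProduct, Fintype.sum_sum_type, M, one, two_eq]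
  · simp [Matrix.vecMul, dotProduct, Fintype.sum_sum_type, M, one, -Finset.sum_boole]
    simp only [le_ind, Finset.sum_add_distrib, Finset.sum_ite_eq, Finset.mem_univ, if_true]
    rw [← add_assoc, ← two_mul, add_assoc, two_eq]
    have h2 : (2 : ZMod 2) = 0 := by decide
    rw [h2, zero_mul, add_zero]

theorem neg_mat {ι κ : Type*} (A : Matrix ι κ (ZMod 2)) : -A = A := by
  ext i j
  exact neg_eq _

theorem J_sq (m : ℕ) : Matrix.J (Fin m) (ZMod 2) * Matrix.J (Fin m) (ZMod 2) = 1 := by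
  rw [Matrix.J_squared, neg_mat]

theorem J_tr (m : ℕ) : (Matrix.J (Fin m) (ZMod 2))ᵀ = Matrix.J (Fin m) (ZMod 2) := by
  rw [Matrix.J_transpose, neg_mat]

def N (m : ℕ) : Matrix (X m) (X m) (ZMod 2) :=
  vecMulVec (eps m) (one m) + vecMulVec (one m) (eps m) + vecMulVec (one m) (one m)

theorem R2m (m : ℕ) : M m * Matrix.J (Fin m) (ZMod 2) * (M m)ᵀ = 1 + N m := by
  ext x y
  rw [R2]
  simp only [N, Matrix.add_apply, Matrix.one_apply, Matrix.vecMulVec_apply, one, mul_one, one_mul]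
  ring

def P (m : ℕ) (σ : Equiv.Perm (X m)) : Matrix (X m) (X m) (ZMod 2) := (σ⁻¹).permMatrix (ZMod 2)

theorem P_mul (m : ℕ) (σ τ : Equiv.Perm (X m)) : P m (σ * τ) = P m σ * P m τ := by
  unfold P
  rw [_root_.mul_inv_rev, Matrix.permMatrix_mul]

theorem P_one (m : ℕ) : P m 1 = 1 := by
  unfold P
  rw [inv_one, Matrix.permMatrix_one]

theorem P_tr (m : ℕ) (σ : Equiv.Perm (X m)) : (P m σ)ᵀ = P m σ⁻¹ := by
  unfold P
  rw [Matrix.transpose_permMatrix]

theorem P_mulVec (m : ℕ) (σ : Equiv.Perm (X m)) (v : X m → ZMod 2) :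
    P m σ *ᵥ v = v ∘ (σ⁻¹ : Equiv.Perm (X m)) := by
  unfold P
  rw [Matrix.permMatrix_mulVec]

theorem vecMul_P (m : ℕ) (σ : Equiv.Perm (X m)) (v : X m → ZMod 2) : v ᵥ* P m σ = v ∘ σ := by
  unfold P
  rw [Matrix.vecMul_permMatrix]
  rfl

theorem one_comp (m : ℕ) (σ : Equiv.Perm (X m)) : one m ∘ σ = one m := rfl

theorem sandwich (m : ℕ) (σ τ : Equiv.Perm (X m)) :
    (M m)ᵀ * P m σ * N m * (P m τ * M m) = 0 := by
  have h1 : ((M m)ᵀ * P m σ) *ᵥ one m = 0 := by
    rw [← Matrix.mulVec_mulVec, P_mulVec, one_comp, Matrix.mulVec_transpose, R3]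
  have h2 : one m ᵥ* (P m τ * M m) = 0 := by
    rw [← Matrix.vecMul_vecMul, vecMul_P, one_comp, R3]
  unfold N
  rw [Matrix.mul_add, Matrix.mul_add, Matrix.add_mul, Matrix.add_mul, Matrix.mul_vecMulVec,
    Matrix.mul_vecMulVec, Matrix.mul_vecMulVec, Matrix.vecMulVec_mul, Matrix.vecMulVec_mul,
    Matrix.vecMulVec_mul, h1, h2]
  ext i j
  simp [Matrix.vecMulVec_apply]

/-- the representing matrix -/
def A (m : ℕ) (σ : Equiv.Perm (X m)) : Matrix (S m) (S m) (ZMod 2) :=
  Matrix.J (Fin m) (ZMod 2) * (M m)ᵀ * P m σ * M m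

theorem A_one (m : ℕ) : A m 1 = 1 := by
  unfold A
  rw [P_one, Matrix.mul_one, Matrix.mul_assoc, R0, J_sq]

theorem A_mul (m : ℕ) (σ τ : Equiv.Perm (X m)) : A m (σ * τ) = A m σ * A m τ := by
  unfold A
  have h : Matrix.J (Fin m) (ZMod 2) * (M m)ᵀ * P m σ * M m *
      (Matrix.J (Fin m) (ZMod 2) * (M m)ᵀ * P m τ * M m) =
      Matrix.J (Fin m) (ZMod 2) * ((M m)ᵀ * P m σ *
        (M m * Matrix.J (Fin m) (ZMod 2) * (M m)ᵀ) * (P m τ * M m)) := by
    simp only [Matrix.mul_assoc]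
  rw [h, R2m, Matrix.mul_add, Matrix.add_mul, sandwich, add_zero, Matrix.mul_one, P_mul]
  simp only [Matrix.mul_assoc]

theorem A_tr (m : ℕ) (σ : Equiv.Perm (X m)) :
    (A m σ)ᵀ = (M m)ᵀ * P m σ⁻¹ * M m * Matrix.J (Fin m) (ZMod 2) := by
  unfold A
  rw [Matrix.transpose_mul, Matrix.transpose_mul, Matrix.transpose_mul, Matrix.transpose_transpose,
    P_tr, J_tr]
  simp only [Matrix.mul_assoc]

theorem A_mem (m : ℕ) (σ : Equiv.Perm (X m)) : A m σ ∈ Matrix.symplecticGroup (Fin m) (ZMod 2) := by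
  rw [SymplecticGroup.mem_iff, A_tr]
  have h : A m σ * Matrix.J (Fin m) (ZMod 2) * ((M m)ᵀ * P m σ⁻¹ * M m * Matrix.J (Fin m) (ZMod 2)) =
      A m σ * A m σ⁻¹ * Matrix.J (Fin m) (ZMod 2) := by
    unfold A
    simp only [Matrix.mul_assoc]
  rw [h, ← A_mul, mul_inv_cancel, A_one, Matrix.one_mul]

theorem dot_one_comp (m : ℕ) (σ : Equiv.Perm (X m)) (x : X m → ZMod 2) :
    one m ⬝ᵥ (x ∘ σ) = one m ⬝ᵥ x := by
  simp only [dotProduct, one, one_mul, Function.comp]
  exact Equiv.sum_comp σ x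

theorem one_dot_one (m : ℕ) : one m ⬝ᵥ one m = 0 := by
  simp only [dotProduct, one, mul_one, Finset.sum_const, Finset.card_univ, Fintype.card_sum,
    Fintype.card_fin, nsmul_eq_mul]
  have h2 : ((m + m + 2 : ℕ) : ZMod 2) = 0 := by
    rw [(ZMod.natCast_eq_zero_iff _ 2)]
    omega
  rw [h2]

theorem N_mulVec (m : ℕ) (x : X m → ZMod 2) (hx : one m ⬝ᵥ x = 0) :
    (1 + N m) *ᵥ x = x + (eps m ⬝ᵥ x) • one m := by
  unfold N
  rw [Matrix.add_mulVec, Matrix.add_mulVec, Matrix.add_mulVec, Matrix.one_mulVec,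
    Matrix.vecMulVec_mulVec, Matrix.vecMulVec_mulVec, Matrix.vecMulVec_mulVec, hx]
  simp

theorem comb (m : ℕ) (hm : 2 ≤ m) (τ : Equiv.Perm (X m))
    (h : ∀ x : X m → ZMod 2, one m ⬝ᵥ x = 0 → ∃ c : ZMod 2, x ∘ τ = x + c • one m) : τ = 1 := by
  classical
  by_contra hτ
  obtain ⟨a, ha⟩ : ∃ a, τ a ≠ a := by
    by_contra hcon
    push Not at hcon
    exact hτ (Equiv.ext hcon)
  have hcard : Fintype.card (X m) = m + m + 2 := by simp
  obtain ⟨c, -, hc⟩ := Finset.exists_mem_notMem_of_card_lt_card (s := {a, τ a}) (t := Finset.univ) (by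
    rw [Finset.card_univ, hcard]; exact lt_of_le_of_lt (Finset.card_le_two) (by omega))
  have hca : c ≠ a := by intro h; apply hc; simp [h]
  have hcb : c ≠ τ a := by intro h; apply hc; simp [h]
  obtain ⟨c0, hc0⟩ := h (Pi.single a 1 + Pi.single c 1) (by
    simp [dotProduct, one, Finset.sum_add_distrib, two_eq])
  have e1 := congrFun hc0 a
  simp [Pi.single_apply, ha, hcb.symm, hca.symm, one] at e1
  obtain ⟨d, -, hd⟩ := Finset.exists_mem_notMem_of_card_lt_card (s := {a, c, τ.symm a, τ.symm c})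
    (t := Finset.univ) (by
    rw [Finset.card_univ, hcard]; exact lt_of_le_of_lt (Finset.card_le_four) (by omega))
  have hd1 : d ≠ a := by intro h; apply hd; simp [h]
  have hd2 : d ≠ c := by intro h; apply hd; simp [h]
  have hd3 : τ d ≠ a := by intro h; apply hd; simp [← h]
  have hd4 : τ d ≠ c := by intro h; apply hd; simp [← h]
  have e2 := congrFun hc0 d
  simp [Pi.single_apply, hd1, hd2, hd3, hd4, one] at e2
  rw [← e2, add_zero] at e1
  exact zero_ne_one e1

theorem A_inj (m : ℕ) (hm : 2 ≤ m) (σ : Equiv.Perm (X m)) (hσ : A m σ = 1) : σ = 1 := by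
  have h1 : (1 + N m) * P m σ * (1 + N m) = 1 + N m := by
    have h2 : M m * A m σ * (Matrix.J (Fin m) (ZMod 2) * (M m)ᵀ) =
        (M m * Matrix.J (Fin m) (ZMod 2) * (M m)ᵀ) * P m σ *
          (M m * Matrix.J (Fin m) (ZMod 2) * (M m)ᵀ) := by
      unfold A
      simp only [Matrix.mul_assoc]
    rw [hσ, Matrix.mul_one, ← Matrix.mul_assoc, R2m] at h2
    exact h2.symm
  have h3 : σ⁻¹ = 1 := by
    apply comb m hm
    intro x hx
    have h4 : ((1 + N m) * P m σ * (1 + N m)) *ᵥ x = (1 + N m) *ᵥ x := by rw [h1]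
    rw [← Matrix.mulVec_mulVec, ← Matrix.mulVec_mulVec, N_mulVec m x hx, Matrix.mulVec_add,
      Matrix.mulVec_smul, P_mulVec, P_mulVec, one_comp, N_mulVec] at h4
    · refine ⟨-(eps m ⬝ᵥ (x ∘ (σ⁻¹ : Equiv.Perm (X m)) + (eps m ⬝ᵥ x) • one m)), ?_⟩
      rw [neg_smul, ← sub_eq_add_neg, eq_sub_iff_add_eq]
      rw [add_right_comm] at h4
      exact add_right_cancel h4
    · rw [dotProduct_add, dot_one_comp, hx, dotProduct_smul, one_dot_one, smul_zero, add_zero]
  exact inv_eq_one.1 h3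

/-- S_2n ≤ Sp_(2n−2)(2) for n ≥ 3: there is an injective homomorphism from the symmetric group on 2n letters into the symplectic group of degree 2n − 2 over the field with two elements. -/
theorem result (n : ℕ) (hn : 3 ≤ n) : ∃ f : Equiv.Perm (Fin (2 * n)) →* Matrix.symplecticGroup (Fin (n - 1)) (ZMod 2), Function.Injective f := by
  have hm : 2 ≤ n - 1 := by omega
  let ρ : Equiv.Perm (X (n - 1)) →* Matrix.symplecticGroup (Fin (n - 1)) (ZMod 2) :=
    { toFun := fun σ => ⟨A (n - 1) σ, A_mem (n - 1) σ⟩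
      map_one' := Subtype.ext (A_one (n - 1))
      map_mul' := fun σ τ => Subtype.ext (A_mul (n - 1) σ τ) }
  have hρ : Function.Injective ρ := by
    rw [injective_iff_map_eq_one]
    intro σ h
    exact A_inj (n - 1) hm σ (congrArg Subtype.val h)
  have hcard : Fintype.card (Fin (2 * n)) = Fintype.card (X (n - 1)) := by
    simp only [Fintype.card_fin, Fintype.card_sum]
    omega
  let φ : Fin (2 * n) ≃ X (n - 1) := Fintype.equivOfCardEq hcard
  exact ⟨ρ.comp φ.permCongrHom.toMonoidHom, hρ.comp φ.permCongrHom.injective⟩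

end Cfsg.Agent.S0826
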