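import Mathlib
import Cfsg.Statements.S0247
import Cfsg.Agent.S0826
import Cfsg.Agent.S0245

set_option autoImplicit false
open Cfsg

namespace Cfsg.Agent.S0247

/-- Sp_4(2) is isomorphic to the symmetric group S_6. -/
theorem result {F : Type*} [Field F] [Fintype F] (hF : Fintype.card F = 2) : Nonempty (Matrix.symplecticGroup (Fin 2) F ≃* Equiv.Perm (Fin 6)) := by
  classical
  obtain ⟨f0, hf0⟩ := Cfsg.Agent.S0826.result 3 (le_refl 3)
  let f0' : Equiv.Perm (Fin 6) →* Matrix.symplecticGroup (Fin 2) (ZMod 2) := f0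
  have hf0' : Function.Injective f0' := hf0
  let e : ZMod 2 ≃+* F := ZMod.ringEquivOfPrime F Nat.prime_two hF
  let g : Matrix.symplecticGroup (Fin 2) (ZMod 2) →* Matrix.symplecticGroup (Fin 2) F :=
    { toFun := fun A => ⟨A.1.map e, SymplecticGroup.map_mem A.2 e⟩
      map_one' := Subtype.ext (by
        show (1 : Matrix (Fin 2 ⊕ Fin 2) (Fin 2 ⊕ Fin 2) (ZMod 2)).map e = 1
        rw [Matrix.map_one] <;> simp)
      map_mul' := fun A B => Subtype.ext (by
        show (A.1 * B.1).map e = A.1.map e * B.1.map e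
        rw [Matrix.map_mul]) }
  have hg : Function.Injective g := by
    intro A B h
    apply Subtype.ext
    have h1 : A.1.map e = B.1.map e := congrArg Subtype.val h
    exact Matrix.map_injective e.injective h1
  have hcard : Nat.card (Equiv.Perm (Fin 6)) = Nat.card (Matrix.symplecticGroup (Fin 2) F) := by
    rw [Cfsg.Agent.S0245.result hF 2, Nat.card_eq_fintype_card, Fintype.card_perm, Fintype.card_fin]
    decide
  have hb : Function.Bijective (g.comp f0') :=
    (Nat.bijective_iff_injective_and_card _).2 ⟨hg.comp hf0', hcard⟩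
  exact ⟨(MulEquiv.ofBijective (g.comp f0') hb).symm⟩

end Cfsg.Agent.S0247
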