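import Cfsg.Statements.S0250
import Mathlib
import Cfsg.Agent.S0242

set_option autoImplicit false
open Cfsg

namespace Cfsg.Agent.S0250

theorem mulVec_inv_cancel {F : Type*} [Field F] (g : Matrix.SpecialLinearGroup (Fin 2) F) (v : Fin 2 → F) :
    ((g⁻¹ : Matrix.SpecialLinearGroup (Fin 2) F) : Matrix (Fin 2) (Fin 2) F).mulVec
      ((g : Matrix (Fin 2) (Fin 2) F).mulVec v) = v := by
  rw [Matrix.mulVec_mulVec, ← Matrix.SpecialLinearGroup.coe_mul, inv_mul_cancel,
    Matrix.SpecialLinearGroup.coe_one, Matrix.one_mulVec]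

theorem mulVec_cancel_inv {F : Type*} [Field F] (g : Matrix.SpecialLinearGroup (Fin 2) F) (v : Fin 2 → F) :
    (g : Matrix (Fin 2) (Fin 2) F).mulVec
      (((g⁻¹ : Matrix.SpecialLinearGroup (Fin 2) F) : Matrix (Fin 2) (Fin 2) F).mulVec v) = v := by
  rw [Matrix.mulVec_mulVec, ← Matrix.SpecialLinearGroup.coe_mul, mul_inv_cancel,
    Matrix.SpecialLinearGroup.coe_one, Matrix.one_mulVec]

/-- The action of `SL₂(F)` on the nonzero vectors, as a homomorphism to permutations. -/
def permHom (F : Type*) [Field F] :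
    Matrix.SpecialLinearGroup (Fin 2) F →* Equiv.Perm {v : Fin 2 → F // v ≠ 0} where
  toFun g :=
    { toFun := fun v => ⟨(g : Matrix (Fin 2) (Fin 2) F).mulVec v.1, fun h => v.2 (by
        have := mulVec_inv_cancel g v.1
        rw [h, Matrix.mulVec_zero] at this
        exact this.symm)⟩
      invFun := fun v => ⟨((g⁻¹ : Matrix.SpecialLinearGroup (Fin 2) F) : Matrix (Fin 2) (Fin 2) F).mulVec v.1,
        fun h => v.2 (by
          have := mulVec_cancel_inv g v.1
          rw [h, Matrix.mulVec_zero] at this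
          exact this.symm)⟩
      left_inv := fun v => Subtype.ext (mulVec_inv_cancel g v.1)
      right_inv := fun v => Subtype.ext (mulVec_cancel_inv g v.1) }
  map_one' := by
    ext v
    simp
  map_mul' := fun g h => by
    apply Equiv.ext
    intro v
    apply Subtype.ext
    show ((g * h : Matrix.SpecialLinearGroup (Fin 2) F) : Matrix (Fin 2) (Fin 2) F).mulVec v.1 =
      (g : Matrix (Fin 2) (Fin 2) F).mulVec ((h : Matrix (Fin 2) (Fin 2) F).mulVec v.1)
    rw [Matrix.SpecialLinearGroup.coe_mul, Matrix.mulVec_mulVec]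

theorem permHom_injective (F : Type*) [Field F] : Function.Injective (permHom F) := by
  rw [injective_iff_map_eq_one]
  intro g hg
  ext i j
  have hne : (Pi.single j (1 : F) : Fin 2 → F) ≠ 0 := by
    intro h
    have := congrFun h j
    simp at this
  have h1 := congrArg (fun e : Equiv.Perm {v : Fin 2 → F // v ≠ 0} => ((e ⟨Pi.single j 1, hne⟩ : {v : Fin 2 → F // v ≠ 0}) : Fin 2 → F) i) hg
  simp only [permHom, MonoidHom.coe_mk, OneHom.coe_mk, Equiv.coe_fn_mk, Equiv.Perm.coe_one, id_eq] at h1
  rw [Matrix.mulVec_single_one] at h1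
  simp only [Matrix.col_apply] at h1
  rw [h1]
  simp [Matrix.one_apply, Pi.single_apply]

/-- SL_2(2) is isomorphic to S_3. -/
theorem result {F : Type*} [Field F] [Fintype F] (hF : Fintype.card F = 2) : Nonempty (Matrix.SpecialLinearGroup (Fin 2) F ≃* Equiv.Perm (Fin 3)) := by
  classical
  have hSL : Nat.card (Matrix.SpecialLinearGroup (Fin 2) F) = 6 := by
    have h := Cfsg.Agent.S0242.result hF 2 (by norm_num)
    rw [Fin.prod_univ_two] at h
    norm_num [-Nat.card_eq_fintype_card] at h
    exact h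
  have hX : Fintype.card {v : Fin 2 → F // v ≠ 0} = 3 := by
    have h1 : Fintype.card (Fin 2 → F) = 4 := by simp [hF]
    have h2 : Fintype.card {v : Fin 2 → F // v ≠ 0} = Fintype.card (Fin 2 → F) - Fintype.card {v : Fin 2 → F // v = 0} :=
      Fintype.card_subtype_compl (fun v : Fin 2 → F => v = 0)
    rw [h2, h1, Fintype.card_subtype_eq]
  let e : {v : Fin 2 → F // v ≠ 0} ≃ Fin 3 := Fintype.equivFinOfCardEq hX
  let f : Matrix.SpecialLinearGroup (Fin 2) F →* Equiv.Perm (Fin 3) :=
    (Equiv.permCongrHom e).toMonoidHom.comp (permHom F)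
  have hf : Function.Injective f := (Equiv.permCongrHom e).injective.comp (permHom_injective F)
  have hcard : Nat.card (Equiv.Perm (Fin 3)) ≤ Nat.card (Matrix.SpecialLinearGroup (Fin 2) F) := by
    rw [hSL, Nat.card_eq_fintype_card, Fintype.card_perm]
    simp [Nat.factorial]
  have hbij : Function.Bijective f := hf.bijective_of_nat_card_le hcard
  exact ⟨MulEquiv.ofBijective f hbij⟩

end Cfsg.Agent.S0250
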