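import Mathlib
import Cfsg.Statements.S0251
import Cfsg.Agent.S0243

set_option autoImplicit false
open Cfsg

namespace Cfsg.Agent.S0251

/-- A group of order `n!/2` acting faithfully on `n` points is the alternating group. -/
theorem iso_alt_of_faithful {G X : Type*} [Group G] [Finite G] [Finite X] [MulAction G X]
    [FaithfulSMul G X] (n : ℕ) (hX : Nat.card X = n) (hG : 2 * Nat.card G = n.factorial) :
    Nonempty (G ≃* alternatingGroup (Fin n)) := by
  classical
  have : Fintype X := Fintype.ofFinite X
  have hX' : Fintype.card X = n := by rw [← Nat.card_eq_fintype_card]; exact hX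
  let e : X ≃ Fin n := Fintype.equivFinOfCardEq hX'
  let f : G →* Equiv.Perm (Fin n) := (e.permCongrHom.toMonoidHom).comp (MulAction.toPermHom G X)
  have hf : Function.Injective f := by
    intro a b hab
    have h1 : MulAction.toPermHom G X a = MulAction.toPermHom G X b :=
      e.permCongrHom.injective hab
    exact MulAction.toPerm_injective h1
  have hcard : Nat.card f.range = Nat.card G := (Nat.card_congr (MonoidHom.ofInjective hf).toEquiv).symm
  have hidx : f.range.index = 2 := by
    have h1 := Subgroup.card_mul_index f.range
    rw [hcard, Nat.card_eq_fintype_card (α := Equiv.Perm (Fin n)), Fintype.card_perm,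
      Fintype.card_fin, ← hG] at h1
    have hpos : 0 < Nat.card G := Nat.card_pos
    have h2 : Nat.card G * f.range.index = Nat.card G * 2 := by rw [h1]; ring
    exact Nat.eq_of_mul_eq_mul_left hpos h2
  have hrange := Equiv.Perm.eq_alternatingGroup_of_index_eq_two hidx
  exact ⟨(MonoidHom.ofInjective hf).trans (MulEquiv.subgroupCongr hrange)⟩

theorem card_proj {F : Type*} [Field F] [Fintype F] :
    Nat.card (Projectivization F (Fin 2 → F)) = Fintype.card F + 1 := by
  rw [Projectivization.card_of_finrank_two F (Fin 2 → F) (by simp), Nat.card_eq_fintype_card]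

/-- PSL_2(3) is isomorphic to A_4. -/
theorem result {F : Type*} [Field F] [Fintype F] (hF : Fintype.card F = 3) : Nonempty (Matrix.ProjectiveSpecialLinearGroup (Fin 2) F ≃* alternatingGroup (Fin 4)) := by
  classical
  apply iso_alt_of_faithful (X := Projectivization F (Fin 2 → F)) 4
  · rw [card_proj, hF]
  · have h := Cfsg.Agent.S0243.result hF 2 (le_refl 2)
    simp only [Fin.prod_univ_two] at h
    norm_num at h
    rw [Nat.factorial]
    norm_num [Nat.factorial]
    omega

end Cfsg.Agent.S0251
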