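import Mathlib
import Cfsg.Statements.S0252
import Cfsg.Agent.S0243
import Cfsg.Agent.S0251

set_option autoImplicit false
open Cfsg

namespace Cfsg.Agent.S0252

/-- PSL_2(4) is isomorphic to A_5. -/
theorem result {F : Type*} [Field F] [Fintype F] (hF : Fintype.card F = 4) : Nonempty (Matrix.ProjectiveSpecialLinearGroup (Fin 2) F ≃* alternatingGroup (Fin 5)) := by
-----
  classical
  apply Cfsg.Agent.S0251.iso_alt_of_faithful (X := Projectivization F (Fin 2 → F)) 5
  · rw [Cfsg.Agent.S0251.card_proj, hF]
  · have h := Cfsg.Agent.S0243.result hF 2 (le_refl 2)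
    simp only [Fin.prod_univ_two] at h
    norm_num at h
    rw [Nat.factorial]
    norm_num [Nat.factorial]
    omega

end Cfsg.Agent.S0252
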