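import Mathlib
import Cfsg.Statements.S0494
import Cfsg.Agent.Lib.Helper6.SimpleP2QR

set_option autoImplicit false
open Cfsg

namespace Cfsg.Agent.S0494

/-- A simple group of order 60 is isomorphic to the alternating group of degree 5. -/
theorem result {G : Type*} [Group G] [Finite G] [IsSimpleGroup G]
    (h : Nat.card G = 60) : Nonempty (G ≃* alternatingGroup (Fin 5)) := by
-----
  classical
  haveI : Fact (Nat.Prime 2) := ⟨by norm_num⟩
  have hnc : ¬ IsMulCommutative G := Cfsg.Agent.Lib.Helper6.st_not_comm (by rw [h]; norm_num)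
  obtain ⟨j, hj0, hn2, hdvd, hfact, hP⟩ := Cfsg.Agent.Lib.Helper6.st_sylow_data (G := G) 2 2 15
    (h.trans (by norm_num)) (by norm_num) (by norm_num) (by norm_num)
  have hj : j ≤ 7 := by have := Nat.le_of_dvd (by norm_num) hdvd; omega
  obtain ⟨P⟩ : Nonempty (Sylow 2 G) := inferInstance
  obtain ⟨hPc, hN⟩ := hP P
  have key : ∀ (H : Subgroup G) (n : ℕ), H ≠ ⊤ → H.index = n →
      ∃ f : G →* alternatingGroup (Fin n), Function.Injective f := by
    intro H n hH hn
    subst hn
    exact Cfsg.Agent.Lib.Helper6.sa_embed_alt_index hnc H hH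
  interval_cases j
  · exact absurd hfact (by decide)
  · have hNc : Nat.card (Subgroup.normalizer ((P : Subgroup G) : Set G)) = 12 := by omega
    have hidx : (Subgroup.normalizer ((P : Subgroup G) : Set G)).index = 5 := by
      have := Subgroup.index_mul_card (Subgroup.normalizer ((P : Subgroup G) : Set G))
      rw [hNc, h] at this
      omega
    have hNtop : Subgroup.normalizer ((P : Subgroup G) : Set G) ≠ ⊤ := by
      intro ht
      rw [ht, Subgroup.card_top, h] at hNc
      omega
    obtain ⟨f, hf⟩ := key _ 5 hNtop hidx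
    have hbij : Function.Bijective f := by
      apply hf.bijective_of_nat_card_le
      rw [h, nat_card_alternatingGroup, Nat.card_fin]
      decide
    exact ⟨MulEquiv.ofBijective f hbij⟩
  · exact absurd hdvd (by decide)
  · exact absurd hdvd (by decide)
  · exact absurd hdvd (by decide)
  · exact absurd hdvd (by decide)
  · exfalso
    have hNc : Nat.card (Subgroup.normalizer ((P : Subgroup G) : Set G)) = 4 := by omega
    have hPc4 : Nat.card (P : Subgroup G) = 4 := by rw [hPc]; norm_num
    have hNP : (P : Subgroup G) = Subgroup.normalizer ((P : Subgroup G) : Set G) :=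
      Subgroup.eq_of_le_of_card_ge Subgroup.le_normalizer (by rw [hNc, hPc4])
    have hcomm : IsMulCommutative (P : Subgroup G) := IsPGroup.isMulCommutative_of_card_eq_prime_sq hPc
    have hle : Subgroup.normalizer ((P : Subgroup G) : Set G) ≤ Subgroup.centralizer ((P : Subgroup G) : Set G) := by
      intro x hx
      rw [← hNP] at hx
      rw [Subgroup.mem_centralizer_iff]
      intro y hy
      exact congrArg Subtype.val (hcomm.is_comm.comm ⟨y, hy⟩ ⟨x, hx⟩)
    have hc := MonoidHom.ker_transferSylow_isComplement' P hle
    exact Cfsg.Agent.Lib.Helper6.st_no_normal_complement (P : Subgroup G) _ (MonoidHom.normal_ker _) hc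
      (by rw [hPc4]; norm_num) (by rw [hPc4, h]; norm_num)

end Cfsg.Agent.S0494
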