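import Cfsg.Statements.S0261
import Mathlib
import Cfsg.Agent.Lib.Helper1.UniqueInv
import Cfsg.Agent.Lib.Helper8.CoprimeSylow
import Cfsg.Agent.Lib.Helper6.FixedPts

set_option autoImplicit false
open Cfsg

namespace Cfsg.Agent.S0261

theorem sl2_sq {F : Type*} [Field F] (h2 : (2 : F) ≠ 0)
    (x : Matrix.SpecialLinearGroup (Fin 2) F) (hx : x ^ 2 = 1) :
    x = 1 ∨ x = ⟨!![-1, 0; 0, -1], by simp [Matrix.det_fin_two]⟩ := by
  have hdet := x.2
  rw [Matrix.det_fin_two] at hdet
  have hx' : (x.1 * x.1) = 1 := by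
    have h := congrArg Subtype.val hx
    rw [pow_two] at h
    exact h
  have e00 := congrFun (congrFun hx' 0) 0
  have e01 := congrFun (congrFun hx' 0) 1
  have e10 := congrFun (congrFun hx' 1) 0
  have e11 := congrFun (congrFun hx' 1) 1
  simp only [Matrix.mul_apply, Fin.sum_univ_two, Matrix.one_apply_eq, Matrix.one_apply_ne,
    ne_eq, zero_ne_one, one_ne_zero, not_false_eq_true] at e00 e01 e10 e11
  set a := x.1 0 0
  set b := x.1 0 1
  set c := x.1 1 0
  set d := x.1 1 1
  have hs : a + d ≠ 0 := by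
    intro hs
    have hd : d = -a := by linear_combination hs
    rw [hd] at hdet
    apply h2
    linear_combination (-1 : F) * hdet - e00
  have hb : b = 0 := by
    have h1 : b * (a + d) = 0 := by linear_combination e01
    rcases mul_eq_zero.mp h1 with h | h
    · exact h
    · exact absurd h hs
  have hc : c = 0 := by
    have h1 : c * (a + d) = 0 := by linear_combination e10
    rcases mul_eq_zero.mp h1 with h | h
    · exact h
    · exact absurd h hs
  rw [hb, hc] at hdet e00 e11
  have had : a = d := by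
    have h1 : (a - d) * (a + d) = 0 := by linear_combination e00 - e11
    rcases mul_eq_zero.mp h1 with h | h
    · linear_combination h
    · exact absurd h hs
  have ha : (a - 1) * (a + 1) = 0 := by linear_combination e00
  rcases mul_eq_zero.mp ha with h | h
  · left
    apply Subtype.ext
    ext i j
    fin_cases i <;> fin_cases j
    · show a = 1; linear_combination h
    · show b = 0; exact hb
    · show c = 0; exact hc
    · show d = 1; rw [← had]; linear_combination h
  · right
    apply Subtype.ext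
    ext i j
    fin_cases i <;> fin_cases j
    · show a = -1; linear_combination h
    · show b = 0; exact hb
    · show c = 0; exact hc
    · show d = -1; rw [← had]; linear_combination h

/-- A nonabelian `2`-subgroup of `SL₂(F)`, `F` finite of odd order. -/
theorem sl2_nonabelian {F : Type*} [Field F] [Fintype F] (hF : Odd (Fintype.card F))
    (h2 : (2 : F) ≠ 0) :
    ∃ (Q : Subgroup (Matrix.SpecialLinearGroup (Fin 2) F)) (i j : Matrix.SpecialLinearGroup (Fin 2) F),
      IsPGroup 2 Q ∧ i ∈ Q ∧ j ∈ Q ∧ i * j ≠ j * i := by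
  classical
  obtain ⟨a, b, hab⟩ : ∃ a b : F, a ^ 2 + b ^ 2 = -1 := by
    obtain ⟨a, b, h⟩ := FiniteField.exists_root_sum_quadratic (R := F)
      (f := Polynomial.X ^ 2) (g := Polynomial.X ^ 2 + Polynomial.C 1)
      (Polynomial.degree_X_pow 2) (Polynomial.degree_X_pow_add_C (by norm_num) 1)
      (Nat.odd_iff.mp hF)
    refine ⟨a, b, ?_⟩
    simp only [Polynomial.eval_pow, Polynomial.eval_X, Polynomial.eval_add, Polynomial.eval_C] at h
    linear_combination h
  set i : Matrix.SpecialLinearGroup (Fin 2) F := ⟨!![0, 1; -1, 0], by simp [Matrix.det_fin_two]⟩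
    with hi
  set j : Matrix.SpecialLinearGroup (Fin 2) F :=
    ⟨!![a, b; b, -a], by rw [Matrix.det_fin_two_of]; linear_combination (-1 : F) * hab⟩ with hj
  set z : Matrix.SpecialLinearGroup (Fin 2) F := ⟨!![-1, 0; 0, -1], by simp [Matrix.det_fin_two]⟩
    with hz
  have hii : i * i = z := by
    apply Subtype.ext
    show (!![0, 1; -1, 0] : Matrix (Fin 2) (Fin 2) F) * !![0, 1; -1, 0] = !![-1, 0; 0, -1]
    ext r s
    fin_cases r <;> fin_cases s <;> simp [Matrix.mul_apply, Fin.sum_univ_two]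
  have hjj : j * j = z := by
    apply Subtype.ext
    show (!![a, b; b, -a] : Matrix (Fin 2) (Fin 2) F) * !![a, b; b, -a] = !![-1, 0; 0, -1]
    ext r s
    fin_cases r <;> fin_cases s <;> simp [Matrix.mul_apply, Fin.sum_univ_two] <;>
      first | linear_combination hab | ring
  have hzz : z * z = 1 := by
    apply Subtype.ext
    show (!![-1, 0; 0, -1] : Matrix (Fin 2) (Fin 2) F) * !![-1, 0; 0, -1] = 1
    ext r s
    fin_cases r <;> fin_cases s <;> simp [Matrix.mul_apply, Fin.sum_univ_two]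
  have hz1 : z ≠ 1 := by
    intro h
    have h1 := congrFun (congrFun (congrArg Subtype.val h) 0) 0
    have h3 : (-1 : F) = 1 := by simpa [hz] using h1
    apply h2
    linear_combination (-1 : F) * h3
  have hiji : i * j * i = j := by
    apply Subtype.ext
    show (!![0, 1; -1, 0] : Matrix (Fin 2) (Fin 2) F) * !![a, b; b, -a] * !![0, 1; -1, 0] =
      !![a, b; b, -a]
    ext r s
    fin_cases r <;> fin_cases s <;> simp [Matrix.mul_apply, Fin.sum_univ_two]
  have hi4 : i ^ 4 = 1 := by
    have h1 : i ^ 4 = (i * i) * (i * i) := by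
      rw [show (4:ℕ) = 2 + 2 from rfl, pow_add, pow_two]
    rw [h1, hii, hzz]
  have hj4 : j ^ 4 = 1 := by
    have h1 : j ^ 4 = (j * j) * (j * j) := by
      rw [show (4:ℕ) = 2 + 2 from rfl, pow_add, pow_two]
    rw [h1, hjj, hzz]
  have hpi : IsPGroup 2 (Subgroup.zpowers i) := by
    apply IsPGroup.of_card_dvd_pow (n := 2)
    rw [Nat.card_zpowers]
    exact orderOf_dvd_of_pow_eq_one hi4
  have hpj : IsPGroup 2 (Subgroup.zpowers j) := by
    apply IsPGroup.of_card_dvd_pow (n := 2)
    rw [Nat.card_zpowers]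
    exact orderOf_dvd_of_pow_eq_one hj4
  have hconj : j * i * j⁻¹ = i⁻¹ := by
    have h1 : j * i = i⁻¹ * j := by
      rw [eq_inv_mul_iff_mul_eq, ← mul_assoc]; exact hiji
    rw [h1]; group
  have hjN : j ∈ Subgroup.normalizer (Subgroup.zpowers i : Set _) := by
    apply Cfsg.Agent.Lib.Helper6.sy_mem_normalizer_of_conj_le
    intro h hh
    have h1 : (Subgroup.zpowers i).map (MulAut.conj j).toMonoidHom ≤ Subgroup.zpowers i := by
      rw [MonoidHom.map_zpowers]
      apply Subgroup.zpowers_le.mpr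
      show j * i * j⁻¹ ∈ Subgroup.zpowers i
      rw [hconj]
      exact Subgroup.inv_mem _ (Subgroup.mem_zpowers i)
    exact h1 ⟨h, hh, rfl⟩
  refine ⟨Subgroup.zpowers i ⊔ Subgroup.zpowers j, i, j,
    IsPGroup.to_sup_of_normal_left' hpi hpj (Subgroup.zpowers_le.mpr hjN),
    Subgroup.mem_sup_left (Subgroup.mem_zpowers i),
    Subgroup.mem_sup_right (Subgroup.mem_zpowers j), ?_⟩
  intro h
  apply hz1
  have h3 : j * z = j := by
    rw [← hii, ← mul_assoc, ← h]; exact hiji
  exact mul_eq_left.mp h3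

/-- For q odd, the Sylow 2-subgroups of SL_2(q) are generalised quaternion. -/
theorem result {F : Type*} [Field F] [Fintype F] (hF : Odd (Fintype.card F)) (P : Sylow 2 (Matrix.SpecialLinearGroup (Fin 2) F)) : ∃ k : ℕ, 1 ≤ k ∧ Nonempty ((P : Subgroup (Matrix.SpecialLinearGroup (Fin 2) F)) ≃* QuaternionGroup (2 ^ k)) := by
  open Cfsg.Agent.Lib.Helper1 Cfsg.Agent.Lib.Helper8 in
  classical
  haveI : Fact (Nat.Prime 2) := ⟨Nat.prime_two⟩
  have h2 : (2 : F) ≠ 0 := by
    intro h
    have h1 : ringChar F = 2 :=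
      CharP.ringChar_of_prime_eq_zero Nat.prime_two (by exact_mod_cast h)
    have h3 := FiniteField.even_card_of_char_two h1
    have h4 := Nat.odd_iff.mp hF
    omega
  set z : Matrix.SpecialLinearGroup (Fin 2) F := ⟨!![-1, 0; 0, -1], by simp [Matrix.det_fin_two]⟩
    with hz
  have hsq : ∀ x : Matrix.SpecialLinearGroup (Fin 2) F, x ^ 2 = 1 → x = 1 ∨ x = z :=
    fun x hx => sl2_sq h2 x hx
  have hz1 : z ≠ 1 := by
    intro h
    have h1 := congrFun (congrFun (congrArg Subtype.val h) 0) 0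
    have h3 : (-1 : F) = 1 := by simpa [hz] using h1
    apply h2
    linear_combination (-1 : F) * h3
  have hzz : z ^ 2 = 1 := by
    rw [pow_two]
    apply Subtype.ext
    show (!![-1, 0; 0, -1] : Matrix (Fin 2) (Fin 2) F) * !![-1, 0; 0, -1] = 1
    ext r s
    fin_cases r <;> fin_cases s <;> simp [Matrix.mul_apply, Fin.sum_univ_two]
  have hzo : orderOf z = 2 := orderOf_eq_prime hzz hz1
  have huniq : ∀ y : Matrix.SpecialLinearGroup (Fin 2) F, orderOf y = 2 → y = z := by
    intro y hy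
    have h1 := pow_orderOf_eq_one y
    rw [hy] at h1
    rcases hsq y h1 with h | h
    · rw [h, orderOf_one] at hy; omega
    · exact h
  have hPne : (P : Subgroup (Matrix.SpecialLinearGroup (Fin 2) F)) ≠ ⊥ := by
    have h := orderOf_dvd_natCard z
    rw [hzo] at h
    exact P.ne_bot_of_dvd_card h
  have hpP : 2 ∣ Nat.card (P : Subgroup (Matrix.SpecialLinearGroup (Fin 2) F)) := by
    rcases P.isPGroup'.card_eq_or_dvd with h | h
    · exact absurd (Subgroup.eq_bot_of_card_eq _ h) hPne
    · exact h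
  obtain ⟨z', hz'⟩ := exists_prime_orderOf_dvd_card' 2 hpP
  have huniq' : ∀ y : ↥(P : Subgroup (Matrix.SpecialLinearGroup (Fin 2) F)),
      orderOf y = 2 → y = z' := by
    intro y hy
    apply Subtype.ext
    rw [huniq (y : Matrix.SpecialLinearGroup (Fin 2) F) (by rw [Subgroup.orderOf_coe]; exact hy),
      huniq (z' : Matrix.SpecialLinearGroup (Fin 2) F) (by rw [Subgroup.orderOf_coe]; exact hz')]
  rcases ui_cyclic_or_quat P.isPGroup' z' hz' huniq' with hcyc | ⟨n, hn1, hn⟩
  · exfalso
    obtain ⟨Q, i, j, hQ, hiQ, hjQ, hij⟩ := sl2_nonabelian hF h2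
    have hidx : ¬ 2 ∣ (P : Subgroup (Matrix.SpecialLinearGroup (Fin 2) F)).relIndex ⊤ := by
      rw [Subgroup.relIndex_top_right]; exact P.not_dvd_index
    obtain ⟨l, -, hle⟩ := h8_exists_conj_le_of_relIndex
      (le_top : (P : Subgroup (Matrix.SpecialLinearGroup (Fin 2) F)) ≤ ⊤) (le_top : Q ≤ ⊤)
      P.isPGroup' hQ hidx
    have hiP : l * i * l⁻¹ ∈ (P : Subgroup _) := hle ⟨i, hiQ, rfl⟩
    have hjP : l * j * l⁻¹ ∈ (P : Subgroup _) := hle ⟨j, hjQ, rfl⟩
    have hcomm := (IsCyclic.commGroup (α := ↥(P : Subgroup (Matrix.SpecialLinearGroup (Fin 2) F)))).mul_comm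
      ⟨l * i * l⁻¹, hiP⟩ ⟨l * j * l⁻¹, hjP⟩
    have hcomm' : (l * i * l⁻¹) * (l * j * l⁻¹) = (l * j * l⁻¹) * (l * i * l⁻¹) :=
      congrArg Subtype.val hcomm
    apply hij
    have e1 : i * j = l⁻¹ * ((l * i * l⁻¹) * (l * j * l⁻¹)) * l := by group
    have e2 : j * i = l⁻¹ * ((l * j * l⁻¹) * (l * i * l⁻¹)) * l := by group
    rw [e1, e2, hcomm']
  · exact ⟨n, hn1, hn⟩

end Cfsg.Agent.S0261
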