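import Mathlib
import Cfsg.Statements.S0257
import Cfsg.Agent.S0243
import Cfsg.Agent.S0251
import Cfsg.Agent.S0261

set_option autoImplicit false
open Cfsg

namespace Cfsg.Agent.S0257

/-- SL_2(3) has a normal subgroup of index 3 isomorphic to the quaternion group of order 8, and its centre has order 2. -/
theorem result {F : Type*} [Field F] [Fintype F] (hF : Fintype.card F = 3) : (∃ Q : Subgroup (Matrix.SpecialLinearGroup (Fin 2) F), Q.Normal ∧ Q.index = 3 ∧ Nonempty (Q ≃* QuaternionGroup 2)) ∧ Nat.card (Subgroup.center (Matrix.SpecialLinearGroup (Fin 2) F)) = 2 := by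
  classical
  have hc : Nat.card (Subgroup.center (Matrix.SpecialLinearGroup (Fin 2) F)) = 2 := by
    rw [Cfsg.Agent.S0243.card_center_SL 2 (by norm_num), hF]
    rfl
  refine ⟨?_, hc⟩
  obtain ⟨e⟩ := Cfsg.Agent.S0251.result hF
  have h4 : Nat.card (Fin 4) = 4 := by simp
  have hVn : (alternatingGroup.kleinFour (Fin 4)).Normal := alternatingGroup.normal_kleinFour h4
  let f : Matrix.SpecialLinearGroup (Fin 2) F →* alternatingGroup (Fin 4) :=
    e.toMonoidHom.comp (QuotientGroup.mk' (Subgroup.center (Matrix.SpecialLinearGroup (Fin 2) F)))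
  have hf : Function.Surjective f := e.surjective.comp (QuotientGroup.mk'_surjective _)
  have hNn : ((alternatingGroup.kleinFour (Fin 4)).comap f).Normal := hVn.comap f
  have hA : Nat.card (alternatingGroup (Fin 4)) = 12 := by
    have := two_mul_nat_card_alternatingGroup (α := Fin 4)
    rw [Nat.card_perm, h4] at this
    have h24 : (4 : ℕ).factorial = 24 := by decide
    omega
  have hNi : ((alternatingGroup.kleinFour (Fin 4)).comap f).index = 3 := by
    rw [Subgroup.index_comap_of_surjective _ hf]
    have h1 := Subgroup.card_mul_index (alternatingGroup.kleinFour (Fin 4))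
    rw [alternatingGroup.kleinFour_card_of_card_eq_four h4, hA] at h1
    omega
  have hG : Nat.card (Matrix.SpecialLinearGroup (Fin 2) F) = 24 := by
    have h := Cfsg.Agent.S0242.result hF 2 (by norm_num)
    simp only [Fin.prod_univ_two] at h
    obtain ⟨N, hN⟩ : ∃ N, N = Nat.card (Matrix.SpecialLinearGroup (Fin 2) F) := ⟨_, rfl⟩
    rw [← hN] at h ⊢
    norm_num at h
    omega
  have hN8 : Nat.card ((alternatingGroup.kleinFour (Fin 4)).comap f) = 8 := by
    have := Subgroup.card_mul_index ((alternatingGroup.kleinFour (Fin 4)).comap f)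
    rw [hNi, hG] at this
    omega
  have hNp : IsPGroup 2 ((alternatingGroup.kleinFour (Fin 4)).comap f) :=
    IsPGroup.of_card (n := 3) (by rw [hN8]; norm_num)
  obtain ⟨P, hP⟩ := hNp.exists_le_sylow
  have hP8 : Nat.card (P : Subgroup (Matrix.SpecialLinearGroup (Fin 2) F)) = 8 := by
    rw [Sylow.card_eq_multiplicity, hG]
    rw [show (24:ℕ) = 2^3 * 3 by norm_num, Nat.factorization_mul (by norm_num) (by norm_num),
      Nat.Prime.factorization_pow Nat.prime_two]
    simp [Nat.factorization_eq_zero_of_not_dvd]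
  have hNP : (alternatingGroup.kleinFour (Fin 4)).comap f = P :=
    Subgroup.eq_of_le_of_card_ge hP (by rw [hN8, hP8])
  obtain ⟨k, hk, ⟨φ⟩⟩ := Cfsg.Agent.S0261.result (by rw [hF]; decide) P
  have hk1 : k = 1 := by
    have := Nat.card_congr φ.toEquiv
    rw [hP8, Nat.card_eq_fintype_card, QuaternionGroup.card] at this
    have h2 : 2 ^ k = 2 ^ 1 := by omega
    exact Nat.pow_right_injective (le_refl 2) h2
  subst hk1
  exact ⟨_, hNn, hNi, ⟨(MulEquiv.subgroupCongr hNP).trans φ⟩⟩

end Cfsg.Agent.S0257
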