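import Mathlib
import Cfsg.Statements.S0258
import Cfsg.Agent.Lib.Helper5.GL2Syl

set_option autoImplicit false
open Cfsg

namespace Cfsg.Agent.S0258

/-- GL_2(q), q a power of the prime p, has exactly q + 1 Sylow p-subgroups. -/
theorem result {F : Type*} [Field F] [Fintype F] {q : ℕ} (hF : Fintype.card F = q) (p : ℕ) [Fact p.Prime] [CharP F p] : Nat.card (Sylow p (Matrix.GeneralLinearGroup (Fin 2) F)) = q + 1 := by
-----
  classical
  have P : Sylow p (Matrix.GeneralLinearGroup (Fin 2) F) := default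
  rw [Sylow.card_eq_index_normalizer P]
  have h1 := Subgroup.card_mul_index (Subgroup.normalizer ((P : Subgroup (Matrix.GeneralLinearGroup (Fin 2) F)) : Set (Matrix.GeneralLinearGroup (Fin 2) F)))
  rw [Cfsg.Agent.Lib.Helper5.GL2Syl.card_normalizer_sylow p P, Matrix.card_GL_field, hF] at h1
  simp only [Fin.prod_univ_two] at h1
  have hq : 2 ≤ q := by rw [← hF]; exact Fintype.one_lt_card
  obtain ⟨r, rfl⟩ : ∃ r, q = r + 2 := ⟨q - 2, by omega⟩
  have e1 : r + 2 - 1 = r + 1 := by omega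
  have e2 : (r + 2) ^ 2 - (r + 2) ^ ((0 : Fin 2) : ℕ) = (r + 1) * (r + 3) := by
    apply Nat.sub_eq_of_eq_add
    simp only [Fin.val_zero]
    ring
  have e3 : (r + 2) ^ 2 - (r + 2) ^ ((1 : Fin 2) : ℕ) = (r + 2) * (r + 1) := by
    apply Nat.sub_eq_of_eq_add
    simp only [Fin.val_one]
    ring
  rw [e1, e2, e3] at h1
  have hpos : 0 < (r + 1) * ((r + 2) * (r + 1)) := by positivity
  apply Nat.eq_of_mul_eq_mul_left hpos
  refine Eq.trans h1 ?_
  ring

end Cfsg.Agent.S0258
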