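import Mathlib
import Cfsg.Statements.S0260
import Cfsg.Agent.Lib.Helper5.GL2Syl

set_option autoImplicit false
open Cfsg

namespace Cfsg.Agent.S0260

open Matrix Cfsg.Agent.Lib.Helper5.GL2Syl

variable {F : Type*} [Field F]

theorem cm' (A B : SpecialLinearGroup (Fin 2) F) :
    ((A * B : SpecialLinearGroup (Fin 2) F) : Matrix (Fin 2) (Fin 2) F) =
      (A : Matrix (Fin 2) (Fin 2) F) * (B : Matrix (Fin 2) (Fin 2) F) := rfl

theorem c1' : ((1 : SpecialLinearGroup (Fin 2) F) : Matrix (Fin 2) (Fin 2) F) = 1 := rfl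

theorem cp' (A : SpecialLinearGroup (Fin 2) F) (m : ℕ) :
    ((A ^ m : SpecialLinearGroup (Fin 2) F) : Matrix (Fin 2) (Fin 2) F) =
      (A : Matrix (Fin 2) (Fin 2) F) ^ m := Matrix.SpecialLinearGroup.coe_pow A m

theorem sl_inv_mul (a : SpecialLinearGroup (Fin 2) F) :
    ((a⁻¹ : SpecialLinearGroup (Fin 2) F) : Matrix (Fin 2) (Fin 2) F) *
      (a : Matrix (Fin 2) (Fin 2) F) = 1 := by
  rw [← cm', inv_mul_cancel, c1']

/-- The stabiliser in `SL₂` of a vector. -/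
def V (v : Fin 2 → F) : Subgroup (SpecialLinearGroup (Fin 2) F) where
  carrier := {a | (a : Matrix (Fin 2) (Fin 2) F) *ᵥ v = v}
  mul_mem' := by
    intro a b ha hb
    show ((a * b : SpecialLinearGroup (Fin 2) F) : Matrix (Fin 2) (Fin 2) F) *ᵥ v = v
    have ha' : (a : Matrix (Fin 2) (Fin 2) F) *ᵥ v = v := ha
    have hb' : (b : Matrix (Fin 2) (Fin 2) F) *ᵥ v = v := hb
    rw [cm', ← Matrix.mulVec_mulVec, hb', ha']
  one_mem' := by
    show ((1 : SpecialLinearGroup (Fin 2) F) : Matrix (Fin 2) (Fin 2) F) *ᵥ v = v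
    rw [c1', Matrix.one_mulVec]
  inv_mem' := by
    intro a ha
    show ((a⁻¹ : SpecialLinearGroup (Fin 2) F) : Matrix (Fin 2) (Fin 2) F) *ᵥ v = v
    have ha' : (a : Matrix (Fin 2) (Fin 2) F) *ᵥ v = v := ha
    have := congrArg (fun x => ((a⁻¹ : SpecialLinearGroup (Fin 2) F) :
      Matrix (Fin 2) (Fin 2) F) *ᵥ x) ha'
    simp only [Matrix.mulVec_mulVec, sl_inv_mul, Matrix.one_mulVec] at this
    exact this.symm

theorem mem_V (v : Fin 2 → F) (a : SpecialLinearGroup (Fin 2) F) :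
    a ∈ V v ↔ (a : Matrix (Fin 2) (Fin 2) F) *ᵥ v = v := Iff.rfl

/-- The transvection `x ↦ x + t · dd v x · v`. -/
def uu (v : Fin 2 → F) (t : F) : SpecialLinearGroup (Fin 2) F :=
  ⟨!![1 - t * v 0 * v 1, t * v 0 * v 0; -(t * v 1 * v 1), 1 + t * v 1 * v 0], by
    rw [Matrix.det_fin_two_of]; ring⟩

theorem uu_mulVec (v x : Fin 2 → F) (t : F) :
    (uu v t : Matrix (Fin 2) (Fin 2) F) *ᵥ x = x + (t * dd v x) • v := by
  ext i
  fin_cases i <;> simp [uu, dd, Matrix.mulVec, dotProduct, Fin.sum_univ_two] <;> ring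

theorem uu_mem (v : Fin 2 → F) (t : F) : uu v t ∈ V v := by
  rw [mem_V, uu_mulVec]
  simp [dd, mul_comm]

theorem uu_v (v w : Fin 2 → F) (t a b : F) :
    (uu v t : Matrix (Fin 2) (Fin 2) F) *ᵥ (a • v + b • w) =
      (a + t * b * dd v w) • v + b • w := by
  rw [uu_mulVec]
  ext i
  fin_cases i <;> simp [dd] <;> ring

theorem uu_w (v w : Fin 2 → F) (s a b : F) :
    (uu w s : Matrix (Fin 2) (Fin 2) F) *ᵥ (a • v + b • w) =
      a • v + (b - s * a * dd v w) • w := by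
  rw [uu_mulVec]
  ext i
  fin_cases i <;> simp [dd] <;> ring

theorem decomp (v w : Fin 2 → F) (hd : dd v w ≠ 0) (x : Fin 2 → F) :
    x = (dd x w / dd v w) • v + (dd v x / dd v w) • w := by
  ext i
  fin_cases i
  · simp only [Fin.zero_eta, Pi.add_apply, Pi.smul_apply, smul_eq_mul]
    field_simp
    simp only [dd]; ring
  · simp only [Fin.mk_one, Pi.add_apply, Pi.smul_apply, smul_eq_mul]
    field_simp
    simp only [dd]; ring

theorem uu_v' (v w : Fin 2 → F) (t a b : F) (x : Fin 2 → F) (hx : x = a • v + b • w) :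
    (uu v t : Matrix (Fin 2) (Fin 2) F) *ᵥ x = (a + t * b * dd v w) • v + b • w := by
  subst hx; exact uu_v v w t a b

theorem uu_w' (v w : Fin 2 → F) (s a b : F) (x : Fin 2 → F) (hx : x = a • v + b • w) :
    (uu w s : Matrix (Fin 2) (Fin 2) F) *ᵥ x = a • v + (b - s * a * dd v w) • w := by
  subst hx; exact uu_w v w s a b

theorem trans_H (v w : Fin 2 → F) (hd : dd v w ≠ 0) (x : Fin 2 → F) (hx : x ≠ 0) :
    ∃ h ∈ V v ⊔ V w, (h : Matrix (Fin 2) (Fin 2) F) *ᵥ v = x := by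
  have hx' := decomp v w hd x
  obtain ⟨α, hα⟩ : ∃ α, α = dd x w / dd v w := ⟨_, rfl⟩
  obtain ⟨β, hβ⟩ : ∃ β, β = dd v x / dd v w := ⟨_, rfl⟩
  rw [← hα, ← hβ] at hx'
  have hv1 : v = (1 : F) • v + (0 : F) • w := by simp
  by_cases hb : β = 0
  · have ha : α ≠ 0 := by
      intro ha
      apply hx
      rw [hx', ha, hb]; simp
    refine ⟨uu w (1 / (α * dd v w)) * (uu v ((α - 1) / dd v w) * uu w (-1 / dd v w)), ?_, ?_⟩
    · exact Subgroup.mul_mem _ (Subgroup.mem_sup_right (uu_mem w _))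
        (Subgroup.mul_mem _ (Subgroup.mem_sup_left (uu_mem v _))
          (Subgroup.mem_sup_right (uu_mem w _)))
    · have e1 := uu_w' v w (-1 / dd v w) 1 0 v hv1
      have e2 := uu_v' v w ((α - 1) / dd v w) _ _ _ e1
      have e3 := uu_w' v w (1 / (α * dd v w)) _ _ _ e2
      rw [cm', cm', ← Matrix.mulVec_mulVec, ← Matrix.mulVec_mulVec, e3, hx', hb]
      congr 1
      · congr 1
        field_simp
        ring
      · congr 1
        field_simp
        ring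
  · refine ⟨uu v ((α - 1) / (β * dd v w)) * uu w (-β / dd v w), ?_, ?_⟩
    · exact Subgroup.mul_mem _ (Subgroup.mem_sup_left (uu_mem v _))
          (Subgroup.mem_sup_right (uu_mem w _))
    · have e1 := uu_w' v w (-β / dd v w) 1 0 v hv1
      have e2 := uu_v' v w ((α - 1) / (β * dd v w)) _ _ _ e1
      rw [cm', ← Matrix.mulVec_mulVec, e2, hx']
      congr 1
      · congr 1
        field_simp
        ring
      · congr 1
        field_simp
        ring

theorem sl_mulVec_ne_zero (g : SpecialLinearGroup (Fin 2) F) (v : Fin 2 → F) (hv : v ≠ 0) :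
    (g : Matrix (Fin 2) (Fin 2) F) *ᵥ v ≠ 0 := by
  intro h
  apply hv
  have := congrArg (fun x => ((g⁻¹ : SpecialLinearGroup (Fin 2) F) :
    Matrix (Fin 2) (Fin 2) F) *ᵥ x) h
  simpa only [Matrix.mulVec_mulVec, sl_inv_mul, Matrix.one_mulVec, Matrix.mulVec_zero] using this

theorem sup_eq_top (v w : Fin 2 → F) (hd : dd v w ≠ 0) : V v ⊔ V w = ⊤ := by
  rw [eq_top_iff]
  intro g _
  have hv : v ≠ 0 := by
    rintro rfl
    simp [dd] at hd
  obtain ⟨h, hh, hhv⟩ := trans_H v w hd _ (sl_mulVec_ne_zero g v hv)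
  have h1 : h⁻¹ * g ∈ V v := by
    rw [mem_V, cm', ← Matrix.mulVec_mulVec, ← hhv, Matrix.mulVec_mulVec, sl_inv_mul,
      Matrix.one_mulVec]
  have h2 : g = h * (h⁻¹ * g) := by group
  rw [h2]
  exact Subgroup.mul_mem _ hh (Subgroup.mem_sup_left h1)

theorem V_le_smul (v : Fin 2 → F) (c : F) : V v ≤ V (c • v) := by
  intro a ha
  rw [mem_V] at ha ⊢
  rw [Matrix.mulVec_smul, ha]

theorem V_eq_of_dd (v w : Fin 2 → F) (hv : v ≠ 0) (hw : w ≠ 0) (hd : dd v w = 0) :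
    V v = V w := by
  obtain ⟨c, hc, rfl⟩ := prop_of_dd v w hv hw hd
  apply le_antisymm (V_le_smul v c)
  have := V_le_smul (c • v) c⁻¹
  rwa [smul_smul, inv_mul_cancel₀ hc, one_smul] at this

theorem V_isPGroup (p : ℕ) [Fact p.Prime] [CharP F p] (v : Fin 2 → F) (hv : v ≠ 0) :
    IsPGroup p (V v) := by
  rintro ⟨a, ha⟩
  refine ⟨1, ?_⟩
  have hsq := sq_zero_of_mem_U v hv _ ha a.2
  have hp2 : 2 ≤ p := (Fact.out : p.Prime).two_le
  have key : (a : Matrix (Fin 2) (Fin 2) F) ^ p = 1 := by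
    have e : (a : Matrix (Fin 2) (Fin 2) F) = 1 + ((a : Matrix (Fin 2) (Fin 2) F) - 1) := by abel
    rw [e, add_pow_char_of_commute p (Commute.one_left _), one_pow]
    have : ((a : Matrix (Fin 2) (Fin 2) F) - 1) ^ p = 0 := by
      obtain ⟨r, rfl⟩ : ∃ r, p = 2 + r := ⟨p - 2, by omega⟩
      rw [pow_add, pow_two, hsq, zero_mul]
    rw [this, add_zero]
  have key' : ((a ^ p ^ 1 : SpecialLinearGroup (Fin 2) F) : Matrix (Fin 2) (Fin 2) F) =
      ((1 : SpecialLinearGroup (Fin 2) F) : Matrix (Fin 2) (Fin 2) F) := by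
    rw [pow_one, cp', key]; rfl
  apply Subtype.ext
  apply Subtype.ext
  exact key'

theorem sylow_eq_V [Fintype F] (p : ℕ) [Fact p.Prime] [CharP F p]
    (P : Sylow p (SpecialLinearGroup (Fin 2) F)) :
    ∃ v : Fin 2 → F, v ≠ 0 ∧ (P : Subgroup (SpecialLinearGroup (Fin 2) F)) = V v := by
  classical
  let act0 : MulAction (GL (Fin 2) F) {v : Fin 2 → F // v ≠ 0} := actNZ
  let act : MulAction (SpecialLinearGroup (Fin 2) F) {v : Fin 2 → F // v ≠ 0} :=
    MulAction.compHom _ (Matrix.SpecialLinearGroup.toGL : SpecialLinearGroup (Fin 2) F →* GL (Fin 2) F)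
  have hcard : ¬ p ∣ Nat.card {v : Fin 2 → F // v ≠ 0} := by
    rw [card_nz]
    obtain ⟨n, hp, hn⟩ := FiniteField.card F p
    rw [hn]
    intro hdvd
    have h1 : p ∣ (p ^ (n : ℕ)) ^ 2 := by
      rw [← pow_mul]
      exact dvd_pow_self p (by positivity)
    have h2 : 1 ≤ (p ^ (n : ℕ)) ^ 2 := Nat.one_le_pow _ _ (pow_pos hp.pos _)
    have h3 : p ∣ 1 := by
      have := Nat.dvd_sub h1 hdvd
      rwa [Nat.sub_sub_self h2] at this
    exact hp.one_lt.ne' (Nat.dvd_one.1 h3)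
  obtain ⟨v, hv⟩ := P.isPGroup'.nonempty_fixed_point_of_prime_not_dvd_card
    {v : Fin 2 → F // v ≠ 0} hcard
  refine ⟨v.1, v.2, ?_⟩
  have hle : (P : Subgroup (SpecialLinearGroup (Fin 2) F)) ≤ V v.1 := by
    intro a ha
    have := hv ⟨a, ha⟩
    exact congrArg Subtype.val this
  exact (P.is_maximal' (V_isPGroup p v.1 v.2) hle).symm

/-- Any two distinct Sylow p-subgroups of SL_2(q), p the characteristic, generate SL_2(q). -/
theorem result {F : Type*} [Field F] [Fintype F] (p : ℕ) [Fact p.Prime] [CharP F p] (P Q : Sylow p (Matrix.SpecialLinearGroup (Fin 2) F)) (h : P ≠ Q) : (P : Subgroup (Matrix.SpecialLinearGroup (Fin 2) F)) ⊔ (Q : Subgroup (Matrix.SpecialLinearGroup (Fin 2) F)) = ⊤ := by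
  classical
  obtain ⟨v, hv, hP⟩ := sylow_eq_V p P
  obtain ⟨w, hw, hQ⟩ := sylow_eq_V p Q
  rw [hP, hQ]
  apply sup_eq_top
  intro hd
  apply h
  apply Sylow.ext
  rw [hP, hQ, V_eq_of_dd v w hv hw hd]

end Cfsg.Agent.S0260
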