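import Mathlib
import Cfsg.Statements.S0262
import Cfsg.Agent.Lib.Helper5.GL2Syl

set_option autoImplicit false
open Cfsg

namespace Cfsg.Agent.S0262

open Matrix Cfsg.Agent.Lib.Helper5.GL2Syl

theorem exists_eig {K : Type*} [Field K] [IsAlgClosed K] (M : Matrix (Fin 2) (Fin 2) K) :
    ∃ (c : K) (v : Fin 2 → K), v ≠ 0 ∧ M *ᵥ v = c • v := by
  obtain ⟨c, hc⟩ := Module.End.exists_eigenvalue (Matrix.mulVecLin M)
  obtain ⟨v, hv⟩ := hc.exists_hasEigenvector
  exact ⟨c, v, hv.2, Module.End.mem_eigenspace_iff.1 hv.1⟩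

/-- A finite `r`-group (`r` odd) with a faithful determinant-one representation of degree two
over an algebraically closed field in which no non-identity element is unipotent is cyclic. -/
theorem cyclic_of_rep {K : Type*} [Field K] [IsAlgClosed K] {G : Type*} [Group G] [Finite G]
    (r : ℕ) [Fact r.Prime] (hr : r ≠ 2) (hG : IsPGroup r G)
    (m : G →* Matrix (Fin 2) (Fin 2) K) (hinj : Function.Injective m)
    (hdet : ∀ g, (m g).det = 1)
    (huni : ∀ g : G, (m g - 1) * (m g - 1) = 0 → g = 1) : IsCyclic G := by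
  rcases subsingleton_or_nontrivial G with hs | hn
  · exact isCyclic_of_subsingleton
  have := hG.center_nontrivial
  obtain ⟨⟨z, hz⟩, hz1⟩ := exists_ne (1 : Subgroup.center G)
  have hz1' : z ≠ 1 := fun h => hz1 (Subtype.ext h)
  obtain ⟨c, v, hv, hzv⟩ := exists_eig (m z)
  have hinv : ∀ g : G, m g⁻¹ * m g = 1 := fun g => by rw [← map_mul, inv_mul_cancel, map_one]
  have hne : ∀ g : G, m g *ᵥ v ≠ 0 := by
    intro g h
    apply hv
    have := congrArg (fun x => m g⁻¹ *ᵥ x) h
    simpa only [Matrix.mulVec_mulVec, hinv, Matrix.one_mulVec, Matrix.mulVec_zero] using this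
  have hc : c ≠ 0 := by
    rintro rfl
    rw [zero_smul] at hzv
    exact hne z hzv
  have hA : ∀ g : G, dd v (m g *ᵥ v) = 0 := by
    intro g
    by_contra hd
    have hcomm : m z * m g = m g * m z := by
      rw [← map_mul, ← map_mul, Subgroup.mem_center_iff.1 hz g]
    have h1 : (c⁻¹ • m z) *ᵥ v = v := by
      rw [Matrix.smul_mulVec, hzv, smul_smul, inv_mul_cancel₀ hc, one_smul]
    have h2 : (c⁻¹ • m z) *ᵥ (m g *ᵥ v) = m g *ᵥ v := by
      rw [Matrix.smul_mulVec, Matrix.mulVec_mulVec, hcomm, ← Matrix.mulVec_mulVec, hzv,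
        Matrix.mulVec_smul, smul_smul, inv_mul_cancel₀ hc, one_smul]
    have h3 := fix_two _ v _ hd h1 h2
    have h4 : m z = c • (1 : Matrix (Fin 2) (Fin 2) K) := by
      rw [← h3, smul_smul, mul_inv_cancel₀ hc, one_smul]
    have h5 : c * c = 1 := by
      have := hdet z
      rw [h4, Matrix.det_smul, Matrix.det_one] at this
      simpa [pow_two] using this
    have h6 : c = 1 ∨ c = -1 := mul_self_eq_one_iff.1 h5
    rcases h6 with rfl | rfl
    · apply hz1'
      apply hinj
      rw [h4, one_smul, map_one]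
    · obtain ⟨k, hk⟩ := hG z
      have h7 : (m z) ^ (r ^ k) = 1 := by rw [← map_pow, hk, map_one]
      rw [h4] at h7
      have hodd : Odd (r ^ k) := Odd.pow ((Fact.out : r.Prime).odd_of_ne_two hr)
      have h8 : ((-1 : K) • (1 : Matrix (Fin 2) (Fin 2) K)) ^ (r ^ k) = (-1 : K) • 1 := by
        rw [smul_pow, one_pow, hodd.neg_one_pow]
      rw [h8] at h7
      apply hz1'
      apply hinj
      rw [h4, h7, map_one]
  obtain ⟨i, hi⟩ : ∃ i, v i ≠ 0 := by
    by_contra h
    push Not at h
    exact hv (funext h)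
  have hB : ∀ g : G, m g *ᵥ v = ((m g *ᵥ v) i / v i) • v := by
    intro g
    obtain ⟨cg, hcg, hg⟩ := prop_of_dd v _ hv (hne g) (hA g)
    rw [hg]
    simp [mul_div_cancel_right₀ _ hi]
  let χ : G →* K := {
    toFun := fun g => (m g *ᵥ v) i / v i
    map_one' := by simp [div_self hi]
    map_mul' := by
      intro g h
      show (m (g * h) *ᵥ v) i / v i = (m g *ᵥ v) i / v i * ((m h *ᵥ v) i / v i)
      rw [map_mul, ← Matrix.mulVec_mulVec]
      nth_rewrite 1 [hB h]
      rw [Matrix.mulVec_smul]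
      simp only [Pi.smul_apply, smul_eq_mul]
      field_simp }
  have hker : ∀ g : G, χ g = 1 → g = 1 := by
    intro g hg
    apply huni
    have h1 : m g *ᵥ v = v := by
      have := hB g
      rw [show (m g *ᵥ v) i / v i = 1 from hg, one_smul] at this
      exact this
    exact sq_zero_of_mem_U v hv _ h1 (hdet g)
  apply isCyclic_of_injective_ringHom χ
  intro g h hgh
  have h1 : χ (h⁻¹ * g) = 1 := by
    rw [map_mul, hgh, ← map_mul, inv_mul_cancel, map_one]
  exact (inv_mul_eq_one.1 (hker _ h1)).symm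

theorem cp' {F : Type*} [Field F] (A : SpecialLinearGroup (Fin 2) F) (m : ℕ) :
    ((A ^ m : SpecialLinearGroup (Fin 2) F) : Matrix (Fin 2) (Fin 2) F) =
      (A : Matrix (Fin 2) (Fin 2) F) ^ m := Matrix.SpecialLinearGroup.coe_pow A m

/-- For an odd prime r different from the characteristic, the Sylow r-subgroups of SL_2(q) are cyclic. -/
theorem result {F : Type*} [Field F] [Fintype F] (p : ℕ) [Fact p.Prime] [CharP F p] (r : ℕ) [Fact r.Prime] (hr : r ≠ 2) (hrp : r ≠ p) (R : Sylow r (Matrix.SpecialLinearGroup (Fin 2) F)) : IsCyclic (R : Subgroup (Matrix.SpecialLinearGroup (Fin 2) F)) := by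
  classical
  let f : F →+* AlgebraicClosure F := algebraMap F (AlgebraicClosure F)
  let m : ↥(R : Subgroup (Matrix.SpecialLinearGroup (Fin 2) F)) →*
      Matrix (Fin 2) (Fin 2) (AlgebraicClosure F) := {
    toFun := fun g => f.mapMatrix (g.1 : Matrix (Fin 2) (Fin 2) F)
    map_one' := by
      show f.mapMatrix (1 : Matrix (Fin 2) (Fin 2) F) = 1
      rw [map_one]
    map_mul' := by
      intro a b
      show f.mapMatrix ((a.1 : Matrix (Fin 2) (Fin 2) F) * (b.1 : Matrix (Fin 2) (Fin 2) F)) = _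
      rw [map_mul] }
  apply cyclic_of_rep r hr R.isPGroup' m
  · intro a b hab
    apply Subtype.ext
    apply Subtype.ext
    have : (fun M : Matrix (Fin 2) (Fin 2) F => M.map f) a.1.1 =
        (fun M : Matrix (Fin 2) (Fin 2) F => M.map f) b.1.1 := hab
    exact Matrix.map_injective f.injective this
  · intro g
    show (f.mapMatrix (g.1 : Matrix (Fin 2) (Fin 2) F)).det = 1
    rw [← RingHom.map_det, g.1.2, map_one]
  · intro g hg
    have h0 : (fun M : Matrix (Fin 2) (Fin 2) F => M.map f)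
        (((g.1 : Matrix (Fin 2) (Fin 2) F) - 1) * ((g.1 : Matrix (Fin 2) (Fin 2) F) - 1)) =
        (fun M : Matrix (Fin 2) (Fin 2) F => M.map f) 0 := by
      show f.mapMatrix (((g.1 : Matrix (Fin 2) (Fin 2) F) - 1) *
        ((g.1 : Matrix (Fin 2) (Fin 2) F) - 1)) = f.mapMatrix 0
      rw [map_mul, map_sub, map_one, map_zero]
      exact hg
    have hsq : ((g.1 : Matrix (Fin 2) (Fin 2) F) - 1) * ((g.1 : Matrix (Fin 2) (Fin 2) F) - 1) = 0 :=
      Matrix.map_injective f.injective h0
    have hp2 : 2 ≤ p := (Fact.out : p.Prime).two_le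
    have key : (g.1 : Matrix (Fin 2) (Fin 2) F) ^ p = 1 := by
      have e : (g.1 : Matrix (Fin 2) (Fin 2) F) = 1 + ((g.1 : Matrix (Fin 2) (Fin 2) F) - 1) := by
        abel
      rw [e, add_pow_char_of_commute p (Commute.one_left _), one_pow]
      have : ((g.1 : Matrix (Fin 2) (Fin 2) F) - 1) ^ p = 0 := by
        obtain ⟨s, rfl⟩ : ∃ s, p = 2 + s := ⟨p - 2, by omega⟩
        rw [pow_add, pow_two, hsq, zero_mul]
      rw [this, add_zero]
    have hgp : g ^ p = 1 := by
      have key' : ((g.1 ^ p : SpecialLinearGroup (Fin 2) F) : Matrix (Fin 2) (Fin 2) F) =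
          ((1 : SpecialLinearGroup (Fin 2) F) : Matrix (Fin 2) (Fin 2) F) := by
        rw [cp', key]; rfl
      apply Subtype.ext
      apply Subtype.ext
      exact key'
    obtain ⟨k, hk⟩ := R.isPGroup' g
    have h1 := orderOf_dvd_of_pow_eq_one hgp
    have h2 := orderOf_dvd_of_pow_eq_one hk
    have hcop : Nat.Coprime p (r ^ k) :=
      Nat.Coprime.pow_right k ((Nat.coprime_primes Fact.out Fact.out).2 (Ne.symm hrp))
    have h3 := Nat.dvd_gcd h1 h2
    rw [hcop.gcd_eq_one] at h3
    exact orderOf_eq_one_iff.1 (Nat.dvd_one.1 h3)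

end Cfsg.Agent.S0262
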