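import Cfsg.Statements.S0263
import Mathlib

set_option autoImplicit false
open Cfsg

namespace Cfsg.Agent.S0263

/-- A Sylow p-subgroup of GL_n(q), p the characteristic, has order q^(n(n-1)/2). -/
theorem result {F : Type*} [Field F] [Fintype F] {q : ℕ} (hF : Fintype.card F = q) (p : ℕ) [Fact p.Prime] [CharP F p] (n : ℕ) (P : Sylow p (Matrix.GeneralLinearGroup (Fin n) F)) : Nat.card P = q ^ (n * (n - 1) / 2) := by
  classical
  obtain ⟨k, hp, hk⟩ := FiniteField.card F p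
  have hq1 : 1 ≤ q := hF ▸ Fintype.card_pos
  have hk' : q = p ^ (k : ℕ) := hF ▸ hk
  have hcard : Nat.card (Matrix.GeneralLinearGroup (Fin n) F) = ∏ i : Fin n, (q ^ n - q ^ (i : ℕ)) := by
    rw [← hF]
    exact Matrix.card_GL_field n
  have hsplit : ∏ i : Fin n, (q ^ n - q ^ (i : ℕ)) =
      q ^ (n * (n - 1) / 2) * ∏ i : Fin n, (q ^ (n - (i : ℕ)) - 1) := by
    have h1 : ∀ i : Fin n, q ^ n - q ^ (i : ℕ) = q ^ (i : ℕ) * (q ^ (n - (i : ℕ)) - 1) := by
      intro i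
      rw [Nat.mul_sub, mul_one, ← pow_add, Nat.add_sub_cancel' i.2.le]
    simp_rw [h1]
    rw [Finset.prod_mul_distrib, Finset.prod_pow_eq_pow_sum, Fin.sum_univ_eq_sum_range (fun i => i) n,
      Finset.sum_range_id]
  have hm : ¬ p ∣ ∏ i : Fin n, (q ^ (n - (i : ℕ)) - 1) := by
    intro h
    obtain ⟨i, -, hi⟩ := (Prime.dvd_finsetProd_iff hp.prime _).mp h
    have h1 : p ∣ q ^ (n - (i : ℕ)) := by
      rw [hk']
      exact dvd_pow (dvd_pow_self p k.ne_zero) (by have := i.2; omega)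
    have h2 : 1 ≤ q ^ (n - (i : ℕ)) := Nat.one_le_pow _ _ hq1
    have h3 : p ∣ 1 := by
      have := Nat.dvd_sub h1 hi
      rwa [Nat.sub_sub_self h2] at this
    exact hp.one_lt.ne' (Nat.dvd_one.mp h3)
  have hm0 : ∏ i : Fin n, (q ^ (n - (i : ℕ)) - 1) ≠ 0 := fun h => hm (h ▸ dvd_zero p)
  have hq0 : q ^ (n * (n - 1) / 2) ≠ 0 := by positivity
  rw [Sylow.card_eq_multiplicity, hcard, hsplit, Nat.factorization_mul hq0 hm0]
  simp only [Finsupp.add_apply]
  rw [Nat.factorization_eq_zero_of_not_dvd hm, add_zero, hk', ← pow_mul, Nat.Prime.factorization_pow hp,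
    Finsupp.single_eq_same]

end Cfsg.Agent.S0263
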