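import Cfsg.Statements.S0265
import Mathlib
import Cfsg.Agent.S0242

set_option autoImplicit false
open Cfsg

namespace Cfsg.Agent.S0265

theorem card_center_GL {F : Type*} [Field F] [Fintype F] (n : ℕ) (hn : 1 ≤ n) :
    Nat.card (Subgroup.center (Matrix.GeneralLinearGroup (Fin n) F)) = Fintype.card F - 1 := by
  classical
  have : Nonempty (Fin n) := ⟨⟨0, hn⟩⟩
  rw [Matrix.GeneralLinearGroup.center_eq_range_scalar]
  have hinj : Function.Injective (Matrix.GeneralLinearGroup.scalar (Fin n) : Fˣ →* Matrix.GeneralLinearGroup (Fin n) F) := by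
    intro u v huv
    have h1 := congrArg (fun g : Matrix.GeneralLinearGroup (Fin n) F => (g : Matrix (Fin n) (Fin n) F) ⟨0, hn⟩ ⟨0, hn⟩) huv
    simp [Matrix.GeneralLinearGroup.coe_scalar] at h1
    exact Units.ext h1
  rw [← Nat.card_congr (MonoidHom.ofInjective hinj).toEquiv, Nat.card_eq_fintype_card, Fintype.card_units]

/-- |PGL_n(q)| = |SL_n(q)|: GL_n modulo its centre (the q-1 non-zero scalars) has the same order as the kernel of det. -/
theorem result {F : Type*} [Field F] [Fintype F] (n : ℕ) : Nat.card (Matrix.ProjGenLinGroup (Fin n) F) = Nat.card (Matrix.SpecialLinearGroup (Fin n) F) := by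
  classical
  rcases Nat.eq_zero_or_pos n with hn | hn
  · subst hn
    have h1 : Subsingleton (Matrix.SpecialLinearGroup (Fin 0) F) := ⟨fun a b => by ext i; exact i.elim0⟩
    have h2 : Subsingleton (Matrix.GeneralLinearGroup (Fin 0) F) := ⟨fun a b => by ext i; exact i.elim0⟩
    have h3 : Subsingleton (Matrix.ProjGenLinGroup (Fin 0) F) := by
      unfold Matrix.ProjGenLinGroup
      infer_instance
    rw [Nat.card_of_subsingleton (1 : Matrix.ProjGenLinGroup (Fin 0) F), Nat.card_of_subsingleton (1 : Matrix.SpecialLinearGroup (Fin 0) F)]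
  · have hq : 1 < Fintype.card F := Fintype.one_lt_card
    have h1 := Cfsg.Agent.S0242.card_GL_eq (F := F) n hn
    have h2 := card_center_GL (F := F) n hn
    have h3 := Subgroup.card_eq_card_quotient_mul_card_subgroup (Subgroup.center (Matrix.GeneralLinearGroup (Fin n) F))
    have h4 : Nat.card (Matrix.ProjGenLinGroup (Fin n) F) = Nat.card (Matrix.GeneralLinearGroup (Fin n) F ⧸ Subgroup.center (Matrix.GeneralLinearGroup (Fin n) F)) := rfl
    rw [h4]
    rw [h1, h2] at h3
    have hpos : 0 < Fintype.card F - 1 := by omega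
    rw [mul_comm] at h3
    exact (Nat.eq_of_mul_eq_mul_right hpos h3).symm

end Cfsg.Agent.S0265
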