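import Mathlib
import Cfsg.Statements.S0266
import Cfsg.Agent.Lib.Helper5.GL2Syl

set_option autoImplicit false
open scoped MatrixGroups
open Cfsg

namespace Cfsg.Agent.S0266

open Matrix Cfsg.Agent.Lib.Helper5.GL2Syl

variable {F : Type*} [Field F]

theorem dd_ne_of_mk_ne (u v : Fin 2 → F) (hu : u ≠ 0) (hv : v ≠ 0)
    (h : Projectivization.mk F u hu ≠ Projectivization.mk F v hv) : dd u v ≠ 0 := by
  intro hd
  apply h
  obtain ⟨c, hc, rfl⟩ := prop_of_dd u v hu hv hd
  rw [Projectivization.mk_eq_mk_iff']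
  exact ⟨c⁻¹, by rw [smul_smul, inv_mul_cancel₀ hc, one_smul]⟩

theorem dd_ne_of_ne (a b : Projectivization F (Fin 2 → F)) (h : a ≠ b) : dd a.rep b.rep ≠ 0 := by
  apply dd_ne_of_mk_ne _ _ a.rep_nonzero b.rep_nonzero
  rw [Projectivization.mk_rep, Projectivization.mk_rep]
  exact h

theorem decomp' (v w : Fin 2 → F) (hd : dd v w ≠ 0) (x : Fin 2 → F) :
    x = (dd x w / dd v w) • v + (dd v x / dd v w) • w := by
  ext i
  fin_cases i
  · simp only [Fin.zero_eta, Pi.add_apply, Pi.smul_apply, smul_eq_mul]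
    field_simp
    simp only [dd]; ring
  · simp only [Fin.mk_one, Pi.add_apply, Pi.smul_apply, smul_eq_mul]
    field_simp
    simp only [dd]; ring

theorem e0_ne : (![1, 0] : Fin 2 → F) ≠ 0 := by
  intro h; have := congrFun h 0; simp at this

theorem e1_ne : (![0, 1] : Fin 2 → F) ≠ 0 := by
  intro h; have := congrFun h 1; simp at this

theorem e01_ne : (![1, 1] : Fin 2 → F) ≠ 0 := by
  intro h; have := congrFun h 0; simp at this

/-- Every triple of distinct points is the image of the standard triple. -/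
theorem std (a b c : Projectivization F (Fin 2 → F)) (hab : a ≠ b) (hac : a ≠ c) (hbc : b ≠ c) :
    ∃ A : GL (Fin 2) F, A • Projectivization.mk F ![1, 0] e0_ne = a ∧
      A • Projectivization.mk F ![0, 1] e1_ne = b ∧
      A • Projectivization.mk F ![1, 1] e01_ne = c := by
  have h01 := dd_ne_of_ne a b hab
  have h02 := dd_ne_of_ne a c hac
  have h21 := dd_ne_of_ne c b (Ne.symm hbc)
  obtain ⟨α, hα⟩ : ∃ α, α = dd c.rep b.rep / dd a.rep b.rep := ⟨_, rfl⟩
  obtain ⟨β, hβ⟩ : ∃ β, β = dd a.rep c.rep / dd a.rep b.rep := ⟨_, rfl⟩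
  have hα0 : α ≠ 0 := by rw [hα]; exact div_ne_zero h21 h01
  have hβ0 : β ≠ 0 := by rw [hβ]; exact div_ne_zero h02 h01
  have hdec := decomp' a.rep b.rep h01 c.rep
  rw [← hα, ← hβ] at hdec
  have hdet : (!![α * a.rep 0, β * b.rep 0; α * a.rep 1, β * b.rep 1] :
      Matrix (Fin 2) (Fin 2) F).det ≠ 0 := by
    rw [Matrix.det_fin_two_of]
    have : α * a.rep 0 * (β * b.rep 1) - β * b.rep 0 * (α * a.rep 1) = α * β * dd a.rep b.rep := by
      simp only [dd]; ring
    rw [this]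
    exact mul_ne_zero (mul_ne_zero hα0 hβ0) h01
  refine ⟨Matrix.GeneralLinearGroup.mkOfDetNeZero _ hdet, ?_, ?_, ?_⟩
  · rw [Projectivization.smul_mk]
    conv_rhs => rw [← Projectivization.mk_rep a]
    rw [Projectivization.mk_eq_mk_iff']
    refine ⟨α, ?_⟩
    show α • a.rep = (!![α * a.rep 0, β * b.rep 0; α * a.rep 1, β * b.rep 1] :
      Matrix (Fin 2) (Fin 2) F) *ᵥ ![1, 0]
    ext i; fin_cases i <;> simp [Matrix.mulVec, dotProduct, Fin.sum_univ_two]
  · rw [Projectivization.smul_mk]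
    conv_rhs => rw [← Projectivization.mk_rep b]
    rw [Projectivization.mk_eq_mk_iff']
    refine ⟨β, ?_⟩
    show β • b.rep = (!![α * a.rep 0, β * b.rep 0; α * a.rep 1, β * b.rep 1] :
      Matrix (Fin 2) (Fin 2) F) *ᵥ ![0, 1]
    ext i; fin_cases i <;> simp [Matrix.mulVec, dotProduct, Fin.sum_univ_two]
  · rw [Projectivization.smul_mk]
    conv_rhs => rw [← Projectivization.mk_rep c]
    rw [Projectivization.mk_eq_mk_iff']
    refine ⟨1, ?_⟩
    show (1 : F) • c.rep = (!![α * a.rep 0, β * b.rep 0; α * a.rep 1, β * b.rep 1] :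
      Matrix (Fin 2) (Fin 2) F) *ᵥ ![1, 1]
    rw [one_smul]
    nth_rewrite 1 [hdec]
    ext i; fin_cases i <;> simp [Matrix.mulVec, dotProduct, Fin.sum_univ_two]

theorem gl_three_trans (x y : Fin 3 ↪ Projectivization F (Fin 2 → F)) :
    ∃ M : GL (Fin 2) F, ∀ i, M • x i = y i := by
  have hx : ∀ i j : Fin 3, i ≠ j → x i ≠ x j := fun i j h h' => h (x.injective h')
  have hy : ∀ i j : Fin 3, i ≠ j → y i ≠ y j := fun i j h h' => h (y.injective h')
  obtain ⟨A, hA0, hA1, hA2⟩ := std (x 0) (x 1) (x 2) (hx 0 1 (by decide)) (hx 0 2 (by decide))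
    (hx 1 2 (by decide))
  obtain ⟨B, hB0, hB1, hB2⟩ := std (y 0) (y 1) (y 2) (hy 0 1 (by decide)) (hy 0 2 (by decide))
    (hy 1 2 (by decide))
  refine ⟨B * A⁻¹, ?_⟩
  intro i
  fin_cases i
  · show (B * A⁻¹) • x 0 = y 0
    rw [← hA0, mul_smul, inv_smul_smul, hB0]
  · show (B * A⁻¹) • x 1 = y 1
    rw [← hA1, mul_smul, inv_smul_smul, hB1]
  · show (B * A⁻¹) • x 2 = y 2
    rw [← hA2, mul_smul, inv_smul_smul, hB2]

theorem pgl_smul (A : GL (Fin 2) F) (p : Projectivization F (Fin 2 → F)) :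
    (Matrix.ProjGenLinGroup.mk A : Matrix.ProjGenLinGroup (Fin 2) F) • p = A • p := by
  induction p using Projectivization.ind with
  | _ v hv => rfl

theorem fixed_pt (M : GL (Fin 2) F) (v : Fin 2 → F) (hv : v ≠ 0)
    (h : M • Projectivization.mk F v hv = Projectivization.mk F v hv) :
    ∃ k : F, (M : Matrix (Fin 2) (Fin 2) F) *ᵥ v = k • v := by
  rw [Projectivization.smul_mk, Projectivization.mk_eq_mk_iff'] at h
  obtain ⟨k, hk⟩ := h
  exact ⟨k, hk.symm⟩

theorem scalar_of_fix_three (M : GL (Fin 2) F) (a b c : Projectivization F (Fin 2 → F))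
    (hab : a ≠ b) (hac : a ≠ c) (hbc : b ≠ c) (ha : M • a = a) (hb : M • b = b) (hc : M • c = c) :
    ∃ k : F, k ≠ 0 ∧ (M : Matrix (Fin 2) (Fin 2) F) = k • 1 := by
  induction a using Projectivization.ind with
  | _ u hu =>
  induction b using Projectivization.ind with
  | _ v hv =>
  induction c using Projectivization.ind with
  | _ w hw =>
  have h01 := dd_ne_of_mk_ne u v hu hv hab
  have h02 := dd_ne_of_mk_ne u w hu hw hac
  have h21 := dd_ne_of_mk_ne w v hw hv (Ne.symm hbc)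
  obtain ⟨k₁, hk₁⟩ := fixed_pt M u hu ha
  obtain ⟨k₂, hk₂⟩ := fixed_pt M v hv hb
  obtain ⟨k₃, hk₃⟩ := fixed_pt M w hw hc
  obtain ⟨α, hα⟩ : ∃ α, α = dd w v / dd u v := ⟨_, rfl⟩
  obtain ⟨β, hβ⟩ : ∃ β, β = dd u w / dd u v := ⟨_, rfl⟩
  have hα0 : α ≠ 0 := by rw [hα]; exact div_ne_zero h21 h01
  have hβ0 : β ≠ 0 := by rw [hβ]; exact div_ne_zero h02 h01
  have hdec := decomp' u v h01 w
  rw [← hα, ← hβ] at hdec
  have E : (α * k₁) • u + (β * k₂) • v = (k₃ * α) • u + (k₃ * β) • v := by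
    have e1 : (M : Matrix (Fin 2) (Fin 2) F) *ᵥ w = (α * k₁) • u + (β * k₂) • v := by
      nth_rewrite 1 [hdec]
      rw [Matrix.mulVec_add, Matrix.mulVec_smul, Matrix.mulVec_smul, hk₁, hk₂, smul_smul, smul_smul]
    have e2 : (M : Matrix (Fin 2) (Fin 2) F) *ᵥ w = (k₃ * α) • u + (k₃ * β) • v := by
      rw [hk₃]
      nth_rewrite 1 [hdec]
      rw [smul_add, smul_smul, smul_smul]
    rw [← e1, e2]
  have E0 := congrFun E 0
  have E1 := congrFun E 1
  simp only [Pi.add_apply, Pi.smul_apply, smul_eq_mul] at E0 E1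
  have hd : u 0 * v 1 - u 1 * v 0 ≠ 0 := h01
  have hk13 : k₁ = k₃ := by
    have : (k₁ - k₃) * (α * (u 0 * v 1 - u 1 * v 0)) = 0 := by
      linear_combination v 1 * E0 - v 0 * E1
    rcases mul_eq_zero.1 this with h | h
    · exact sub_eq_zero.1 h
    · exact absurd h (mul_ne_zero hα0 hd)
  have hk23 : k₂ = k₃ := by
    have : (k₂ - k₃) * (β * (u 0 * v 1 - u 1 * v 0)) = 0 := by
      linear_combination u 0 * E1 - u 1 * E0
    rcases mul_eq_zero.1 this with h | h
    · exact sub_eq_zero.1 h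
    · exact absurd h (mul_ne_zero hβ0 hd)
  rw [hk13] at hk₁
  rw [hk23] at hk₂
  have hk0 : k₃ ≠ 0 := by
    rintro rfl
    rw [zero_smul] at hk₁
    exact gl_mulVec_ne_zero M u hu hk₁
  have h1 : (k₃⁻¹ • (M : Matrix (Fin 2) (Fin 2) F)) *ᵥ u = u := by
    rw [Matrix.smul_mulVec, hk₁, smul_smul, inv_mul_cancel₀ hk0, one_smul]
  have h2 : (k₃⁻¹ • (M : Matrix (Fin 2) (Fin 2) F)) *ᵥ v = v := by
    rw [Matrix.smul_mulVec, hk₂, smul_smul, inv_mul_cancel₀ hk0, one_smul]
  have h3 := fix_two _ u v h01 h1 h2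
  refine ⟨k₃, hk0, ?_⟩
  rw [← h3, smul_smul, mul_inv_cancel₀ hk0, one_smul]

/-- PGL_2(F) is sharply 3-transitive on the projective line: it is 3-transitive and the stabiliser of three distinct points is trivial. -/
theorem result {F : Type*} [Field F] : MulAction.IsMultiplyPretransitive (Matrix.ProjGenLinGroup (Fin 2) F) (Projectivization F (Fin 2 → F)) 3 ∧ ∀ (g : Matrix.ProjGenLinGroup (Fin 2) F) (a b c : Projectivization F (Fin 2 → F)), a ≠ b → a ≠ c → b ≠ c → g • a = a → g • b = b → g • c = c → g = 1 := by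
  constructor
  · rw [MulAction.isMultiplyPretransitive_iff]
    intro x y
    obtain ⟨M, hM⟩ := gl_three_trans x y
    refine ⟨Matrix.ProjGenLinGroup.mk M, ?_⟩
    ext i
    rw [Function.Embedding.smul_apply, pgl_smul, hM i]
  · intro g a b c hab hac hbc ha hb hc
    induction g using Matrix.ProjGenLinGroup.induction_on with
    | mk M =>
    rw [pgl_smul] at ha hb hc
    obtain ⟨k, hk0, hk⟩ := scalar_of_fix_three M a b c hab hac hbc ha hb hc
    rw [Matrix.ProjGenLinGroup.mk_eq_one, Subgroup.mem_center_iff]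
    intro h
    apply Units.ext
    rw [Units.val_mul, Units.val_mul, hk, Matrix.mul_smul, Matrix.smul_mul, Matrix.mul_one,
      Matrix.one_mul]

end Cfsg.Agent.S0266
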