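import Mathlib
import Cfsg.Statements.S0267
import Cfsg.Agent.S0266

set_option autoImplicit false
open Cfsg

namespace Cfsg.Agent.S0267

open Matrix Cfsg.Agent.Lib.Helper5.GL2Syl Cfsg.Agent.S0266

variable {F : Type*} [Field F]

/-- An embedding of `Fin 3` from three distinct points. -/
def emb3 {α : Type*} (a b c : α) (hab : a ≠ b) (hac : a ≠ c) (hbc : b ≠ c) : Fin 3 ↪ α :=
  ⟨![a, b, c], by
    intro i j h
    fin_cases i <;> fin_cases j <;> first
      | rfl
      | exact absurd h hab
      | exact absurd h.symm hab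
      | exact absurd h hac
      | exact absurd h.symm hac
      | exact absurd h hbc
      | exact absurd h.symm hbc⟩

theorem mk_ne_of_dd (u v : Fin 2 → F) (hu : u ≠ 0) (hv : v ≠ 0) (hd : dd u v ≠ 0) :
    Projectivization.mk F u hu ≠ Projectivization.mk F v hv := by
  intro h
  rw [Projectivization.mk_eq_mk_iff'] at h
  obtain ⟨a, rfl⟩ := h
  apply hd
  simp [dd]; ring

theorem e1d_ne (d : F) : (![1, d] : Fin 2 → F) ≠ 0 := by
  intro h; have := congrFun h 0; simp at this

theorem sl_fixed (M : Matrix.SpecialLinearGroup (Fin 2) F) (v w : Fin 2 → F) (hv : v ≠ 0)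
    (hw : w ≠ 0)
    (h : M • Projectivization.mk F v hv = Projectivization.mk F w hw) :
    ∃ k : F, (M : Matrix (Fin 2) (Fin 2) F) *ᵥ v = k • w := by
  rw [Projectivization.smul_mk, Projectivization.mk_eq_mk_iff'] at h
  obtain ⟨k, hk⟩ := h
  exact ⟨k, hk.symm⟩

/-- SL_2(q) is 3-transitive on the q+1 points of the projective line if and only if q is even. -/
theorem result {F : Type*} [Field F] [Fintype F] : MulAction.IsMultiplyPretransitive (Matrix.SpecialLinearGroup (Fin 2) F) (Projectivization F (Fin 2 → F)) 3 ↔ ringChar F = 2 := by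
  classical
  constructor
  · intro h3
    by_contra hchar
    obtain ⟨d, hd⟩ := FiniteField.exists_nonsquare hchar
    have hd0 : d ≠ 0 := by
      rintro rfl
      exact hd ⟨0, by simp⟩
    rw [MulAction.isMultiplyPretransitive_iff] at h3
    have h01 : Projectivization.mk F (![1, 0] : Fin 2 → F) e0_ne ≠ Projectivization.mk F (![0, 1] : Fin 2 → F) e1_ne :=
      mk_ne_of_dd _ _ _ _ (by simp [dd])
    have h02 : Projectivization.mk F (![1, 0] : Fin 2 → F) e0_ne ≠ Projectivization.mk F (![1, 1] : Fin 2 → F) e01_ne :=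
      mk_ne_of_dd _ _ _ _ (by simp [dd])
    have h12 : Projectivization.mk F (![0, 1] : Fin 2 → F) e1_ne ≠ Projectivization.mk F (![1, 1] : Fin 2 → F) e01_ne :=
      mk_ne_of_dd _ _ _ _ (by simp [dd])
    have h02' : Projectivization.mk F (![1, 0] : Fin 2 → F) e0_ne ≠ Projectivization.mk F (![1, d] : Fin 2 → F) (e1d_ne d) :=
      mk_ne_of_dd _ _ _ _ (by simpa [dd] using hd0)
    have h12' : Projectivization.mk F (![0, 1] : Fin 2 → F) e1_ne ≠ Projectivization.mk F (![1, d] : Fin 2 → F) (e1d_ne d) :=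
      mk_ne_of_dd _ _ _ _ (by simp [dd])
    obtain ⟨g, hg⟩ := h3 (emb3 _ _ _ h01 h02 h12) (emb3 _ _ _ h01 h02' h12')
    have hg0 : g • Projectivization.mk F (![1, 0] : Fin 2 → F) e0_ne = Projectivization.mk F (![1, 0] : Fin 2 → F) e0_ne := by
      have := congrArg (fun f : Fin 3 ↪ Projectivization F (Fin 2 → F) => f 0) hg
      exact this
    have hg1 : g • Projectivization.mk F (![0, 1] : Fin 2 → F) e1_ne = Projectivization.mk F (![0, 1] : Fin 2 → F) e1_ne := by
      have := congrArg (fun f : Fin 3 ↪ Projectivization F (Fin 2 → F) => f 1) hg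
      exact this
    have hg2 : g • Projectivization.mk F (![1, 1] : Fin 2 → F) e01_ne =
        Projectivization.mk F (![1, d] : Fin 2 → F) (e1d_ne d) := by
      have := congrArg (fun f : Fin 3 ↪ Projectivization F (Fin 2 → F) => f 2) hg
      exact this
    obtain ⟨k₁, hk₁⟩ := sl_fixed g _ _ _ _ hg0
    obtain ⟨k₂, hk₂⟩ := sl_fixed g _ _ _ _ hg1
    obtain ⟨k₃, hk₃⟩ := sl_fixed g _ _ _ _ hg2
    have a00 := congrFun hk₁ 0
    have a10 := congrFun hk₁ 1
    have a01 := congrFun hk₂ 0
    have a11 := congrFun hk₂ 1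
    have b0 := congrFun hk₃ 0
    have b1 := congrFun hk₃ 1
    simp [Matrix.mulVec, dotProduct, Fin.sum_univ_two] at a00 a10 a01 a11 b0 b1
    have hdet := g.2
    rw [Matrix.det_fin_two] at hdet
    rw [a00, a10, a01, a11] at hdet
    rw [a00, a01] at b0
    rw [a10, a11] at b1
    simp at hdet b0 b1
    -- hdet : k₁ * k₂ = 1, b0 : k₁ = k₃, b1 : k₂ = k₃ * d
    have hk3 : k₃ ≠ 0 := by
      rintro rfl
      rw [b0] at hdet
      simp at hdet
    apply hd
    refine ⟨k₃⁻¹, ?_⟩
    rw [b0, b1] at hdet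
    field_simp
    linear_combination hdet
  · intro hchar
    rw [MulAction.isMultiplyPretransitive_iff]
    intro x y
    obtain ⟨M, hM⟩ := gl_three_trans x y
    have hdet := gl_det_ne_zero M
    obtain ⟨c, hc⟩ := FiniteField.isSquare_of_char_two hchar ((M : Matrix (Fin 2) (Fin 2) F).det)⁻¹
    have hc0 : c ≠ 0 := by
      rintro rfl
      simp at hc
      exact hdet hc
    have hN : (c • (M : Matrix (Fin 2) (Fin 2) F)).det = 1 := by
      rw [Matrix.det_smul, Fintype.card_fin, pow_two, ← hc, inv_mul_cancel₀ hdet]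
    obtain ⟨N, hN'⟩ : ∃ N : Matrix.SpecialLinearGroup (Fin 2) F,
        (N : Matrix (Fin 2) (Fin 2) F) = c • (M : Matrix (Fin 2) (Fin 2) F) := ⟨⟨_, hN⟩, rfl⟩
    refine ⟨N, ?_⟩
    ext i
    rw [Function.Embedding.smul_apply, ← hM i]
    induction (x i) using Projectivization.ind with
    | _ v hv =>
    rw [Projectivization.smul_mk, Projectivization.smul_mk, Projectivization.mk_eq_mk_iff']
    refine ⟨c, ?_⟩
    show c • ((M : Matrix (Fin 2) (Fin 2) F) *ᵥ v) = (N : Matrix (Fin 2) (Fin 2) F) *ᵥ v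
    rw [hN', Matrix.smul_mulVec]

end Cfsg.Agent.S0267
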