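import Cfsg.Statements.S0268
import Mathlib

set_option autoImplicit false
open Cfsg

namespace Cfsg.Agent.S0268

/-- For q odd, -1 is the unique involution of SL_2(q). -/
theorem result {F : Type*} [Field F] [Fintype F] (hF : Odd (Fintype.card F)) (g : Matrix.SpecialLinearGroup (Fin 2) F) (h1 : g ≠ 1) (h2 : g * g = 1) : (g : Matrix (Fin 2) (Fin 2) F) = -1 := by
  have h2' : (2 : F) ≠ 0 := by
    intro h
    have : CharP F 2 := CharTwo.of_one_ne_zero_of_two_eq_zero one_ne_zero h
    have hc : ringChar F = 2 := ringChar.eq F 2
    have := FiniteField.even_card_of_char_two hc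
    rcases hF with ⟨k, hk⟩
    omega
  have hM : (g : Matrix (Fin 2) (Fin 2) F) * (g : Matrix (Fin 2) (Fin 2) F) = 1 := by
    have := congrArg (fun x : Matrix.SpecialLinearGroup (Fin 2) F => (x : Matrix (Fin 2) (Fin 2) F)) h2
    simpa using this
  have hdet := g.det_coe
  rw [Matrix.det_fin_two] at hdet
  have e00 := congrFun (congrFun hM 0) 0
  have e01 := congrFun (congrFun hM 0) 1
  have e10 := congrFun (congrFun hM 1) 0
  have e11 := congrFun (congrFun hM 1) 1
  simp only [Matrix.mul_apply, Fin.sum_univ_two, Matrix.one_apply_eq, Matrix.one_apply_ne, ne_eq,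
    Fin.isValue, zero_ne_one, one_ne_zero, not_false_eq_true] at e00 e01 e10 e11
  generalize ha : (g : Matrix (Fin 2) (Fin 2) F) 0 0 = a at *
  generalize hb : (g : Matrix (Fin 2) (Fin 2) F) 0 1 = b at *
  generalize hc : (g : Matrix (Fin 2) (Fin 2) F) 1 0 = c at *
  generalize hd : (g : Matrix (Fin 2) (Fin 2) F) 1 1 = d at *
  by_cases hs : a + d = 0
  · exfalso
    apply h2'
    linear_combination (-1 : F) * hdet - e00 + a * hs
  · have hb0 : b = 0 := by
      have : b * (a + d) = 0 := by linear_combination e01
      rcases mul_eq_zero.mp this with h | h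
      · exact h
      · exact absurd h hs
    have hc0 : c = 0 := by
      have : c * (a + d) = 0 := by linear_combination e10
      rcases mul_eq_zero.mp this with h | h
      · exact h
      · exact absurd h hs
    subst hb0 hc0
    have haa : (a - 1) * (a + 1) = 0 := by linear_combination e00
    rcases mul_eq_zero.mp haa with h | h
    · exfalso
      have ha1 : a = 1 := by linear_combination h
      have hd1 : d = 1 := by
        rw [ha1] at hdet
        linear_combination hdet
      apply h1
      ext i j
      fin_cases i <;> fin_cases j <;> simp [ha, hb, hc, hd, ha1, hd1]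
    · have ha1 : a = -1 := by linear_combination h
      have hd1 : d = -1 := by
        rw [ha1] at hdet
        linear_combination (-1 : F) * hdet
      ext i j
      fin_cases i <;> fin_cases j <;> simp [ha, hb, hc, hd, ha1, hd1]

end Cfsg.Agent.S0268
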