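import Mathlib
import Cfsg.Statements.S0269
import Cfsg.Agent.Lib.Helper5.Symp
import Cfsg.Agent.S2594

set_option autoImplicit false
open Cfsg

namespace Cfsg.Agent.S0269

open Matrix Cfsg.Agent.Lib.Helper5
open scoped commutatorElement

section
variable {F : Type*} [Field F] (m : ℕ)

/-- symplectic transvection as a group element -/
def tv (w : Fin m ⊕ Fin m → F) (c : F) : Matrix.symplecticGroup (Fin m) F :=
  ⟨Cfsg.sympTransvection m w c, Cfsg.Agent.S0764.result m w c⟩

theorem tv_mulVec (w x : Fin m ⊕ Fin m → F) (c : F) :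
    ((tv m w c : Matrix.symplecticGroup (Fin m) F) : Matrix (Fin m ⊕ Fin m) (Fin m ⊕ Fin m) F) *ᵥ x =
      x + (c * Cfsg.sympForm m F x w) • w :=
  sympTransvection_mulVec m w x c

theorem conj_tv (g : Matrix.symplecticGroup (Fin m) F) (w : Fin m ⊕ Fin m → F) (c : F) :
    g * tv m w c * g⁻¹ = tv m ((g : Matrix (Fin m ⊕ Fin m) (Fin m ⊕ Fin m) F) *ᵥ w) c := by
  rw [mul_inv_eq_iff_eq_mul]
  apply Cfsg.Agent.S2594.ext_mv
  intro x
  rw [Cfsg.Agent.S2594.mul_mv, Cfsg.Agent.S2594.mul_mv, tv_mulVec, tv_mulVec, Matrix.mulVec_add,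
    Matrix.mulVec_smul, sympForm_mulVec_of_mem m _ g.2]

theorem tv_mul (w : Fin m ⊕ Fin m → F) (c c' : F) : tv m w c * tv m w c' = tv m w (c + c') := by
  apply Cfsg.Agent.S2594.ext_mv
  intro x
  rw [Cfsg.Agent.S2594.mul_mv, tv_mulVec, tv_mulVec, tv_mulVec, sympForm_add_left, sympForm_smul_left,
    sympForm_self, mul_zero, add_zero]
  module

theorem tv_zero (w : Fin m ⊕ Fin m → F) : tv m w 0 = 1 := by
  apply Cfsg.Agent.S2594.ext_mv
  intro x
  rw [tv_mulVec, zero_mul, zero_smul, add_zero]
  exact (one_mulVec x).symm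

theorem tv_inv (w : Fin m ⊕ Fin m → F) (c : F) : (tv m w c)⁻¹ = tv m w (-c) := by
  apply inv_eq_of_mul_eq_one_right
  rw [tv_mul, add_neg_cancel, tv_zero]

theorem tv_smul (w : Fin m ⊕ Fin m → F) (a c : F) : tv m (a • w) c = tv m w (a * a * c) := by
  apply Cfsg.Agent.S2594.ext_mv
  intro x
  rw [tv_mulVec, tv_mulVec, sympForm_smul_right]
  module

/-- the element `x ↦ x + c (B(x,u) v + B(x,v) u)` -/
def R (u v : Fin m ⊕ Fin m → F) (c : F) : Matrix.symplecticGroup (Fin m) F :=
  tv m (u + v) c * tv m u (-c) * tv m v (-c)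

theorem R_mulVec (u v x : Fin m ⊕ Fin m → F) (c : F) (huv : Cfsg.sympForm m F u v = 0) :
    ((R m u v c : Matrix.symplecticGroup (Fin m) F) : Matrix (Fin m ⊕ Fin m) (Fin m ⊕ Fin m) F) *ᵥ x =
      x + c • (Cfsg.sympForm m F x u • v + Cfsg.sympForm m F x v • u) := by
  have hvu : Cfsg.sympForm m F v u = 0 := by rw [sympForm_swap, huv, neg_zero]
  unfold R
  rw [Cfsg.Agent.S2594.mul_mv, Cfsg.Agent.S2594.mul_mv, tv_mulVec, tv_mulVec, tv_mulVec]
  simp only [sympForm_add_left, sympForm_add_right, sympForm_smul_left, sympForm_self, huv, hvu,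
    mul_zero, add_zero, zero_add]
  module

theorem ident3 (a b f : Fin m ⊕ Fin m → F) (t : F) (hab : Cfsg.sympForm m F a b = 0)
    (haf : Cfsg.sympForm m F a f = 0) (hbf : Cfsg.sympForm m F b f = -1) :
    R m a f (-1) * R m a b t = tv m a (2 * t) * R m a b t * R m a f (-1) := by
  have hba : Cfsg.sympForm m F b a = 0 := by rw [sympForm_swap, hab, neg_zero]
  have hfa : Cfsg.sympForm m F f a = 0 := by rw [sympForm_swap, haf, neg_zero]
  have hfb : Cfsg.sympForm m F f b = 1 := by rw [sympForm_swap, hbf, neg_neg]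
  apply Cfsg.Agent.S2594.ext_mv
  intro x
  simp only [Cfsg.Agent.S2594.mul_mv, tv_mulVec, R_mulVec m a f _ (-1) haf, R_mulVec m a b _ t hab,
    sympForm_add_left, sympForm_smul_left, sympForm_self, hab, hba, haf, hfa, hbf, hfb,
    mul_zero, add_zero, zero_add, mul_one]
  module

theorem ident1 (a b f : Fin m ⊕ Fin m → F) (c : F) (hab : Cfsg.sympForm m F a b = 0)
    (haf : Cfsg.sympForm m F a f = 0) (hbf : Cfsg.sympForm m F b f = -1) :
    R m a f (-1) * tv m b c = tv m a c * R m a b c * tv m b c * R m a f (-1) := by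
  have hba : Cfsg.sympForm m F b a = 0 := by rw [sympForm_swap, hab, neg_zero]
  have hfa : Cfsg.sympForm m F f a = 0 := by rw [sympForm_swap, haf, neg_zero]
  have hfb : Cfsg.sympForm m F f b = 1 := by rw [sympForm_swap, hbf, neg_neg]
  apply Cfsg.Agent.S2594.ext_mv
  intro x
  simp only [Cfsg.Agent.S2594.mul_mv, tv_mulVec, R_mulVec m a f _ (-1) haf, R_mulVec m a b _ c hab,
    sympForm_add_left, sympForm_smul_left, sympForm_self, hab, hba, haf, hfa, hbf, hfb,
    mul_zero, add_zero, zero_add, mul_one]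
  module

theorem ident2 (a b d f : Fin m ⊕ Fin m → F) (c : F) (hab : Cfsg.sympForm m F a b = 0)
    (had : Cfsg.sympForm m F a d = 0) (hdb : Cfsg.sympForm m F d b = 0)
    (haf : Cfsg.sympForm m F a f = 0) (hbf : Cfsg.sympForm m F b f = 0)
    (hdf : Cfsg.sympForm m F d f = -1) :
    R m a f (-1) * R m d b c = R m a b c * R m d b c * R m a f (-1) := by
  have hba : Cfsg.sympForm m F b a = 0 := by rw [sympForm_swap, hab, neg_zero]
  have hda : Cfsg.sympForm m F d a = 0 := by rw [sympForm_swap, had, neg_zero]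
  have hbd : Cfsg.sympForm m F b d = 0 := by rw [sympForm_swap, hdb, neg_zero]
  have hfa : Cfsg.sympForm m F f a = 0 := by rw [sympForm_swap, haf, neg_zero]
  have hfb : Cfsg.sympForm m F f b = 0 := by rw [sympForm_swap, hbf, neg_zero]
  have hfd : Cfsg.sympForm m F f d = 1 := by rw [sympForm_swap, hdf, neg_neg]
  apply Cfsg.Agent.S2594.ext_mv
  intro x
  simp only [Cfsg.Agent.S2594.mul_mv, tv_mulVec, R_mulVec m a f _ (-1) haf, R_mulVec m a b _ c hab,
    R_mulVec m d b _ c hdb,
    sympForm_add_left, sympForm_smul_left, sympForm_self, hab, hba, had, hda, hdb, hbd, haf, hfa, hbf, hfb,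
    hdf, hfd, mul_zero, add_zero, zero_add, mul_one]
  module

theorem comm_of_rel {G : Type*} [Group G] (g h X : G) (hrel : g * h = X * h * g) : ⁅g, h⁆ = X := by
  rw [commutatorElement_def, hrel]
  group

theorem mem_comm (g h : Matrix.symplecticGroup (Fin m) F) :
    ⁅g, h⁆ ∈ commutator (Matrix.symplecticGroup (Fin m) F) :=
  Subgroup.commutator_mem_commutator (Subgroup.mem_top g) (Subgroup.mem_top h)

theorem key (w0 : Fin m ⊕ Fin m → F) (hw0 : w0 ≠ 0)
    (h0 : ∀ c : F, tv m w0 c ∈ commutator (Matrix.symplecticGroup (Fin m) F))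
    (w : Fin m ⊕ Fin m → F) (c : F) :
    tv m w c ∈ commutator (Matrix.symplecticGroup (Fin m) F) := by
  by_cases hw : w = 0
  · have : tv m w c = 1 := by
      apply Cfsg.Agent.S2594.ext_mv
      intro x
      rw [tv_mulVec, hw, smul_zero, add_zero]
      exact (one_mulVec x).symm
    rw [this]; exact Subgroup.one_mem _
  · obtain ⟨g, _, hg⟩ := trans_vec m w0 w hw0 hw
    have h1 := conj_tv m g w0 c
    rw [hg] at h1
    rw [← h1]
    haveI : (commutator (Matrix.symplecticGroup (Fin m) F)).Normal := by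
      rw [commutator_def]; infer_instance
    exact Subgroup.Normal.conj_mem this _ (h0 c) g

end

/-- Sp_{2m}(q) is perfect except for Sp_2(2), Sp_2(3) and Sp_4(2): stated as m at least 3, or m = 2 and q at least 3, or q at least 4. -/
theorem result {F : Type*} [Field F] [Fintype F] (m : ℕ) (h : 3 ≤ m ∨ (m = 2 ∧ 3 ≤ Fintype.card F) ∨ 4 ≤ Fintype.card F) : commutator (Matrix.symplecticGroup (Fin m) F) = ⊤ := by
  classical
  rw [eq_top_iff, ← transvectionSubgroup_eq_top (F := F) m]
  unfold transvectionSubgroup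
  rw [Subgroup.closure_le]
  rintro A ⟨w, c, hA⟩
  have hAtv : A = tv m w c := Subtype.ext hA
  rw [hAtv]
  show tv m w c ∈ commutator _
  by_cases h4 : 4 ≤ Fintype.card F
  · -- large field
    obtain ⟨a, ha0, ha1⟩ : ∃ a : F, a ≠ 0 ∧ a * a ≠ 1 := by
      by_contra hcon
      push Not at hcon
      have hsub : (Finset.univ : Finset F) ⊆ {0, 1, -1} := by
        intro a _
        by_cases ha : a = 0
        · simp [ha]
        · have h1 := hcon a ha
          have h2 : (a - 1) * (a + 1) = 0 := by linear_combination h1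
          rcases mul_eq_zero.1 h2 with h | h
          · have : a = 1 := sub_eq_zero.1 h
            simp [this]
          · have : a = -1 := eq_neg_of_add_eq_zero_left h
            simp [this]
      have := Finset.card_le_card hsub
      have h3 : ({0, 1, -1} : Finset F).card ≤ 3 := Finset.card_le_three
      rw [Finset.card_univ] at this
      omega
    by_cases hw : w = 0
    · have : tv m w c = 1 := by
        apply Cfsg.Agent.S2594.ext_mv
        intro x
        rw [tv_mulVec, hw, smul_zero, add_zero]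
        exact (one_mulVec x).symm
      rw [this]; exact Subgroup.one_mem _
    · obtain ⟨d, _, hd⟩ := trans_vec m w (a • w) hw (smul_ne_zero ha0 hw)
      have ha1' : a * a - 1 ≠ 0 := sub_ne_zero.2 ha1
      have : tv m w c = ⁅d, tv m w (c / (a * a - 1))⁆ := by
        rw [commutatorElement_def, conj_tv, hd, tv_smul, tv_inv, tv_mul]
        congr 1
        have hx : a * a * (c / (a * a - 1)) + -(c / (a * a - 1)) = (a * a - 1) * (c / (a * a - 1)) := by ring
        rw [hx, mul_div_cancel₀ _ ha1']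
      rw [this]
      exact mem_comm m _ _
  · by_cases h3 : 3 ≤ m
    · -- rank at least 3
      have hi0 : 0 < m := by omega
      have hi1 : 1 < m := by omega
      have hi2 : 2 < m := by omega
      have h01 : (⟨0, hi0⟩ : Fin m) ≠ ⟨1, hi1⟩ := by intro h; simp [Fin.ext_iff] at h
      have h02 : (⟨0, hi0⟩ : Fin m) ≠ ⟨2, hi2⟩ := by intro h; simp [Fin.ext_iff] at h
      have h12 : (⟨1, hi1⟩ : Fin m) ≠ ⟨2, hi2⟩ := by intro h; simp [Fin.ext_iff] at h
      have hw0 : (Pi.single (Sum.inl ⟨0, hi0⟩) 1 : Fin m ⊕ Fin m → F) ≠ 0 := by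
        intro h
        have := congrFun h (Sum.inl ⟨0, hi0⟩)
        rw [Pi.single_eq_same] at this
        exact one_ne_zero this
      apply key m _ hw0
      intro c
      have hR : R m (Pi.single (Sum.inl ⟨0, hi0⟩) 1) (Pi.single (Sum.inl ⟨1, hi1⟩) 1) c ∈
          commutator (Matrix.symplecticGroup (Fin m) F) := by
        have h := ident2 m (Pi.single (Sum.inl ⟨0, hi0⟩) 1) (Pi.single (Sum.inl ⟨1, hi1⟩) 1)
          (Pi.single (Sum.inl ⟨2, hi2⟩) 1) (Pi.single (Sum.inr ⟨2, hi2⟩) 1) c
          (by rw [sympForm_single_inl]; simp)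
          (by rw [sympForm_single_inl]; simp)
          (by rw [sympForm_single_inl]; simp)
          (by rw [sympForm_single_inr]; simp [h02])
          (by rw [sympForm_single_inr]; simp [h12])
          (by rw [sympForm_single_inr]; simp)
        rw [← comm_of_rel _ _ _ h]
        exact mem_comm m _ _
      have h := ident1 m (Pi.single (Sum.inl ⟨0, hi0⟩) 1) (Pi.single (Sum.inl ⟨1, hi1⟩) 1)
          (Pi.single (Sum.inr ⟨1, hi1⟩) 1) c
          (by rw [sympForm_single_inl]; simp)
          (by rw [sympForm_single_inr]; simp [h01])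
          (by rw [sympForm_single_inr]; simp)
      have h5 := comm_of_rel _ _ _ h
      have h6 : tv m (Pi.single (Sum.inl ⟨0, hi0⟩) 1) c =
          (tv m (Pi.single (Sum.inl ⟨0, hi0⟩) 1) c *
            R m (Pi.single (Sum.inl ⟨0, hi0⟩) 1) (Pi.single (Sum.inl ⟨1, hi1⟩) 1) c) *
          (R m (Pi.single (Sum.inl ⟨0, hi0⟩) 1) (Pi.single (Sum.inl ⟨1, hi1⟩) 1) c)⁻¹ := by
        group
      rw [h6, ← h5]
      exact Subgroup.mul_mem _ (mem_comm m _ _) (Subgroup.inv_mem _ hR)
    · -- m = 2, q = 3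
      have hm2 : m = 2 := by omega
      have hq3 : Fintype.card F = 3 := by omega
      have h2 : (2 : F) ≠ 0 := by
        apply Ring.two_ne_zero
        intro hc
        have := FiniteField.even_card_of_char_two hc
        omega
      have hi0 : 0 < m := by omega
      have hi1 : 1 < m := by omega
      have h01 : (⟨0, hi0⟩ : Fin m) ≠ ⟨1, hi1⟩ := by intro h; simp [Fin.ext_iff] at h
      have hw0 : (Pi.single (Sum.inl ⟨0, hi0⟩) 1 : Fin m ⊕ Fin m → F) ≠ 0 := by
        intro h
        have := congrFun h (Sum.inl ⟨0, hi0⟩)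
        rw [Pi.single_eq_same] at this
        exact one_ne_zero this
      apply key m _ hw0
      intro c
      have h := ident3 m (Pi.single (Sum.inl ⟨0, hi0⟩) 1) (Pi.single (Sum.inl ⟨1, hi1⟩) 1)
          (Pi.single (Sum.inr ⟨1, hi1⟩) 1) (c / 2)
          (by rw [sympForm_single_inl]; simp)
          (by rw [sympForm_single_inr]; simp [h01])
          (by rw [sympForm_single_inr]; simp)
      have h5 := comm_of_rel _ _ _ h
      have h6 : 2 * (c / 2) = c := by field_simp
      rw [h6] at h5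
      rw [← h5]
      exact mem_comm m _ _

end Cfsg.Agent.S0269
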