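import Mathlib
import Cfsg.Statements.S0270
import Cfsg.Agent.Lib.Helper5.Symp
import Cfsg.Agent.S0269
import Cfsg.Agent.S0246

set_option autoImplicit false
open Cfsg

namespace Cfsg.Agent.S0270

open Matrix Cfsg.Agent.Lib.Helper5
open scoped LinearAlgebra.Projectivization Pointwise
set_option linter.unusedVariables false
section
variable {F : Type*} [Field F] {m : ℕ}

instance spDMA : DistribMulAction (Matrix.symplecticGroup (Fin m) F) (Fin m ⊕ Fin m → F) where
  smul g v := (g : Matrix (Fin m ⊕ Fin m) (Fin m ⊕ Fin m) F) *ᵥ v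
  one_smul v := Matrix.one_mulVec v
  mul_smul g h v := (Matrix.mulVec_mulVec v g.1 h.1).symm
  smul_zero g := Matrix.mulVec_zero _
  smul_add g v w := Matrix.mulVec_add _ v w

theorem sp_smul_def (g : Matrix.symplecticGroup (Fin m) F) (v : Fin m ⊕ Fin m → F) :
    g • v = (g : Matrix (Fin m ⊕ Fin m) (Fin m ⊕ Fin m) F) *ᵥ v := rfl

instance spSCC : SMulCommClass (Matrix.symplecticGroup (Fin m) F) F (Fin m ⊕ Fin m → F) where
  smul_comm g c v := Matrix.mulVec_smul _ c v

theorem mk_congr (v w : Fin m ⊕ Fin m → F) (hv : v ≠ 0) (hw : w ≠ 0) (h : v = w) :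
    Projectivization.mk F v hv = Projectivization.mk F w hw := by
  subst h; rfl

theorem pretrans : MulAction.IsPretransitive (Matrix.symplecticGroup (Fin m) F)
    (ℙ F (Fin m ⊕ Fin m → F)) := by
  constructor
  intro p q
  induction p using Projectivization.ind with | h v hv =>
  induction q using Projectivization.ind with | h w hw =>
  obtain ⟨g, _, hg⟩ := trans_vec m v w hv hw
  refine ⟨g, ?_⟩
  rw [Projectivization.smul_mk]
  exact mk_congr _ _ _ _ hg

theorem S1 (v w w' : Fin m ⊕ Fin m → F) (hv : v ≠ 0) (hw : w ≠ 0) (hw' : w' ≠ 0)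
    (h : Cfsg.sympForm m F v w ≠ 0) (h' : Cfsg.sympForm m F v w' ≠ 0) :
    ∃ g : Matrix.symplecticGroup (Fin m) F,
      g • Projectivization.mk F v hv = Projectivization.mk F v hv ∧
      g • Projectivization.mk F w hw = Projectivization.mk F w' hw' := by
  have e1 : Cfsg.sympForm m F v ((Cfsg.sympForm m F v w)⁻¹ • w) = 1 := by
    rw [sympForm_smul_right, inv_mul_cancel₀ h]
  have e2 : Cfsg.sympForm m F v ((Cfsg.sympForm m F v w')⁻¹ • w') = 1 := by
    rw [sympForm_smul_right, inv_mul_cancel₀ h']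
  obtain ⟨g, _, hg1, hg2⟩ := trans_pair m v _ v _ e1 e2
  refine ⟨g, ?_, ?_⟩
  · rw [Projectivization.smul_mk]
    exact mk_congr _ _ _ _ hg1
  · rw [Projectivization.smul_mk, Projectivization.mk_eq_mk_iff']
    refine ⟨Cfsg.sympForm m F v w * (Cfsg.sympForm m F v w')⁻¹, ?_⟩
    rw [Matrix.mulVec_smul] at hg2
    rw [sp_smul_def, mul_smul, ← hg2, smul_smul, mul_inv_cancel₀ h, one_smul]

theorem prim : MulAction.IsPreprimitive (Matrix.symplecticGroup (Fin m) F)
    (ℙ F (Fin m ⊕ Fin m → F)) := by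
  have := pretrans (F := F) (m := m)
  refine { isTrivialBlock_of_isBlock := ?_ }
  intro B hB
  rw [MulAction.isBlock_iff_smul_eq_of_mem] at hB
  by_cases hsub : B.Subsingleton
  · exact Or.inl hsub
  right
  rw [Set.not_subsingleton_iff] at hsub
  obtain ⟨p, hp, q, hq, hpq⟩ := hsub
  have step : ∀ (v w : Fin m ⊕ Fin m → F) (hv : v ≠ 0) (hw : w ≠ 0),
      Projectivization.mk F v hv ∈ B → Projectivization.mk F w hw ∈ B →
      Cfsg.sympForm m F v w ≠ 0 → ∀ (w' : Fin m ⊕ Fin m → F) (hw' : w' ≠ 0),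
      Cfsg.sympForm m F v w' ≠ 0 → Projectivization.mk F w' hw' ∈ B := by
    intro v w hv hw hpB hqB hvw w' hw' hvw'
    obtain ⟨g, hg1, hg2⟩ := S1 v w w' hv hw hw' hvw hvw'
    have hgB : g • B = B := hB hpB (by rw [hg1]; exact hpB)
    rw [← hgB, ← hg2]
    exact Set.smul_mem_smul_set hqB
  have keyA : ∀ (v w : Fin m ⊕ Fin m → F) (hv : v ≠ 0) (hw : w ≠ 0),
      Projectivization.mk F v hv ∈ B → Projectivization.mk F w hw ∈ B →
      Cfsg.sympForm m F v w ≠ 0 → B = Set.univ := by
    intro v w hv hw hpB hqB hvw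
    rw [Set.eq_univ_iff_forall]
    intro r
    induction r using Projectivization.ind with | h x hx =>
    obtain ⟨z, hz1, hz2⟩ := Cfsg.Agent.S0246.exists_common m v x hv hx
    have hz : z ≠ 0 := by
      rintro rfl
      exact hz1 (sympForm_zero_right m _)
    have hzB : Projectivization.mk F z hz ∈ B := step v w hv hw hpB hqB hvw z hz hz1
    exact step z v hz hv hzB hpB (by rw [sympForm_swap]; exact neg_ne_zero.2 hz1) x hx hz2
  induction p using Projectivization.ind with | h v hv =>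
  induction q using Projectivization.ind with | h w hw =>
  by_cases hvw : Cfsg.sympForm m F v w = 0
  · have hy : ∃ y, Cfsg.sympForm m F v y = 0 ∧ Cfsg.sympForm m F w y ≠ 0 := by
      by_contra hcon
      push Not at hcon
      obtain ⟨u, hu⟩ := exists_sympForm_ne_zero m v hv
      apply hpq
      have hzero : w - (Cfsg.sympForm m F w u / Cfsg.sympForm m F v u) • v = 0 := by
        by_contra hne
        obtain ⟨y, hy⟩ := exists_sympForm_ne_zero m _ hne
        apply hy
        have h1 := hcon (y - (Cfsg.sympForm m F v y / Cfsg.sympForm m F v u) • u) (by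
          rw [sympForm_sub_right, sympForm_smul_right, div_mul_cancel₀ _ hu, sub_self])
        rw [sympForm_sub_right, sympForm_smul_right] at h1
        rw [sympForm_sub_left, sympForm_smul_left]
        field_simp
        field_simp at h1
        linear_combination h1
      have hw' : w = (Cfsg.sympForm m F w u / Cfsg.sympForm m F v u) • v := sub_eq_zero.1 hzero
      have hc : Cfsg.sympForm m F w u / Cfsg.sympForm m F v u ≠ 0 := by
        intro h0
        rw [h0, zero_smul] at hw'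
        exact hw hw'
      rw [Projectivization.mk_eq_mk_iff']
      obtain ⟨c, hc', hw''⟩ : ∃ c : F, c ≠ 0 ∧ w = c • v := ⟨_, hc, hw'⟩
      refine ⟨c⁻¹, ?_⟩
      rw [hw'', smul_smul, inv_mul_cancel₀ hc', one_smul]
    obtain ⟨y, hy1, hy2⟩ := hy
    have hgv : (Cfsg.Agent.S0269.tv m y 1) • v = v := by
      rw [sp_smul_def, Cfsg.Agent.S0269.tv_mulVec, hy1, mul_zero, zero_smul, add_zero]
    have hgw : (Cfsg.Agent.S0269.tv m y 1) • w = w + Cfsg.sympForm m F w y • y := by
      rw [sp_smul_def, Cfsg.Agent.S0269.tv_mulVec, one_mul]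
    have hgB : (Cfsg.Agent.S0269.tv m y 1) • B = B := hB hp (by
      rw [Projectivization.smul_mk]
      have := mk_congr _ _ ((smul_ne_zero_iff_ne (Cfsg.Agent.S0269.tv m y 1)).mpr hv) hv hgv
      rw [this]
      exact hp)
    have hq' : (Cfsg.Agent.S0269.tv m y 1) • Projectivization.mk F w hw ∈ B := by
      rw [← hgB]
      exact Set.smul_mem_smul_set hq
    rw [Projectivization.smul_mk] at hq'
    refine keyA w _ hw _ hq hq' ?_
    rw [hgw, sympForm_add_right, sympForm_self, zero_add, sympForm_smul_right]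
    exact mul_ne_zero hy2 hy2
  · exact keyA v w hv hw hp hq hvw

/-- root subgroup -/
def rootSub (w : Fin m ⊕ Fin m → F) : Subgroup (Matrix.symplecticGroup (Fin m) F) where
  carrier := {g | ∃ c : F, g = Cfsg.Agent.S0269.tv m w c}
  mul_mem' := by
    rintro _ _ ⟨c, rfl⟩ ⟨c', rfl⟩
    exact ⟨c + c', Cfsg.Agent.S0269.tv_mul m w c c'⟩
  one_mem' := ⟨0, (Cfsg.Agent.S0269.tv_zero m w).symm⟩
  inv_mem' := by
    rintro _ ⟨c, rfl⟩
    exact ⟨-c, Cfsg.Agent.S0269.tv_inv m w c⟩

theorem mem_rootSub (w : Fin m ⊕ Fin m → F) (g : Matrix.symplecticGroup (Fin m) F) :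
    g ∈ rootSub w ↔ ∃ c : F, g = Cfsg.Agent.S0269.tv m w c := Iff.rfl

theorem rootSub_smul (a : F) (ha : a ≠ 0) (w : Fin m ⊕ Fin m → F) : rootSub (a • w) = rootSub w := by
  ext g
  rw [mem_rootSub, mem_rootSub]
  constructor
  · rintro ⟨c, rfl⟩
    exact ⟨a * a * c, Cfsg.Agent.S0269.tv_smul m w a c⟩
  · rintro ⟨c, rfl⟩
    refine ⟨c / (a * a), ?_⟩
    rw [Cfsg.Agent.S0269.tv_smul]
    congr 1
    field_simp

theorem rootSub_conj (g : Matrix.symplecticGroup (Fin m) F) (w : Fin m ⊕ Fin m → F) :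
    rootSub ((g : Matrix (Fin m ⊕ Fin m) (Fin m ⊕ Fin m) F) *ᵥ w) = MulAut.conj g • rootSub w := by
  ext x
  rw [Subgroup.mem_pointwise_smul_iff_inv_smul_mem, mem_rootSub, mem_rootSub]
  constructor
  · rintro ⟨c, rfl⟩
    refine ⟨c, ?_⟩
    rw [← Cfsg.Agent.S0269.conj_tv]
    simp only [MulAut.smul_def, MulAut.conj_inv_apply]
    group
  · rintro ⟨c, hc⟩
    refine ⟨c, ?_⟩
    rw [← Cfsg.Agent.S0269.conj_tv, ← hc]
    simp only [MulAut.smul_def, MulAut.conj_inv_apply]
    group

noncomputable def iwa : MulAction.IwasawaStructure (Matrix.symplecticGroup (Fin m) F)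
    (ℙ F (Fin m ⊕ Fin m → F)) where
  T p := rootSub p.rep
  is_comm p := ⟨⟨fun a b => by
    obtain ⟨a, c, rfl⟩ := a
    obtain ⟨b, c', rfl⟩ := b
    apply Subtype.ext
    show Cfsg.Agent.S0269.tv m p.rep c * Cfsg.Agent.S0269.tv m p.rep c' =
      Cfsg.Agent.S0269.tv m p.rep c' * Cfsg.Agent.S0269.tv m p.rep c
    rw [Cfsg.Agent.S0269.tv_mul, Cfsg.Agent.S0269.tv_mul, add_comm]⟩⟩
  is_conj g p := by
    show rootSub (g • p).rep = MulAut.conj g • rootSub p.rep
    rw [← rootSub_conj]
    have h1 : Projectivization.mk F (g • p).rep (g • p).rep_nonzero =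
        Projectivization.mk F (g • p.rep) ((smul_ne_zero_iff_ne g).mpr p.rep_nonzero) := by
      rw [Projectivization.mk_rep, ← Projectivization.smul_mk g p.rep_nonzero, Projectivization.mk_rep]
    rw [Projectivization.mk_eq_mk_iff] at h1
    obtain ⟨a, ha⟩ := h1
    rw [← ha, Units.smul_def, rootSub_smul _ a.ne_zero]
    rfl
  is_generator := by
    rw [eq_top_iff, ← transvectionSubgroup_eq_top (F := F) m]
    unfold transvectionSubgroup
    rw [Subgroup.closure_le]
    rintro A ⟨w, c, hA⟩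
    have hAtv : A = Cfsg.Agent.S0269.tv m w c := Subtype.ext hA
    rw [hAtv]
    by_cases hw : w = 0
    · have : Cfsg.Agent.S0269.tv m w c = 1 := by
        apply Cfsg.Agent.S2594.ext_mv
        intro x
        rw [Cfsg.Agent.S0269.tv_mulVec, hw, smul_zero, add_zero]
        exact (one_mulVec x).symm
      rw [this]
      exact Subgroup.one_mem _
    · apply Subgroup.mem_iSup_of_mem (Projectivization.mk F w hw)
      have h1 : Projectivization.mk F (Projectivization.mk F w hw).rep
          (Projectivization.mk F w hw).rep_nonzero = Projectivization.mk F w hw :=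
        Projectivization.mk_rep _
      rw [Projectivization.mk_eq_mk_iff] at h1
      obtain ⟨a, ha⟩ := h1
      show Cfsg.Agent.S0269.tv m w c ∈ rootSub (Projectivization.mk F w hw).rep
      rw [← ha, Units.smul_def, rootSub_smul _ a.ne_zero]
      exact ⟨c, rfl⟩

theorem fix_central (n : Matrix.symplecticGroup (Fin m) F)
    (hn : ∀ p : ℙ F (Fin m ⊕ Fin m → F), n • p = p) :
    n ∈ Subgroup.center (Matrix.symplecticGroup (Fin m) F) := by
  have heig : ∀ v : Fin m ⊕ Fin m → F, v ≠ 0 →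
      ∃ μ : F, (n : Matrix (Fin m ⊕ Fin m) (Fin m ⊕ Fin m) F) *ᵥ v = μ • v := by
    intro v hv
    have h := hn (Projectivization.mk F v hv)
    rw [Projectivization.smul_mk, Projectivization.mk_eq_mk_iff'] at h
    obtain ⟨a, ha⟩ := h
    exact ⟨a, ha.symm⟩
  have hpair : ∀ (x y : Fin m ⊕ Fin m → F) (μ ν : F), Cfsg.sympForm m F x y ≠ 0 →
      (n : Matrix (Fin m ⊕ Fin m) (Fin m ⊕ Fin m) F) *ᵥ x = μ • x →
      (n : Matrix (Fin m ⊕ Fin m) (Fin m ⊕ Fin m) F) *ᵥ y = ν • y → μ = ν := by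
    intro x y μ ν hxy hx hy
    have hne : x + y ≠ 0 := by
      intro h0
      have : y = -x := eq_neg_of_add_eq_zero_right h0
      rw [this, sympForm_neg_right, sympForm_self, neg_zero] at hxy
      exact hxy rfl
    obtain ⟨κ, hκ⟩ := heig (x + y) hne
    rw [Matrix.mulVec_add, hx, hy, smul_add] at hκ
    have h1 := congrArg (fun z => Cfsg.sympForm m F z y) hκ
    simp only [sympForm_add_left, sympForm_smul_left, sympForm_self, mul_zero, add_zero] at h1
    have h2 := congrArg (fun z => Cfsg.sympForm m F x z) hκ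
    simp only [sympForm_add_right, sympForm_smul_right, sympForm_self, mul_zero, zero_add] at h2
    exact mul_right_cancel₀ hxy (h1.trans h2.symm)
  rw [Subgroup.mem_center_iff]
  intro g
  apply Cfsg.Agent.S2594.ext_mv
  intro x
  rw [Cfsg.Agent.S2594.mul_mv, Cfsg.Agent.S2594.mul_mv]
  by_cases hx : x = 0
  · rw [hx, Matrix.mulVec_zero, Matrix.mulVec_zero, Matrix.mulVec_zero]
  · have hgx : (g : Matrix (Fin m ⊕ Fin m) (Fin m ⊕ Fin m) F) *ᵥ x ≠ 0 :=
      (smul_ne_zero_iff_ne g).mpr hx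
    obtain ⟨μ, hμ⟩ := heig x hx
    obtain ⟨ν, hν⟩ := heig _ hgx
    obtain ⟨z, hz1, hz2⟩ := Cfsg.Agent.S0246.exists_common m x _ hx hgx
    have hz : z ≠ 0 := by
      rintro rfl
      exact hz1 (sympForm_zero_right m _)
    obtain ⟨κ, hκ⟩ := heig z hz
    have e1 : μ = κ := hpair x z μ κ hz1 hμ hκ
    have e2 : κ = ν := hpair z _ κ ν hz2 hκ hν
    rw [hμ, hν, Matrix.mulVec_smul, e1, e2]

end

/-- PSp_{2m}(q) is simple for m at least 2 and (m, q) other than (2, 2). -/
theorem result {F : Type*} [Field F] [Fintype F] (m : ℕ) (hm : 2 ≤ m) (h : m = 2 → 3 ≤ Fintype.card F) : IsSimpleGroup (Cfsg.PSp m F) := by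
  classical
  have hperf : commutator (Matrix.symplecticGroup (Fin m) F) = ⊤ := by
    apply Cfsg.Agent.S0269.result
    by_cases h3 : 3 ≤ m
    · exact Or.inl h3
    · exact Or.inr (Or.inl ⟨by omega, h (by omega)⟩)
  haveI := prim (F := F) (m := m)
  have hdich : ∀ N : Subgroup (Matrix.symplecticGroup (Fin m) F), N.Normal →
      N ≤ Subgroup.center (Matrix.symplecticGroup (Fin m) F) ∨ N = ⊤ := by
    intro N hN
    by_cases hfix : MulAction.fixedPoints N (ℙ F (Fin m ⊕ Fin m → F)) = Set.univ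
    · left
      intro n hn
      apply fix_central
      intro p
      have hp : p ∈ MulAction.fixedPoints N (ℙ F (Fin m ⊕ Fin m → F)) := by
        rw [hfix]; exact Set.mem_univ p
      exact hp ⟨n, hn⟩
    · right
      have h1 := (iwa (F := F) (m := m)).commutator_le N hfix
      rw [hperf] at h1
      exact top_le_iff.1 h1
  have hi0 : 0 < m := by omega
  have hZ : ∃ g : Matrix.symplecticGroup (Fin m) F, g ∉ Subgroup.center (Matrix.symplecticGroup (Fin m) F) := by
    by_contra hcon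
    push Not at hcon
    have htop : Subgroup.center (Matrix.symplecticGroup (Fin m) F) = ⊤ := by
      rw [eq_top_iff]
      intro g _
      exact hcon g
    have hcomm : commutator (Matrix.symplecticGroup (Fin m) F) = ⊥ := by
      rw [commutator_def, Subgroup.commutator_eq_bot_iff_le_centralizer, Subgroup.coe_top,
        Subgroup.centralizer_univ, htop]
    rw [hperf] at hcomm
    have h1 : Cfsg.Agent.S0269.tv m (Pi.single (Sum.inl ⟨0, hi0⟩) 1 : Fin m ⊕ Fin m → F) 1 ∈
        (⊤ : Subgroup (Matrix.symplecticGroup (Fin m) F)) := Subgroup.mem_top _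
    rw [hcomm, Subgroup.mem_bot] at h1
    have h2 : (Cfsg.Agent.S0269.tv m (Pi.single (Sum.inl ⟨0, hi0⟩) 1 : Fin m ⊕ Fin m → F) 1 :
        Matrix (Fin m ⊕ Fin m) (Fin m ⊕ Fin m) F) *ᵥ (Pi.single (Sum.inr ⟨0, hi0⟩) 1) =
        ((1 : Matrix.symplecticGroup (Fin m) F) : Matrix (Fin m ⊕ Fin m) (Fin m ⊕ Fin m) F) *ᵥ
          (Pi.single (Sum.inr ⟨0, hi0⟩) 1) := by rw [h1]
    rw [Cfsg.Agent.S0269.tv_mulVec, sympForm_single_inl, Pi.single_eq_same, mul_one, one_smul] at h2
    have h3 : (Pi.single (Sum.inl ⟨0, hi0⟩) 1 : Fin m ⊕ Fin m → F) = 0 := by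
      have h4 : ((1 : Matrix.symplecticGroup (Fin m) F) : Matrix (Fin m ⊕ Fin m) (Fin m ⊕ Fin m) F) *ᵥ
          (Pi.single (Sum.inr ⟨0, hi0⟩) 1) = Pi.single (Sum.inr ⟨0, hi0⟩) 1 := Matrix.one_mulVec _
      rw [h4] at h2
      exact add_eq_left.1 h2
    have h5 := congrFun h3 (Sum.inl ⟨0, hi0⟩)
    rw [Pi.single_eq_same] at h5
    exact one_ne_zero h5
  obtain ⟨g0, hg0⟩ := hZ
  refine { exists_pair_ne := ⟨QuotientGroup.mk g0, 1, fun h1 => hg0 ((QuotientGroup.eq_one_iff g0).1 h1)⟩,
           eq_bot_or_eq_top_of_normal := ?_ }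
  intro K hK
  rcases hdich (K.comap (QuotientGroup.mk' (Subgroup.center (Matrix.symplecticGroup (Fin m) F))))
    (hK.comap _) with h1 | h1
  · left
    rw [eq_bot_iff]
    intro k hk
    obtain ⟨g, rfl⟩ := QuotientGroup.mk_surjective k
    rw [Subgroup.mem_bot]
    exact (QuotientGroup.eq_one_iff g).2 (h1 hk)
  · right
    rw [eq_top_iff]
    intro k _
    obtain ⟨g, rfl⟩ := QuotientGroup.mk_surjective k
    have : g ∈ K.comap (QuotientGroup.mk' (Subgroup.center (Matrix.symplecticGroup (Fin m) F))) := by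
      rw [h1]; exact Subgroup.mem_top g
    exact this

end Cfsg.Agent.S0270
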