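import Mathlib
import Cfsg.Statements.S2572
import Cfsg.Agent.S0839
import Cfsg.Agent.S0245

set_option autoImplicit false
open Cfsg

namespace Cfsg.Agent.S2572

open Matrix
section
variable {F : Type*} [Field F] {n : ℕ}

theorem gl_mul_inv (g : GL (Fin n) F) :
    (g : Matrix (Fin n) (Fin n) F) * ((g⁻¹ : GL (Fin n) F) : Matrix (Fin n) (Fin n) F) = 1 := by
  rw [← Units.val_mul, mul_inv_cancel]; rfl

theorem gl_inv_mul (g : GL (Fin n) F) :
    ((g⁻¹ : GL (Fin n) F) : Matrix (Fin n) (Fin n) F) * (g : Matrix (Fin n) (Fin n) F) = 1 := by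
  rw [← Units.val_mul, inv_mul_cancel]; rfl

/-- action of `Fˣ × GL` on pairs (column vector, row vector) -/
def act (x : Fˣ × GL (Fin n) F) (p : (Fin n → F) × (Fin n → F)) : (Fin n → F) × (Fin n → F) :=
  ((x.1 : F) • ((x.2 : Matrix (Fin n) (Fin n) F) *ᵥ p.1),
   ((x.1⁻¹ : Fˣ) : F) • (p.2 ᵥ* ((x.2⁻¹ : GL (Fin n) F) : Matrix (Fin n) (Fin n) F)))

theorem act_one (p : (Fin n → F) × (Fin n → F)) : act (1 : Fˣ × GL (Fin n) F) p = p := by
  unfold act
  simp

theorem act_mul (x y : Fˣ × GL (Fin n) F) (p : (Fin n → F) × (Fin n → F)) :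
    act (x * y) p = act x (act y p) := by
  unfold act
  apply Prod.ext
  · simp only [Prod.fst_mul, Prod.snd_mul, Units.val_mul, Matrix.mulVec_smul, smul_smul,
      Matrix.mulVec_mulVec]
  · simp only [Prod.fst_mul, Prod.snd_mul, _root_.mul_inv_rev, Units.val_mul]
    rw [Matrix.smul_vecMul, Matrix.vecMul_vecMul, smul_smul, mul_comm ((y.1⁻¹ : Fˣ) : F)]

/-- the set of pairs -/
def InP (p : (Fin n → F) × (Fin n → F)) : Prop := p.1 ≠ 0 ∧ p.2 ≠ 0 ∧ p.2 ⬝ᵥ p.1 = 0

theorem mulVec_ne_zero (g : GL (Fin n) F) (a : Fin n → F) (ha : a ≠ 0) :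
    (g : Matrix (Fin n) (Fin n) F) *ᵥ a ≠ 0 := by
  intro h
  apply ha
  have := congrArg (fun v => ((g⁻¹ : GL (Fin n) F) : Matrix (Fin n) (Fin n) F) *ᵥ v) h
  simp only [Matrix.mulVec_mulVec, gl_inv_mul, Matrix.one_mulVec, Matrix.mulVec_zero] at this
  exact this

theorem vecMul_ne_zero (g : GL (Fin n) F) (b : Fin n → F) (hb : b ≠ 0) :
    b ᵥ* (g : Matrix (Fin n) (Fin n) F) ≠ 0 := by
  intro h
  apply hb
  have := congrArg (fun v => v ᵥ* ((g⁻¹ : GL (Fin n) F) : Matrix (Fin n) (Fin n) F)) h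
  simp only [Matrix.vecMul_vecMul, gl_mul_inv, Matrix.vecMul_one, Matrix.zero_vecMul] at this
  exact this

theorem act_InP (x : Fˣ × GL (Fin n) F) (p : (Fin n → F) × (Fin n → F)) (hp : InP p) :
    InP (act x p) := by
  obtain ⟨h1, h2, h3⟩ := hp
  refine ⟨?_, ?_, ?_⟩
  · exact smul_ne_zero x.1.ne_zero (mulVec_ne_zero _ _ h1)
  · exact smul_ne_zero (x.1⁻¹).ne_zero (vecMul_ne_zero _ _ h2)
  · show (((x.1⁻¹ : Fˣ) : F) • (p.2 ᵥ* ((x.2⁻¹ : GL (Fin n) F) : Matrix (Fin n) (Fin n) F))) ⬝ᵥ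
      ((x.1 : F) • ((x.2 : Matrix (Fin n) (Fin n) F) *ᵥ p.1)) = 0
    rw [smul_dotProduct, dotProduct_smul, ← Matrix.dotProduct_mulVec, Matrix.mulVec_mulVec, gl_inv_mul,
      Matrix.one_mulVec, h3, smul_zero, smul_zero]

/-- diagonal unit -/
def diagU (u : Fin n → F) (hu : ∀ i, u i ≠ 0) : GL (Fin n) F :=
  ⟨Matrix.diagonal u, Matrix.diagonal (fun i => (u i)⁻¹),
    by rw [Matrix.diagonal_mul_diagonal, ← Matrix.diagonal_one]; congr 1; ext i; exact mul_inv_cancel₀ (hu i),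
    by rw [Matrix.diagonal_mul_diagonal, ← Matrix.diagonal_one]; congr 1; ext i; exact inv_mul_cancel₀ (hu i)⟩

theorem act_one_left (g : GL (Fin n) F) (p : (Fin n → F) × (Fin n → F)) :
    act ((1 : Fˣ), g) p = ((g : Matrix (Fin n) (Fin n) F) *ᵥ p.1,
      p.2 ᵥ* ((g⁻¹ : GL (Fin n) F) : Matrix (Fin n) (Fin n) F)) := by
  simp [act]

theorem sl_inv (g : SpecialLinearGroup (Fin n) F) :
    (((SpecialLinearGroup.toGL g)⁻¹ : GL (Fin n) F) : Matrix (Fin n) (Fin n) F) =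
      ((g⁻¹ : SpecialLinearGroup (Fin n) F) : Matrix (Fin n) (Fin n) F) := by
  rw [← map_inv]; rfl

theorem trans (i0 i1 : Fin n) (h01 : i1 ≠ i0) (p : (Fin n → F) × (Fin n → F)) (hp : InP p) :
    ∃ g : GL (Fin n) F, act ((1 : Fˣ), g) (Pi.single i1 1, Pi.single i0 1) = p := by
  obtain ⟨ha, hb, hba⟩ := hp
  obtain ⟨g1, c1, hc1, hg1⟩ := Cfsg.Agent.S0839.row_norm i0 p.2 hb
  have hgg : (g1 : Matrix (Fin n) (Fin n) F) *
      ((g1⁻¹ : SpecialLinearGroup (Fin n) F) : Matrix (Fin n) (Fin n) F) = 1 := by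
    rw [← Cfsg.Agent.S0839.cm, mul_inv_cancel, Cfsg.Agent.S0839.c1]
  obtain ⟨a1, ha1⟩ : ∃ a1, a1 = ((g1⁻¹ : SpecialLinearGroup (Fin n) F) : Matrix (Fin n) (Fin n) F) *ᵥ p.1 :=
    ⟨_, rfl⟩
  have hga1 : (g1 : Matrix (Fin n) (Fin n) F) *ᵥ a1 = p.1 := by
    rw [ha1, Matrix.mulVec_mulVec, hgg, Matrix.one_mulVec]
  have ha1_ne : a1 ≠ 0 := by
    intro h
    rw [h, Matrix.mulVec_zero] at hga1
    exact ha hga1.symm
  have ha1_0 : a1 i0 = 0 := by
    have h1 : (p.2 ᵥ* (g1 : Matrix (Fin n) (Fin n) F)) ⬝ᵥ a1 = 0 := by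
      rw [← Matrix.dotProduct_mulVec, hga1, hba]
    rw [hg1, smul_dotProduct, single_dotProduct, one_mul, smul_eq_mul] at h1
    exact (mul_eq_zero.1 h1).resolve_left hc1
  obtain ⟨h, c2, hc2, hrow, hcol⟩ := Cfsg.Agent.S0839.col_norm i0 i1 h01 a1 ha1_ne ha1_0
  have hhh : (h : Matrix (Fin n) (Fin n) F) *
      ((h⁻¹ : SpecialLinearGroup (Fin n) F) : Matrix (Fin n) (Fin n) F) = 1 := by
    rw [← Cfsg.Agent.S0839.cm, mul_inv_cancel, Cfsg.Agent.S0839.c1]
  have hu : ∀ i : Fin n, (if i = i0 then c1⁻¹ else if i = i1 then c2 else 1) ≠ 0 := by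
    intro i
    split_ifs
    · exact inv_ne_zero hc1
    · exact hc2
    · exact one_ne_zero
  refine ⟨SpecialLinearGroup.toGL g1 * (SpecialLinearGroup.toGL h * diagU _ hu), ?_⟩
  have e : (((1 : Fˣ), SpecialLinearGroup.toGL g1 * (SpecialLinearGroup.toGL h * diagU _ hu)) :
      Fˣ × GL (Fin n) F) = ((1 : Fˣ), SpecialLinearGroup.toGL g1) *
        (((1 : Fˣ), SpecialLinearGroup.toGL h) * ((1 : Fˣ), diagU _ hu)) := by
    simp
  rw [e, act_mul, act_mul, act_one_left, act_one_left, act_one_left]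
  have hD1 : ((diagU _ hu : GL (Fin n) F) : Matrix (Fin n) (Fin n) F) *ᵥ (Pi.single i1 1) =
      c2 • Pi.single i1 1 := by
    show Matrix.diagonal _ *ᵥ _ = _
    rw [Matrix.diagonal_mulVec_single, if_neg h01, if_pos rfl, mul_one]
    ext j
    by_cases hj : j = i1
    · subst hj; simp
    · simp [Pi.single_eq_of_ne hj]
  have hD2 : (Pi.single i0 1 : Fin n → F) ᵥ*
      (((diagU _ hu)⁻¹ : GL (Fin n) F) : Matrix (Fin n) (Fin n) F) = c1 • Pi.single i0 1 := by
    show _ ᵥ* Matrix.diagonal _ = _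
    rw [Matrix.single_vecMul_diagonal]
    simp only [if_true, one_mul, inv_inv]
    ext j
    by_cases hj : j = i0
    · subst hj; simp
    · simp [Pi.single_eq_of_ne hj]
  have hh2 : (c1 • Pi.single i0 1 : Fin n → F) ᵥ*
      ((h⁻¹ : SpecialLinearGroup (Fin n) F) : Matrix (Fin n) (Fin n) F) = c1 • Pi.single i0 1 := by
    rw [Matrix.smul_vecMul]
    congr 1
    have := congrArg (fun v => v ᵥ* ((h⁻¹ : SpecialLinearGroup (Fin n) F) : Matrix (Fin n) (Fin n) F)) hrow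
    simp only [Matrix.vecMul_vecMul, hhh, Matrix.vecMul_one] at this
    exact this.symm
  have hg2 : (c1 • Pi.single i0 1 : Fin n → F) ᵥ*
      ((g1⁻¹ : SpecialLinearGroup (Fin n) F) : Matrix (Fin n) (Fin n) F) = p.2 := by
    rw [← hg1, Matrix.vecMul_vecMul, hgg, Matrix.vecMul_one]
  simp only [hD1, hD2, sl_inv, SpecialLinearGroup.coe_GL_coe_matrix, hcol, hh2, hga1, hg2]

theorem comm_iff (t g : GL (Fin n) F) (a b : Fin n → F)
    (ht : (t : Matrix (Fin n) (Fin n) F) = 1 + vecMulVec a b) :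
    g ∈ Subgroup.centralizer ({t} : Set (GL (Fin n) F)) ↔
      vecMulVec a (b ᵥ* (g : Matrix (Fin n) (Fin n) F)) =
        vecMulVec ((g : Matrix (Fin n) (Fin n) F) *ᵥ a) b := by
  rw [Subgroup.mem_centralizer_singleton_iff]
  constructor
  · intro h
    have h1 := congrArg (fun x : GL (Fin n) F => (x : Matrix (Fin n) (Fin n) F)) h
    simp only [Units.val_mul] at h1
    rw [ht, Matrix.add_mul, Matrix.mul_add, Matrix.one_mul, Matrix.mul_one, Matrix.vecMulVec_mul,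
      Matrix.mul_vecMulVec] at h1
    exact (add_left_cancel h1).symm
  · intro h
    apply Units.ext
    rw [Units.val_mul, Units.val_mul, ht, Matrix.add_mul, Matrix.mul_add, Matrix.one_mul, Matrix.mul_one,
      Matrix.vecMulVec_mul, Matrix.mul_vecMulVec, h]

theorem stab_card (t : GL (Fin n) F) (a b : Fin n → F) (ha : a ≠ 0) (hb : b ≠ 0)
    (ht : (t : Matrix (Fin n) (Fin n) F) = 1 + vecMulVec a b) :
    Nat.card {x : Fˣ × GL (Fin n) F // act x (a, b) = (a, b)} =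
      Nat.card (Subgroup.centralizer ({t} : Set (GL (Fin n) F))) := by
  apply Nat.card_congr
  refine Equiv.ofBijective (fun x => ⟨x.1.2, ?_⟩) ⟨?_, ?_⟩
  · rw [comm_iff t _ a b ht]
    have hx := x.2
    have h1 : (x.1.1 : F) • ((x.1.2 : Matrix (Fin n) (Fin n) F) *ᵥ a) = a := congrArg Prod.fst hx
    have h2 : ((x.1.1⁻¹ : Fˣ) : F) • (b ᵥ* ((x.1.2⁻¹ : GL (Fin n) F) : Matrix (Fin n) (Fin n) F)) = b :=
      congrArg Prod.snd hx
    have h3 : (x.1.2 : Matrix (Fin n) (Fin n) F) *ᵥ a = ((x.1.1⁻¹ : Fˣ) : F) • a := by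
      have := congrArg (fun v => ((x.1.1⁻¹ : Fˣ) : F) • v) h1
      simp only [smul_smul, ← Units.val_mul, inv_mul_cancel, Units.val_one, one_smul] at this
      exact this
    have h4 : b ᵥ* (x.1.2 : Matrix (Fin n) (Fin n) F) = ((x.1.1⁻¹ : Fˣ) : F) • b := by
      have := congrArg (fun v => v ᵥ* (x.1.2 : Matrix (Fin n) (Fin n) F)) h2
      simp only [Matrix.smul_vecMul, Matrix.vecMul_vecMul, gl_inv_mul, Matrix.vecMul_one] at this
      exact this.symm
    rw [h3, h4]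
    ext i j
    simp only [vecMulVec_apply, Pi.smul_apply, smul_eq_mul]
    ring
  · rintro ⟨⟨μ, g⟩, hx⟩ ⟨⟨μ', g'⟩, hx'⟩ h
    have hg : g = g' := congrArg Subtype.val h
    subst hg
    have h1 : (μ : F) • ((g : Matrix (Fin n) (Fin n) F) *ᵥ a) = a := congrArg Prod.fst hx
    have h1' : (μ' : F) • ((g : Matrix (Fin n) (Fin n) F) *ᵥ a) = a := congrArg Prod.fst hx'
    have h7 : (μ : F) = μ' := by
      have h5 : ((μ : F) - μ') • ((g : Matrix (Fin n) (Fin n) F) *ᵥ a) = 0 := by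
        rw [sub_smul, h1, h1', sub_self]
      rcases smul_eq_zero.1 h5 with h6 | h6
      · exact sub_eq_zero.1 h6
      · exact absurd h6 (mulVec_ne_zero g a ha)
    have h8 : μ = μ' := Units.ext h7
    subst h8
    rfl
  · rintro ⟨g, hg⟩
    rw [comm_iff t g a b ht] at hg
    obtain ⟨i0, hi0⟩ : ∃ i, a i ≠ 0 := by
      by_contra hcon; push Not at hcon; exact ha (funext hcon)
    obtain ⟨j0, hj0⟩ : ∃ j, b j ≠ 0 := by
      by_contra hcon; push Not at hcon; exact hb (funext hcon)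
    have hent : ∀ i j, a i * (b ᵥ* (g : Matrix (Fin n) (Fin n) F)) j =
        ((g : Matrix (Fin n) (Fin n) F) *ᵥ a) i * b j := by
      intro i j
      have := congrFun (congrFun hg i) j
      simpa [vecMulVec_apply] using this
    obtain ⟨lam, hlam⟩ : ∃ lam, lam = (b ᵥ* (g : Matrix (Fin n) (Fin n) F)) j0 / b j0 := ⟨_, rfl⟩
    have h1 : (g : Matrix (Fin n) (Fin n) F) *ᵥ a = lam • a := by
      ext i
      have := hent i j0
      simp only [Pi.smul_apply, smul_eq_mul]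
      rw [hlam]
      field_simp
      linear_combination -this
    have hlam0 : lam ≠ 0 := by
      intro h0
      rw [h0, zero_smul] at h1
      exact mulVec_ne_zero g a ha h1
    have h2 : b ᵥ* (g : Matrix (Fin n) (Fin n) F) = lam • b := by
      ext j
      have := hent i0 j
      rw [h1] at this
      simp only [Pi.smul_apply, smul_eq_mul] at this ⊢
      exact mul_left_cancel₀ hi0 (by linear_combination this)
    refine ⟨⟨((Units.mk0 lam hlam0)⁻¹, g), ?_⟩, rfl⟩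
    unfold act
    apply Prod.ext
    · simp only [Units.val_inv_eq_inv_val, Units.val_mk0]
      rw [h1, smul_smul, inv_mul_cancel₀ hlam0, one_smul]
    · simp only [inv_inv, Units.val_mk0]
      have := congrArg (fun v => v ᵥ* ((g⁻¹ : GL (Fin n) F) : Matrix (Fin n) (Fin n) F)) h2
      simp only [Matrix.vecMul_vecMul, gl_mul_inv, Matrix.vecMul_one, Matrix.smul_vecMul] at this
      exact this.symm

end

section count
variable {F : Type*} [Field F] [Fintype F] {n : ℕ}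

theorem hyp_card (a : Fin n → F) (ha : a ≠ 0) :
    Nat.card {b : Fin n → F // b ⬝ᵥ a = 0} * Fintype.card F = Fintype.card F ^ n := by
  classical
  obtain ⟨i, hi⟩ : ∃ i, a i ≠ 0 := by
    by_contra hcon; push Not at hcon; exact ha (funext hcon)
  have hV : Nat.card (Fin n → F) = Fintype.card F ^ n := by
    rw [Nat.card_fun, Nat.card_eq_fintype_card, Nat.card_eq_fintype_card, Fintype.card_fin]
  rw [← hV, ← Nat.card_congr (Equiv.sigmaFiberEquiv (fun b : Fin n → F => b ⬝ᵥ a)), Nat.card_sigma]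
  have hfib : ∀ c : F, Nat.card {b : Fin n → F // b ⬝ᵥ a = c} =
      Nat.card {b : Fin n → F // b ⬝ᵥ a = 0} := by
    intro c
    apply Nat.card_congr
    refine Equiv.subtypeEquiv (Equiv.addRight (Pi.single i (-c / a i))) ?_
    intro b
    simp only [Equiv.coe_addRight]
    rw [add_dotProduct, single_dotProduct, div_mul_cancel₀ _ hi]
    constructor
    · intro h; rw [h]; ring
    · intro h; linear_combination h
  rw [Finset.sum_congr rfl (fun c _ => hfib c), Finset.sum_const, Finset.card_univ, smul_eq_mul,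
    mul_comm]

theorem P_card (hn : 1 ≤ n) : Nat.card {p : (Fin n → F) × (Fin n → F) // InP p} =
    (Fintype.card F ^ n - 1) * (Fintype.card F ^ (n - 1) - 1) := by
  classical
  have e0 : Nat.card {p : (Fin n → F) × (Fin n → F) // InP p} =
      Nat.card {p : (Fin n → F) × (Fin n → F) // p.1 ≠ 0 ∧ p.2 ≠ 0 ∧ p.2 ⬝ᵥ p.1 = 0} := rfl
  rw [e0, Nat.card_congr (Equiv.subtypeProdEquivSigmaSubtype
    (fun (a b : Fin n → F) => a ≠ 0 ∧ b ≠ 0 ∧ b ⬝ᵥ a = 0)), Nat.card_sigma]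
  have h1 : ∀ a : Fin n → F, Nat.card {b : Fin n → F // a ≠ 0 ∧ b ≠ 0 ∧ b ⬝ᵥ a = 0} =
      if a = 0 then 0 else Fintype.card F ^ (n - 1) - 1 := by
    intro a
    by_cases ha : a = 0
    · rw [if_pos ha]
      have : IsEmpty {b : Fin n → F // a ≠ 0 ∧ b ≠ 0 ∧ b ⬝ᵥ a = 0} := ⟨fun x => x.2.1 ha⟩
      exact Nat.card_of_isEmpty
    · rw [if_neg ha]
      have h2 := hyp_card a ha
      have h3 : Nat.card {b : Fin n → F // b ⬝ᵥ a = 0} = Fintype.card F ^ (n - 1) := by
        have hq : 0 < Fintype.card F := Fintype.card_pos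
        obtain ⟨k, rfl⟩ : ∃ k, n = k + 1 := ⟨n - 1, by omega⟩
        rw [pow_succ] at h2
        exact Nat.eq_of_mul_eq_mul_right hq h2
      rw [← h3, Nat.card_eq_fintype_card, Nat.card_eq_fintype_card, Fintype.card_subtype,
        Fintype.card_subtype]
      have h4 : (Finset.univ.filter (fun b : Fin n → F => a ≠ 0 ∧ b ≠ 0 ∧ b ⬝ᵥ a = 0)) =
          (Finset.univ.filter (fun b : Fin n → F => b ⬝ᵥ a = 0)).erase 0 := by
        ext b
        simp only [Finset.mem_filter, Finset.mem_univ, true_and, Finset.mem_erase]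
        tauto
      rw [h4, Finset.card_erase_of_mem (by simp)]
  rw [Finset.sum_congr rfl (fun a _ => h1 a), Finset.sum_ite, Finset.sum_const_zero, zero_add,
    Finset.sum_const, smul_eq_mul]
  congr 1
  have hV : Fintype.card (Fin n → F) = Fintype.card F ^ n := by
    rw [Fintype.card_fun, Fintype.card_fin]
  rw [← hV, Finset.filter_not, Finset.card_sdiff_of_subset (Finset.filter_subset _ _), Finset.card_univ,
    Finset.filter_eq', if_pos (Finset.mem_univ _), Finset.card_singleton]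

theorem GLrec (q k : ℕ) : ∏ i : Fin (k + 1), (q ^ (k + 1) - q ^ (i : ℕ)) =
    (q ^ (k + 1) - 1) * q ^ k * ∏ i : Fin k, (q ^ k - q ^ (i : ℕ)) := by
  rw [Fin.prod_univ_succ]
  simp only [Fin.val_zero, pow_zero, Fin.val_succ]
  have h : ∀ i : Fin k, q ^ (k + 1) - q ^ ((i : ℕ) + 1) = q * (q ^ k - q ^ (i : ℕ)) := by
    intro i
    rw [Nat.mul_sub, ← pow_succ', ← pow_succ']
  rw [Finset.prod_congr rfl (fun i _ => h i), Finset.prod_mul_distrib, Finset.prod_const, Finset.card_univ,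
    Fintype.card_fin]
  ring

end count

/-- Centraliser of a transvection in GL_n(q), n ≥ 2: if t − 1 has rank one and square zero, the centraliser of t in GL_n(q) has order q^(2n−3) (q − 1) |GL_(n−2)(q)| (a group of order q^(2n−3) extended by GL_1(q) × GL_(n−2)(q)). -/
theorem result {F : Type*} [Field F] [Fintype F] {q n : ℕ} (hF : Fintype.card F = q) (hn : 2 ≤ n) (t : GL (Fin n) F) (ht : Cfsg.IsTransvection (t : Matrix (Fin n) (Fin n) F)) : Nat.card ↥(Subgroup.centralizer ({t} : Set (GL (Fin n) F))) = q ^ (2 * n - 3) * (q - 1) * ∏ i : Fin (n - 2), (q ^ (n - 2) - q ^ (i : ℕ)) := by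
  subst hF
  classical
  obtain ⟨a, b, hab, hba, ha, hb⟩ := Cfsg.Agent.S0839.transv_form _ ht
  have hn1 : 1 ≤ n := by omega
  have h01 : (⟨1, by omega⟩ : Fin n) ≠ ⟨0, by omega⟩ := by
    intro h
    simp [Fin.ext_iff] at h
  have hos := Cfsg.Agent.S0245.orbit_stab' (act (F := F) (n := n)) act_one act_mul (a, b)
  have horb : Nat.card {x : (Fin n → F) × (Fin n → F) // ∃ g : Fˣ × GL (Fin n) F, act g (a, b) = x} =
      Nat.card {p : (Fin n → F) × (Fin n → F) // InP p} := by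
    apply Nat.card_congr
    apply Equiv.subtypeEquivRight
    intro x
    constructor
    · rintro ⟨g, rfl⟩
      exact act_InP g _ ⟨ha, hb, hba⟩
    · intro hx
      obtain ⟨g1, hg1⟩ := trans ⟨0, by omega⟩ ⟨1, by omega⟩ h01 (a, b) ⟨ha, hb, hba⟩
      obtain ⟨g2, hg2⟩ := trans ⟨0, by omega⟩ ⟨1, by omega⟩ h01 x hx
      refine ⟨((1 : Fˣ), g2) * ((1 : Fˣ), g1)⁻¹, ?_⟩
      rw [act_mul, ← hg1, ← act_mul (((1 : Fˣ), g1)⁻¹) ((1 : Fˣ), g1), inv_mul_cancel, act_one, hg2]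
  rw [horb, P_card hn1, stab_card t a b ha hb hab, Nat.card_prod, Nat.card_units,
    Nat.card_eq_fintype_card (α := F), Matrix.card_GL_field] at hos
  obtain ⟨k, rfl⟩ : ∃ k, n = k + 2 := ⟨n - 2, by omega⟩
  rw [GLrec, GLrec] at hos
  change _ = Fintype.card F ^ (2 * (k + 2) - 3) * (Fintype.card F - 1) *
    ∏ i : Fin k, (Fintype.card F ^ k - Fintype.card F ^ (i : ℕ))
  have he : 2 * (k + 2) - 3 = 2 * k + 1 := by omega
  rw [he]
  have hq : 1 < Fintype.card F := Fintype.one_lt_card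
  have hA : 0 < Fintype.card F ^ (k + 1 + 1) - 1 := by
    have := Nat.one_lt_pow (n := k + 1 + 1) (by omega) hq
    omega
  have hB : 0 < Fintype.card F ^ (k + 1) - 1 := by
    have := Nat.one_lt_pow (n := k + 1) (by omega) hq
    omega
  apply Nat.eq_of_mul_eq_mul_left (Nat.mul_pos hA hB)
  have e2 : k + 2 - 1 = k + 1 := by omega
  rw [e2] at hos
  refine hos.trans ?_
  ring

end Cfsg.Agent.S2572
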