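import Mathlib
import Cfsg.Statements.S0273
import Cfsg.Agent.S2572

set_option autoImplicit false
open Cfsg

namespace Cfsg.Agent.S0273

theorem ch2 {F : Type*} [Field F] (N : Matrix (Fin 2) (Fin 2) F) :
    N * N = N.trace • N - N.det • (1 : Matrix (Fin 2) (Fin 2) F) := by
  ext i j
  fin_cases i <;> fin_cases j <;>
    simp [Matrix.mul_apply, Fin.sum_univ_two, Matrix.det_fin_two, Matrix.trace_fin_two] <;> ring

theorem sq_zero {F : Type*} [Field F] (N : Matrix (Fin 2) (Fin 2) F) (k : ℕ) (hk : N ^ (k + 1) = 0) :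
    N * N = 0 := by
  have hdet : N.det = 0 := by
    have : (N ^ (k + 1)).det = 0 := by rw [hk]; simp
    rw [Matrix.det_pow] at this
    exact pow_eq_zero_iff (by omega) |>.1 this
  have h2 : N * N = N.trace • N := by rw [ch2, hdet]; simp
  have hj : ∀ j : ℕ, N ^ (j + 1) = N.trace ^ j • N := by
    intro j
    induction j with
    | zero => simp
    | succ j ih =>
      rw [pow_succ, ih, Matrix.smul_mul, h2, smul_smul, pow_succ]
  rw [hj k] at hk
  rcases smul_eq_zero.1 hk with h | h
  · have : N.trace = 0 := by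
      rcases Nat.eq_zero_or_pos k with h0 | h0
      · subst h0
        simp at h
      · exact pow_eq_zero_iff (by omega) |>.1 h
    rw [h2, this, zero_smul]
  · rw [h]; simp

/-- In GL_2(q) the centraliser of a non-trivial element of a Sylow p-subgroup (p the characteristic) has order q (q-1): the Sylow subgroup times the scalars. -/
theorem result {F : Type*} [Field F] [Fintype F] {q : ℕ} (hF : Fintype.card F = q) (p : ℕ) [Fact p.Prime] [CharP F p] (P : Sylow p (Matrix.GeneralLinearGroup (Fin 2) F)) (a : Matrix.GeneralLinearGroup (Fin 2) F) (ha : a ∈ P) (ha1 : a ≠ 1) : Nat.card (Subgroup.centralizer ({a} : Set (Matrix.GeneralLinearGroup (Fin 2) F))) = q * (q - 1) := by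
  classical
  obtain ⟨k, hk⟩ := P.2 ⟨a, ha⟩
  have hk' : a ^ (p ^ k) = 1 := by
    have := congrArg Subtype.val hk
    simpa using this
  have hk2 : (a : Matrix (Fin 2) (Fin 2) F) ^ (p ^ k) = 1 := by
    have := congrArg (fun x : Matrix.GeneralLinearGroup (Fin 2) F => (x : Matrix (Fin 2) (Fin 2) F)) hk'
    simpa using this
  have hN : ((a : Matrix (Fin 2) (Fin 2) F) - 1) ^ (p ^ k) = 0 := by
    rw [sub_pow_char_pow_of_commute p k (Commute.one_right _), hk2]
    simp
  have hp : p ^ k = (p ^ k - 1) + 1 := by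
    have : 0 < p ^ k := pow_pos (Fact.out : p.Prime).pos k
    omega
  rw [hp] at hN
  have hsq := sq_zero _ _ hN
  have hne : (a : Matrix (Fin 2) (Fin 2) F) - 1 ≠ 0 := by
    intro h
    apply ha1
    apply Units.ext
    rw [sub_eq_zero] at h
    simpa using h
  have hr1 : ((a : Matrix (Fin 2) (Fin 2) F) - 1).rank ≤ 1 := by
    have := Matrix.rank_add_rank_le_card_of_mul_eq_zero hsq
    simp at this
    omega
  have hr0 : ((a : Matrix (Fin 2) (Fin 2) F) - 1).rank ≠ 0 := by
    intro h
    apply hne
    have h0 : LinearMap.range (((a : Matrix (Fin 2) (Fin 2) F) - 1).mulVecLin) = ⊥ :=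
      Submodule.finrank_eq_zero.1 h
    have h1 := LinearMap.range_eq_bot.1 h0
    ext i j
    have := congrArg (fun f => f (Pi.single j 1) i) h1
    simp only [Matrix.mulVecLin_apply, Matrix.mulVec_single_one, LinearMap.zero_apply, Pi.zero_apply] at this
    simpa using this
  have ht : Cfsg.IsTransvection (a : Matrix (Fin 2) (Fin 2) F) := ⟨by omega, hsq⟩
  have := Cfsg.Agent.S2572.result hF (n := 2) (le_refl 2) a ht
  rw [this]
  simp

end Cfsg.Agent.S0273
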