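import Mathlib
import Cfsg.Statements.S0276
import Cfsg.Agent.S0243
import Cfsg.Agent.Lib.Helper5.GL2Syl

set_option autoImplicit false
open Cfsg

namespace Cfsg.Agent.S0276

open Matrix Cfsg.Agent.Lib.Helper5.GL2Syl

/-- If `g ∈ SL₂(F)` (char ≠ 2, `2` a non-square) has `g⁴ = ±1` then `g²` is scalar. -/
theorem sq_scalar {F : Type*} [Field F] (h2 : (2 : F) ≠ 0) (hns : ¬ IsSquare (2 : F))
    (g : Matrix (Fin 2) (Fin 2) F) (hdet : g.det = 1)
    (h4 : (g * g) * (g * g) = 1 ∨ (g * g) * (g * g) = -1) :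
    ∃ r : F, r ^ 2 = 1 ∧ g * g = r • (1 : Matrix (Fin 2) (Fin 2) F) := by
  rcases h4 with h4 | h4
  · have hc := ch2 (g * g)
    have hd : (g * g).det = 1 := by rw [Matrix.det_mul, hdet, mul_one]
    rw [h4, hd, one_smul] at hc
    have h5 : (g * g).trace • (g * g) = (2 : F) • (1 : Matrix (Fin 2) (Fin 2) F) := by
      rw [two_smul]
      rw [eq_sub_iff_add_eq] at hc
      exact hc.symm
    have ht : (g * g).trace ≠ 0 := by
      intro h0
      rw [h0, zero_smul] at h5
      have := congrFun (congrFun h5 0) 0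
      simp at this
      exact h2 this.symm
    have h6 : g * g = (2 / (g * g).trace) • (1 : Matrix (Fin 2) (Fin 2) F) := by
      have := congrArg (fun M : Matrix (Fin 2) (Fin 2) F => ((g * g).trace)⁻¹ • M) h5
      simp only [smul_smul, inv_mul_cancel₀ ht, one_smul] at this
      rw [div_eq_inv_mul]
      exact this
    refine ⟨2 / (g * g).trace, ?_, h6⟩
    have := hd
    rw [h6, Matrix.det_smul, Matrix.det_one, mul_one] at this
    simpa using this
  · have hc := ch2 g
    rw [hdet, one_smul] at hc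
    obtain ⟨t, ht⟩ : ∃ t, t = g.trace := ⟨_, rfl⟩
    rw [← ht] at hc
    have h5 : (t ^ 3 - 2 * t) • g = (t ^ 2 - 2) • (1 : Matrix (Fin 2) (Fin 2) F) := by
      have e1 : (g * g) * (g * g) = (t ^ 3 - 2 * t) • g + (1 - t ^ 2) • (1 : Matrix (Fin 2) (Fin 2) F) := by
        have : (g * g) * (g * g) = (t • g - 1) * (t • g - 1) := by rw [← hc]
        rw [this, sub_mul, mul_sub, mul_sub, Matrix.smul_mul, Matrix.mul_smul, hc]
        simp only [Matrix.mul_one, Matrix.one_mul, smul_sub, smul_smul, sub_smul, one_smul]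
        have e3 : t ^ 3 = t * (t * t) := by ring
        have e4 : t ^ 2 = t * t := by ring
        rw [e3, e4, mul_smul 2 t g, two_smul]
        abel
      rw [h4] at e1
      have e2 : (t ^ 3 - 2 * t) • g = -1 - (1 - t ^ 2) • (1 : Matrix (Fin 2) (Fin 2) F) := by
        rw [e1]; abel
      rw [e2, sub_smul, sub_smul, one_smul]
      have e5 : ((2 : F) • (1 : Matrix (Fin 2) (Fin 2) F)) = 1 + 1 := by rw [two_smul]
      rw [e5]
      abel
    have hne : t ^ 2 - 2 ≠ 0 := by
      intro h0
      apply hns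
      refine ⟨t, ?_⟩
      linear_combination -h0
    have h6 : t • g = (1 : Matrix (Fin 2) (Fin 2) F) := by
      have := congrArg (fun M : Matrix (Fin 2) (Fin 2) F => (t ^ 2 - 2)⁻¹ • M) h5
      simp only [smul_smul, inv_mul_cancel₀ hne, one_smul] at this
      rw [← this]
      congr 1
      field_simp
    have ht0 : t ≠ 0 := by
      rintro rfl
      rw [zero_smul] at h6
      have := congrFun (congrFun h6 0) 0
      simp at this
    have h7 : g = t⁻¹ • (1 : Matrix (Fin 2) (Fin 2) F) := by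
      rw [← h6, smul_smul, inv_mul_cancel₀ ht0, one_smul]
    have h8 : (t⁻¹) ^ 2 = 1 := by
      have := hdet
      rw [h7, Matrix.det_smul, Matrix.det_one, mul_one] at this
      simpa using this
    refine ⟨1, one_pow 2, ?_⟩
    rw [one_smul]
    nth_rewrite 1 [h7]
    rw [Matrix.smul_mul, Matrix.one_mul]
    nth_rewrite 1 [h7]
    rw [smul_smul, ← pow_two, h8, one_smul]

/-- For q = 3 or 5 mod 8 the Sylow 2-subgroups of PSL_2(q) are elementary abelian of order 4. -/
theorem result {F : Type*} [Field F] [Fintype F] {q : ℕ} (hF : Fintype.card F = q) (hq : q % 8 = 3 ∨ q % 8 = 5) (P : Sylow 2 (Matrix.ProjectiveSpecialLinearGroup (Fin 2) F)) : IsKleinFour (P : Subgroup (Matrix.ProjectiveSpecialLinearGroup (Fin 2) F)) := by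
  classical
  have h2 : (2 : F) ≠ 0 := by
    intro h
    have h3 : ringChar F = 2 := CharP.ringChar_of_prime_eq_zero Nat.prime_two (by exact_mod_cast h)
    have := FiniteField.even_card_iff_char_two.1 h3
    omega
  have hns : ¬ IsSquare (2 : F) := by
    rw [FiniteField.isSquare_two_iff, hF]; omega
  have hcard : Nat.card (P : Subgroup (Matrix.ProjectiveSpecialLinearGroup (Fin 2) F)) = 4 := by
    have h := Cfsg.Agent.S0243.result hF 2 (le_refl 2)
    simp only [Fin.prod_univ_two] at h
    obtain ⟨N, hN⟩ : ∃ N, N = Nat.card (Matrix.ProjectiveSpecialLinearGroup (Fin 2) F) := ⟨_, rfl⟩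
    rw [Sylow.card_eq_multiplicity, ← hN]
    rw [← hN] at h
    have key : ∃ m, N = 4 * m ∧ ¬ 2 ∣ m := by
      rcases hq with hq | hq
      · obtain ⟨k, rfl⟩ : ∃ k, q = 8 * k + 3 := ⟨q / 8, by omega⟩
        refine ⟨(2 * k + 1) * (8 * k + 3) * (4 * k + 1), ?_, ?_⟩
        · have e0 : Nat.gcd 2 (8 * k + 3 - 1) = 2 := by
            have : 8 * k + 3 - 1 = 2 * (4 * k + 1) := by omega
            rw [this]; exact Nat.gcd_eq_left (Dvd.intro _ rfl)
          have e1 : 8 * k + 3 - 1 = 8 * k + 2 := by omega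
          have e2 : (8 * k + 3) ^ 2 - (8 * k + 3) ^ ((0 : Fin 2) : ℕ) = (8 * k + 2) * (8 * k + 4) := by
            apply Nat.sub_eq_of_eq_add
            simp only [Fin.val_zero]
            ring
          have e3 : (8 * k + 3) ^ 2 - (8 * k + 3) ^ ((1 : Fin 2) : ℕ) = (8 * k + 3) * (8 * k + 2) := by
            apply Nat.sub_eq_of_eq_add
            simp only [Fin.val_one]
            ring
          rw [e0, e1, e2, e3] at h
          have hpos : 0 < 2 * (8 * k + 2) := by positivity
          apply Nat.eq_of_mul_eq_mul_left hpos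
          rw [mul_assoc, h]
          ring
        · intro hdvd
          have : ((2 * k + 1) * (8 * k + 3) * (4 * k + 1)) % 2 = 1 := by
            simp [Nat.mul_mod, Nat.add_mod]
          omega
      · obtain ⟨k, rfl⟩ : ∃ k, q = 8 * k + 5 := ⟨q / 8, by omega⟩
        refine ⟨(4 * k + 3) * (8 * k + 5) * (2 * k + 1), ?_, ?_⟩
        · have e0 : Nat.gcd 2 (8 * k + 5 - 1) = 2 := by
            have : 8 * k + 5 - 1 = 2 * (4 * k + 2) := by omega
            rw [this]; exact Nat.gcd_eq_left (Dvd.intro _ rfl)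
          have e1 : 8 * k + 5 - 1 = 8 * k + 4 := by omega
          have e2 : (8 * k + 5) ^ 2 - (8 * k + 5) ^ ((0 : Fin 2) : ℕ) = (8 * k + 4) * (8 * k + 6) := by
            apply Nat.sub_eq_of_eq_add
            simp only [Fin.val_zero]
            ring
          have e3 : (8 * k + 5) ^ 2 - (8 * k + 5) ^ ((1 : Fin 2) : ℕ) = (8 * k + 5) * (8 * k + 4) := by
            apply Nat.sub_eq_of_eq_add
            simp only [Fin.val_one]
            ring
          rw [e0, e1, e2, e3] at h
          have hpos : 0 < 2 * (8 * k + 4) := by positivity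
          apply Nat.eq_of_mul_eq_mul_left hpos
          rw [mul_assoc, h]
          ring
        · intro hdvd
          have : ((4 * k + 3) * (8 * k + 5) * (2 * k + 1)) % 2 = 1 := by
            simp [Nat.mul_mod, Nat.add_mod]
          omega
    obtain ⟨m, hm, hm2⟩ := key
    have hm0 : m ≠ 0 := by rintro rfl; simp at hm2
    rw [hm, Nat.factorization_mul (by norm_num) hm0]
    have e4 : (4 : ℕ).factorization 2 = 2 := by
      have : (4 : ℕ) = 2 ^ 2 := by norm_num
      rw [this, Nat.Prime.factorization_pow Nat.prime_two]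
      simp
    simp [e4, Nat.factorization_eq_zero_of_not_dvd hm2]
  have hsq : ∀ x : (P : Subgroup (Matrix.ProjectiveSpecialLinearGroup (Fin 2) F)), x ^ 2 = 1 := by
    intro x
    have hx4 : x ^ 4 = 1 := by rw [← hcard]; exact pow_card_eq_one'
    obtain ⟨g, hg⟩ := QuotientGroup.mk_surjective (x : Matrix.ProjectiveSpecialLinearGroup (Fin 2) F)
    have h4 : ((g ^ 4 : Matrix.SpecialLinearGroup (Fin 2) F) :
        Matrix.ProjectiveSpecialLinearGroup (Fin 2) F) = 1 := by
      rw [QuotientGroup.mk_pow, hg]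
      have := congrArg Subtype.val hx4
      simpa using this
    rw [QuotientGroup.eq_one_iff, Matrix.SpecialLinearGroup.mem_center_iff] at h4
    obtain ⟨r, hr, hr2⟩ := h4
    have hr' : r = 1 ∨ r = -1 := by
      apply mul_self_eq_one_iff.1
      simpa [pow_two] using hr
    have hg4 : ((g ^ 4 : Matrix.SpecialLinearGroup (Fin 2) F) : Matrix (Fin 2) (Fin 2) F) =
        ((g : Matrix (Fin 2) (Fin 2) F) * (g : Matrix (Fin 2) (Fin 2) F)) *
          ((g : Matrix (Fin 2) (Fin 2) F) * (g : Matrix (Fin 2) (Fin 2) F)) := by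
      have : g ^ 4 = (g * g) * (g * g) := by
        rw [show (4 : ℕ) = 2 + 2 from rfl, pow_add, pow_two]
      rw [this]; rfl
    have h4' : ((g : Matrix (Fin 2) (Fin 2) F) * (g : Matrix (Fin 2) (Fin 2) F)) *
          ((g : Matrix (Fin 2) (Fin 2) F) * (g : Matrix (Fin 2) (Fin 2) F)) = 1 ∨
        ((g : Matrix (Fin 2) (Fin 2) F) * (g : Matrix (Fin 2) (Fin 2) F)) *
          ((g : Matrix (Fin 2) (Fin 2) F) * (g : Matrix (Fin 2) (Fin 2) F)) = -1 := by
      rw [← hg4, ← hr2]
      rcases hr' with rfl | rfl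
      · left; rw [map_one]
      · right; rw [map_neg, map_one]
    obtain ⟨s, hs, hs2⟩ := sq_scalar h2 hns _ g.2 h4'
    have h5 : ((g ^ 2 : Matrix.SpecialLinearGroup (Fin 2) F) :
        Matrix.ProjectiveSpecialLinearGroup (Fin 2) F) = 1 := by
      rw [QuotientGroup.eq_one_iff, Matrix.SpecialLinearGroup.mem_center_iff]
      refine ⟨s, by simpa using hs, ?_⟩
      have : ((g ^ 2 : Matrix.SpecialLinearGroup (Fin 2) F) : Matrix (Fin 2) (Fin 2) F) =
          (g : Matrix (Fin 2) (Fin 2) F) * (g : Matrix (Fin 2) (Fin 2) F) := by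
        rw [pow_two]; rfl
      rw [this, hs2, Matrix.scalar_apply, Matrix.smul_one_eq_diagonal]
    apply Subtype.ext
    rw [QuotientGroup.mk_pow, hg] at h5
    simpa using h5
  refine ⟨hcard, ?_⟩
  have hd := Monoid.exponent_dvd_of_forall_pow_eq_one hsq
  have hne : Monoid.exponent (P : Subgroup (Matrix.ProjectiveSpecialLinearGroup (Fin 2) F)) ≠ 1 := by
    rw [Ne, Monoid.exp_eq_one_iff]
    intro hs
    have := Nat.card_eq_one_iff_unique.2 ⟨hs, ⟨1⟩⟩
    omega
  exact ((Nat.dvd_prime Nat.prime_two).1 hd).resolve_left hne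

end Cfsg.Agent.S0276
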