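import Mathlib
import Cfsg.Statements.S0284
import Cfsg.Agent.Lib.Helper5.Herm

set_option autoImplicit false
open Cfsg

namespace Cfsg.Agent.S0284

/-- The standard Hermitian form on F^n, |F| = q^2, has exactly q^(n-1) (q^n - (-1)^n) vectors of norm 1. -/
theorem result {F : Type*} [Field F] [Fintype F] {q : ℕ} (hF : Fintype.card F = q ^ 2) (n : ℕ) : Nat.card {v : Fin n → F // Cfsg.hermForm n F q v v = 1} = (if Even n then q ^ (n - 1) * (q ^ n - 1) else q ^ (n - 1) * (q ^ n + 1)) := by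
  obtain ⟨hu, -⟩ := Cfsg.Agent.Lib.Helper5.Herm.counts hF n
  obtain ⟨φ, -, -, hq2⟩ := Cfsg.Agent.Lib.Helper5.Herm.frob_setup hF
  have hq0 : (q : ℤ) ≠ 0 := by
    have : (2 : ℤ) ≤ q := by exact_mod_cast hq2
    omega
  rcases n with _ | m
  · simp only [pow_zero, sub_self, mul_zero] at hu
    have h0 : (Nat.card {v : Fin 0 → F // Cfsg.hermForm 0 F q v v = 1} : ℤ) = 0 := by
      rcases mul_eq_zero.1 hu with h | h
      · exact absurd h hq0
      · exact h
    have h0' : Nat.card {v : Fin 0 → F // Cfsg.hermForm 0 F q v v = 1} = 0 := by exact_mod_cast h0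
    rw [h0']
    simp
  · have h1 : (Nat.card {v : Fin (m + 1) → F // Cfsg.hermForm (m + 1) F q v v = 1} : ℤ) =
        (q : ℤ) ^ m * ((q : ℤ) ^ (m + 1) - (-1) ^ (m + 1)) := by
      apply mul_left_cancel₀ hq0
      rw [hu]; ring
    have hge : 1 ≤ q ^ (m + 1) := Nat.one_le_pow _ _ (by omega)
    simp only [Nat.add_sub_cancel]
    split_ifs with he
    · rw [he.neg_one_pow] at h1
      zify [hge]
      exact h1
    · rw [(Nat.not_even_iff_odd.1 he).neg_one_pow] at h1
      zify
      rw [h1]; ring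

end Cfsg.Agent.S0284
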