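import Mathlib
import Cfsg.Statements.S0277
import Cfsg.Agent.Lib.Helper5.Herm
import Cfsg.Agent.S0751
import Cfsg.Agent.S0245
import Cfsg.Agent.S0284

set_option autoImplicit false
open Cfsg

namespace Cfsg.Agent.S0277

open Matrix Cfsg.Agent.Lib.Helper5.Herm

variable {F : Type*} [Field F] [Fintype F] {q : ℕ}

omit [Fintype F] in
theorem mem_GU (n : ℕ) (g : GL (Fin n) F) : g ∈ Cfsg.GU n F q ↔
    ∀ u v, Cfsg.hermForm n F q ((g : Matrix (Fin n) (Fin n) F) *ᵥ u)
      ((g : Matrix (Fin n) (Fin n) F) *ᵥ v) = Cfsg.hermForm n F q u v := Iff.rfl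

/-- The Hermitian form as a sesquilinear map (semilinear in the first variable). -/
noncomputable def hB (φ : F →+* F) (n : ℕ) : (Fin n → F) →ₛₗ[φ] (Fin n → F) →ₗ[F] F :=
  LinearMap.mk₂'ₛₗ φ (RingHom.id F) (fun x y => ∑ i, y i * φ (x i))
    (by intro x x' y; simp [mul_add, Finset.sum_add_distrib])
    (by
      intro c x y
      simp only [Pi.smul_apply, smul_eq_mul, map_mul, Finset.mul_sum]
      exact Finset.sum_congr rfl fun i _ => by ring)
    (by intro x y y'; simp [add_mul, Finset.sum_add_distrib])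
    (by
      intro c x y
      simp only [Pi.smul_apply, smul_eq_mul, RingHom.id_apply, Finset.mul_sum]
      exact Finset.sum_congr rfl fun i _ => by ring)

omit [Fintype F] in
theorem hB_apply (φ : F →+* F) (hφ : ∀ a, φ a = a ^ q) (n : ℕ) (x y : Fin n → F) :
    hB φ n x y = Cfsg.hermForm n F q y x := by
  simp only [hB, LinearMap.mk₂'ₛₗ_apply, Cfsg.hermForm, hφ]

theorem gu_trans (hF : Fintype.card F = q ^ 2) (n : ℕ) (u v : Fin n → F)
    (hu : Cfsg.hermForm n F q u u = 1) (hv : Cfsg.hermForm n F q v v = 1) :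
    ∃ g : GL (Fin n) F, g ∈ Cfsg.GU n F q ∧ (g : Matrix (Fin n) (Fin n) F) *ᵥ u = v := by
  classical
  obtain ⟨φ, hφ, hφφ, hq2⟩ := frob_setup hF
  have hσ : φ ≠ RingHom.id F := by
    intro hid
    have h1 := card_fixed_ne_zero hF
    have h2 : Nat.card {c : F // c ≠ 0 ∧ c ^ q = c} = q ^ 2 - 1 := by
      rw [← hF, Nat.card_eq_fintype_card, ← Fintype.card_units, ← Nat.card_eq_fintype_card,
        ← Nat.card_eq_fintype_card]
      refine Nat.card_congr
        { toFun := fun c => Units.mk0 c.1 c.2.1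
          invFun := fun u => ⟨u.1, Units.ne_zero u, by rw [← hφ, hid]; rfl⟩
          left_inv := fun c => rfl
          right_inv := fun u => by apply Units.ext; rfl }
    rw [h1] at h2
    have : q < q ^ 2 := by nlinarith
    omega
  have hS : (hB φ n).IsSymm := by
    refine ⟨fun x y => ?_⟩
    rw [hB_apply φ hφ, hB_apply φ hφ, herm_eq φ hφ, herm_eq φ hφ, map_sum]
    refine Finset.sum_congr rfl fun i _ => ?_
    rw [map_mul, hφφ, mul_comm]
  have hBn : (hB φ n).Nondegenerate := by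
    constructor
    · intro x hx
      ext i
      have := hx (Pi.single i 1)
      rw [hB_apply φ hφ, herm_eq φ hφ, Finset.sum_eq_single i] at this
      · simp only [Pi.single_eq_same, one_mul] at this
        have h3 := congrArg φ this
        rwa [hφφ, map_zero] at h3
      · intro j _ hj
        simp [hj]
      · intro hi; exact absurd (Finset.mem_univ i) hi
    · intro y hy
      ext i
      have := hy (Pi.single i 1)
      rw [hB_apply φ hφ, herm_eq φ hφ, Finset.sum_eq_single i] at this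
      · simpa using this
      · intro j _ hj
        simp [hj]
      · intro hi; exact absurd (Finset.mem_univ i) hi
  have hu0 : u ≠ 0 := by
    rintro rfl
    simp [Cfsg.hermForm] at hu
  have hv0 : v ≠ 0 := by
    rintro rfl
    simp [Cfsg.hermForm] at hv
  let eu := LinearEquiv.toSpanNonzeroSingleton F (Fin n → F) u hu0
  let ev := LinearEquiv.toSpanNonzeroSingleton F (Fin n → F) v hv0
  have hψ : ∀ x : Submodule.span F {u}, ((eu.symm.trans ev) x : Fin n → F) = (eu.symm x) • v ∧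
      (x : Fin n → F) = (eu.symm x) • u := by
    intro x
    constructor
    · show ((ev (eu.symm x) : Submodule.span F {v}) : Fin n → F) = _
      rw [LinearEquiv.toSpanNonzeroSingleton_apply]
    · have : eu (eu.symm x) = x := eu.apply_symm_apply x
      have h2 := congrArg Subtype.val this
      rw [LinearEquiv.toSpanNonzeroSingleton_apply] at h2
      exact h2.symm
  have hsm : ∀ (a b : F) (w : Fin n → F), hB φ n (a • w) (b • w) = φ a * b * hB φ n w w := by
    intro a b w
    have e1 : hB φ n (a • w) = φ a • hB φ n w := map_smulₛₗ (hB φ n) a w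
    rw [e1, LinearMap.smul_apply, map_smul, smul_eq_mul, smul_eq_mul]
    ring
  obtain ⟨g, hg, hgx⟩ := Cfsg.Agent.S0751.result φ hσ hφφ (hB φ n) hS hBn
    (Submodule.span F {u}) (Submodule.span F {v}) (eu.symm.trans ev) (by
      intro x x'
      rw [(hψ x).1, (hψ x').1]
      rw [show ((hB φ n) (x : Fin n → F)) (x' : Fin n → F) =
        ((hB φ n) (eu.symm x • u)) (eu.symm x' • u) from by rw [← (hψ x).2, ← (hψ x').2]]
      rw [hsm, hsm, hB_apply φ hφ, hB_apply φ hφ, hu, hv])
  have hMinv : LinearMap.toMatrix' (g : (Fin n → F) →ₗ[F] (Fin n → F)) *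
      LinearMap.toMatrix' (g.symm : (Fin n → F) →ₗ[F] (Fin n → F)) = 1 := by
    rw [← LinearMap.toMatrix'_comp]
    have : (g : (Fin n → F) →ₗ[F] (Fin n → F)) ∘ₗ (g.symm : (Fin n → F) →ₗ[F] (Fin n → F)) =
        LinearMap.id := by
      ext x : 1
      simp
    rw [this, LinearMap.toMatrix'_id]
  have hMinv' : LinearMap.toMatrix' (g.symm : (Fin n → F) →ₗ[F] (Fin n → F)) *
      LinearMap.toMatrix' (g : (Fin n → F) →ₗ[F] (Fin n → F)) = 1 := by
    rw [← LinearMap.toMatrix'_comp]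
    have : (g.symm : (Fin n → F) →ₗ[F] (Fin n → F)) ∘ₗ (g : (Fin n → F) →ₗ[F] (Fin n → F)) =
        LinearMap.id := by
      ext x : 1
      simp
    rw [this, LinearMap.toMatrix'_id]
  refine ⟨⟨LinearMap.toMatrix' (g : (Fin n → F) →ₗ[F] (Fin n → F)),
    LinearMap.toMatrix' (g.symm : (Fin n → F) →ₗ[F] (Fin n → F)), hMinv, hMinv'⟩, ?_, ?_⟩
  · rw [mem_GU]
    intro x y
    show Cfsg.hermForm n F q ((LinearMap.toMatrix' (g : (Fin n → F) →ₗ[F] (Fin n → F))) *ᵥ x)
      ((LinearMap.toMatrix' (g : (Fin n → F) →ₗ[F] (Fin n → F))) *ᵥ y) = _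
    rw [LinearMap.toMatrix'_mulVec, LinearMap.toMatrix'_mulVec, ← hB_apply φ hφ, ← hB_apply φ hφ]
    exact hg y x
  · show (LinearMap.toMatrix' (g : (Fin n → F) →ₗ[F] (Fin n → F))) *ᵥ u = v
    rw [LinearMap.toMatrix'_mulVec]
    have hmem : u ∈ Submodule.span F {u} := Submodule.mem_span_singleton_self u
    have h1 := hgx ⟨u, hmem⟩
    have h2 := hψ ⟨u, hmem⟩
    have h3 : eu.symm ⟨u, hmem⟩ = 1 := by
      rw [LinearEquiv.symm_apply_eq]
      apply Subtype.ext
      rw [LinearEquiv.toSpanNonzeroSingleton_apply]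
      exact (one_smul F u).symm
    rw [h3, one_smul] at h2
    show g u = v
    rw [← h2.1]
    exact h1

/-- The block matrix `diag(1, A)`. -/
def blk (n : ℕ) (A : Matrix (Fin n) (Fin n) F) : Matrix (Fin (n + 1)) (Fin (n + 1)) F :=
  Matrix.of (fun i j => Fin.cases (Fin.cases 1 (fun _ => 0) j)
    (fun i' => Fin.cases 0 (fun j' => A i' j') j) i)

omit [Fintype F] in
theorem blk_mulVec (n : ℕ) (A : Matrix (Fin n) (Fin n) F) (x : F) (u : Fin n → F) :
    blk n A *ᵥ (Fin.cons x u) = Fin.cons x (A *ᵥ u) := by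
  ext i
  refine Fin.cases ?_ (fun i' => ?_) i
  · simp [blk, Matrix.mulVec, dotProduct, Fin.sum_univ_succ]
  · simp [blk, Matrix.mulVec, dotProduct, Fin.sum_univ_succ]

omit [Fintype F] in
theorem blk_mul (n : ℕ) (A B : Matrix (Fin n) (Fin n) F) : blk n A * blk n B = blk n (A * B) := by
  ext i j
  refine Fin.cases ?_ (fun i' => ?_) i <;> refine Fin.cases ?_ (fun j' => ?_) j <;>
    simp [blk, Matrix.mul_apply, Fin.sum_univ_succ]

omit [Fintype F] in
theorem blk_one (n : ℕ) : blk n (1 : Matrix (Fin n) (Fin n) F) = 1 := by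
  ext i j
  refine Fin.cases ?_ (fun i' => ?_) i <;> refine Fin.cases ?_ (fun j' => ?_) j <;>
    simp [blk, Matrix.one_apply, Fin.succ_ne_zero]
  exact fun h => (Fin.succ_ne_zero _ h.symm).elim

omit [Fintype F] in
theorem herm_cons (n : ℕ) (x y : F) (u v : Fin n → F) :
    Cfsg.hermForm (n + 1) F q (Fin.cons x u) (Fin.cons y v) = x * y ^ q + Cfsg.hermForm n F q u v := by
  simp [Cfsg.hermForm, Fin.sum_univ_succ]

theorem stab_form (hF : Fintype.card F = q ^ 2) (n : ℕ) (g : GL (Fin (n + 1)) F)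
    (hg : g ∈ Cfsg.GU (n + 1) F q)
    (hfix : (g : Matrix (Fin (n + 1)) (Fin (n + 1)) F) *ᵥ (Fin.cons 1 0) = Fin.cons 1 0) :
    (g : Matrix (Fin (n + 1)) (Fin (n + 1)) F) =
      blk n ((g : Matrix (Fin (n + 1)) (Fin (n + 1)) F).submatrix Fin.succ Fin.succ) := by
  obtain ⟨φ, hφ, hφφ, hq2⟩ := frob_setup hF
  have hcol : ∀ i, (g : Matrix (Fin (n + 1)) (Fin (n + 1)) F) i 0 =
      (Fin.cons 1 0 : Fin (n + 1) → F) i := by
    intro i
    have := congrFun hfix i
    rw [← this]
    simp [Matrix.mulVec, dotProduct, Fin.sum_univ_succ]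
  have hrow : ∀ j : Fin n, (g : Matrix (Fin (n + 1)) (Fin (n + 1)) F) 0 j.succ = 0 := by
    intro j
    have h1 := (mem_GU (n + 1) g).1 hg (Fin.cons 1 0) (Pi.single j.succ 1)
    rw [hfix, Matrix.mulVec_single_one] at h1
    rw [← Fin.cons_self_tail ((g : Matrix (Fin (n + 1)) (Fin (n + 1)) F).col j.succ),
      ← Fin.cons_self_tail (Pi.single j.succ (1 : F) : Fin (n + 1) → F), herm_cons, herm_cons] at h1
    have hz : ∀ w : Fin n → F, Cfsg.hermForm n F q 0 w = 0 := by
      intro w; simp [Cfsg.hermForm]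
    rw [hz, hz] at h1
    have h2 : (Pi.single j.succ (1 : F) : Fin (n + 1) → F) 0 = 0 := by
      rw [Pi.single_apply, if_neg (Fin.succ_ne_zero j).symm]
    rw [h2, zero_pow (by omega), one_mul, mul_zero, add_zero, add_zero] at h1
    exact pow_eq_zero_iff (by omega) |>.1 h1
  ext i j
  refine Fin.cases ?_ (fun i' => ?_) i <;> refine Fin.cases ?_ (fun j' => ?_) j
  · rw [hcol 0]; simp [blk]
  · rw [hrow j']; simp [blk]
  · rw [hcol i'.succ]; simp [blk]
  · simp [blk]

theorem stab_card (hF : Fintype.card F = q ^ 2) (n : ℕ) :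
    Nat.card {g : Cfsg.GU (n + 1) F q //
      ((g : GL (Fin (n + 1)) F) : Matrix (Fin (n + 1)) (Fin (n + 1)) F) *ᵥ (Fin.cons 1 0) =
        Fin.cons 1 0} = Nat.card (Cfsg.GU n F q) := by
  symm
  have hmem : ∀ g' : Cfsg.GU n F q, ∀ u v : Fin (n + 1) → F,
      Cfsg.hermForm (n + 1) F q (blk n ((g' : GL (Fin n) F) : Matrix (Fin n) (Fin n) F) *ᵥ u)
        (blk n ((g' : GL (Fin n) F) : Matrix (Fin n) (Fin n) F) *ᵥ v) =
      Cfsg.hermForm (n + 1) F q u v := by
    intro g' u v
    rw [← Fin.cons_self_tail u, ← Fin.cons_self_tail v, blk_mulVec, blk_mulVec, herm_cons, herm_cons,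
      (mem_GU n g'.1).1 g'.2]
  let Φ : Cfsg.GU n F q → {g : Cfsg.GU (n + 1) F q //
      ((g : GL (Fin (n + 1)) F) : Matrix (Fin (n + 1)) (Fin (n + 1)) F) *ᵥ (Fin.cons 1 0) =
        Fin.cons 1 0} := fun g' =>
    ⟨⟨⟨blk n ((g' : GL (Fin n) F) : Matrix (Fin n) (Fin n) F),
        blk n (((g' : GL (Fin n) F)⁻¹ : GL (Fin n) F) : Matrix (Fin n) (Fin n) F),
        by rw [blk_mul, ← Units.val_mul, mul_inv_cancel, Units.val_one, blk_one],
        by rw [blk_mul, ← Units.val_mul, inv_mul_cancel, Units.val_one, blk_one]⟩, hmem g'⟩, by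
      show blk n ((g' : GL (Fin n) F) : Matrix (Fin n) (Fin n) F) *ᵥ Fin.cons 1 0 = Fin.cons 1 0
      rw [blk_mulVec, Matrix.mulVec_zero]⟩
  refine Nat.card_congr (Equiv.ofBijective Φ ⟨?_, ?_⟩)
  · intro a b hab
    have h1 : blk n ((a : GL (Fin n) F) : Matrix (Fin n) (Fin n) F) =
        blk n ((b : GL (Fin n) F) : Matrix (Fin n) (Fin n) F) :=
      congrArg (fun x : {g : Cfsg.GU (n + 1) F q //
        ((g : GL (Fin (n + 1)) F) : Matrix (Fin (n + 1)) (Fin (n + 1)) F) *ᵥ (Fin.cons 1 0) =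
          Fin.cons 1 0} => ((x.1 : GL (Fin (n + 1)) F) : Matrix (Fin (n + 1)) (Fin (n + 1)) F)) hab
    apply Subtype.ext
    apply Units.ext
    ext i j
    have := congrFun (congrFun h1 i.succ) j.succ
    simpa [blk] using this
  · rintro ⟨⟨g, hg⟩, hfix⟩
    have hfix' : (g : Matrix (Fin (n + 1)) (Fin (n + 1)) F) *ᵥ (Fin.cons 1 0) = Fin.cons 1 0 := hfix
    have hform := stab_form hF n g hg hfix'
    have hginv : g⁻¹ ∈ Cfsg.GU (n + 1) F q := inv_mem hg
    have hfixinv : ((g⁻¹ : GL (Fin (n + 1)) F) : Matrix (Fin (n + 1)) (Fin (n + 1)) F) *ᵥ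
        (Fin.cons 1 0) = Fin.cons 1 0 := by
      have := congrArg (fun x => ((g⁻¹ : GL (Fin (n + 1)) F) :
        Matrix (Fin (n + 1)) (Fin (n + 1)) F) *ᵥ x) hfix'
      simp only [Matrix.mulVec_mulVec] at this
      rw [← Units.val_mul, inv_mul_cancel, Units.val_one, Matrix.one_mulVec] at this
      exact this.symm
    have hform' := stab_form hF n g⁻¹ hginv hfixinv
    obtain ⟨A, hA⟩ : ∃ A, A = (g : Matrix (Fin (n + 1)) (Fin (n + 1)) F).submatrix Fin.succ Fin.succ :=
      ⟨_, rfl⟩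
    obtain ⟨A', hA'⟩ : ∃ A', A' = ((g⁻¹ : GL (Fin (n + 1)) F) :
      Matrix (Fin (n + 1)) (Fin (n + 1)) F).submatrix Fin.succ Fin.succ := ⟨_, rfl⟩
    rw [← hA] at hform
    rw [← hA'] at hform'
    have hAA' : A * A' = 1 := by
      have : blk n (A * A') = blk n 1 := by
        rw [← blk_mul, ← hform, ← hform', ← Units.val_mul, mul_inv_cancel, Units.val_one, blk_one]
      ext i j
      have := congrFun (congrFun this i.succ) j.succ
      simpa [blk] using this
    have hA'A : A' * A = 1 := by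
      have : blk n (A' * A) = blk n 1 := by
        rw [← blk_mul, ← hform, ← hform', ← Units.val_mul, inv_mul_cancel, Units.val_one, blk_one]
      ext i j
      have := congrFun (congrFun this i.succ) j.succ
      simpa [blk] using this
    have hAmem : (⟨A, A', hAA', hA'A⟩ : GL (Fin n) F) ∈ Cfsg.GU n F q := by
      rw [mem_GU]
      intro u v
      show Cfsg.hermForm n F q (A *ᵥ u) (A *ᵥ v) = Cfsg.hermForm n F q u v
      have h1 := (mem_GU (n + 1) g).1 hg (Fin.cons 0 u) (Fin.cons 0 v)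
      rw [hform, blk_mulVec, blk_mulVec, herm_cons, herm_cons] at h1
      simpa using h1
    refine ⟨⟨⟨A, A', hAA', hA'A⟩, hAmem⟩, ?_⟩
    apply Subtype.ext
    apply Subtype.ext
    apply Units.ext
    exact hform.symm

/-- Order of the general unitary group: |GU_n(q)| = q^(n(n-1)/2) * prod_{i=1}^{n} (q^i - (-1)^i). -/
theorem result {F : Type*} [Field F] [Fintype F] {q : ℕ} (hF : Fintype.card F = q ^ 2) (n : ℕ) : Nat.card (Cfsg.GU n F q) = q ^ (n * (n - 1) / 2) * ∏ i ∈ Finset.range n, (if Even i then q ^ (i + 1) + 1 else q ^ (i + 1) - 1) := by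
  classical
  obtain ⟨φ, hφ, hφφ, hq2⟩ := frob_setup hF
  induction n with
  | zero =>
    have hsub : Subsingleton (GL (Fin 0) F) := ⟨fun a b => Units.ext (Subsingleton.elim _ _)⟩
    have h1 : Nat.card (Cfsg.GU 0 F q) = 1 := Nat.card_unique
    rw [h1]; simp
  | succ n ih =>
    have hos := Cfsg.Agent.S0245.orbit_stab' (G := Cfsg.GU (n + 1) F q) (X := Fin (n + 1) → F)
      (fun g x => ((g : GL (Fin (n + 1)) F) : Matrix (Fin (n + 1)) (Fin (n + 1)) F) *ᵥ x)
      (by intro x; simp) (by intro g h x; simp [Matrix.mulVec_mulVec]) (Fin.cons 1 0)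
    have hb : Cfsg.hermForm (n + 1) F q (Fin.cons 1 0) (Fin.cons 1 0) = 1 := by
      rw [herm_cons]; simp [Cfsg.hermForm]
    have horb : Nat.card {x : Fin (n + 1) → F // ∃ g : Cfsg.GU (n + 1) F q,
        ((g : GL (Fin (n + 1)) F) : Matrix (Fin (n + 1)) (Fin (n + 1)) F) *ᵥ (Fin.cons 1 0) = x} =
        Nat.card {v : Fin (n + 1) → F // Cfsg.hermForm (n + 1) F q v v = 1} := by
      refine Nat.card_congr (Equiv.subtypeEquivRight (fun x => ⟨?_, ?_⟩))
      · rintro ⟨g, rfl⟩
        rw [(mem_GU (n + 1) g.1).1 g.2, hb]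
      · intro hx
        obtain ⟨g, hg, hgb⟩ := gu_trans hF (n + 1) _ x hb hx
        exact ⟨⟨g, hg⟩, hgb⟩
    rw [horb, stab_card hF n, ih, Cfsg.Agent.S0284.result hF (n + 1)] at hos
    rw [← hos, Finset.prod_range_succ]
    simp only [Nat.add_sub_cancel]
    have hexp : (n + 1) * n / 2 = n * (n - 1) / 2 + n := by
      have : (n + 1) * n = n * (n - 1) + 2 * n := by
        rcases n with _ | k
        · rfl
        · simp only [Nat.add_sub_cancel]; ring
      rw [this, Nat.add_mul_div_left _ _ (by norm_num : 0 < 2)]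
    rw [hexp, pow_add]
    by_cases he : Even n
    · have hne : ¬ Even (n + 1) := by rw [Nat.even_add_one]; simpa using he
      rw [if_neg hne, if_pos he]; ring
    · have hne : Even (n + 1) := by rw [Nat.even_add_one]; exact he
      rw [if_pos hne, if_neg he]; ring

end Cfsg.Agent.S0277
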