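import Mathlib
import Cfsg.Statements.S0278
import Cfsg.Agent.S0277
import Cfsg.Agent.S0243

set_option autoImplicit false
open Cfsg

namespace Cfsg.Agent.S0278

open Matrix Cfsg.Agent.Lib.Helper5.Herm Cfsg.Agent.S0277

variable {F : Type*} [Field F] [Fintype F] {q : ℕ}

theorem det_pow (hF : Fintype.card F = q ^ 2) (n : ℕ) (g : GL (Fin n) F) (hg : g ∈ Cfsg.GU n F q) :
    ((g : Matrix (Fin n) (Fin n) F).det) ^ (q + 1) = 1 := by
  classical
  obtain ⟨φ, hφ, hφφ, hq2⟩ := frob_setup hF
  have key : (g : Matrix (Fin n) (Fin n) F)ᵀ * φ.mapMatrix (g : Matrix (Fin n) (Fin n) F) = 1 := by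
    ext i j
    have h1 := (mem_GU n g).1 hg (Pi.single i 1) (Pi.single j 1)
    rw [Matrix.mulVec_single_one, Matrix.mulVec_single_one, herm_eq φ hφ, herm_eq φ hφ] at h1
    rw [Matrix.mul_apply]
    simp only [Matrix.transpose_apply, RingHom.mapMatrix_apply, Matrix.map_apply]
    have h2 : (∑ k, (g : Matrix (Fin n) (Fin n) F) k i * φ ((g : Matrix (Fin n) (Fin n) F) k j)) =
        ∑ k, ((g : Matrix (Fin n) (Fin n) F).col i) k *
          φ (((g : Matrix (Fin n) (Fin n) F).col j) k) := rfl
    rw [h2, h1, Finset.sum_eq_single i]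
    · by_cases hij : i = j
      · subst hij; simp
      · simp [hij]
    · intro k _ hk
      simp [hk]
    · intro hi; exact absurd (Finset.mem_univ i) hi
  have := congrArg Matrix.det key
  rw [Matrix.det_mul, Matrix.det_transpose, ← RingHom.map_det, hφ, Matrix.det_one] at this
  rw [pow_succ, mul_comm]; exact this

/-- Order of SU_n(q): (q + 1) |SU_n(q)| = |GU_n(q)| = q^(n(n-1)/2) * prod_{i=1}^{n} (q^i - (-1)^i), n at least 1. -/
theorem result {F : Type*} [Field F] [Fintype F] {q : ℕ} (hF : Fintype.card F = q ^ 2) (n : ℕ) (hn : 1 ≤ n) : (q + 1) * Nat.card (Cfsg.SU n F q) = q ^ (n * (n - 1) / 2) * ∏ i ∈ Finset.range n, (if Even i then q ^ (i + 1) + 1 else q ^ (i + 1) - 1) := by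
  classical
  obtain ⟨φ, hφ, hφφ, hq2⟩ := frob_setup hF
  rw [← Cfsg.Agent.S0277.result hF n]
  let f : ↥(Cfsg.GU n F q) →* Fˣ := Matrix.GeneralLinearGroup.det.comp (Cfsg.GU n F q).subtype
  have hker : Nat.card f.ker = Nat.card (Cfsg.SU n F q) := by
    symm
    refine Nat.card_congr ?_
    exact
      { toFun := fun s => ⟨⟨Matrix.SpecialLinearGroup.toGL s.1, s.2⟩, by
          rw [MonoidHom.mem_ker]
          apply Units.ext
          show (Matrix.GeneralLinearGroup.det (Matrix.SpecialLinearGroup.toGL s.1) : F) = 1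
          rw [Matrix.GeneralLinearGroup.val_det_apply]
          exact s.1.2⟩
        invFun := fun k => ⟨⟨((k.1 : GL (Fin n) F) : Matrix (Fin n) (Fin n) F), by
          have := k.2
          rw [MonoidHom.mem_ker] at this
          have h2 := congrArg Units.val this
          exact h2⟩, k.1.2⟩
        left_inv := fun s => rfl
        right_inv := fun k => by
          apply Subtype.ext
          apply Subtype.ext
          apply Units.ext
          rfl }
  have hrange : f.range = rootsOfUnity (q + 1) F := by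
    ext u
    rw [mem_rootsOfUnity]
    constructor
    · rintro ⟨g, rfl⟩
      apply Units.ext
      rw [Units.val_pow_eq_pow_val]
      show (Matrix.GeneralLinearGroup.det (g : GL (Fin n) F) : F) ^ (q + 1) = 1
      rw [Matrix.GeneralLinearGroup.val_det_apply]
      exact det_pow hF n g.1 g.2
    · intro hu
      obtain ⟨m, rfl⟩ : ∃ m, n = m + 1 := ⟨n - 1, by omega⟩
      have hu' : (u : F) ^ (q + 1) = 1 := by
        have := congrArg Units.val hu
        rwa [Units.val_pow_eq_pow_val] at this
      have hDdet : (Matrix.diagonal (Fin.cons (u : F) (fun _ => 1) : Fin (m + 1) → F)).det = u := by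
        rw [Matrix.det_diagonal, Fin.prod_univ_succ]; simp
      have hDmv : ∀ v : Fin (m + 1) → F,
          (Matrix.diagonal (Fin.cons (u : F) (fun _ => 1) : Fin (m + 1) → F)) *ᵥ v =
            fun i => (Fin.cons (u : F) (fun _ => 1) : Fin (m + 1) → F) i * v i := by
        intro v; ext i; simp [Matrix.mulVec_diagonal]
      have hG : Matrix.GeneralLinearGroup.mkOfDetNeZero
          (Matrix.diagonal (Fin.cons (u : F) (fun _ => 1) : Fin (m + 1) → F))
          (by rw [hDdet]; exact u.ne_zero) ∈ Cfsg.GU (m + 1) F q := by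
        rw [mem_GU]
        intro x y
        show Cfsg.hermForm (m + 1) F q
          ((Matrix.diagonal (Fin.cons (u : F) (fun _ => 1) : Fin (m + 1) → F)) *ᵥ x)
          ((Matrix.diagonal (Fin.cons (u : F) (fun _ => 1) : Fin (m + 1) → F)) *ᵥ y) = _
        rw [hDmv, hDmv]
        simp only [Cfsg.hermForm, Fin.sum_univ_succ, Fin.cons_zero, Fin.cons_succ, one_mul]
        congr 1
        rw [mul_pow]
        have : (u : F) * (u : F) ^ q = 1 := by rw [← pow_succ']; exact hu'
        linear_combination (x 0 * y 0 ^ q) * this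
      refine ⟨⟨_, hG⟩, ?_⟩
      apply Units.ext
      show (Matrix.GeneralLinearGroup.det (Matrix.GeneralLinearGroup.mkOfDetNeZero
          (Matrix.diagonal (Fin.cons (u : F) (fun _ => 1) : Fin (m + 1) → F))
          (by rw [hDdet]; exact u.ne_zero)) : F) = u
      rw [Matrix.GeneralLinearGroup.val_det_apply]
      exact hDdet
  have h1 := Subgroup.card_mul_index f.ker
  rw [Subgroup.index_ker, hker, hrange, Cfsg.Agent.S0243.card_rootsOfUnity_field, hF] at h1
  have hg : Nat.gcd (q + 1) (q ^ 2 - 1) = q + 1 := by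
    apply Nat.gcd_eq_left
    refine ⟨q - 1, ?_⟩
    obtain ⟨r, rfl⟩ : ∃ r, q = r + 1 := ⟨q - 1, by omega⟩
    simp only [Nat.add_sub_cancel]
    apply Nat.sub_eq_of_eq_add; ring
  rw [hg] at h1
  rw [← h1]; ring

end Cfsg.Agent.S0278
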