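import Cfsg.Statements.S0779

set_option autoImplicit false
open Cfsg

namespace Cfsg.Agent.S0779

/-- Unitary transvections: let |F| = q², h the standard Hermitian form Σ x_i y_i^q and v ≠ 0 with h(v, v) = 0. The linear map x ↦ x + c h(x, v) v is an isometry of h if and only if c = 0 or c^(q−1) = −1. -/
theorem result {F : Type*} [Field F] [Fintype F] {q : ℕ} (hF : Fintype.card F = q ^ 2) (n : ℕ) (v : Fin n → F) (hv : v ≠ 0) (hv0 : Cfsg.hermForm n F q v v = 0) (c : F) : (∀ x y : Fin n → F, Cfsg.hermForm n F q ((Cfsg.unitaryTransvection n q v c).mulVec x) ((Cfsg.unitaryTransvection n q v c).mulVec y) = Cfsg.hermForm n F q x y) ↔ (c = 0 ∨ c ^ (q - 1) = -1) := by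
  classical
  obtain ⟨m, hp, hcard⟩ := FiniteField.card F (ringChar F)
  have hfact : Fact (ringChar F).Prime := ⟨hp⟩
  have hchar : CharP F (ringChar F) := ringChar.charP F
  have hqdvd : q ∣ ringChar F ^ (m : ℕ) := by
    rw [← hcard, hF]
    exact Dvd.intro_left q (by ring)
  obtain ⟨k, -, hqk⟩ := (Nat.dvd_prime_pow hp).mp hqdvd
  have hq0 : 0 < q := by
    rw [hqk]; exact pow_pos hp.pos k
  set φ : F →+* F := iterateFrobenius F (ringChar F) k with hφdef
  have hφ : ∀ a : F, φ a = a ^ q := by
    intro a
    rw [hφdef, iterateFrobenius_def, hqk]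
  have hφφ : ∀ a : F, φ (φ a) = a := by
    intro a
    rw [hφ, hφ, ← pow_mul, ← sq, ← hF]
    exact FiniteField.pow_card a
  have hform : ∀ u w : Fin n → F, Cfsg.hermForm n F q u w = ∑ i, u i * φ (w i) := by
    intro u w
    simp only [Cfsg.hermForm, hφ]
  have hT : ∀ x : Fin n → F, (Cfsg.unitaryTransvection n q v c).mulVec x =
      x + (c * Cfsg.hermForm n F q x v) • v := by
    intro x
    unfold Cfsg.unitaryTransvection
    rw [Matrix.add_mulVec, Matrix.one_mulVec, Matrix.smul_mulVec, Matrix.vecMulVec_mulVec, op_smul_eq_smul,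
      smul_smul]
    congr 3
    simp only [Cfsg.hermForm, dotProduct]
    exact Finset.sum_congr rfl fun i _ => mul_comm _ _
  have e1 : ∀ (s t : F) (x y : Fin n → F), ∑ i, (x i + s * v i) * (φ (y i) + t * φ (v i)) =
      Cfsg.hermForm n F q x y + t * Cfsg.hermForm n F q x v + s * Cfsg.hermForm n F q v y +
        s * t * Cfsg.hermForm n F q v v := by
    intro s t x y
    simp only [hform, Finset.mul_sum, ← Finset.sum_add_distrib]
    exact Finset.sum_congr rfl fun i _ => by ring
  have e2 : ∀ y : Fin n → F, φ (Cfsg.hermForm n F q y v) = Cfsg.hermForm n F q v y := by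
    intro y
    rw [hform, hform, map_sum]
    refine Finset.sum_congr rfl fun i _ => ?_
    rw [map_mul, hφφ, mul_comm]
  have key : ∀ x y : Fin n → F, Cfsg.hermForm n F q ((Cfsg.unitaryTransvection n q v c).mulVec x)
      ((Cfsg.unitaryTransvection n q v c).mulVec y) = Cfsg.hermForm n F q x y +
        (c ^ q + c) * (Cfsg.hermForm n F q x v * Cfsg.hermForm n F q v y) := by
    intro x y
    rw [hT, hT, hform (x + _) (y + _)]
    have e3 : ∀ i, (x + (c * Cfsg.hermForm n F q x v) • v) i * φ ((y + (c * Cfsg.hermForm n F q y v) • v) i) =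
        (x i + (c * Cfsg.hermForm n F q x v) * v i) * (φ (y i) + (φ c * Cfsg.hermForm n F q v y) * φ (v i)) := by
      intro i
      simp only [Pi.add_apply, Pi.smul_apply, smul_eq_mul, map_add, map_mul, e2]
    simp only [e3]
    rw [e1, hv0, hφ c]
    ring
  constructor
  · intro h
    obtain ⟨i, hi⟩ : ∃ i, v i ≠ 0 := by
      by_contra hcon
      apply hv
      ext i
      by_contra hi
      exact hcon ⟨i, hi⟩
    have h1 := h (Pi.single i 1) (Pi.single i 1)
    rw [key] at h1
    have h2 : Cfsg.hermForm n F q (Pi.single i 1) v = v i ^ q := by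
      simp [Cfsg.hermForm, Pi.single_apply]
    have h3 : Cfsg.hermForm n F q v (Pi.single i 1) = v i := by
      simp only [Cfsg.hermForm, Pi.single_apply]
      rw [Finset.sum_eq_single i]
      · simp
      · intro j _ hj
        simp [hj, hq0.ne']
      · simp
    rw [h2, h3] at h1
    have h4 : (c ^ q + c) * (v i ^ q * v i) = 0 := by linear_combination h1
    have h5 : c ^ q + c = 0 := by
      rcases mul_eq_zero.mp h4 with h5 | h5
      · exact h5
      · exact absurd h5 (mul_ne_zero (pow_ne_zero _ hi) hi)
    by_cases hc : c = 0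
    · left; exact hc
    · right
      have h6 : c ^ q = c ^ (q - 1) * c := by
        rw [← pow_succ, Nat.sub_add_cancel hq0]
      rw [h6] at h5
      have h7 : (c ^ (q - 1) + 1) * c = 0 := by linear_combination h5
      rcases mul_eq_zero.mp h7 with h8 | h8
      · linear_combination h8
      · exact absurd h8 hc
  · intro h x y
    rw [key]
    have h5 : c ^ q + c = 0 := by
      rcases h with h | h
      · rw [h, zero_pow hq0.ne']; simp
      · have h6 : c ^ q = c ^ (q - 1) * c := by
          rw [← pow_succ, Nat.sub_add_cancel hq0]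
        rw [h6, h]; ring
    rw [h5]; ring

end Cfsg.Agent.S0779
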