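import Mathlib
import Cfsg.Statements.S0279
import Cfsg.Agent.S0278
import Cfsg.Agent.S0779
import Cfsg.Agent.S0839

set_option autoImplicit false
open Cfsg

namespace Cfsg.Agent.S0279

open Matrix Cfsg.Agent.Lib.Helper5.Herm Cfsg.Agent.S0277

variable {F : Type*} [Field F] [Fintype F] {q : ℕ}

omit [Fintype F] in
theorem mem_SU (n : ℕ) (g : Matrix.SpecialLinearGroup (Fin n) F) : g ∈ Cfsg.SU n F q ↔
    ∀ u v, Cfsg.hermForm n F q ((g : Matrix (Fin n) (Fin n) F) *ᵥ u)
      ((g : Matrix (Fin n) (Fin n) F) *ᵥ v) = Cfsg.hermForm n F q u v := Iff.rfl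

theorem exists_not_fix (hF : Fintype.card F = q ^ 2) : ∃ a : F, a ^ q ≠ a := by
  classical
  obtain ⟨φ, hφ, hφφ, hq2⟩ := frob_setup hF
  by_contra hcon
  push Not at hcon
  have h1 := card_fixed_ne_zero hF
  have h2 : Nat.card {c : F // c ≠ 0 ∧ c ^ q = c} = q ^ 2 - 1 := by
    rw [← hF, Nat.card_eq_fintype_card, ← Fintype.card_units, ← Nat.card_eq_fintype_card,
      ← Nat.card_eq_fintype_card]
    refine Nat.card_congr
      { toFun := fun c => Units.mk0 c.1 c.2.1
        invFun := fun u => ⟨u.1, Units.ne_zero u, hcon _⟩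
        left_inv := fun c => rfl
        right_inv := fun u => by apply Units.ext; rfl }
  rw [h1] at h2
  have : q < q ^ 2 := by nlinarith
  omega

/-- A non-zero element of trace zero. -/
theorem exists_trace_zero (hF : Fintype.card F = q ^ 2) : ∃ c : F, c ≠ 0 ∧ c ^ q = -c := by
  obtain ⟨φ, hφ, hφφ, hq2⟩ := frob_setup hF
  obtain ⟨a, ha⟩ := exists_not_fix hF
  refine ⟨a - a ^ q, ?_, ?_⟩
  · intro h
    exact ha (sub_eq_zero.1 h).symm
  · rw [← hφ, ← hφ, map_sub, hφφ]; ring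

omit [Fintype F] in
theorem herm_smul (n : ℕ) (a : F) (x y : Fin n → F) :
    Cfsg.hermForm n F q (a • x) (a • y) = a ^ (q + 1) * Cfsg.hermForm n F q x y := by
  simp only [Cfsg.hermForm, Pi.smul_apply, smul_eq_mul, Finset.mul_sum]
  refine Finset.sum_congr rfl fun i _ => ?_
  rw [mul_pow, pow_succ]; ring

/-- An element of `SL_n` commuting with all unitary transvections of `SU_n` fixes every isotropic
line. -/
theorem eigen_of_central (hF : Fintype.card F = q ^ 2) (n : ℕ)
    (g : Matrix.SpecialLinearGroup (Fin n) F)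
    (hc : ∀ s ∈ Cfsg.SU n F q, s * g = g * s) (v : Fin n → F) (hv : v ≠ 0)
    (hv0 : Cfsg.hermForm n F q v v = 0) :
    ∃ l : F, (g : Matrix (Fin n) (Fin n) F) *ᵥ v = l • v := by
  classical
  obtain ⟨φ, hφ, hφφ, hq2⟩ := frob_setup hF
  obtain ⟨c, hc0, hcq⟩ := exists_trace_zero hF
  have hdot : (fun j => v j ^ q) ⬝ᵥ (c • v) = 0 := by
    have : (fun j => v j ^ q) ⬝ᵥ (c • v) = c * Cfsg.hermForm n F q v v := by
      simp only [dotProduct, Cfsg.hermForm, Pi.smul_apply, smul_eq_mul, Finset.mul_sum]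
      exact Finset.sum_congr rfl fun i _ => by ring
    rw [this, hv0, mul_zero]
  obtain ⟨T, hT⟩ : ∃ T : Matrix.SpecialLinearGroup (Fin n) F,
      T = Cfsg.Agent.S0839.elemSL (c • v) (fun j => v j ^ q) hdot := ⟨_, rfl⟩
  have hTval : (T : Matrix (Fin n) (Fin n) F) = Cfsg.unitaryTransvection n q v c := by
    rw [hT]
    show 1 + vecMulVec (c • v) (fun j => v j ^ q) = _
    rw [Cfsg.unitaryTransvection, Matrix.smul_vecMulVec]
  have hTmv : ∀ x : Fin n → F, (T : Matrix (Fin n) (Fin n) F) *ᵥ x =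
      x + (c * Cfsg.hermForm n F q x v) • v := by
    intro x
    rw [hT, Cfsg.Agent.S0839.elemSL_mulVec, smul_smul]
    congr 2
    simp only [dotProduct, Cfsg.hermForm]
    rw [mul_comm]
    congr 1
    exact Finset.sum_congr rfl fun i _ => by ring
  have hTmem : T ∈ Cfsg.SU n F q := by
    rw [mem_SU]
    intro x y
    rw [hTval]
    refine (Cfsg.Agent.S0779.result hF n v hv hv0 c).2 (Or.inr ?_) x y
    have h1 : c ^ (q - 1) * c = (-1) * c := by
      rw [← pow_succ]
      have : q - 1 + 1 = q := by omega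
      rw [this, hcq]; ring
    exact mul_right_cancel₀ hc0 h1
  have hcomm := hc T hTmem
  have hcomm' : (T : Matrix (Fin n) (Fin n) F) * (g : Matrix (Fin n) (Fin n) F) =
      (g : Matrix (Fin n) (Fin n) F) * (T : Matrix (Fin n) (Fin n) F) :=
    congrArg (fun s : Matrix.SpecialLinearGroup (Fin n) F => (s : Matrix (Fin n) (Fin n) F)) hcomm
  obtain ⟨i, hi⟩ : ∃ i, v i ≠ 0 := by
    by_contra h
    push Not at h
    exact hv (funext h)
  obtain ⟨x, hx⟩ : ∃ x : Fin n → F, Cfsg.hermForm n F q x v = 1 := by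
    refine ⟨(v i ^ q)⁻¹ • Pi.single i 1, ?_⟩
    simp only [Cfsg.hermForm, Pi.smul_apply, smul_eq_mul]
    rw [Finset.sum_eq_single i]
    · simp [inv_mul_cancel₀ (pow_ne_zero q hi)]
    · intro j _ hj
      simp [hj]
    · intro hi'; exact absurd (Finset.mem_univ i) hi'
  have h2 := congrArg (fun M : Matrix (Fin n) (Fin n) F => M *ᵥ x) hcomm'
  simp only [← Matrix.mulVec_mulVec] at h2
  rw [hTmv, hTmv, Matrix.mulVec_add, Matrix.mulVec_smul, hx, mul_one] at h2
  have h3 : (c * Cfsg.hermForm n F q ((g : Matrix (Fin n) (Fin n) F) *ᵥ x) v) • v =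
      c • ((g : Matrix (Fin n) (Fin n) F) *ᵥ v) := add_left_cancel h2
  refine ⟨Cfsg.hermForm n F q ((g : Matrix (Fin n) (Fin n) F) *ᵥ x) v, ?_⟩
  have h4 := congrArg (fun w : Fin n → F => c⁻¹ • w) h3
  simp only [smul_smul] at h4
  rw [inv_mul_cancel₀ hc0, one_smul, ← mul_assoc, inv_mul_cancel₀ hc0, one_mul] at h4
  exact h4.symm

omit [Fintype F] in
theorem quad_three (r d s a₁ a₂ a₃ : F) (h12 : a₁ ≠ a₂) (h13 : a₁ ≠ a₃) (h23 : a₂ ≠ a₃)
    (e1 : r * a₁ ^ 2 + d * a₁ - s = 0) (e2 : r * a₂ ^ 2 + d * a₂ - s = 0)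
    (e3 : r * a₃ ^ 2 + d * a₃ - s = 0) : r = 0 ∧ d = 0 ∧ s = 0 := by
  have f1 : r * (a₁ + a₂) + d = 0 := by
    have : (a₁ - a₂) * (r * (a₁ + a₂) + d) = 0 := by linear_combination e1 - e2
    exact (mul_eq_zero.1 this).resolve_left (sub_ne_zero.2 h12)
  have f2 : r * (a₁ + a₃) + d = 0 := by
    have : (a₁ - a₃) * (r * (a₁ + a₃) + d) = 0 := by linear_combination e1 - e3
    exact (mul_eq_zero.1 this).resolve_left (sub_ne_zero.2 h13)
  have hr : r = 0 := by
    have : r * (a₂ - a₃) = 0 := by linear_combination f1 - f2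
    exact (mul_eq_zero.1 this).resolve_right (sub_ne_zero.2 h23)
  have hd : d = 0 := by rw [hr] at f1; simpa using f1
  refine ⟨hr, hd, ?_⟩
  rw [hr, hd] at e1
  simpa using e1

/-- Three distinct elements of norm `-1`. -/
theorem three_norm (hF : Fintype.card F = q ^ 2) :
    ∃ a₁ a₂ a₃ : F, a₁ ≠ a₂ ∧ a₁ ≠ a₃ ∧ a₂ ≠ a₃ ∧ a₁ ^ (q + 1) = -1 ∧ a₂ ^ (q + 1) = -1 ∧
      a₃ ^ (q + 1) = -1 := by
  classical
  obtain ⟨φ, hφ, hφφ, hq2⟩ := frob_setup hF
  obtain ⟨a, ha0, ha⟩ := exists_norm hF (-1) (by rw [neg_pow_q hF, one_pow]) (by simp)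
  have hcard : Nat.card (rootsOfUnity (q + 1) F) = q + 1 := by
    rw [Cfsg.Agent.S0243.card_rootsOfUnity_field, hF]
    apply Nat.gcd_eq_left
    refine ⟨q - 1, ?_⟩
    obtain ⟨r, rfl⟩ : ∃ r, q = r + 1 := ⟨q - 1, by omega⟩
    simp only [Nat.add_sub_cancel]
    apply Nat.sub_eq_of_eq_add; ring
  have : Fintype (rootsOfUnity (q + 1) F) := Fintype.ofFinite _
  rw [Nat.card_eq_fintype_card] at hcard
  have h3 : 2 < Fintype.card (rootsOfUnity (q + 1) F) := by omega
  obtain ⟨z₁, z₂, z₃, h12, h13, h23⟩ := Fintype.two_lt_card_iff.1 h3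
  have hz : ∀ z : rootsOfUnity (q + 1) F, (a * ((z : Fˣ) : F)) ^ (q + 1) = -1 := by
    intro z
    have := z.2
    rw [mem_rootsOfUnity] at this
    have h := congrArg Units.val this
    rw [Units.val_pow_eq_pow_val] at h
    rw [mul_pow, ha, h]; simp
  have hne : ∀ z z' : rootsOfUnity (q + 1) F, z ≠ z' → a * ((z : Fˣ) : F) ≠ a * ((z' : Fˣ) : F) := by
    intro z z' hzz h
    apply hzz
    apply Subtype.ext
    apply Units.ext
    exact mul_left_cancel₀ ha0 h
  exact ⟨_, _, _, hne _ _ h12, hne _ _ h13, hne _ _ h23, hz z₁, hz z₂, hz z₃⟩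

theorem center_scalar (hF : Fintype.card F = q ^ 2) (n : ℕ)
    (g : Matrix.SpecialLinearGroup (Fin n) F)
    (hc : ∀ s ∈ Cfsg.SU n F q, s * g = g * s) (i₀ : Fin n) :
    (g : Matrix (Fin n) (Fin n) F) = ((g : Matrix (Fin n) (Fin n) F) i₀ i₀) • 1 := by
  classical
  obtain ⟨φ, hφ, hφφ, hq2⟩ := frob_setup hF
  obtain ⟨a₁, a₂, a₃, h12, h13, h23, n1, n2, n3⟩ := three_norm hF
  have key : ∀ i j : Fin n, i ≠ j → ∀ a : F, a ^ (q + 1) = -1 →
      (g : Matrix (Fin n) (Fin n) F) i j * a ^ 2 +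
        ((g : Matrix (Fin n) (Fin n) F) i i - (g : Matrix (Fin n) (Fin n) F) j j) * a -
        (g : Matrix (Fin n) (Fin n) F) j i = 0 := by
    intro i j hij a ha
    have hv0 : Cfsg.hermForm n F q (Pi.single i 1 + a • Pi.single j 1)
        (Pi.single i 1 + a • Pi.single j 1) = 0 := by
      simp only [Cfsg.hermForm, Pi.add_apply, Pi.smul_apply, smul_eq_mul, Pi.single_apply]
      rw [Finset.sum_eq_add_of_mem i j (Finset.mem_univ _) (Finset.mem_univ _) hij]
      · simp [hij, Ne.symm hij]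
        rw [← pow_succ', ha]; ring
      · intro k _ hk
        simp [hk.1, hk.2]
    have hv : (Pi.single i 1 + a • Pi.single j 1 : Fin n → F) ≠ 0 := by
      intro h
      have := congrFun h i
      simp [hij] at this
    obtain ⟨l, hl⟩ := eigen_of_central hF n g hc _ hv hv0
    rw [Matrix.mulVec_add, Matrix.mulVec_smul, Matrix.mulVec_single_one, Matrix.mulVec_single_one] at hl
    have ei := congrFun hl i
    have ej := congrFun hl j
    simp [hij, Ne.symm hij] at ei ej
    linear_combination a * ei - ej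
  have hoff : ∀ i j : Fin n, i ≠ j → (g : Matrix (Fin n) (Fin n) F) i j = 0 ∧
      (g : Matrix (Fin n) (Fin n) F) i i = (g : Matrix (Fin n) (Fin n) F) j j := by
    intro i j hij
    obtain ⟨hr, hd, hs⟩ := quad_three _ _ _ a₁ a₂ a₃ h12 h13 h23 (key i j hij a₁ n1)
      (key i j hij a₂ n2) (key i j hij a₃ n3)
    exact ⟨hr, sub_eq_zero.1 hd⟩
  ext i j
  by_cases hij : i = j
  · subst hij
    by_cases hi : i = i₀
    · subst hi; simp
    · rw [(hoff i i₀ hi).2]; simp
  · rw [(hoff i j hij).1]; simp [hij]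

theorem card_center (hF : Fintype.card F = q ^ 2) (n : ℕ) (hn : 1 ≤ n) :
    Nat.card (Subgroup.center (Cfsg.SU n F q)) = Nat.gcd n (q + 1) := by
  classical
  obtain ⟨φ, hφ, hφφ, hq2⟩ := frob_setup hF
  obtain ⟨m, rfl⟩ : ∃ m, n = m + 1 := ⟨n - 1, by omega⟩
  have hdet : ∀ u : F, ((u • (1 : Matrix (Fin (m + 1)) (Fin (m + 1)) F))).det = u ^ (m + 1) := by
    intro u
    rw [Matrix.det_smul, Matrix.det_one, mul_one, Fintype.card_fin]
  have hstep : Nat.card (Subgroup.center (Cfsg.SU (m + 1) F q)) =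
      Nat.card {u : Fˣ // u ^ (m + 1) = 1 ∧ u ^ (q + 1) = 1} := by
    symm
    have hmemSU : ∀ (u : Fˣ) (h1 : u ^ (m + 1) = 1) (h2 : u ^ (q + 1) = 1)
        (s : Matrix.SpecialLinearGroup (Fin (m + 1)) F),
        (s : Matrix (Fin (m + 1)) (Fin (m + 1)) F) = (u : F) • 1 → s ∈ Cfsg.SU (m + 1) F q := by
      intro u h1 h2 s hs
      rw [mem_SU]
      intro x y
      rw [hs, Matrix.smul_mulVec, Matrix.smul_mulVec, Matrix.one_mulVec, Matrix.one_mulVec,
        herm_smul]
      have := congrArg Units.val h2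
      rw [Units.val_pow_eq_pow_val] at this
      rw [this]; simp
    let ψ : {u : Fˣ // u ^ (m + 1) = 1 ∧ u ^ (q + 1) = 1} →
        Subgroup.center (Cfsg.SU (m + 1) F q) := fun u =>
      ⟨⟨⟨((u : Fˣ) : F) • (1 : Matrix (Fin (m + 1)) (Fin (m + 1)) F), by
          rw [hdet]
          have := congrArg Units.val u.2.1
          rwa [Units.val_pow_eq_pow_val] at this⟩,
        hmemSU u.1 u.2.1 u.2.2 _ rfl⟩, by
        rw [Subgroup.mem_center_iff]
        intro s
        apply Subtype.ext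
        apply Subtype.ext
        show (s.1 : Matrix (Fin (m + 1)) (Fin (m + 1)) F) *
            (((u : Fˣ) : F) • (1 : Matrix (Fin (m + 1)) (Fin (m + 1)) F)) =
          (((u : Fˣ) : F) • (1 : Matrix (Fin (m + 1)) (Fin (m + 1)) F)) *
            (s.1 : Matrix (Fin (m + 1)) (Fin (m + 1)) F)
        rw [Matrix.mul_smul, Matrix.smul_mul, Matrix.mul_one, Matrix.one_mul]⟩
    refine Nat.card_congr (Equiv.ofBijective ψ ⟨?_, ?_⟩)
    · intro u u' huu
      have h1 : (((u : Fˣ) : F) • (1 : Matrix (Fin (m + 1)) (Fin (m + 1)) F)) =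
          (((u' : Fˣ) : F) • (1 : Matrix (Fin (m + 1)) (Fin (m + 1)) F)) :=
        congrArg (fun z : Subgroup.center (Cfsg.SU (m + 1) F q) =>
          (((z : Cfsg.SU (m + 1) F q) : Matrix.SpecialLinearGroup (Fin (m + 1)) F) :
            Matrix (Fin (m + 1)) (Fin (m + 1)) F)) huu
      have h2 := congrFun (congrFun h1 0) 0
      simp at h2
      apply Subtype.ext
      apply Units.ext
      exact h2
    · rintro ⟨⟨g, hg⟩, hz⟩
      have hc : ∀ s ∈ Cfsg.SU (m + 1) F q, s * g = g * s := by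
        intro s hs
        rw [Subgroup.mem_center_iff] at hz
        have := hz ⟨s, hs⟩
        exact congrArg Subtype.val this
      have hsc := center_scalar hF (m + 1) g hc 0
      obtain ⟨l, hl⟩ : ∃ l, l = (g : Matrix (Fin (m + 1)) (Fin (m + 1)) F) 0 0 := ⟨_, rfl⟩
      rw [← hl] at hsc
      have hln : l ^ (m + 1) = 1 := by
        have := g.2
        rw [hsc, hdet] at this
        exact this
      have hl0 : l ≠ 0 := by
        rintro rfl
        rw [zero_pow (by omega)] at hln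
        exact zero_ne_one hln
      have hlq : l ^ (q + 1) = 1 := by
        have h1 := (mem_SU (m + 1) g).1 hg (Pi.single 0 1) (Pi.single 0 1)
        rw [hsc, Matrix.smul_mulVec, Matrix.one_mulVec, herm_smul] at h1
        have h2 : Cfsg.hermForm (m + 1) F q (Pi.single 0 1) (Pi.single 0 1) = 1 := by
          simp only [Cfsg.hermForm]
          rw [Finset.sum_eq_single 0]
          · simp
          · intro j _ hj
            simp [hj]
          · intro h0; exact absurd (Finset.mem_univ _) h0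
        rw [h2, mul_one] at h1
        exact h1
      refine ⟨⟨Units.mk0 l hl0, ?_, ?_⟩, ?_⟩
      · apply Units.ext
        rw [Units.val_pow_eq_pow_val, Units.val_mk0, hln]; rfl
      · apply Units.ext
        rw [Units.val_pow_eq_pow_val, Units.val_mk0, hlq]; rfl
      · apply Subtype.ext
        apply Subtype.ext
        apply Subtype.ext
        exact hsc.symm
  rw [hstep]
  have hgcd : Nat.card (rootsOfUnity (Nat.gcd (m + 1) (q + 1)) F) = Nat.gcd (m + 1) (q + 1) := by
    rw [Cfsg.Agent.S0243.card_rootsOfUnity_field, hF]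
    apply Nat.gcd_eq_left
    have h1 : Nat.gcd (m + 1) (q + 1) ∣ q + 1 := Nat.gcd_dvd_right _ _
    have h2 : q + 1 ∣ q ^ 2 - 1 := by
      refine ⟨q - 1, ?_⟩
      obtain ⟨r, rfl⟩ : ∃ r, q = r + 1 := ⟨q - 1, by omega⟩
      simp only [Nat.add_sub_cancel]
      apply Nat.sub_eq_of_eq_add; ring
    exact h1.trans h2
  rw [← hgcd]
  refine Nat.card_congr (Equiv.subtypeEquivRight (fun u => ?_))
  rw [mem_rootsOfUnity]
  exact pow_gcd_eq_one.symm

/-- The centre of SU_n(q), n at least 3, has order gcd(n, q+1). -/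
theorem result {F : Type*} [Field F] [Fintype F] {q : ℕ} (hF : Fintype.card F = q ^ 2) (n : ℕ) (hn : 3 ≤ n) : Nat.card (Subgroup.center (Cfsg.SU n F q)) = Nat.gcd n (q + 1) := by
  exact card_center hF n (by omega)

end Cfsg.Agent.S0279
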