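import Mathlib
import Cfsg.Statements.S0281
import Cfsg.Agent.S0279
import Cfsg.Agent.S0242
import Cfsg.Agent.Lib.Helper5.GL2Syl

set_option autoImplicit false
open Cfsg

namespace Cfsg.Agent.S0281

open Matrix Cfsg.Agent.Lib.Helper5.Herm Cfsg.Agent.S0277 Cfsg.Agent.S0279
  Cfsg.Agent.Lib.Helper5.GL2Syl

variable {F : Type*} [Field F] [Fintype F] {q : ℕ}

/-- An embedding of the field with `q` elements. -/
theorem exists_emb {K : Type*} [Field K] [Fintype K] (hF : Fintype.card F = q ^ 2)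
    (hK : Fintype.card K = q) : ∃ ι : K →+* F, ∀ k, (ι k) ^ q = ι k := by
  classical
  obtain ⟨φ, hφ, hφφ, hq2⟩ := frob_setup hF
  let S : Subfield F := RingHom.eqLocusField φ (RingHom.id F)
  have hmem : ∀ x : F, x ∈ S ↔ x ^ q = x := by
    intro x
    show φ x = RingHom.id F x ↔ _
    rw [hφ]; rfl
  have hcard : Nat.card S = q := by
    have h1 := card_fixed_ne_zero hF
    have e : S ≃ Option {c : F // c ≠ 0 ∧ c ^ q = c} :=
      { toFun := fun x => if h : (x : F) = 0 then none else some ⟨x, h, (hmem _).1 x.2⟩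
        invFun := fun o => match o with
          | none => ⟨0, (hmem 0).2 (zero_pow (by omega))⟩
          | some c => ⟨c.1, (hmem _).2 c.2.2⟩
        left_inv := by
          intro x
          by_cases h : (x : F) = 0
          · simp only [h, dif_pos]
            exact Subtype.ext h.symm
          · simp only [h, dif_neg, not_false_eq_true]
        right_inv := by
          intro o
          cases o with
          | none => simp
          | some c => simp [c.2.1] }
    rw [Nat.card_congr e, Nat.card_eq_fintype_card, Fintype.card_option,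
      ← Nat.card_eq_fintype_card, h1]
    omega
  have : Fintype S := Fintype.ofFinite S
  have hc2 : Fintype.card K = Fintype.card S := by
    rw [hK, ← Nat.card_eq_fintype_card, hcard]
  let e := FiniteField.ringEquivOfCardEq hc2
  refine ⟨S.subtype.comp e.toRingHom, ?_⟩
  intro k
  exact (hmem _).1 (e k).2

/-- A hyperbolic basis. -/
theorem exists_hyp (hF : Fintype.card F = q ^ 2) :
    ∃ (P : Matrix (Fin 2) (Fin 2) F) (ε : F), P.det ≠ 0 ∧
      ∀ x y : Fin 2 → F, Cfsg.hermForm 2 F q (P *ᵥ x) (P *ᵥ y) = ε * dd x (fun i => y i ^ q) := by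
  classical
  obtain ⟨φ, hφ, hφφ, hq2⟩ := frob_setup hF
  obtain ⟨a, a', _, hne, _, _, ha, ha', _⟩ := three_norm hF
  obtain ⟨ε, hε0, hε⟩ := exists_trace_zero hF
  have ha'0 : a' ≠ 0 := by
    intro h
    rw [h, zero_pow (by omega)] at ha'
    exact one_ne_zero (neg_eq_zero.1 ha'.symm)
  have hη : 1 + a * φ a' ≠ 0 := by
    intro h
    have h1 : (a - a') * φ a' = 0 := by
      have : a' * φ a' = -1 := by rw [hφ, ← pow_succ']; exact ha'
      linear_combination h - this - ha' + ha'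
    rcases mul_eq_zero.1 h1 with h2 | h2
    · exact hne (sub_eq_zero.1 h2)
    · rw [hφ] at h2
      exact ha'0 (pow_eq_zero_iff (by omega) |>.1 h2)
  refine ⟨!![1, φ (ε / (1 + a * φ a')); a, φ (ε / (1 + a * φ a')) * a'], ε, ?_, ?_⟩
  · rw [Matrix.det_fin_two_of]
    have hμ : φ (ε / (1 + a * φ a')) ≠ 0 := by
      rw [map_ne_zero]
      exact div_ne_zero hε0 hη
    intro h
    have : φ (ε / (1 + a * φ a')) * (a' - a) = 0 := by linear_combination h
    rcases mul_eq_zero.1 this with h2 | h2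
    · exact hμ h2
    · exact hne (sub_eq_zero.1 h2).symm
  · intro x y
    have h1 : a * φ a = -1 := by rw [hφ, ← pow_succ']; exact ha
    have h2 : a' * φ a' = -1 := by rw [hφ, ← pow_succ']; exact ha'
    have h3 : φ (φ (ε / (1 + a * φ a'))) * (1 + a * φ a') = ε := by
      rw [hφφ, div_mul_cancel₀ _ hη]
    have h4 : φ (ε / (1 + a * φ a')) * (1 + a' * φ a) = -ε := by
      have : (1 + a' * φ a) = φ (1 + a * φ a') := by
        rw [map_add, map_mul, hφφ, map_one]; ring
      rw [this, ← map_mul, div_mul_cancel₀ _ hη, hφ, hε]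
    simp only [Cfsg.hermForm, Fin.sum_univ_two, Matrix.mulVec, dotProduct, dd, Matrix.of_apply,
      Matrix.cons_val_zero, Matrix.cons_val_one, ← hφ, map_add, map_mul, map_one]
    linear_combination x 0 * φ (y 0) * h1 + x 0 * φ (y 1) * h3 + x 1 * φ (y 0) * h4
      + x 1 * φ (y 1) * φ (ε / (1 + a * φ a')) * φ (φ (ε / (1 + a * φ a'))) * h2

theorem dd_fix (hF : Fintype.card F = q ^ 2) (G : Matrix (Fin 2) (Fin 2) F)
    (hG : ∀ i j, G i j ^ q = G i j) (hdet : G.det = 1) (x y : Fin 2 → F) :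
    dd (G *ᵥ x) (fun i => (G *ᵥ y) i ^ q) = dd x (fun i => y i ^ q) := by
  obtain ⟨φ, hφ, hφφ, hq2⟩ := frob_setup hF
  have h1 : (fun i => (G *ᵥ y) i ^ q) = G *ᵥ (fun i => y i ^ q) := by
    funext i
    simp only [Matrix.mulVec, dotProduct, ← hφ, map_sum, map_mul]
    refine Finset.sum_congr rfl fun j _ => ?_
    rw [hφ (G i j), hG]
  rw [h1, dd_mulVec, hdet, one_mul]

theorem main {K : Type*} [Field K] [Fintype K] (hF : Fintype.card F = q ^ 2)
    (hK : Fintype.card K = q) :
    ∃ ρ : Matrix.SpecialLinearGroup (Fin 2) K →* ↥(Cfsg.SU 2 F q), Function.Injective ρ := by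
  classical
  obtain ⟨φ, hφ, hφφ, hq2⟩ := frob_setup hF
  obtain ⟨ι, hι⟩ := exists_emb hF hK
  obtain ⟨P, ε, hP, hform⟩ := exists_hyp hF
  have hPu : IsUnit P.det := isUnit_iff_ne_zero.2 hP
  have hPP : P * P⁻¹ = 1 := Matrix.mul_nonsing_inv P hPu
  have hPP' : P⁻¹ * P = 1 := Matrix.nonsing_inv_mul P hPu
  have hdet : ∀ g : Matrix.SpecialLinearGroup (Fin 2) K,
      (P * (g : Matrix (Fin 2) (Fin 2) K).map ι * P⁻¹).det = 1 := by
    intro g
    have h1 : ((g : Matrix (Fin 2) (Fin 2) K).map ι).det = 1 := by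
      have := (RingHom.map_det ι (g : Matrix (Fin 2) (Fin 2) K)).symm
      rw [g.2, map_one] at this
      exact this
    rw [Matrix.det_mul, Matrix.det_mul, h1, mul_one, ← Matrix.det_mul, hPP, Matrix.det_one]
  let ρ0 : Matrix.SpecialLinearGroup (Fin 2) K →* Matrix.SpecialLinearGroup (Fin 2) F :=
    MonoidHom.mk' (fun g => ⟨P * (g : Matrix (Fin 2) (Fin 2) K).map ι * P⁻¹, hdet g⟩) (by
      intro g g'
      apply Subtype.ext
      show P * ((g * g' : Matrix.SpecialLinearGroup (Fin 2) K) : Matrix (Fin 2) (Fin 2) K).map ι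
        * P⁻¹ = (P * (g : Matrix (Fin 2) (Fin 2) K).map ι * P⁻¹) *
          (P * (g' : Matrix (Fin 2) (Fin 2) K).map ι * P⁻¹)
      rw [Matrix.SpecialLinearGroup.coe_mul, Matrix.map_mul]
      calc P * ((g : Matrix (Fin 2) (Fin 2) K).map ι * (g' : Matrix (Fin 2) (Fin 2) K).map ι) * P⁻¹
          = P * (g : Matrix (Fin 2) (Fin 2) K).map ι * 1 *
            (g' : Matrix (Fin 2) (Fin 2) K).map ι * P⁻¹ := by
            rw [Matrix.mul_one]; simp only [Matrix.mul_assoc]
        _ = _ := by rw [← hPP']; simp only [Matrix.mul_assoc])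
  have hρ0 : ∀ g, ((ρ0 g : Matrix.SpecialLinearGroup (Fin 2) F) : Matrix (Fin 2) (Fin 2) F) =
      P * (g : Matrix (Fin 2) (Fin 2) K).map ι * P⁻¹ := fun g => rfl
  have hmem : ∀ g, ρ0 g ∈ Cfsg.SU 2 F q := by
    intro g
    rw [mem_SU]
    intro u v
    rw [hρ0]
    have e1 : ∀ w : Fin 2 → F, (P * (g : Matrix (Fin 2) (Fin 2) K).map ι * P⁻¹) *ᵥ w =
        P *ᵥ ((g : Matrix (Fin 2) (Fin 2) K).map ι *ᵥ (P⁻¹ *ᵥ w)) := by
      intro w
      rw [Matrix.mulVec_mulVec, Matrix.mulVec_mulVec, Matrix.mul_assoc]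
    rw [e1, e1, hform, dd_fix hF _ ?_ ?_, ← hform, Matrix.mulVec_mulVec, Matrix.mulVec_mulVec, hPP,
      Matrix.one_mulVec, Matrix.one_mulVec]
    · intro i j
      rw [Matrix.map_apply, hι]
    · have := (RingHom.map_det ι (g : Matrix (Fin 2) (Fin 2) K)).symm
      rw [g.2, map_one] at this
      exact this
  refine ⟨ρ0.codRestrict _ hmem, ?_⟩
  intro g g' h
  have h1 : ρ0 g = ρ0 g' := congrArg Subtype.val h
  have h2 : P * (g : Matrix (Fin 2) (Fin 2) K).map ι * P⁻¹ =
      P * (g' : Matrix (Fin 2) (Fin 2) K).map ι * P⁻¹ := by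
    rw [← hρ0, ← hρ0, h1]
  have h3 : (g : Matrix (Fin 2) (Fin 2) K).map ι = (g' : Matrix (Fin 2) (Fin 2) K).map ι := by
    have := congrArg (fun M => P⁻¹ * M * P) h2
    simp only [Matrix.mul_assoc, hPP', Matrix.mul_one] at this
    simp only [← Matrix.mul_assoc, hPP', Matrix.one_mul] at this
    exact this
  apply Subtype.ext
  exact Matrix.map_injective ι.injective h3

/-- SU_2(q) is isomorphic to SL_2(q). -/
theorem result {F K : Type*} [Field F] [Fintype F] [Field K] [Fintype K] {q : ℕ} (hF : Fintype.card F = q ^ 2) (hK : Fintype.card K = q) : Nonempty (Cfsg.SU 2 F q ≃* Matrix.SpecialLinearGroup (Fin 2) K) := by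
  classical
  obtain ⟨φ, hφ, hφφ, hq2⟩ := frob_setup hF
  obtain ⟨ρ, hρ⟩ := main hF hK
  have h1 := Cfsg.Agent.S0278.result hF 2 (by norm_num)
  have h2 := Cfsg.Agent.S0242.result hK 2 (by norm_num)
  have hq1 : 1 ≤ q ^ 2 := Nat.one_le_pow _ _ (by omega)
  have c1 : Nat.card (Cfsg.SU 2 F q) = q * (q ^ 2 - 1) := by
    have e : q ^ (2 * (2 - 1) / 2) * ∏ i ∈ Finset.range 2,
        (if Even i then q ^ (i + 1) + 1 else q ^ (i + 1) - 1) = (q + 1) * (q * (q ^ 2 - 1)) := by
      rw [Finset.prod_range_succ, Finset.prod_range_one]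
      norm_num
      ring
    rw [e] at h1
    exact Nat.eq_of_mul_eq_mul_left (by omega) h1
  have c2 : Nat.card (Matrix.SpecialLinearGroup (Fin 2) K) = q * (q ^ 2 - 1) := by
    have e : ∏ i : Fin 2, (q ^ 2 - q ^ (i : ℕ)) = (q - 1) * (q * (q ^ 2 - 1)) := by
      rw [Fin.prod_univ_two]
      have : q ^ 2 - q = q * (q - 1) := by
        zify [show q ≤ q ^ 2 by nlinarith, show 1 ≤ q by omega]
        ring
      simp only [Fin.val_zero, Fin.val_one, pow_zero, pow_one]
      rw [this]; ring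
    rw [e] at h2
    exact Nat.eq_of_mul_eq_mul_left (by omega) h2
  have hbij : Function.Bijective ρ :=
    Function.Injective.bijective_of_nat_card_le hρ (by rw [c1, c2])
  exact ⟨(MulEquiv.ofBijective ρ hbij).symm⟩

end Cfsg.Agent.S0281
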