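import Mathlib
import Cfsg.Statements.S0282
import Cfsg.Agent.S0280
import Cfsg.Agent.S0144

set_option autoImplicit false
open Cfsg

namespace Cfsg.Agent.S0282

/-- PSU_3(2) is a solvable group of order 72. -/
theorem result {F : Type*} [Field F] [Fintype F] (hF : Fintype.card F = 4) : Nat.card (Cfsg.PSU 3 F 2) = 72 ∧ Group.IsSolvable (Cfsg.PSU 3 F 2) := by
-----
  classical
  have hF' : Fintype.card F = 2 ^ 2 := by rw [hF]; norm_num
  have h := Cfsg.Agent.S0280.result hF' 3 (by norm_num)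
  have hcard : Nat.card (Cfsg.PSU 3 F 2) = 72 := by
    obtain ⟨N, hN⟩ : ∃ N, N = Nat.card (Cfsg.PSU 3 F 2) := ⟨_, rfl⟩
    rw [← hN] at h ⊢
    rw [Finset.prod_range_succ, Finset.prod_range_succ, Finset.prod_range_succ,
      Finset.prod_range_zero] at h
    norm_num at h
    omega
  refine ⟨hcard, ?_⟩
  exact Cfsg.Agent.S0144.result 2 3 3 2 Nat.prime_two Nat.prime_three (by rw [hcard]; norm_num)

end Cfsg.Agent.S0282
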