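import Mathlib
import Cfsg.Statements.S0289

set_option autoImplicit false
open Cfsg

namespace Cfsg.Agent.S0289

open Matrix

section
variable {F : Type*} [Field F] [Fintype F] [DecidableEq F]

theorem fib_card {n : ℕ} (a : Fin n → F) (ha : a ≠ 0) (c : F) :
    Nat.card {b : Fin n → F // b ⬝ᵥ a = c} * Fintype.card F = Fintype.card F ^ n := by
  classical
  obtain ⟨i, hi⟩ : ∃ i, a i ≠ 0 := by
    by_contra hcon; push Not at hcon; exact ha (funext hcon)
  have hV : Nat.card (Fin n → F) = Fintype.card F ^ n := by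
    rw [Nat.card_fun, Nat.card_eq_fintype_card, Nat.card_eq_fintype_card, Fintype.card_fin]
  rw [← hV, ← Nat.card_congr (Equiv.sigmaFiberEquiv (fun b : Fin n → F => b ⬝ᵥ a)), Nat.card_sigma]
  have hfib : ∀ d : F, Nat.card {b : Fin n → F // b ⬝ᵥ a = d} =
      Nat.card {b : Fin n → F // b ⬝ᵥ a = c} := by
    intro d
    apply Nat.card_congr
    refine Equiv.subtypeEquiv (Equiv.addRight (Pi.single i ((c - d) / a i))) ?_
    intro b
    simp only [Equiv.coe_addRight]
    rw [add_dotProduct, single_dotProduct, div_mul_cancel₀ _ hi]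
    constructor
    · intro h; rw [h]; ring
    · intro h; linear_combination h
  rw [Finset.sum_congr rfl (fun d _ => hfib d), Finset.sum_const, Finset.card_univ, smul_eq_mul,
    mul_comm]

/-- number of pairs `(x, y)` with `y ⬝ᵥ x = c`, times `q` -/
theorem pair_card (m : ℕ) (c : F) :
    Nat.card {p : (Fin m → F) × (Fin m → F) // p.2 ⬝ᵥ p.1 = c} * Fintype.card F =
      (Fintype.card F ^ m - 1) * Fintype.card F ^ m +
        (if c = 0 then Fintype.card F ^ m * Fintype.card F else 0) := by
  classical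
  rw [Nat.card_congr (Equiv.subtypeProdEquivSigmaSubtype
    (fun (x y : Fin m → F) => y ⬝ᵥ x = c)), Nat.card_sigma, Finset.sum_mul]
  have h1 : ∀ x : Fin m → F, Nat.card {y : Fin m → F // y ⬝ᵥ x = c} * Fintype.card F =
      if x = 0 then (if c = 0 then Fintype.card F ^ m * Fintype.card F else 0)
        else Fintype.card F ^ m := by
    intro x
    by_cases hx : x = 0
    · rw [if_pos hx]
      by_cases hc : c = 0
      · rw [if_pos hc]
        congr 1
        have e : {y : Fin m → F // y ⬝ᵥ x = c} ≃ (Fin m → F) :=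
          Equiv.subtypeUnivEquiv (fun y => by rw [hx, dotProduct_zero, hc])
        rw [Nat.card_congr e, Nat.card_fun, Nat.card_eq_fintype_card, Nat.card_eq_fintype_card,
          Fintype.card_fin]
      · rw [if_neg hc]
        have : IsEmpty {y : Fin m → F // y ⬝ᵥ x = c} := by
          constructor
          rintro ⟨y, hy⟩
          rw [hx, dotProduct_zero] at hy
          exact hc hy.symm
        rw [Nat.card_of_isEmpty, zero_mul]
    · rw [if_neg hx]
      exact fib_card x hx c
  rw [Finset.sum_congr rfl (fun x _ => h1 x), Finset.sum_ite, Finset.sum_const, Finset.sum_const,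
    smul_eq_mul, smul_eq_mul, Finset.filter_eq', if_pos (Finset.mem_univ _), Finset.card_singleton, one_mul,
    add_comm]
  congr 1
  congr 1
  have hV : Fintype.card (Fin m → F) = Fintype.card F ^ m := by
    rw [Fintype.card_fun, Fintype.card_fin]
  rw [← hV, Finset.filter_not, Finset.card_sdiff_of_subset (Finset.filter_subset _ _), Finset.card_univ,
    Finset.filter_eq', if_pos (Finset.mem_univ _), Finset.card_singleton]

end

/-- The hyperbolic quadratic form on F^(2m), m at least 1, has q^(2m-1) + q^m - q^(m-1) zeros (that is, (q^m - 1)(q^(m-1) + 1) non-zero isotropic vectors). -/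
theorem result {F : Type*} [Field F] [Fintype F] {q : ℕ} (hF : Fintype.card F = q) (m : ℕ) (hm : 1 ≤ m) : Nat.card {v : Fin m ⊕ Fin m → F // Cfsg.quadFormPlus m F v = 0} = q ^ (2 * m - 1) + q ^ m - q ^ (m - 1) := by
  classical
  subst hF
  have e : {v : Fin m ⊕ Fin m → F // Cfsg.quadFormPlus m F v = 0} ≃
      {p : (Fin m → F) × (Fin m → F) // p.2 ⬝ᵥ p.1 = 0} :=
    Equiv.subtypeEquiv (Equiv.sumArrowEquivProdArrow (Fin m) (Fin m) F) (by
      intro v
      unfold Cfsg.quadFormPlus
      simp only [Equiv.sumArrowEquivProdArrow_apply_fst, Equiv.sumArrowEquivProdArrow_apply_snd, dotProduct,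
        Function.comp]
      rw [Finset.sum_congr rfl (fun i _ => mul_comm (v (Sum.inr i)) (v (Sum.inl i)))])
  rw [Nat.card_congr e]
  have h1 := pair_card (F := F) m 0
  rw [if_pos rfl] at h1
  have hq : 0 < Fintype.card F := Fintype.card_pos
  obtain ⟨k, rfl⟩ : ∃ k, m = k + 1 := ⟨m - 1, by omega⟩
  have h2 : Nat.card {p : (Fin (k + 1) → F) × (Fin (k + 1) → F) // p.2 ⬝ᵥ p.1 = 0} =
      (Fintype.card F ^ (k + 1) - 1) * Fintype.card F ^ k + Fintype.card F ^ (k + 1) := by
    apply Nat.eq_of_mul_eq_mul_right hq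
    rw [h1, add_mul, mul_assoc, ← pow_succ, ← pow_succ]
  rw [h2]
  have e1 : 2 * (k + 1) - 1 = (k + 1) + k := by omega
  have e2 : k + 1 - 1 = k := by omega
  rw [e1, e2, Nat.sub_mul, one_mul, ← pow_add]
  have hle : Fintype.card F ^ k ≤ Fintype.card F ^ (k + 1 + k) :=
    Nat.pow_le_pow_right hq (by omega)
  omega

end Cfsg.Agent.S0289
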