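import Mathlib
import Cfsg.Statements.S0290
import Cfsg.Agent.S0289

set_option autoImplicit false
open Cfsg

namespace Cfsg.Agent.S0290

/-- The minus-type quadratic form on F^(2m), m at least 1, has q^(2m-1) + q^(m-1) - q^m zeros (that is, (q^m + 1)(q^(m-1) - 1) non-zero isotropic vectors). -/
theorem result {F : Type*} [Field F] [Fintype F] {q : ℕ} (hF : Fintype.card F = q) (m : ℕ) (hm : 1 ≤ m) (a b : F) (hab : ∀ z₁ z₂ : F, z₁ ^ 2 + a * z₁ * z₂ + b * z₂ ^ 2 = 0 → z₁ = 0 ∧ z₂ = 0) : Nat.card {v : (Fin (m - 1) ⊕ Fin (m - 1)) ⊕ Fin 2 → F // Cfsg.quadFormMinus (m - 1) F a b v = 0} = q ^ (2 * m - 1) + q ^ (m - 1) - q ^ m := by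
  classical
  subst hF
  obtain ⟨k, rfl⟩ : ∃ k, m = k + 1 := ⟨m - 1, by omega⟩
  have ek : k + 1 - 1 = k := by omega
  rw [ek]
  have e : {v : (Fin k ⊕ Fin k) ⊕ Fin 2 → F // Cfsg.quadFormMinus k F a b v = 0} ≃
      {x : (Fin 2 → F) × ((Fin k → F) × (Fin k → F)) //
        x.2.2 ⬝ᵥ x.2.1 = -(x.1 0 ^ 2 + a * x.1 0 * x.1 1 + b * x.1 1 ^ 2)} :=
    Equiv.subtypeEquiv (((Equiv.sumArrowEquivProdArrow (Fin k ⊕ Fin k) (Fin 2) F).trans
      (Equiv.prodCongr (Equiv.sumArrowEquivProdArrow (Fin k) (Fin k) F) (Equiv.refl _))).trans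
        (Equiv.prodComm _ _)) (by
      intro v
      unfold Cfsg.quadFormMinus
      simp only [Equiv.trans_apply, Equiv.prodCongr_apply, Prod.map, Equiv.sumArrowEquivProdArrow_apply_fst,
        Equiv.sumArrowEquivProdArrow_apply_snd, dotProduct, Function.comp, Equiv.prodComm_apply,
        Prod.swap, Equiv.refl_apply, id]
      rw [Finset.sum_congr rfl (fun i _ => mul_comm (v (Sum.inl (Sum.inr i))) (v (Sum.inl (Sum.inl i))))]
      constructor
      · intro h
        linear_combination h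
      · intro h
        linear_combination h)
  rw [Nat.card_congr e, Nat.card_congr (Equiv.subtypeProdEquivSigmaSubtype
    (fun (z : Fin 2 → F) (p : (Fin k → F) × (Fin k → F)) =>
      p.2 ⬝ᵥ p.1 = -(z 0 ^ 2 + a * z 0 * z 1 + b * z 1 ^ 2))), Nat.card_sigma]
  have hq : 0 < Fintype.card F := Fintype.card_pos
  apply Nat.eq_of_mul_eq_mul_right hq
  rw [Finset.sum_mul, Finset.sum_congr rfl (fun z _ => Cfsg.Agent.S0289.pair_card (F := F) k
      (-(z 0 ^ 2 + a * z 0 * z 1 + b * z 1 ^ 2))),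
    Finset.sum_add_distrib, Finset.sum_const, Finset.card_univ, smul_eq_mul]
  have h1 : ∀ z : Fin 2 → F, (if -(z 0 ^ 2 + a * z 0 * z 1 + b * z 1 ^ 2) = 0
      then Fintype.card F ^ k * Fintype.card F else 0) =
      if z = 0 then Fintype.card F ^ k * Fintype.card F else 0 := by
    intro z
    have : (-(z 0 ^ 2 + a * z 0 * z 1 + b * z 1 ^ 2) = 0) ↔ z = 0 := by
      rw [neg_eq_zero]
      constructor
      · intro h
        obtain ⟨h0, h1⟩ := hab _ _ h
        funext i
        fin_cases i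
        · exact h0
        · exact h1
      · intro h
        rw [h]
        simp
    simp only [this]
  rw [Finset.sum_congr rfl (fun z _ => h1 z), Finset.sum_ite_eq', if_pos (Finset.mem_univ _),
    Fintype.card_fun, Fintype.card_fin]
  have h2 : 1 ≤ Fintype.card F ^ k := Nat.one_le_pow _ _ hq
  have e1 : 2 * (k + 1) - 1 = k + 1 + k := by omega
  rw [e1]
  have h3 : Fintype.card F ^ (k + 1 + k) + Fintype.card F ^ k - Fintype.card F ^ (k + 1) =
      Fintype.card F * ((Fintype.card F ^ k - 1) * Fintype.card F ^ k) + Fintype.card F ^ k := by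
    rw [Nat.sub_mul, one_mul, Nat.mul_sub, pow_add, pow_succ]
    have hle : Fintype.card F ^ k ≤ Fintype.card F ^ k * Fintype.card F ^ k :=
      Nat.le_mul_of_pos_left _ (by omega)
    have hle2 : Fintype.card F * Fintype.card F ^ k ≤ Fintype.card F * (Fintype.card F ^ k * Fintype.card F ^ k) :=
      Nat.mul_le_mul_left _ hle
    have e3 : Fintype.card F ^ k * Fintype.card F * Fintype.card F ^ k =
        Fintype.card F * (Fintype.card F ^ k * Fintype.card F ^ k) := by ring
    have e4 : Fintype.card F ^ k * Fintype.card F = Fintype.card F * Fintype.card F ^ k := by ring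
    rw [e3, e4]
    omega
  rw [h3]
  ring

end Cfsg.Agent.S0290
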