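import Mathlib
import Cfsg.Statements.S0291
import Cfsg.Agent.S0289

set_option autoImplicit false
open Cfsg

namespace Cfsg.Agent.S0291

/-- For q odd, the form x_0^2 + sum_{i<m} x_i y_i on F^(2m+1) has exactly q^(2m) zeros. -/
theorem result {F : Type*} [Field F] [Fintype F] {q : ℕ} (hF : Fintype.card F = q) (hodd : Odd q) (m : ℕ) : Nat.card {v : Unit ⊕ (Fin m ⊕ Fin m) → F // Cfsg.quadFormOdd m F v = 0} = q ^ (2 * m) := by
  classical
  subst hF
  have e0 : (Unit ⊕ (Fin m ⊕ Fin m) → F) ≃ F × ((Fin m → F) × (Fin m → F)) :=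
    (Equiv.sumArrowEquivProdArrow Unit (Fin m ⊕ Fin m) F).trans
      (Equiv.prodCongr (Equiv.funUnique Unit F) (Equiv.sumArrowEquivProdArrow (Fin m) (Fin m) F))
  have e : {v : Unit ⊕ (Fin m ⊕ Fin m) → F // Cfsg.quadFormOdd m F v = 0} ≃
      {x : F × ((Fin m → F) × (Fin m → F)) // x.2.2 ⬝ᵥ x.2.1 = -x.1 ^ 2} :=
    Equiv.subtypeEquiv ((Equiv.sumArrowEquivProdArrow Unit (Fin m ⊕ Fin m) F).trans
      (Equiv.prodCongr (Equiv.funUnique Unit F) (Equiv.sumArrowEquivProdArrow (Fin m) (Fin m) F))) (by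
      intro v
      unfold Cfsg.quadFormOdd
      simp only [Equiv.trans_apply, Equiv.prodCongr_apply, Prod.map, Equiv.sumArrowEquivProdArrow_apply_fst,
        Equiv.sumArrowEquivProdArrow_apply_snd, dotProduct, Function.comp, Equiv.funUnique_apply]
      rw [Finset.sum_congr rfl (fun i _ => mul_comm (v (Sum.inr (Sum.inr i))) (v (Sum.inr (Sum.inl i))))]
      constructor
      · intro h
        have : (default : Unit) = () := rfl
        rw [this]
        linear_combination h
      · intro h
        have : (default : Unit) = () := rfl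
        rw [this] at h
        linear_combination h)
  rw [Nat.card_congr e, Nat.card_congr (Equiv.subtypeProdEquivSigmaSubtype
    (fun (t : F) (p : (Fin m → F) × (Fin m → F)) => p.2 ⬝ᵥ p.1 = -t ^ 2)), Nat.card_sigma]
  have hq : 0 < Fintype.card F := Fintype.card_pos
  apply Nat.eq_of_mul_eq_mul_right hq
  rw [Finset.sum_mul, Finset.sum_congr rfl (fun t _ => Cfsg.Agent.S0289.pair_card (F := F) m (-t ^ 2)),
    Finset.sum_add_distrib, Finset.sum_const, Finset.card_univ, smul_eq_mul]
  have h1 : ∀ t : F, (if -t ^ 2 = 0 then Fintype.card F ^ m * Fintype.card F else 0) =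
      if t = 0 then Fintype.card F ^ m * Fintype.card F else 0 := by
    intro t
    have : (-t ^ 2 = 0) ↔ t = 0 := by
      rw [neg_eq_zero, pow_eq_zero_iff (by norm_num)]
    simp only [this]
  rw [Finset.sum_congr rfl (fun t _ => h1 t), Finset.sum_ite_eq', if_pos (Finset.mem_univ _)]
  have h2 : 1 ≤ Fintype.card F ^ m := Nat.one_le_pow _ _ hq
  have h3 : (Fintype.card F ^ m - 1) * Fintype.card F ^ m + Fintype.card F ^ m =
      Fintype.card F ^ (2 * m) := by
    rw [two_mul, pow_add, Nat.sub_mul, one_mul]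
    have : Fintype.card F ^ m ≤ Fintype.card F ^ m * Fintype.card F ^ m := Nat.le_mul_of_pos_left _ (by omega)
    omega
  rw [← h3]
  ring

end Cfsg.Agent.S0291
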