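import Mathlib
import Cfsg.Statements.S2585
import Cfsg.Agent.Lib.Helper5.Symp

set_option autoImplicit false
open Cfsg

namespace Cfsg.Agent.S2585

open Matrix Cfsg.Agent.Lib.Helper5

section
variable {F : Type*} [Field F] {m : ℕ}

/-- half of the symplectic form -/
noncomputable def B0 (F : Type*) [Field F] (m : ℕ) : LinearMap.BilinForm F (Fin m ⊕ Fin m → F) :=
  Matrix.toBilin' (Matrix.fromBlocks 0 0 1 0)

theorem B0_apply (u v : Fin m ⊕ Fin m → F) :
    B0 F m u v = ∑ i, u (Sum.inr i) * v (Sum.inl i) := by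
  unfold B0
  rw [Matrix.toBilin'_apply']
  simp [dotProduct, Matrix.mulVec, Fintype.sum_sum_type, Matrix.one_apply]

theorem B0_sub (u v : Fin m ⊕ Fin m → F) :
    B0 F m u v - B0 F m v u = Cfsg.sympForm m F u v := by
  rw [B0_apply, B0_apply]
  unfold Cfsg.sympForm
  simp [dotProduct, Matrix.mulVec, Fintype.sum_sum_type, Matrix.J, Matrix.one_apply]
  rw [Finset.sum_congr rfl (fun i _ => mul_comm (v (Sum.inr i)) (u (Sum.inl i)))]
  ring

end

/-- Over a finite field of characteristic two every element of the symplectic group is orthogonal for a suitable quadratic form: for each A in Sp_2m(F) there is a quadratic form Q on F^(2m) whose polar form is the alternating form defining Sp_2m(F) (so Q is non-degenerate) and which A preserves. Equivalently, for m ≥ 1, Sp_2m(F) is the union of the conjugates of its two orthogonal subgroups O⁺_2m(F) and O⁻_2m(F). -/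
theorem result {F : Type*} [Field F] [Fintype F] [CharP F 2] {m : ℕ} (A : Matrix.symplecticGroup (Fin m) F) : ∃ Q : QuadraticForm F (Fin m ⊕ Fin m → F), (∀ u v : Fin m ⊕ Fin m → F, QuadraticMap.polar ⇑Q u v = Cfsg.sympForm m F u v) ∧ ∀ v : Fin m ⊕ Fin m → F, Q ((A : Matrix (Fin m ⊕ Fin m) (Fin m ⊕ Fin m) F).mulVec v) = Q v := by
  classical
  haveI : ExpChar F 2 := ExpChar.prime Nat.prime_two
  obtain ⟨Am, hAm⟩ : ∃ Am : Matrix (Fin m ⊕ Fin m) (Fin m ⊕ Fin m) F,
      Am = (A : Matrix (Fin m ⊕ Fin m) (Fin m ⊕ Fin m) F) := ⟨_, rfl⟩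
  rw [← hAm]
  have h2 : (2 : F) = 0 := CharTwo.two_eq_zero
  obtain ⟨B, hBdef⟩ : ∃ B : LinearMap.BilinForm F (Fin m ⊕ Fin m → F),
      B = Matrix.toBilin' (Matrix.J (Fin m) F) := ⟨_, rfl⟩
  have hBapp : ∀ x y, B x y = Cfsg.sympForm m F x y := by
    intro x y
    rw [hBdef, Matrix.toBilin'_apply']
    rfl
  have hBnd : B.Nondegenerate := by
    rw [hBdef, LinearMap.BilinForm.nondegenerate_toBilin'_iff_det_ne_zero]
    intro h0
    have := Matrix.J_det_mul_J_det (Fin m) F
    rw [h0, zero_mul] at this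
    exact zero_ne_one this
  have hBrefl : B.IsRefl := by
    intro x y h
    rw [hBapp] at h ⊢
    rw [sympForm_swap, h, neg_zero]
  have hpres : ∀ u v, Cfsg.sympForm m F (Am *ᵥ u) (Am *ᵥ v) = Cfsg.sympForm m F u v := by
    rw [hAm]
    exact sympForm_mulVec_of_mem m _ A.2
  have hQ0 : ∀ u v, B0 F m (u + v) (u + v) = B0 F m u u + B0 F m v v + Cfsg.sympForm m F u v := by
    intro u v
    rw [← B0_sub]
    simp only [map_add, LinearMap.add_apply]
    linear_combination (B0 F m v u) * h2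
  let lam : (Fin m ⊕ Fin m → F) →ₗ[F] F :=
    { toFun := fun x => (frobeniusEquiv F 2).symm (B0 F m (Am *ᵥ x) (Am *ᵥ x) - B0 F m x x)
      map_add' := fun x y => by
        rw [← map_add]
        congr 1
        rw [Matrix.mulVec_add, hQ0, hQ0, hpres]
        ring
      map_smul' := fun c x => by
        simp only [RingHom.id_apply, smul_eq_mul]
        rw [Matrix.mulVec_smul]
        simp only [map_smul, LinearMap.smul_apply, smul_eq_mul]
        have : c * (c * B0 F m (Am *ᵥ x) (Am *ᵥ x)) - c * (c * B0 F m x x) =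
            c ^ 2 * (B0 F m (Am *ᵥ x) (Am *ᵥ x) - B0 F m x x) := by ring
        rw [this, map_mul, frobeniusEquiv_symm_pow] }
  have hlam : ∀ x, lam x ^ 2 = B0 F m (Am *ᵥ x) (Am *ᵥ x) - B0 F m x x :=
    fun x => frobeniusEquiv_symm_pow_p F 2 _
  obtain ⟨a, ha⟩ : ∃ a, a = (B.toDual hBnd).symm lam := ⟨_, rfl⟩
  have ha' : ∀ x, Cfsg.sympForm m F a x = lam x := by
    intro x
    rw [← hBapp, ha]
    exact LinearMap.BilinForm.apply_toDual_symm_apply lam x
  obtain ⟨T, hTdef⟩ : ∃ T : (Fin m ⊕ Fin m → F) →ₗ[F] (Fin m ⊕ Fin m → F),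
      T = Matrix.mulVecLin (Am - 1) := ⟨_, rfl⟩
  have hT : ∀ y, T y = Am *ᵥ y - y := by
    intro y
    rw [hTdef, Matrix.mulVecLin_apply, Matrix.sub_mulVec, Matrix.one_mulVec]
  have hmem : a ∈ LinearMap.range T := by
    rw [← LinearMap.BilinForm.orthogonal_orthogonal hBnd hBrefl (LinearMap.range T)]
    intro x hx
    have hfix : Am *ᵥ x = x := by
      by_contra hne
      have hne' : Am *ᵥ x - x ≠ 0 := sub_ne_zero.2 hne
      obtain ⟨z, hz⟩ := exists_sympForm_ne_zero m (Am *ᵥ x - x) hne'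
      apply hz
      obtain ⟨y, rfl⟩ : ∃ y, z = Am *ᵥ y := by
        refine ⟨((A⁻¹ : Matrix.symplecticGroup (Fin m) F) :
          Matrix (Fin m ⊕ Fin m) (Fin m ⊕ Fin m) F) *ᵥ z, ?_⟩
        rw [hAm, Matrix.mulVec_mulVec]
        have h3 : (A : Matrix (Fin m ⊕ Fin m) (Fin m ⊕ Fin m) F) *
            ((A⁻¹ : Matrix.symplecticGroup (Fin m) F) : Matrix (Fin m ⊕ Fin m) (Fin m ⊕ Fin m) F) = 1 := by
          have := congrArg Subtype.val (mul_inv_cancel A); exact this
        rw [h3, Matrix.one_mulVec]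
      have h1 : B (T y) x = 0 := hx (T y) ⟨y, rfl⟩
      rw [hBapp, hT, sympForm_sub_left] at h1
      rw [sympForm_sub_left, hpres, sympForm_swap m x y, sympForm_swap m x (Am *ᵥ y)]
      linear_combination h1
    show B x a = 0
    have h0 : lam x ^ 2 = 0 := by rw [hlam, hfix, sub_self]
    have h0' : lam x = 0 := by
      rcases pow_eq_zero_iff (two_ne_zero) |>.1 h0 with h
      exact h
    rw [hBapp, sympForm_swap, ha', h0', neg_zero]
  obtain ⟨c, hc⟩ := hmem
  rw [hT] at hc
  refine ⟨(B0 F m + LinearMap.BilinForm.linMulLin (B.flip (Am *ᵥ c)) (B.flip (Am *ᵥ c))).toQuadraticMap,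
    ?_, ?_⟩
  · intro u v
    rw [LinearMap.BilinMap.polar_toQuadraticMap]
    simp only [LinearMap.add_apply, LinearMap.BilinForm.linMulLin_apply, LinearMap.flip_apply, LinearMap.BilinForm.flip_apply, hBapp]
    rw [← B0_sub u v]
    linear_combination (B0 F m v u + Cfsg.sympForm m F u (Am *ᵥ c) * Cfsg.sympForm m F v (Am *ᵥ c)) * h2
  · intro v
    rw [LinearMap.BilinMap.toQuadraticMap_apply, LinearMap.BilinMap.toQuadraticMap_apply]
    simp only [LinearMap.add_apply, LinearMap.BilinForm.linMulLin_apply, LinearMap.flip_apply, LinearMap.BilinForm.flip_apply, hBapp]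
    rw [hpres]
    have h5 := hlam v
    rw [← ha', ← hc, sympForm_sub_left, sympForm_swap m (Am *ᵥ c) v, sympForm_swap m c v] at h5
    linear_combination (-1 : F) * h5 + (Cfsg.sympForm m F v c ^ 2 -
      Cfsg.sympForm m F v c * Cfsg.sympForm m F v (Am *ᵥ c)) * h2

end Cfsg.Agent.S2585
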