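import Mathlib
import Cfsg.Statements.S0304
import Cfsg.Agent.Lib.Helper5.Symp
import Cfsg.Agent.S2585

set_option autoImplicit false
open Cfsg

namespace Cfsg.Agent.S0304

open Matrix Cfsg.Agent.Lib.Helper5
section
variable {F : Type*} [Field F] [CharP F 2] {m : ℕ}

theorem sq_inj (x y : F) (h : x ^ 2 = y ^ 2) : x = y := by
  have h1 : (x + y) ^ 2 = 0 := by
    rw [CharTwo.add_sq, h, CharTwo.add_self_eq_zero]
  have h2 : x + y = 0 := by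
    rcases pow_eq_zero_iff (two_ne_zero) |>.1 h1 with h3
    exact h3
  have h3 : x = -y := eq_neg_of_add_eq_zero_left h2
  rw [h3, CharTwo.neg_eq]

theorem exists_sqrt [Finite F] (a : F) : ∃ b : F, b ^ 2 = a :=
  Finite.surjective_of_injective (f := fun x : F => x ^ 2) (fun x y h => sq_inj x y h) a

theorem qodd_eq (v : Unit ⊕ (Fin m ⊕ Fin m) → F) :
    Cfsg.quadFormOdd m F v = v (Sum.inl ()) ^ 2 + Cfsg.quadFormPlus m F (v ∘ Sum.inr) := rfl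

theorem q0_eq (w : Fin m ⊕ Fin m → F) : Cfsg.quadFormPlus m F w = Cfsg.Agent.S2585.B0 F m w w := by
  rw [Cfsg.Agent.S2585.B0_apply]
  unfold Cfsg.quadFormPlus
  exact Finset.sum_congr rfl (fun i _ => mul_comm _ _)

theorem q0_add (u w : Fin m ⊕ Fin m → F) : Cfsg.quadFormPlus m F (u + w) =
    Cfsg.quadFormPlus m F u + Cfsg.quadFormPlus m F w + Cfsg.sympForm m F u w := by
  have h2 : (2 : F) = 0 := CharTwo.two_eq_zero
  rw [q0_eq, q0_eq, q0_eq, ← Cfsg.Agent.S2585.B0_sub]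
  simp only [map_add, LinearMap.add_apply]
  linear_combination (Cfsg.Agent.S2585.B0 F m w u) * h2

theorem q0_smul (c : F) (w : Fin m ⊕ Fin m → F) :
    Cfsg.quadFormPlus m F (c • w) = c ^ 2 * Cfsg.quadFormPlus m F w := by
  rw [q0_eq, q0_eq]
  simp only [map_smul, LinearMap.smul_apply, smul_eq_mul]
  ring

theorem q0_zero : Cfsg.quadFormPlus m F (0 : Fin m ⊕ Fin m → F) = 0 := by
  unfold Cfsg.quadFormPlus
  simp

theorem qodd_add (u w : Unit ⊕ (Fin m ⊕ Fin m) → F) : Cfsg.quadFormOdd m F (u + w) =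
    Cfsg.quadFormOdd m F u + Cfsg.quadFormOdd m F w +
      Cfsg.sympForm m F (u ∘ Sum.inr) (w ∘ Sum.inr) := by
  rw [qodd_eq, qodd_eq, qodd_eq]
  have e : (u + w) ∘ Sum.inr = u ∘ Sum.inr + w ∘ Sum.inr := rfl
  rw [e, q0_add, Pi.add_apply, CharTwo.add_sq]
  ring

theorem exists_lam [Finite F] (A : Matrix (Fin m ⊕ Fin m) (Fin m ⊕ Fin m) F)
    (hA : ∀ u v, Cfsg.sympForm m F (A *ᵥ u) (A *ᵥ v) = Cfsg.sympForm m F u v) :
    ∃ lam : (Fin m ⊕ Fin m → F) →ₗ[F] F, ∀ x, lam x ^ 2 =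
      Cfsg.quadFormPlus m F (A *ᵥ x) - Cfsg.quadFormPlus m F x := by
  choose s hs using (exists_sqrt (F := F))
  refine ⟨{ toFun := fun x => s (Cfsg.quadFormPlus m F (A *ᵥ x) - Cfsg.quadFormPlus m F x)
            map_add' := ?_
            map_smul' := ?_ }, fun x => hs _⟩
  · intro x y
    apply sq_inj
    rw [hs, CharTwo.add_sq, hs, hs, Matrix.mulVec_add, q0_add, q0_add, hA]
    ring
  · intro c x
    apply sq_inj
    simp only [RingHom.id_apply, smul_eq_mul]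
    rw [hs, mul_pow, hs, Matrix.mulVec_smul, q0_smul, q0_smul]
    ring

theorem sp_of_pres (A : Matrix (Fin m ⊕ Fin m) (Fin m ⊕ Fin m) F)
    (hA : ∀ u v, Cfsg.sympForm m F (A *ᵥ u) (A *ᵥ v) = Cfsg.sympForm m F u v) :
    A ∈ Matrix.symplecticGroup (Fin m) F := by
  rw [SymplecticGroup.mem_iff']
  ext i j
  have h := hA (Pi.single i 1) (Pi.single j 1)
  unfold Cfsg.sympForm at h
  have e1 : (Aᵀ * Matrix.J (Fin m) F * A) i j =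
      (A *ᵥ Pi.single i 1) ⬝ᵥ (Matrix.J (Fin m) F *ᵥ (A *ᵥ Pi.single j 1)) := by
    rw [← Matrix.vecMul_transpose, ← Matrix.dotProduct_mulVec, Matrix.mulVec_mulVec, Matrix.mulVec_mulVec,
      single_dotProduct, one_mul, Matrix.mulVec_single_one]
    rfl
  have e2 : (Matrix.J (Fin m) F) i j =
      (Pi.single i 1 : Fin m ⊕ Fin m → F) ⬝ᵥ (Matrix.J (Fin m) F *ᵥ Pi.single j 1) := by
    rw [single_dotProduct, one_mul, Matrix.mulVec_single_one]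
    rfl
  rw [e1, e2, h]

theorem mem_iso_iff (g : GL (Unit ⊕ (Fin m ⊕ Fin m)) F) :
    g ∈ Cfsg.isometryGroup F (Cfsg.quadFormOdd m F) ↔
      ∀ u, Cfsg.quadFormOdd m F ((g : Matrix (Unit ⊕ (Fin m ⊕ Fin m)) (Unit ⊕ (Fin m ⊕ Fin m)) F) *ᵥ u) =
        Cfsg.quadFormOdd m F u :=
  ⟨fun h u => h u u, fun h u _ => h u⟩

/-- vector with zero first coordinate -/
def vz (y : Fin m ⊕ Fin m → F) : Unit ⊕ (Fin m ⊕ Fin m) → F := Sum.elim 0 y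

theorem vz_inr (y : Fin m ⊕ Fin m → F) : vz y ∘ Sum.inr = y := rfl

theorem vz_inl (y : Fin m ⊕ Fin m → F) : vz y (Sum.inl ()) = 0 := rfl

theorem vz_add (y y' : Fin m ⊕ Fin m → F) : vz (y + y') = vz y + vz y' := by
  ext (i | i) <;> simp [vz]

theorem mulVec_vz_inr (M : Matrix (Unit ⊕ (Fin m ⊕ Fin m)) (Unit ⊕ (Fin m ⊕ Fin m)) F)
    (y : Fin m ⊕ Fin m → F) : (M *ᵥ vz y) ∘ Sum.inr = M.toBlocks₂₂ *ᵥ y := by
  ext s
  simp [Matrix.mulVec, dotProduct, Fintype.sum_sum_type, vz, Matrix.toBlocks₂₂]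

theorem mulVec_vz_inl (M : Matrix (Unit ⊕ (Fin m ⊕ Fin m)) (Unit ⊕ (Fin m ⊕ Fin m)) F)
    (y : Fin m ⊕ Fin m → F) : (M *ᵥ vz y) (Sum.inl ()) = (M.toBlocks₁₂ *ᵥ y) () := by
  simp [Matrix.mulVec, dotProduct, Fintype.sum_sum_type, vz, Matrix.toBlocks₁₂]

theorem qodd_vz (y : Fin m ⊕ Fin m → F) : Cfsg.quadFormOdd m F (vz y) = Cfsg.quadFormPlus m F y := by
  rw [qodd_eq, vz_inr, vz_inl]
  simp

theorem block_pres (M : Matrix (Unit ⊕ (Fin m ⊕ Fin m)) (Unit ⊕ (Fin m ⊕ Fin m)) F)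
    (hM : ∀ u, Cfsg.quadFormOdd m F (M *ᵥ u) = Cfsg.quadFormOdd m F u) (y y' : Fin m ⊕ Fin m → F) :
    Cfsg.sympForm m F (M.toBlocks₂₂ *ᵥ y) (M.toBlocks₂₂ *ᵥ y') = Cfsg.sympForm m F y y' := by
  have h1 := hM (vz y + vz y')
  rw [Matrix.mulVec_add, qodd_add, qodd_add, hM, hM, mulVec_vz_inr, mulVec_vz_inr, vz_inr, vz_inr] at h1
  exact add_left_cancel h1

theorem e0_inr : (Pi.single (Sum.inl ()) 1 : Unit ⊕ (Fin m ⊕ Fin m) → F) ∘ Sum.inr = 0 := by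
  ext s
  simp

theorem col0 (g : GL (Unit ⊕ (Fin m ⊕ Fin m)) F)
    (hg : ∀ u, Cfsg.quadFormOdd m F ((g : Matrix (Unit ⊕ (Fin m ⊕ Fin m)) (Unit ⊕ (Fin m ⊕ Fin m)) F) *ᵥ u) =
        Cfsg.quadFormOdd m F u) :
    (g : Matrix (Unit ⊕ (Fin m ⊕ Fin m)) (Unit ⊕ (Fin m ⊕ Fin m)) F) *ᵥ (Pi.single (Sum.inl ()) 1) =
      Pi.single (Sum.inl ()) 1 := by
  obtain ⟨a, ha⟩ : ∃ a, a = (g : Matrix (Unit ⊕ (Fin m ⊕ Fin m)) (Unit ⊕ (Fin m ⊕ Fin m)) F) *ᵥ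
      (Pi.single (Sum.inl ()) 1) := ⟨_, rfl⟩
  rw [← ha]
  have hQe0 : Cfsg.quadFormOdd m F (Pi.single (Sum.inl ()) 1 : Unit ⊕ (Fin m ⊕ Fin m) → F) = 1 := by
    rw [qodd_eq, e0_inr, q0_zero]
    simp
  have hQa : Cfsg.quadFormOdd m F a = 1 := by rw [ha, hg, hQe0]
  have hrad : ∀ w : Unit ⊕ (Fin m ⊕ Fin m) → F, Cfsg.sympForm m F (a ∘ Sum.inr) (w ∘ Sum.inr) = 0 := by
    intro w
    obtain ⟨v, rfl⟩ : ∃ v, (g : Matrix (Unit ⊕ (Fin m ⊕ Fin m)) (Unit ⊕ (Fin m ⊕ Fin m)) F) *ᵥ v = w := by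
      refine ⟨((g⁻¹ : GL (Unit ⊕ (Fin m ⊕ Fin m)) F) :
        Matrix (Unit ⊕ (Fin m ⊕ Fin m)) (Unit ⊕ (Fin m ⊕ Fin m)) F) *ᵥ w, ?_⟩
      rw [Matrix.mulVec_mulVec, ← Units.val_mul, mul_inv_cancel, Units.val_one, Matrix.one_mulVec]
    have h1 := hg (Pi.single (Sum.inl ()) 1 + v)
    rw [Matrix.mulVec_add, qodd_add, qodd_add, hg, hg, ← ha, e0_inr, sympForm_zero_left, add_zero] at h1
    have h2 := add_left_cancel (a := Cfsg.quadFormOdd m F (Pi.single (Sum.inl ()) 1) + Cfsg.quadFormOdd m F v)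
      (b := Cfsg.sympForm m F (a ∘ Sum.inr)
        (((g : Matrix (Unit ⊕ (Fin m ⊕ Fin m)) (Unit ⊕ (Fin m ⊕ Fin m)) F) *ᵥ v) ∘ Sum.inr)) (c := 0)
      (by rw [h1, add_zero])
    exact h2
  have haS : a ∘ Sum.inr = 0 := by
    by_contra hne
    obtain ⟨y, hy⟩ := exists_sympForm_ne_zero m _ hne
    exact hy (hrad (vz y))
  have ha0 : a (Sum.inl ()) = 1 := by
    rw [qodd_eq, haS, q0_zero, add_zero] at hQa
    exact sq_inj _ _ (by rw [hQa, one_pow])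
  ext (⟨⟩ | s)
  · rw [ha0]
    simp
  · have := congrFun haS s
    simpa using this

theorem blk21 (g : GL (Unit ⊕ (Fin m ⊕ Fin m)) F)
    (hg : ∀ u, Cfsg.quadFormOdd m F ((g : Matrix (Unit ⊕ (Fin m ⊕ Fin m)) (Unit ⊕ (Fin m ⊕ Fin m)) F) *ᵥ u) =
        Cfsg.quadFormOdd m F u) :
    (g : Matrix (Unit ⊕ (Fin m ⊕ Fin m)) (Unit ⊕ (Fin m ⊕ Fin m)) F).toBlocks₂₁ = 0 := by
  ext s ⟨⟩
  have h := congrFun (col0 g hg) (Sum.inr s)
  rw [Matrix.mulVec_single_one] at h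
  simpa [Matrix.toBlocks₂₁] using h

theorem blk11 (g : GL (Unit ⊕ (Fin m ⊕ Fin m)) F)
    (hg : ∀ u, Cfsg.quadFormOdd m F ((g : Matrix (Unit ⊕ (Fin m ⊕ Fin m)) (Unit ⊕ (Fin m ⊕ Fin m)) F) *ᵥ u) =
        Cfsg.quadFormOdd m F u) :
    (g : Matrix (Unit ⊕ (Fin m ⊕ Fin m)) (Unit ⊕ (Fin m ⊕ Fin m)) F).toBlocks₁₁ = 1 := by
  ext ⟨⟩ ⟨⟩
  have h := congrFun (col0 g hg) (Sum.inl ())
  rw [Matrix.mulVec_single_one] at h
  simpa [Matrix.toBlocks₁₁] using h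

end

/-- In characteristic 2, O_{2m+1}(q) is isomorphic to Sp_{2m}(q). -/
theorem result {F : Type*} [Field F] [Fintype F] [CharP F 2] (m : ℕ) : Nonempty (Cfsg.isometryGroup F (Cfsg.quadFormOdd m F) ≃* Matrix.symplecticGroup (Fin m) F) := by
  classical
  let Psi : Cfsg.isometryGroup F (Cfsg.quadFormOdd m F) →* Matrix.symplecticGroup (Fin m) F :=
    { toFun := fun g => ⟨((g.1 : GL (Unit ⊕ (Fin m ⊕ Fin m)) F) :
          Matrix (Unit ⊕ (Fin m ⊕ Fin m)) (Unit ⊕ (Fin m ⊕ Fin m)) F).toBlocks₂₂,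
        sp_of_pres _ (block_pres _ ((mem_iso_iff g.1).1 g.2))⟩
      map_one' := by
        apply Subtype.ext
        show (1 : Matrix (Unit ⊕ (Fin m ⊕ Fin m)) (Unit ⊕ (Fin m ⊕ Fin m)) F).toBlocks₂₂ = 1
        rw [← Matrix.fromBlocks_one, Matrix.toBlocks_fromBlocks₂₂]
      map_mul' := by
        intro g h
        apply Subtype.ext
        show (((g.1 : GL (Unit ⊕ (Fin m ⊕ Fin m)) F) :
            Matrix (Unit ⊕ (Fin m ⊕ Fin m)) (Unit ⊕ (Fin m ⊕ Fin m)) F) *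
          ((h.1 : GL (Unit ⊕ (Fin m ⊕ Fin m)) F) :
            Matrix (Unit ⊕ (Fin m ⊕ Fin m)) (Unit ⊕ (Fin m ⊕ Fin m)) F)).toBlocks₂₂ =
          ((g.1 : GL (Unit ⊕ (Fin m ⊕ Fin m)) F) :
            Matrix (Unit ⊕ (Fin m ⊕ Fin m)) (Unit ⊕ (Fin m ⊕ Fin m)) F).toBlocks₂₂ *
          ((h.1 : GL (Unit ⊕ (Fin m ⊕ Fin m)) F) :
            Matrix (Unit ⊕ (Fin m ⊕ Fin m)) (Unit ⊕ (Fin m ⊕ Fin m)) F).toBlocks₂₂
        have h21 := blk21 g.1 ((mem_iso_iff g.1).1 g.2)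
        conv_lhs =>
          rw [← Matrix.fromBlocks_toBlocks ((g.1 : GL (Unit ⊕ (Fin m ⊕ Fin m)) F) :
              Matrix (Unit ⊕ (Fin m ⊕ Fin m)) (Unit ⊕ (Fin m ⊕ Fin m)) F),
            ← Matrix.fromBlocks_toBlocks ((h.1 : GL (Unit ⊕ (Fin m ⊕ Fin m)) F) :
              Matrix (Unit ⊕ (Fin m ⊕ Fin m)) (Unit ⊕ (Fin m ⊕ Fin m)) F),
            Matrix.fromBlocks_multiply, Matrix.toBlocks_fromBlocks₂₂, h21, Matrix.zero_mul, zero_add] }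
  refine ⟨MulEquiv.ofBijective Psi ⟨?_, ?_⟩⟩
  · rw [injective_iff_map_eq_one]
    intro g hg
    have hA : ((g.1 : GL (Unit ⊕ (Fin m ⊕ Fin m)) F) :
        Matrix (Unit ⊕ (Fin m ⊕ Fin m)) (Unit ⊕ (Fin m ⊕ Fin m)) F).toBlocks₂₂ = 1 :=
      congrArg Subtype.val hg
    have hgm := (mem_iso_iff g.1).1 g.2
    have h21 := blk21 g.1 hgm
    have h11 := blk11 g.1 hgm
    have h12 : ((g.1 : GL (Unit ⊕ (Fin m ⊕ Fin m)) F) :
        Matrix (Unit ⊕ (Fin m ⊕ Fin m)) (Unit ⊕ (Fin m ⊕ Fin m)) F).toBlocks₁₂ = 0 := by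
      ext ⟨⟩ t
      have h1 := hgm (vz (Pi.single t 1))
      rw [qodd_eq, qodd_vz, mulVec_vz_inr, hA, Matrix.one_mulVec, mulVec_vz_inl] at h1
      have h2 : (((g.1 : GL (Unit ⊕ (Fin m ⊕ Fin m)) F) :
          Matrix (Unit ⊕ (Fin m ⊕ Fin m)) (Unit ⊕ (Fin m ⊕ Fin m)) F).toBlocks₁₂ *ᵥ Pi.single t 1) () ^ 2 = 0 := by
        linear_combination h1
      rw [Matrix.mulVec_single_one] at h2
      have h3 := pow_eq_zero_iff (two_ne_zero) |>.1 h2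
      exact h3
    apply Subtype.ext
    apply Units.ext
    show ((g.1 : GL (Unit ⊕ (Fin m ⊕ Fin m)) F) :
        Matrix (Unit ⊕ (Fin m ⊕ Fin m)) (Unit ⊕ (Fin m ⊕ Fin m)) F) = 1
    rw [← Matrix.fromBlocks_toBlocks ((g.1 : GL (Unit ⊕ (Fin m ⊕ Fin m)) F) :
        Matrix (Unit ⊕ (Fin m ⊕ Fin m)) (Unit ⊕ (Fin m ⊕ Fin m)) F), h11, h12, h21, hA, Matrix.fromBlocks_one]
  · intro A
    have hApres := sympForm_mulVec_of_mem m _ A.2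
    obtain ⟨lam, hlam⟩ := exists_lam (A : Matrix (Fin m ⊕ Fin m) (Fin m ⊕ Fin m) F) hApres
    obtain ⟨ℓ, hℓdef⟩ : ∃ ℓ : Matrix Unit (Fin m ⊕ Fin m) F, ℓ = Matrix.of (fun _ t => lam (Pi.single t 1)) :=
      ⟨_, rfl⟩
    have hℓ : ∀ y : Fin m ⊕ Fin m → F, (ℓ *ᵥ y) () = lam y := by
      intro y
      rw [hℓdef, LinearMap.pi_apply_eq_sum_univ lam y]
      simp only [Matrix.mulVec, dotProduct, Matrix.of_apply, smul_eq_mul]
      apply Finset.sum_congr rfl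
      intro t _
      rw [mul_comm]
      congr 2
      ext j
      simp [Pi.single_apply, eq_comm]
    obtain ⟨M, hMdef⟩ : ∃ M : Matrix (Unit ⊕ (Fin m ⊕ Fin m)) (Unit ⊕ (Fin m ⊕ Fin m)) F,
        M = Matrix.fromBlocks (1 : Matrix Unit Unit F) ℓ 0 (A : Matrix (Fin m ⊕ Fin m) (Fin m ⊕ Fin m) F) :=
      ⟨_, rfl⟩
    have hdet : M.det ≠ 0 := by
      rw [hMdef, Matrix.det_fromBlocks_zero₂₁, Matrix.det_one, one_mul]
      exact (SymplecticGroup.symplectic_det A.2).ne_zero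
    have hpres : ∀ u, Cfsg.quadFormOdd m F (M *ᵥ u) = Cfsg.quadFormOdd m F u := by
      intro u
      have e1 : (M *ᵥ u) (Sum.inl ()) = u (Sum.inl ()) + lam (u ∘ Sum.inr) := by
        rw [hMdef, Matrix.fromBlocks_mulVec]
        simp [hℓ]
      have e2 : (M *ᵥ u) ∘ Sum.inr = (A : Matrix (Fin m ⊕ Fin m) (Fin m ⊕ Fin m) F) *ᵥ (u ∘ Sum.inr) := by
        rw [hMdef, Matrix.fromBlocks_mulVec]
        ext s
        simp
      rw [qodd_eq, qodd_eq, e1, e2, CharTwo.add_sq, hlam]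
      have h2 : (2 : F) = 0 := CharTwo.two_eq_zero
      linear_combination (Cfsg.quadFormPlus m F ((A : Matrix (Fin m ⊕ Fin m) (Fin m ⊕ Fin m) F) *ᵥ (u ∘ Sum.inr)) -
        Cfsg.quadFormPlus m F (u ∘ Sum.inr)) * h2
    refine ⟨⟨Matrix.GeneralLinearGroup.mkOfDetNeZero M hdet, (mem_iso_iff _).2 hpres⟩, ?_⟩
    apply Subtype.ext
    show M.toBlocks₂₂ = (A : Matrix (Fin m ⊕ Fin m) (Fin m ⊕ Fin m) F)
    rw [hMdef, Matrix.toBlocks_fromBlocks₂₂]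

end Cfsg.Agent.S0304
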