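import Mathlib
import Cfsg.Statements.S0305
import Cfsg.Agent.S0206

set_option autoImplicit false
open Cfsg

namespace Cfsg.Agent.S0305

theorem dih_of_invol {G : Type*} [Group G] [Finite G] (x y : G) (hx : orderOf x = 2)
    (hy : orderOf y = 2) (hxy : x ≠ y) (n : ℕ) (hn : orderOf (x * y) = n)
    (hcard : Nat.card G ≤ 2 * n) : Nonempty (G ≃* DihedralGroup n) := by
  subst hn
  obtain ⟨e⟩ := Cfsg.Agent.S0206.result x y hx hy hxy
  have hc : Nat.card (Subgroup.closure ({x, y} : Set G)) = 2 * orderOf (x * y) := by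
    rw [Nat.card_congr e.toEquiv, DihedralGroup.nat_card]
  have htop : Subgroup.closure ({x, y} : Set G) = ⊤ := by
    apply Subgroup.eq_top_of_le_card
    rw [hc]; exact hcard
  exact ⟨(Subgroup.topEquiv.symm.trans (MulEquiv.subgroupCongr htop.symm)).trans e⟩

section plus

open Matrix

variable {F : Type*} [Field F]

theorem Q_apply (v : Fin 1 ⊕ Fin 1 → F) :
    Cfsg.quadFormPlus 1 F v = v (Sum.inl 0) * v (Sum.inr 0) := by
  unfold Cfsg.quadFormPlus; simp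

theorem mulVec_inl (M : Matrix (Fin 1 ⊕ Fin 1) (Fin 1 ⊕ Fin 1) F) (v : Fin 1 ⊕ Fin 1 → F) :
    (M *ᵥ v) (Sum.inl 0) = M (Sum.inl 0) (Sum.inl 0) * v (Sum.inl 0) +
      M (Sum.inl 0) (Sum.inr 0) * v (Sum.inr 0) := by
  simp [Matrix.mulVec, dotProduct, Fintype.sum_sum_type]

theorem mulVec_inr (M : Matrix (Fin 1 ⊕ Fin 1) (Fin 1 ⊕ Fin 1) F) (v : Fin 1 ⊕ Fin 1 → F) :
    (M *ᵥ v) (Sum.inr 0) = M (Sum.inr 0) (Sum.inl 0) * v (Sum.inl 0) +
      M (Sum.inr 0) (Sum.inr 0) * v (Sum.inr 0) := by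
  simp [Matrix.mulVec, dotProduct, Fintype.sum_sum_type]

theorem mem_iso (g : Matrix.GeneralLinearGroup (Fin 1 ⊕ Fin 1) F) :
    g ∈ Cfsg.isometryGroup F (Cfsg.quadFormPlus 1 F) ↔
      ∀ v : Fin 1 ⊕ Fin 1 → F, Cfsg.quadFormPlus 1 F
        ((g : Matrix (Fin 1 ⊕ Fin 1) (Fin 1 ⊕ Fin 1) F) *ᵥ v) = Cfsg.quadFormPlus 1 F v := by
  constructor
  · intro h v; exact h v v
  · intro h u v; exact h u

omit [Field F] in
theorem mat_ext (M N : Matrix (Fin 1 ⊕ Fin 1) (Fin 1 ⊕ Fin 1) F)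
    (h00 : M (Sum.inl 0) (Sum.inl 0) = N (Sum.inl 0) (Sum.inl 0))
    (h01 : M (Sum.inl 0) (Sum.inr 0) = N (Sum.inl 0) (Sum.inr 0))
    (h10 : M (Sum.inr 0) (Sum.inl 0) = N (Sum.inr 0) (Sum.inl 0))
    (h11 : M (Sum.inr 0) (Sum.inr 0) = N (Sum.inr 0) (Sum.inr 0)) : M = N := by
  ext i j
  rcases i with i | i <;> rcases j with j | j <;>
    (have hi : i = 0 := Subsingleton.elim _ _; have hj : j = 0 := Subsingleton.elim _ _;
     subst hi; subst hj; assumption)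

theorem shape (g : Matrix.GeneralLinearGroup (Fin 1 ⊕ Fin 1) F)
    (hg : g ∈ Cfsg.isometryGroup F (Cfsg.quadFormPlus 1 F)) :
    ((g : Matrix (Fin 1 ⊕ Fin 1) (Fin 1 ⊕ Fin 1) F) (Sum.inl 0) (Sum.inl 0) *
        (g : Matrix (Fin 1 ⊕ Fin 1) (Fin 1 ⊕ Fin 1) F) (Sum.inr 0) (Sum.inr 0) = 1 ∧
      (g : Matrix (Fin 1 ⊕ Fin 1) (Fin 1 ⊕ Fin 1) F) (Sum.inl 0) (Sum.inr 0) = 0 ∧
      (g : Matrix (Fin 1 ⊕ Fin 1) (Fin 1 ⊕ Fin 1) F) (Sum.inr 0) (Sum.inl 0) = 0) ∨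
    ((g : Matrix (Fin 1 ⊕ Fin 1) (Fin 1 ⊕ Fin 1) F) (Sum.inl 0) (Sum.inr 0) *
        (g : Matrix (Fin 1 ⊕ Fin 1) (Fin 1 ⊕ Fin 1) F) (Sum.inr 0) (Sum.inl 0) = 1 ∧
      (g : Matrix (Fin 1 ⊕ Fin 1) (Fin 1 ⊕ Fin 1) F) (Sum.inl 0) (Sum.inl 0) = 0 ∧
      (g : Matrix (Fin 1 ⊕ Fin 1) (Fin 1 ⊕ Fin 1) F) (Sum.inr 0) (Sum.inr 0) = 0) := by
  rw [mem_iso] at hg
  have h0 := hg (Pi.single (Sum.inl 0) 1)
  have h1 := hg (Pi.single (Sum.inr 0) 1)
  have h2 := hg (fun _ => 1)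
  rw [Q_apply, Q_apply, mulVec_inl, mulVec_inr] at h0 h1 h2
  simp only [Pi.single_eq_same, ne_eq, reduceCtorEq, not_false_eq_true, Pi.single_eq_of_ne,
    mul_one, mul_zero, add_zero, zero_add] at h0 h1 h2
  rcases mul_eq_zero.1 h0 with ha | hc <;> rcases mul_eq_zero.1 h1 with hb | hd
  · rw [ha, hb] at h2; simp at h2
  · right
    rw [ha, hd] at h2
    exact ⟨by linear_combination h2, ha, hd⟩
  · left
    rw [hc, hb] at h2
    exact ⟨by linear_combination h2, hb, hc⟩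
  · rw [hc, hd] at h2; simp at h2

/-- Diagonal matrices. -/
def dmat (a b : F) : Matrix (Fin 1 ⊕ Fin 1) (Fin 1 ⊕ Fin 1) F :=
  Matrix.fromBlocks (a • (1 : Matrix (Fin 1) (Fin 1) F)) 0 0 (b • (1 : Matrix (Fin 1) (Fin 1) F))

/-- Antidiagonal matrices. -/
def amat (a b : F) : Matrix (Fin 1 ⊕ Fin 1) (Fin 1 ⊕ Fin 1) F :=
  Matrix.fromBlocks 0 (a • (1 : Matrix (Fin 1) (Fin 1) F)) (b • (1 : Matrix (Fin 1) (Fin 1) F)) 0

theorem dmat_mul (a b a' b' : F) : dmat a b * dmat a' b' = dmat (a * a') (b * b') := by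
  unfold dmat
  rw [Matrix.fromBlocks_multiply]
  simp [smul_smul, mul_comm]

theorem amat_mul (a b a' b' : F) : amat a b * amat a' b' = dmat (a * b') (b * a') := by
  unfold dmat amat
  rw [Matrix.fromBlocks_multiply]
  simp [smul_smul, mul_comm]

theorem amat_dmat (a b a' b' : F) : amat a b * dmat a' b' = amat (a * b') (b * a') := by
  unfold dmat amat
  rw [Matrix.fromBlocks_multiply]
  simp [smul_smul, mul_comm]

theorem dmat_one : dmat (1 : F) 1 = 1 := by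
  unfold dmat
  rw [one_smul, Matrix.fromBlocks_one]

theorem dmat_apply (a b : F) : dmat a b (Sum.inl 0) (Sum.inl 0) = a ∧
    dmat a b (Sum.inl 0) (Sum.inr 0) = 0 ∧ dmat a b (Sum.inr 0) (Sum.inl 0) = 0 ∧
    dmat a b (Sum.inr 0) (Sum.inr 0) = b := by
  unfold dmat; simp

theorem amat_apply (a b : F) : amat a b (Sum.inl 0) (Sum.inl 0) = 0 ∧
    amat a b (Sum.inl 0) (Sum.inr 0) = a ∧ amat a b (Sum.inr 0) (Sum.inl 0) = b ∧
    amat a b (Sum.inr 0) (Sum.inr 0) = 0 := by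
  unfold amat; simp

/-- The diagonal torus. -/
def Dhom (F : Type*) [Field F] : Fˣ →* Matrix.GeneralLinearGroup (Fin 1 ⊕ Fin 1) F where
  toFun u := ⟨dmat (u : F) ((u⁻¹ : Fˣ) : F), dmat ((u⁻¹ : Fˣ) : F) (u : F),
    by rw [dmat_mul]; simp [dmat_one], by rw [dmat_mul]; simp [dmat_one]⟩
  map_one' := by
    apply Units.ext
    show dmat ((1 : Fˣ) : F) (((1 : Fˣ)⁻¹ : Fˣ) : F) = 1
    simp [dmat_one]
  map_mul' u v := by
    apply Units.ext
    show dmat ((u * v : Fˣ) : F) (((u * v)⁻¹ : Fˣ) : F) =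
      dmat (u : F) ((u⁻¹ : Fˣ) : F) * dmat (v : F) ((v⁻¹ : Fˣ) : F)
    rw [dmat_mul]
    simp [mul_comm]

theorem Dhom_val (u : Fˣ) : ((Dhom F u : Matrix.GeneralLinearGroup (Fin 1 ⊕ Fin 1) F) :
    Matrix (Fin 1 ⊕ Fin 1) (Fin 1 ⊕ Fin 1) F) = dmat (u : F) ((u⁻¹ : Fˣ) : F) := rfl

theorem Dhom_inj : Function.Injective (Dhom F) := by
  intro u v h
  have h' := congrArg (fun g : Matrix.GeneralLinearGroup (Fin 1 ⊕ Fin 1) F =>
    (g : Matrix (Fin 1 ⊕ Fin 1) (Fin 1 ⊕ Fin 1) F) (Sum.inl 0) (Sum.inl 0)) h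
  simp only [Dhom_val, (dmat_apply _ _).1] at h'
  exact Units.ext h'

/-- The swap. -/
def Sw (F : Type*) [Field F] : Matrix.GeneralLinearGroup (Fin 1 ⊕ Fin 1) F :=
  ⟨amat 1 1, amat 1 1, by rw [amat_mul]; simp [dmat_one], by rw [amat_mul]; simp [dmat_one]⟩

theorem Sw_val : ((Sw F : Matrix.GeneralLinearGroup (Fin 1 ⊕ Fin 1) F) :
    Matrix (Fin 1 ⊕ Fin 1) (Fin 1 ⊕ Fin 1) F) = amat 1 1 := rfl

theorem Dhom_mem (u : Fˣ) : Dhom F u ∈ Cfsg.isometryGroup F (Cfsg.quadFormPlus 1 F) := by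
  rw [mem_iso]
  intro v
  rw [Q_apply, Q_apply, mulVec_inl, mulVec_inr, Dhom_val]
  obtain ⟨h1, h2, h3, h4⟩ := dmat_apply (u : F) ((u⁻¹ : Fˣ) : F)
  rw [h1, h2, h3, h4]
  have : (u : F) * ((u⁻¹ : Fˣ) : F) = 1 := by simp
  linear_combination (v (Sum.inl 0) * v (Sum.inr 0)) * this

theorem Sw_mem : Sw F ∈ Cfsg.isometryGroup F (Cfsg.quadFormPlus 1 F) := by
  rw [mem_iso]
  intro v
  rw [Q_apply, Q_apply, mulVec_inl, mulVec_inr, Sw_val]
  obtain ⟨h1, h2, h3, h4⟩ := amat_apply (1 : F) 1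
  rw [h1, h2, h3, h4]
  ring

theorem Sw_sq : Sw F * Sw F = 1 := by
  apply Units.ext
  show amat (1 : F) 1 * amat 1 1 = 1
  rw [amat_mul]; simp [dmat_one]

theorem SD_val (u : Fˣ) : ((Sw F * Dhom F u : Matrix.GeneralLinearGroup (Fin 1 ⊕ Fin 1) F) :
    Matrix (Fin 1 ⊕ Fin 1) (Fin 1 ⊕ Fin 1) F) = amat ((u⁻¹ : Fˣ) : F) (u : F) := by
  show amat (1 : F) 1 * dmat (u : F) ((u⁻¹ : Fˣ) : F) = _
  rw [amat_dmat, one_mul, one_mul]

theorem SD_sq (u : Fˣ) : (Sw F * Dhom F u) * (Sw F * Dhom F u) = 1 := by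
  apply Units.ext
  rw [Units.val_mul, SD_val, amat_mul]
  simp [dmat_one]

theorem card_le [Fintype F] :
    Nat.card (Cfsg.isometryGroup F (Cfsg.quadFormPlus 1 F)) ≤ 2 * (Fintype.card F - 1) := by
  classical
  have key : ∀ g : Cfsg.isometryGroup F (Cfsg.quadFormPlus 1 F),
      ((g.1 : Matrix (Fin 1 ⊕ Fin 1) (Fin 1 ⊕ Fin 1) F) (Sum.inl 0) (Sum.inl 0) = 0 →
        (g.1 : Matrix (Fin 1 ⊕ Fin 1) (Fin 1 ⊕ Fin 1) F) (Sum.inl 0) (Sum.inr 0) ≠ 0) := by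
    intro g h
    rcases shape g.1 g.2 with ⟨h1, -, -⟩ | ⟨h1, -, -⟩
    · rw [h, zero_mul] at h1; exact absurd h1 zero_ne_one
    · intro h0; rw [h0, zero_mul] at h1; exact absurd h1 zero_ne_one
  have hinj : Function.Injective (fun g : Cfsg.isometryGroup F (Cfsg.quadFormPlus 1 F) =>
      if h : (g.1 : Matrix (Fin 1 ⊕ Fin 1) (Fin 1 ⊕ Fin 1) F) (Sum.inl 0) (Sum.inl 0) = 0 then
        ((Units.mk0 _ (key g h), false) : Fˣ × Bool)
      else (Units.mk0 _ h, true)) := by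
    intro g g' hgg
    apply Subtype.ext
    apply Units.ext
    by_cases h : (g.1 : Matrix (Fin 1 ⊕ Fin 1) (Fin 1 ⊕ Fin 1) F) (Sum.inl 0) (Sum.inl 0) = 0 <;>
      by_cases h' : (g'.1 : Matrix (Fin 1 ⊕ Fin 1) (Fin 1 ⊕ Fin 1) F) (Sum.inl 0) (Sum.inl 0) = 0
    · simp only [dif_pos h, dif_pos h'] at hgg
      have e : (g.1 : Matrix (Fin 1 ⊕ Fin 1) (Fin 1 ⊕ Fin 1) F) (Sum.inl 0) (Sum.inr 0) =
          (g'.1 : Matrix (Fin 1 ⊕ Fin 1) (Fin 1 ⊕ Fin 1) F) (Sum.inl 0) (Sum.inr 0) :=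
        congrArg (fun p : Fˣ × Bool => (p.1 : F)) hgg
      rcases shape g.1 g.2 with ⟨h1, -, -⟩ | ⟨h1, h2, h3⟩
      · rw [h, zero_mul] at h1; exact absurd h1 zero_ne_one
      rcases shape g'.1 g'.2 with ⟨h1', -, -⟩ | ⟨h1', h2', h3'⟩
      · rw [h', zero_mul] at h1'; exact absurd h1' zero_ne_one
      apply mat_ext
      · rw [h2, h2']
      · exact e
      · have hb := key g h
        rw [← e] at h1'
        exact mul_left_cancel₀ hb (h1.trans h1'.symm)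
      · rw [h3, h3']
    · simp only [dif_pos h, dif_neg h'] at hgg
      have := congrArg (fun p : Fˣ × Bool => p.2) hgg
      simp at this
    · simp only [dif_neg h, dif_pos h'] at hgg
      have := congrArg (fun p : Fˣ × Bool => p.2) hgg
      simp at this
    · simp only [dif_neg h, dif_neg h'] at hgg
      have e : (g.1 : Matrix (Fin 1 ⊕ Fin 1) (Fin 1 ⊕ Fin 1) F) (Sum.inl 0) (Sum.inl 0) =
          (g'.1 : Matrix (Fin 1 ⊕ Fin 1) (Fin 1 ⊕ Fin 1) F) (Sum.inl 0) (Sum.inl 0) :=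
        congrArg (fun p : Fˣ × Bool => (p.1 : F)) hgg
      rcases shape g.1 g.2 with ⟨h1, h2, h3⟩ | ⟨-, h2, -⟩
      swap
      · exact absurd h2 h
      rcases shape g'.1 g'.2 with ⟨h1', h2', h3'⟩ | ⟨-, h2', -⟩
      swap
      · exact absurd h2' h'
      apply mat_ext
      · exact e
      · rw [h2, h2']
      · rw [h3, h3']
      · rw [← e] at h1'
        exact mul_left_cancel₀ h (h1.trans h1'.symm)
  have := Nat.card_le_card_of_injective _ hinj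
  rw [Nat.card_prod, Nat.card_eq_fintype_card (α := Fˣ), Nat.card_eq_fintype_card (α := Bool),
    Fintype.card_units, Fintype.card_bool] at this
  omega

end plus

/-- GO^+_2(q) is dihedral of order 2(q-1). -/
theorem result {F : Type*} [Field F] [Fintype F] {q : ℕ} (hF : Fintype.card F = q) : Nonempty (Cfsg.isometryGroup F (Cfsg.quadFormPlus 1 F) ≃* DihedralGroup (q - 1)) := by
  classical
  have hcard := card_le (F := F)
  rw [hF] at hcard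
  obtain ⟨ζ, hζ⟩ := IsCyclic.exists_generator (α := Fˣ)
  have hζo : orderOf ζ = q - 1 := by
    rw [orderOf_eq_card_of_forall_mem_zpowers hζ, Nat.card_eq_fintype_card, Fintype.card_units, hF]
  obtain ⟨X, hX⟩ : ∃ X : Cfsg.isometryGroup F (Cfsg.quadFormPlus 1 F), X.1 = Sw F :=
    ⟨⟨Sw F, Sw_mem⟩, rfl⟩
  obtain ⟨Y, hY⟩ : ∃ Y : Cfsg.isometryGroup F (Cfsg.quadFormPlus 1 F), Y.1 = Sw F * Dhom F ζ :=
    ⟨⟨Sw F * Dhom F ζ, mul_mem Sw_mem (Dhom_mem ζ)⟩, rfl⟩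
  have hX1 : X ≠ 1 := by
    intro h
    have h1 : (X.1 : Matrix (Fin 1 ⊕ Fin 1) (Fin 1 ⊕ Fin 1) F) (Sum.inl 0) (Sum.inl 0) = 1 := by
      rw [h]; simp
    rw [hX, Sw_val, (amat_apply _ _).1] at h1
    exact zero_ne_one h1
  have hXo : orderOf X = 2 := by
    apply orderOf_eq_prime
    · apply Subtype.ext
      rw [pow_two]
      show X.1 * X.1 = 1
      rw [hX]; exact Sw_sq
    · exact hX1
  have hY1 : Y ≠ 1 := by
    intro h
    have h1 : (Y.1 : Matrix (Fin 1 ⊕ Fin 1) (Fin 1 ⊕ Fin 1) F) (Sum.inl 0) (Sum.inl 0) = 1 := by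
      rw [h]; simp
    rw [hY, SD_val, (amat_apply _ _).1] at h1
    exact zero_ne_one h1
  have hYo : orderOf Y = 2 := by
    apply orderOf_eq_prime
    · apply Subtype.ext
      rw [pow_two]
      show Y.1 * Y.1 = 1
      rw [hY]; exact SD_sq ζ
    · exact hY1
  have hXY : (X * Y).1 = Dhom F ζ := by
    show X.1 * Y.1 = _
    rw [hX, hY, ← mul_assoc, Sw_sq, one_mul]
  have hXYo : orderOf (X * Y) = q - 1 := by
    rw [← Subgroup.orderOf_coe, hXY, orderOf_injective (Dhom F) Dhom_inj, hζo]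
  by_cases hq : q - 1 = 1
  · rw [hq] at hcard ⊢
    have h2 : 2 ∣ Nat.card (Cfsg.isometryGroup F (Cfsg.quadFormPlus 1 F)) := by
      rw [← hXo]; exact orderOf_dvd_natCard X
    have hpos : 0 < Nat.card (Cfsg.isometryGroup F (Cfsg.quadFormPlus 1 F)) := Nat.card_pos
    have hG : Nat.card (Cfsg.isometryGroup F (Cfsg.quadFormPlus 1 F)) = 2 := by
      have := Nat.le_of_dvd hpos h2
      omega
    haveI : Fact (Nat.Prime 2) := ⟨Nat.prime_two⟩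
    exact ⟨mulEquivOfPrimeCardEq (p := 2) hG (by rw [DihedralGroup.nat_card])⟩
  · apply dih_of_invol X Y hXo hYo _ (q - 1) hXYo hcard
    intro hXYeq
    have h1 : (X * Y).1 = 1 := by
      rw [← hXYeq]
      show X.1 * X.1 = 1
      rw [hX]; exact Sw_sq
    rw [hXY] at h1
    have : ζ = 1 := Dhom_inj (h1.trans (map_one _).symm)
    rw [this, orderOf_one] at hζo
    exact hq hζo.symm

end Cfsg.Agent.S0305
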