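import Mathlib
import Cfsg.Statements.S0306
import Cfsg.Agent.S0305

set_option autoImplicit false
open Cfsg

namespace Cfsg.Agent.S0306

section field

open QuadraticAlgebra

variable {F : Type*} [Field F] {a b : F}

theorem fact_of_aniso
    (hab : ∀ z₁ z₂ : F, z₁ ^ 2 + a * z₁ * z₂ + b * z₂ ^ 2 = 0 → z₁ = 0 ∧ z₂ = 0) :
    ∀ r : F, r ^ 2 ≠ -b + a * r := by
  intro r hr
  have := (hab r (-1) (by linear_combination hr)).2
  exact one_ne_zero (neg_eq_zero.1 this)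

variable [Fintype F] [Fact (∀ r : F, r ^ 2 ≠ -b + a * r)]

theorem card_units_K : Nat.card (QuadraticAlgebra F (-b) a)ˣ =
    Fintype.card F * Fintype.card F - 1 := by
  classical
  haveI : Finite (QuadraticAlgebra F (-b) a) :=
    Finite.of_equiv _ (QuadraticAlgebra.equivProd (-b) a).symm
  rw [Nat.card_units, Nat.card_congr (QuadraticAlgebra.equivProd (-b) a), Nat.card_prod,
    Nat.card_eq_fintype_card]

theorem frob_eq_star (z : QuadraticAlgebra F (-b) a) : z ^ Fintype.card F = star z := by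
  classical
  haveI : Finite (QuadraticAlgebra F (-b) a) :=
    Finite.of_equiv _ (QuadraticAlgebra.equivProd (-b) a).symm
  obtain ⟨φ, hφ⟩ : ∃ φ : QuadraticAlgebra F (-b) a →ₐ[F] QuadraticAlgebra F (-b) a,
      ∀ z, φ z = z ^ Fintype.card F :=
    ⟨FiniteField.frobeniusAlgHom F (QuadraticAlgebra F (-b) a), fun z => rfl⟩
  have hω : φ ω = ω ∨ φ ω = star ω := by
    have h1 : φ ω * φ ω = algebraMap F _ (-b) + algebraMap F _ a * φ ω := by
      rw [← map_mul, omega_mul_omega_eq_algebraMap, map_add, map_mul, AlgHom.commutes,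
        AlgHom.commutes]
    have e1 : (ω : QuadraticAlgebra F (-b) a) + star ω = algebraMap F _ a := by
      ext <;> simp
    have e2 : (ω : QuadraticAlgebra F (-b) a) * star ω = algebraMap F _ b := by
      ext <;> simp
    have h2 : (φ ω - ω) * (φ ω - star ω) = 0 := by
      have : (φ ω - ω) * (φ ω - star ω) = φ ω * φ ω - (ω + star ω) * φ ω + ω * star ω := by ring
      rw [this, h1, e1, e2, map_neg]; ring
    rcases mul_eq_zero.1 h2 with h | h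
    · left; exact sub_eq_zero.1 h
    · right; exact sub_eq_zero.1 h
  have hne : φ ω ≠ ω := by
    intro h
    have hid : ∀ z : QuadraticAlgebra F (-b) a, φ z = z := by
      intro z
      have : φ = AlgHom.id F _ := QuadraticAlgebra.algHom_ext (by rw [h]; rfl)
      rw [this]; rfl
    obtain ⟨ζ, hζ⟩ := IsCyclic.exists_generator (α := (QuadraticAlgebra F (-b) a)ˣ)
    have hord : orderOf ζ = Nat.card (QuadraticAlgebra F (-b) a)ˣ :=
      orderOf_eq_card_of_forall_mem_zpowers hζ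
    have h1 : (ζ : QuadraticAlgebra F (-b) a) ^ Fintype.card F = ζ := by
      rw [← hφ]; exact hid ζ
    have hq : 1 ≤ Fintype.card F := Fintype.card_pos
    have h2 : ζ ^ (Fintype.card F - 1) = 1 := by
      apply Units.ext
      rw [Units.val_pow_eq_pow_val, Units.val_one]
      have : (ζ : QuadraticAlgebra F (-b) a) ^ (Fintype.card F - 1) * ζ = 1 * ζ := by
        rw [← pow_succ, Nat.sub_add_cancel hq, one_mul]; exact h1
      exact mul_right_cancel₀ ζ.ne_zero this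
    have h3 := orderOf_dvd_of_pow_eq_one h2
    rw [hord, card_units_K] at h3
    have hq2 : 2 ≤ Fintype.card F := Fintype.one_lt_card
    have h4 := Nat.le_of_dvd (by omega) h3
    have h5 : Fintype.card F * 2 ≤ Fintype.card F * Fintype.card F :=
      Nat.mul_le_mul_left _ hq2
    omega
  have hω' : φ ω = star ω := hω.resolve_left hne
  rw [← hφ]
  obtain ⟨x, y⟩ := z
  rw [mk_eq_add_smul_omega, map_add, map_smul, AlgHom.commutes, hω']
  ext
  · simp; ring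
  · simp

theorem pow_eq_norm (z : QuadraticAlgebra F (-b) a) :
    z ^ (Fintype.card F + 1) = algebraMap F _ (QuadraticAlgebra.norm z) := by
  rw [pow_succ, frob_eq_star, algebraMap_norm_eq_mul_star, mul_comm]

theorem norm_one_of_pow (z : QuadraticAlgebra F (-b) a) (hz : z ^ (Fintype.card F + 1) = 1) :
    QuadraticAlgebra.norm z = 1 := by
  rw [pow_eq_norm] at hz
  have h1 : algebraMap F (QuadraticAlgebra F (-b) a) (QuadraticAlgebra.norm z) =
      algebraMap F (QuadraticAlgebra F (-b) a) 1 := by rw [hz, map_one]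
  exact (algebraMap F (QuadraticAlgebra F (-b) a)).injective h1

theorem exists_u0 : ∃ u : (QuadraticAlgebra F (-b) a)ˣ, orderOf u = Fintype.card F + 1 ∧
    u ^ (Fintype.card F + 1) = 1 := by
  classical
  haveI : Finite (QuadraticAlgebra F (-b) a) :=
    Finite.of_equiv _ (QuadraticAlgebra.equivProd (-b) a).symm
  obtain ⟨ζ, hζ⟩ := IsCyclic.exists_generator (α := (QuadraticAlgebra F (-b) a)ˣ)
  have hord : orderOf ζ = Fintype.card F * Fintype.card F - 1 := by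
    rw [orderOf_eq_card_of_forall_mem_zpowers hζ, card_units_K]
  have hq2 : 2 ≤ Fintype.card F := Fintype.one_lt_card
  have hfac : Fintype.card F * Fintype.card F - 1 = (Fintype.card F - 1) * (Fintype.card F + 1) := by
    obtain ⟨k, hk⟩ : ∃ k, Fintype.card F = k + 1 := ⟨Fintype.card F - 1, by omega⟩
    rw [hk]
    simp only [Nat.add_sub_cancel]
    ring_nf
    omega
  have ho : orderOf (ζ ^ (Fintype.card F - 1)) = Fintype.card F + 1 := by
    rw [orderOf_pow, hord, hfac, Nat.gcd_eq_right (Dvd.intro _ rfl),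
      Nat.mul_div_cancel_left _ (by omega)]
  refine ⟨ζ ^ (Fintype.card F - 1), ho, ?_⟩
  rw [← ho]; exact pow_orderOf_eq_one _

theorem card_roots_le : Nat.card {u : (QuadraticAlgebra F (-b) a)ˣ // u ^ (Fintype.card F + 1) = 1}
    ≤ Fintype.card F + 1 := by
  classical
  haveI : Finite (QuadraticAlgebra F (-b) a) :=
    Finite.of_equiv _ (QuadraticAlgebra.equivProd (-b) a).symm
  haveI : Fintype (QuadraticAlgebra F (-b) a)ˣ := Fintype.ofFinite _
  have h := IsCyclic.card_pow_eq_one_le (α := (QuadraticAlgebra F (-b) a)ˣ)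
    (n := Fintype.card F + 1) (by omega)
  rw [Nat.card_eq_fintype_card, Fintype.card_subtype]
  exact h

end field

section mats

open Matrix QuadraticAlgebra

variable {F : Type*} [Field F]

/-- A matrix on the index type `(Fin 0 ⊕ Fin 0) ⊕ Fin 2` from its four entries. -/
def M2 (α β γ δ : F) : Matrix ((Fin 0 ⊕ Fin 0) ⊕ Fin 2) ((Fin 0 ⊕ Fin 0) ⊕ Fin 2) F :=
  Matrix.fromBlocks 0 0 0 !![α, β; γ, δ]

theorem M2_mul (α β γ δ α' β' γ' δ' : F) :
    M2 α β γ δ * M2 α' β' γ' δ' =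
      M2 (α * α' + β * γ') (α * β' + β * δ') (γ * α' + δ * γ') (γ * β' + δ * δ') := by
  unfold M2
  rw [Matrix.fromBlocks_multiply, Matrix.mul_fin_two]
  simp

theorem M2_one : M2 (1 : F) 0 0 1 = 1 := by
  unfold M2
  rw [← Matrix.one_fin_two]
  have : (0 : Matrix (Fin 0 ⊕ Fin 0) (Fin 0 ⊕ Fin 0) F) = 1 := Subsingleton.elim _ _
  rw [this, Matrix.fromBlocks_one]

theorem M2_00 (α β γ δ : F) : M2 α β γ δ (Sum.inr 0) (Sum.inr 0) = α := by unfold M2; simp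
theorem M2_01 (α β γ δ : F) : M2 α β γ δ (Sum.inr 0) (Sum.inr 1) = β := by unfold M2; simp
theorem M2_10 (α β γ δ : F) : M2 α β γ δ (Sum.inr 1) (Sum.inr 0) = γ := by unfold M2; simp
theorem M2_11 (α β γ δ : F) : M2 α β γ δ (Sum.inr 1) (Sum.inr 1) = δ := by unfold M2; simp

omit [Field F] in
theorem mat_ext2 (M N : Matrix ((Fin 0 ⊕ Fin 0) ⊕ Fin 2) ((Fin 0 ⊕ Fin 0) ⊕ Fin 2) F)
    (h00 : M (Sum.inr 0) (Sum.inr 0) = N (Sum.inr 0) (Sum.inr 0))
    (h01 : M (Sum.inr 0) (Sum.inr 1) = N (Sum.inr 0) (Sum.inr 1))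
    (h10 : M (Sum.inr 1) (Sum.inr 0) = N (Sum.inr 1) (Sum.inr 0))
    (h11 : M (Sum.inr 1) (Sum.inr 1) = N (Sum.inr 1) (Sum.inr 1)) : M = N := by
  ext i j
  rcases i with i | i
  · rcases i with i | i <;> exact i.elim0
  rcases j with j | j
  · rcases j with j | j <;> exact j.elim0
  fin_cases i <;> fin_cases j <;> assumption

theorem eq_M2 (M : Matrix ((Fin 0 ⊕ Fin 0) ⊕ Fin 2) ((Fin 0 ⊕ Fin 0) ⊕ Fin 2) F) :
    M = M2 (M (Sum.inr 0) (Sum.inr 0)) (M (Sum.inr 0) (Sum.inr 1)) (M (Sum.inr 1) (Sum.inr 0))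
      (M (Sum.inr 1) (Sum.inr 1)) := by
  apply mat_ext2
  · rw [M2_00]
  · rw [M2_01]
  · rw [M2_10]
  · rw [M2_11]

theorem mulVec0 (M : Matrix ((Fin 0 ⊕ Fin 0) ⊕ Fin 2) ((Fin 0 ⊕ Fin 0) ⊕ Fin 2) F)
    (v : (Fin 0 ⊕ Fin 0) ⊕ Fin 2 → F) :
    (M *ᵥ v) (Sum.inr 0) = M (Sum.inr 0) (Sum.inr 0) * v (Sum.inr 0) +
      M (Sum.inr 0) (Sum.inr 1) * v (Sum.inr 1) := by
  simp [Matrix.mulVec, dotProduct, Fintype.sum_sum_type, Fin.sum_univ_two]

theorem mulVec1 (M : Matrix ((Fin 0 ⊕ Fin 0) ⊕ Fin 2) ((Fin 0 ⊕ Fin 0) ⊕ Fin 2) F)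
    (v : (Fin 0 ⊕ Fin 0) ⊕ Fin 2 → F) :
    (M *ᵥ v) (Sum.inr 1) = M (Sum.inr 1) (Sum.inr 0) * v (Sum.inr 0) +
      M (Sum.inr 1) (Sum.inr 1) * v (Sum.inr 1) := by
  simp [Matrix.mulVec, dotProduct, Fintype.sum_sum_type, Fin.sum_univ_two]

/-- The binary form. -/
def Nf (a b x y : F) : F := x ^ 2 + a * x * y + b * y ^ 2

theorem Qm_apply (a b : F) (v : (Fin 0 ⊕ Fin 0) ⊕ Fin 2 → F) :
    Cfsg.quadFormMinus 0 F a b v = Nf a b (v (Sum.inr 0)) (v (Sum.inr 1)) := by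
  unfold Cfsg.quadFormMinus Nf; simp

theorem mem_isoM (a b : F) (g : Matrix.GeneralLinearGroup ((Fin 0 ⊕ Fin 0) ⊕ Fin 2) F) :
    g ∈ Cfsg.isometryGroup F (Cfsg.quadFormMinus 0 F a b) ↔
      ∀ x y : F, Nf a b
        ((g : Matrix ((Fin 0 ⊕ Fin 0) ⊕ Fin 2) ((Fin 0 ⊕ Fin 0) ⊕ Fin 2) F) (Sum.inr 0) (Sum.inr 0) * x +
          (g : Matrix ((Fin 0 ⊕ Fin 0) ⊕ Fin 2) ((Fin 0 ⊕ Fin 0) ⊕ Fin 2) F) (Sum.inr 0) (Sum.inr 1) * y)
        ((g : Matrix ((Fin 0 ⊕ Fin 0) ⊕ Fin 2) ((Fin 0 ⊕ Fin 0) ⊕ Fin 2) F) (Sum.inr 1) (Sum.inr 0) * x +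
          (g : Matrix ((Fin 0 ⊕ Fin 0) ⊕ Fin 2) ((Fin 0 ⊕ Fin 0) ⊕ Fin 2) F) (Sum.inr 1) (Sum.inr 1) * y)
        = Nf a b x y := by
  constructor
  · intro h x y
    have h' : Cfsg.quadFormMinus 0 F a b
        ((g : Matrix ((Fin 0 ⊕ Fin 0) ⊕ Fin 2) ((Fin 0 ⊕ Fin 0) ⊕ Fin 2) F) *ᵥ
          (Sum.elim (fun _ => 0) ![x, y])) =
        Cfsg.quadFormMinus 0 F a b (Sum.elim (fun _ => 0) ![x, y]) :=
      h (Sum.elim (fun _ => 0) ![x, y]) (Sum.elim (fun _ => 0) ![x, y])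
    rw [Qm_apply, Qm_apply, mulVec0, mulVec1] at h'
    simpa using h'
  · intro h u v
    show Cfsg.quadFormMinus 0 F a b
      ((g : Matrix ((Fin 0 ⊕ Fin 0) ⊕ Fin 2) ((Fin 0 ⊕ Fin 0) ⊕ Fin 2) F) *ᵥ u) =
      Cfsg.quadFormMinus 0 F a b u
    rw [Qm_apply, Qm_apply, mulVec0, mulVec1]
    exact h _ _

/-- Matrix of multiplication by `z`. -/
def Rm (a b : F) (z : QuadraticAlgebra F (-b) a) :
    Matrix ((Fin 0 ⊕ Fin 0) ⊕ Fin 2) ((Fin 0 ⊕ Fin 0) ⊕ Fin 2) F :=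
  M2 z.re (-b * z.im) z.im (z.re + a * z.im)

theorem Rm_mul (a b : F) (z w : QuadraticAlgebra F (-b) a) :
    Rm a b (z * w) = Rm a b z * Rm a b w := by
  unfold Rm
  rw [M2_mul]
  congr 1 <;> simp only [re_mul, im_mul] <;> ring

theorem Rm_one (a b : F) : Rm a b (1 : QuadraticAlgebra F (-b) a) = 1 := by
  unfold Rm
  rw [← M2_one]
  congr 1 <;> simp

theorem Rm_inj (a b : F) : Function.Injective (Rm a b) := by
  intro z w h
  unfold Rm at h
  have e00 := congrFun (congrFun h (Sum.inr 0)) (Sum.inr 0)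
  have e10 := congrFun (congrFun h (Sum.inr 1)) (Sum.inr 0)
  rw [M2_00, M2_00] at e00
  rw [M2_10, M2_10] at e10
  exact QuadraticAlgebra.ext e00 e10

/-- The rotation map as a monoid hom. -/
def Rmon (a b : F) : QuadraticAlgebra F (-b) a →*
    Matrix ((Fin 0 ⊕ Fin 0) ⊕ Fin 2) ((Fin 0 ⊕ Fin 0) ⊕ Fin 2) F where
  toFun := Rm a b
  map_one' := Rm_one a b
  map_mul' := Rm_mul a b

theorem Rhom_val (a b : F) (u : (QuadraticAlgebra F (-b) a)ˣ) :
    ((Units.map (Rmon a b) u : Matrix.GeneralLinearGroup ((Fin 0 ⊕ Fin 0) ⊕ Fin 2) F) :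
      Matrix ((Fin 0 ⊕ Fin 0) ⊕ Fin 2) ((Fin 0 ⊕ Fin 0) ⊕ Fin 2) F) =
      Rm a b (u : QuadraticAlgebra F (-b) a) := rfl

theorem Rhom_mem (a b : F) (u : (QuadraticAlgebra F (-b) a)ˣ)
    (hu : QuadraticAlgebra.norm (u : QuadraticAlgebra F (-b) a) = 1) :
    Units.map (Rmon a b) u ∈ Cfsg.isometryGroup F (Cfsg.quadFormMinus 0 F a b) := by
  rw [mem_isoM]
  intro x y
  rw [Rhom_val]
  unfold Rm
  rw [M2_00, M2_01, M2_10, M2_11]
  rw [QuadraticAlgebra.norm_def] at hu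
  unfold Nf
  linear_combination (x ^ 2 + a * x * y + b * y ^ 2) * hu

/-- The conjugation. -/
def Sg (a : F) : Matrix.GeneralLinearGroup ((Fin 0 ⊕ Fin 0) ⊕ Fin 2) F :=
  ⟨M2 1 a 0 (-1), M2 1 a 0 (-1), by rw [M2_mul, ← M2_one]; congr 1 <;> ring,
    by rw [M2_mul, ← M2_one]; congr 1 <;> ring⟩

theorem Sg_val (a : F) : ((Sg a : Matrix.GeneralLinearGroup ((Fin 0 ⊕ Fin 0) ⊕ Fin 2) F) :
    Matrix ((Fin 0 ⊕ Fin 0) ⊕ Fin 2) ((Fin 0 ⊕ Fin 0) ⊕ Fin 2) F) = M2 1 a 0 (-1) := rfl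

theorem Sg_sq (a : F) : Sg a * Sg a = 1 := by
  apply Units.ext
  show M2 1 a 0 (-1) * M2 1 a 0 (-1) = 1
  rw [M2_mul, ← M2_one]; congr 1 <;> ring

theorem Sg_mem (a b : F) : Sg a ∈ Cfsg.isometryGroup F (Cfsg.quadFormMinus 0 F a b) := by
  rw [mem_isoM]
  intro x y
  rw [Sg_val, M2_00, M2_01, M2_10, M2_11]
  unfold Nf
  ring

theorem RS_sq (a b : F) (u : (QuadraticAlgebra F (-b) a)ˣ)
    (hu : QuadraticAlgebra.norm (u : QuadraticAlgebra F (-b) a) = 1) :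
    (Units.map (Rmon a b) u * Sg a) * (Units.map (Rmon a b) u * Sg a) = 1 := by
  apply Units.ext
  show Rm a b (u : QuadraticAlgebra F (-b) a) * M2 1 a 0 (-1) *
    (Rm a b (u : QuadraticAlgebra F (-b) a) * M2 1 a 0 (-1)) = 1
  unfold Rm
  rw [QuadraticAlgebra.norm_def] at hu
  rw [M2_mul, M2_mul, ← M2_one]
  congr 1
  · linear_combination hu
  · ring
  · ring
  · linear_combination hu

theorem disc_ne [Fintype F] (a b : F)
    (hab : ∀ z₁ z₂ : F, z₁ ^ 2 + a * z₁ * z₂ + b * z₂ ^ 2 = 0 → z₁ = 0 ∧ z₂ = 0) :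
    a ^ 2 - 4 * b ≠ 0 := by
  intro h
  by_cases h2 : (2 : F) = 0
  · have ha : a = 0 := by
      have : a ^ 2 = 0 := by linear_combination h + 2 * b * h2
      exact pow_eq_zero_iff (two_ne_zero) |>.1 this
    haveI : CharP F 2 := CharTwo.of_one_ne_zero_of_two_eq_zero one_ne_zero h2
    have hchar : ringChar F = 2 := ringChar.eq F 2
    obtain ⟨t, ht⟩ := FiniteField.isSquare_of_char_two hchar b
    have := (hab t 1 (by rw [ha, ht]; linear_combination t * t * h2)).2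
    exact one_ne_zero this
  · have e : (-a / 2) ^ 2 + a * (-a / 2) * 1 + b * 1 ^ 2 = -(a ^ 2 - 4 * b) / (2 * 2) := by
      field_simp; ring
    have := (hab (-a / 2) 1 (by rw [e, h, neg_zero, zero_div])).2
    exact one_ne_zero this

theorem sigma_ne (a b : F) (hΔ : a ^ 2 - 4 * b ≠ 0) (z : QuadraticAlgebra F (-b) a) :
    M2 1 a 0 (-1) ≠ Rm a b z := by
  intro h
  unfold Rm at h
  have e00 := congrFun (congrFun h (Sum.inr 0)) (Sum.inr 0)
  have e01 := congrFun (congrFun h (Sum.inr 0)) (Sum.inr 1)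
  have e10 := congrFun (congrFun h (Sum.inr 1)) (Sum.inr 0)
  have e11 := congrFun (congrFun h (Sum.inr 1)) (Sum.inr 1)
  rw [M2_00, M2_00] at e00
  rw [M2_01, M2_01] at e01
  rw [M2_10, M2_10] at e10
  rw [M2_11, M2_11] at e11
  rw [← e10] at e01 e11
  have ha : a = 0 := by linear_combination e01
  have h2 : (2 : F) = 0 := by linear_combination e00 - e11
  apply hΔ
  rw [ha]
  linear_combination (-2 * b) * h2

theorem shape0 (a b : F) (hΔ : a ^ 2 - 4 * b ≠ 0)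
    (h : Matrix.GeneralLinearGroup ((Fin 0 ⊕ Fin 0) ⊕ Fin 2) F)
    (hh : h ∈ Cfsg.isometryGroup F (Cfsg.quadFormMinus 0 F a b))
    (h00 : (h : Matrix ((Fin 0 ⊕ Fin 0) ⊕ Fin 2) ((Fin 0 ⊕ Fin 0) ⊕ Fin 2) F) (Sum.inr 0) (Sum.inr 0) = 1)
    (h10 : (h : Matrix ((Fin 0 ⊕ Fin 0) ⊕ Fin 2) ((Fin 0 ⊕ Fin 0) ⊕ Fin 2) F) (Sum.inr 1) (Sum.inr 0) = 0) :
    (h : Matrix ((Fin 0 ⊕ Fin 0) ⊕ Fin 2) ((Fin 0 ⊕ Fin 0) ⊕ Fin 2) F) = 1 ∨
    (h : Matrix ((Fin 0 ⊕ Fin 0) ⊕ Fin 2) ((Fin 0 ⊕ Fin 0) ⊕ Fin 2) F) = M2 1 a 0 (-1) := by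
  have hh' := (mem_isoM a b h).1 hh
  have e2 := hh' 0 1
  have e1 := hh' 1 1
  rw [h00, h10] at e1 e2
  unfold Nf at e1 e2
  obtain ⟨β, hβ⟩ : ∃ β, β = (h : Matrix ((Fin 0 ⊕ Fin 0) ⊕ Fin 2) ((Fin 0 ⊕ Fin 0) ⊕ Fin 2) F)
    (Sum.inr 0) (Sum.inr 1) := ⟨_, rfl⟩
  obtain ⟨δ, hδ⟩ : ∃ δ, δ = (h : Matrix ((Fin 0 ⊕ Fin 0) ⊕ Fin 2) ((Fin 0 ⊕ Fin 0) ⊕ Fin 2) F)
    (Sum.inr 1) (Sum.inr 1) := ⟨_, rfl⟩
  rw [← hβ, ← hδ] at e1 e2
  have E2 : β ^ 2 + a * β * δ + b * δ ^ 2 = b := by linear_combination e2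
  have E1 : 2 * β + a * δ = a := by linear_combination e1 - e2
  have k1 : (δ + 1) * (a * β - 2 * b * (1 - δ)) = 0 := by linear_combination 2 * E2 - β * E1
  have hmat : ∀ β' δ' : F, β = β' → δ = δ' →
      (h : Matrix ((Fin 0 ⊕ Fin 0) ⊕ Fin 2) ((Fin 0 ⊕ Fin 0) ⊕ Fin 2) F) = M2 1 β' 0 δ' := by
    intro β' δ' hb hd
    rw [eq_M2 (h : Matrix ((Fin 0 ⊕ Fin 0) ⊕ Fin 2) ((Fin 0 ⊕ Fin 0) ⊕ Fin 2) F), h00, h10,
      ← hβ, ← hδ, hb, hd]
  rcases mul_eq_zero.1 k1 with hd | hd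
  · have hδ' : δ = -1 := by linear_combination hd
    rw [hδ'] at E1 E2
    have k2 : β * (β - a) = 0 := by linear_combination E2
    rcases mul_eq_zero.1 k2 with hb | hb
    · have h2a : 2 * a = 0 := by rw [hb] at E1; linear_combination -E1
      by_cases ha : a = 0
      · right; exact hmat a (-1) (by rw [hb, ha]) hδ'
      · left
        have h2 : (2 : F) = 0 := by
          rcases mul_eq_zero.1 h2a with h | h
          · exact h
          · exact absurd h ha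
        rw [← M2_one]
        exact hmat 0 1 hb (by rw [hδ']; linear_combination -h2)
    · right; exact hmat a (-1) (by linear_combination hb) hδ'
  · have k3 : (a ^ 2 - 4 * b) * (1 - δ) = 0 := by linear_combination -a * E1 + 2 * hd
    have hδ' : δ = 1 := by
      rcases mul_eq_zero.1 k3 with h | h
      · exact absurd h hΔ
      · linear_combination -h
    rw [hδ'] at E1 E2
    have k2 : β * (β + a) = 0 := by linear_combination E2
    rcases mul_eq_zero.1 k2 with hb | hb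
    · left; rw [← M2_one]; exact hmat 0 1 hb hδ'
    · have h2a : 2 * a = 0 := by linear_combination 2 * hb - E1
      by_cases ha : a = 0
      · left; rw [← M2_one]; exact hmat 0 1 (by rw [ha] at hb; linear_combination hb) hδ'
      · right
        have h2 : (2 : F) = 0 := by
          rcases mul_eq_zero.1 h2a with h | h
          · exact h
          · exact absurd h ha
        exact hmat a (-1) (by linear_combination hb - h2a) (by rw [hδ']; linear_combination h2)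

theorem decomp [Fintype F] (a b : F) [Fact (∀ r : F, r ^ 2 ≠ -b + a * r)]
    (hΔ : a ^ 2 - 4 * b ≠ 0)
    (g : Matrix.GeneralLinearGroup ((Fin 0 ⊕ Fin 0) ⊕ Fin 2) F)
    (hg : g ∈ Cfsg.isometryGroup F (Cfsg.quadFormMinus 0 F a b)) :
    ∃ u : (QuadraticAlgebra F (-b) a)ˣ, u ^ (Fintype.card F + 1) = 1 ∧
      (g = Units.map (Rmon a b) u ∨ g = Units.map (Rmon a b) u * Sg a) := by
  have hg' := (mem_isoM a b g).1 hg
  have h10 := hg' 1 0
  simp only [mul_one, mul_zero, add_zero] at h10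
  obtain ⟨α, hα⟩ : ∃ α, α = (g : Matrix ((Fin 0 ⊕ Fin 0) ⊕ Fin 2) ((Fin 0 ⊕ Fin 0) ⊕ Fin 2) F)
    (Sum.inr 0) (Sum.inr 0) := ⟨_, rfl⟩
  obtain ⟨γ, hγ⟩ : ∃ γ, γ = (g : Matrix ((Fin 0 ⊕ Fin 0) ⊕ Fin 2) ((Fin 0 ⊕ Fin 0) ⊕ Fin 2) F)
    (Sum.inr 1) (Sum.inr 0) := ⟨_, rfl⟩
  rw [← hα, ← hγ] at h10
  unfold Nf at h10
  obtain ⟨z, hz⟩ : ∃ z : QuadraticAlgebra F (-b) a, z = ⟨α, γ⟩ := ⟨_, rfl⟩
  have hzre : z.re = α := by rw [hz]
  have hzim : z.im = γ := by rw [hz]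
  have hnorm : QuadraticAlgebra.norm z = 1 := by
    rw [QuadraticAlgebra.norm_def, hzre, hzim]; linear_combination h10
  have hz0 : z ≠ 0 := by
    intro h; rw [h, QuadraticAlgebra.norm_zero] at hnorm; exact zero_ne_one hnorm
  obtain ⟨u, hu⟩ : ∃ u : (QuadraticAlgebra F (-b) a)ˣ, (u : QuadraticAlgebra F (-b) a) = z :=
    ⟨Units.mk0 z hz0, rfl⟩
  have hup : u ^ (Fintype.card F + 1) = 1 := by
    apply Units.ext
    rw [Units.val_pow_eq_pow_val, Units.val_one, hu, pow_eq_norm, hnorm, map_one]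
  refine ⟨u, hup, ?_⟩
  have hR := Rhom_mem a b u (by rw [hu]; exact hnorm)
  obtain ⟨h, hhdef⟩ : ∃ h, h = (Units.map (Rmon a b) u)⁻¹ * g := ⟨_, rfl⟩
  have hh : h ∈ Cfsg.isometryGroup F (Cfsg.quadFormMinus 0 F a b) := by
    rw [hhdef]; exact mul_mem (inv_mem hR) hg
  have hmul : Units.map (Rmon a b) u * h = g := by rw [hhdef]; group
  have hval : Rm a b z * (h : Matrix ((Fin 0 ⊕ Fin 0) ⊕ Fin 2) ((Fin 0 ⊕ Fin 0) ⊕ Fin 2) F) =
      (g : Matrix ((Fin 0 ⊕ Fin 0) ⊕ Fin 2) ((Fin 0 ⊕ Fin 0) ⊕ Fin 2) F) := by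
    rw [← hu, ← Rhom_val, ← Units.val_mul, hmul]
  obtain ⟨p, hp⟩ : ∃ p, p = (h : Matrix ((Fin 0 ⊕ Fin 0) ⊕ Fin 2) ((Fin 0 ⊕ Fin 0) ⊕ Fin 2) F)
    (Sum.inr 0) (Sum.inr 0) := ⟨_, rfl⟩
  obtain ⟨s, hs⟩ : ∃ s, s = (h : Matrix ((Fin 0 ⊕ Fin 0) ⊕ Fin 2) ((Fin 0 ⊕ Fin 0) ⊕ Fin 2) F)
    (Sum.inr 1) (Sum.inr 0) := ⟨_, rfl⟩
  rw [eq_M2 (h : Matrix ((Fin 0 ⊕ Fin 0) ⊕ Fin 2) ((Fin 0 ⊕ Fin 0) ⊕ Fin 2) F)] at hval
  unfold Rm at hval
  rw [M2_mul, ← hp, ← hs, hzre, hzim] at hval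
  have e00 := congrFun (congrFun hval (Sum.inr 0)) (Sum.inr 0)
  have e10 := congrFun (congrFun hval (Sum.inr 1)) (Sum.inr 0)
  rw [M2_00, ← hα] at e00
  rw [M2_10, ← hγ] at e10
  have hzw : z * (⟨p, s⟩ : QuadraticAlgebra F (-b) a) = z * 1 := by
    rw [mul_one]
    apply QuadraticAlgebra.ext
    · rw [re_mul, hzre, hzim]; linear_combination e00
    · rw [im_mul, hzre, hzim]; linear_combination e10
  have hw : (⟨p, s⟩ : QuadraticAlgebra F (-b) a) = 1 := mul_left_cancel₀ hz0 hzw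
  have hp1 : p = 1 := congrArg QuadraticAlgebra.re hw
  have hs0 : s = 0 := congrArg QuadraticAlgebra.im hw
  rcases shape0 a b hΔ h hh (by rw [← hp, hp1]) (by rw [← hs, hs0]) with h1 | h1
  · left
    have : h = 1 := Units.ext h1
    rw [← hmul, this, mul_one]
  · right
    have : h = Sg a := Units.ext h1
    rw [← hmul, this]

end mats

/-- GO^-_2(q) is dihedral of order 2(q+1). -/
theorem result {F : Type*} [Field F] [Fintype F] {q : ℕ} (hF : Fintype.card F = q) (a b : F) (hab : ∀ z₁ z₂ : F, z₁ ^ 2 + a * z₁ * z₂ + b * z₂ ^ 2 = 0 → z₁ = 0 ∧ z₂ = 0) : Nonempty (Cfsg.isometryGroup F (Cfsg.quadFormMinus 0 F a b) ≃* DihedralGroup (q + 1)) := by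
  classical
  haveI : Fact (∀ r : F, r ^ 2 ≠ -b + a * r) := ⟨fact_of_aniso hab⟩
  haveI : Finite (QuadraticAlgebra F (-b) a) :=
    Finite.of_equiv _ (QuadraticAlgebra.equivProd (-b) a).symm
  have hΔ := disc_ne a b hab
  obtain ⟨u₀, hu₀o, hu₀p⟩ := exists_u0 (F := F) (a := a) (b := b)
  have hn0 : QuadraticAlgebra.norm (u₀ : QuadraticAlgebra F (-b) a) = 1 :=
    norm_one_of_pow _ (by rw [← Units.val_pow_eq_pow_val, hu₀p, Units.val_one])
  obtain ⟨X, hX⟩ : ∃ X : Cfsg.isometryGroup F (Cfsg.quadFormMinus 0 F a b),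
      X.1 = Units.map (Rmon a b) u₀ * Sg a :=
    ⟨⟨_, mul_mem (Rhom_mem a b u₀ hn0) (Sg_mem a b)⟩, rfl⟩
  obtain ⟨Y, hY⟩ : ∃ Y : Cfsg.isometryGroup F (Cfsg.quadFormMinus 0 F a b), Y.1 = Sg a :=
    ⟨⟨_, Sg_mem a b⟩, rfl⟩
  have hinj : Function.Injective (Units.map (Rmon a b)) := Units.map_injective (Rm_inj a b)
  have hXY : (X * Y).1 = Units.map (Rmon a b) u₀ := by
    show X.1 * Y.1 = _
    rw [hX, hY, mul_assoc, Sg_sq, mul_one]
  have hXYo : orderOf (X * Y) = q + 1 := by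
    rw [← Subgroup.orderOf_coe, hXY, orderOf_injective _ hinj, hu₀o, hF]
  have hY1 : Y ≠ 1 := by
    intro h
    have h1 : M2 1 a 0 (-1) = Rm a b (1 : QuadraticAlgebra F (-b) a) := by
      rw [Rm_one, ← Sg_val, ← hY, h]; rfl
    exact sigma_ne a b hΔ 1 h1
  have hYo : orderOf Y = 2 := by
    apply orderOf_eq_prime
    · apply Subtype.ext
      rw [pow_two]
      show Y.1 * Y.1 = 1
      rw [hY]; exact Sg_sq a
    · exact hY1
  have hX1 : X ≠ 1 := by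
    intro h
    have h1 : Units.map (Rmon a b) u₀ * Sg a = 1 := by rw [← hX, h]; rfl
    have h2 : Sg a = Units.map (Rmon a b) u₀⁻¹ := by
      rw [map_inv]; exact eq_inv_of_mul_eq_one_right h1
    have h3 := congrArg Units.val h2
    rw [Sg_val, Rhom_val] at h3
    exact sigma_ne a b hΔ _ h3
  have hXo : orderOf X = 2 := by
    apply orderOf_eq_prime
    · apply Subtype.ext
      rw [pow_two]
      show X.1 * X.1 = 1
      rw [hX]; exact RS_sq a b u₀ hn0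
    · exact hX1
  have hXne : X ≠ Y := by
    intro h
    have h1 : Units.map (Rmon a b) u₀ * Sg a = Sg a := by rw [← hX, h, hY]
    have h2 : Units.map (Rmon a b) u₀ = 1 := mul_right_cancel (h1.trans (one_mul _).symm)
    have h3 : u₀ = 1 := hinj (h2.trans (map_one _).symm)
    rw [h3, orderOf_one] at hu₀o
    have := Fintype.card_pos (α := F)
    omega
  have hcard : Nat.card (Cfsg.isometryGroup F (Cfsg.quadFormMinus 0 F a b)) ≤ 2 * (q + 1) := by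
    have hsurj : Function.Surjective
        (fun p : {u : (QuadraticAlgebra F (-b) a)ˣ // u ^ (Fintype.card F + 1) = 1} × Bool =>
          (if p.2 then
            (⟨Units.map (Rmon a b) p.1.1 * Sg a, mul_mem (Rhom_mem a b p.1.1
              (norm_one_of_pow _ (by rw [← Units.val_pow_eq_pow_val, p.1.2, Units.val_one])))
              (Sg_mem a b)⟩ : Cfsg.isometryGroup F (Cfsg.quadFormMinus 0 F a b))
          else ⟨Units.map (Rmon a b) p.1.1, Rhom_mem a b p.1.1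
              (norm_one_of_pow _ (by rw [← Units.val_pow_eq_pow_val, p.1.2, Units.val_one]))⟩)) := by
      rintro ⟨g, hg⟩
      obtain ⟨u, hu, h | h⟩ := decomp a b hΔ g hg
      · refine ⟨(⟨u, hu⟩, false), ?_⟩
        apply Subtype.ext
        simp only [Bool.false_eq_true, if_false]
        exact h.symm
      · refine ⟨(⟨u, hu⟩, true), ?_⟩
        apply Subtype.ext
        simp only [if_true]
        exact h.symm
    have h1 := Nat.card_le_card_of_surjective _ hsurj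
    rw [Nat.card_prod, Nat.card_eq_fintype_card (α := Bool), Fintype.card_bool] at h1
    have h2 := card_roots_le (F := F) (a := a) (b := b)
    rw [hF] at h2
    rw [hF] at h1
    calc _ ≤ _ := h1
      _ ≤ (q + 1) * 2 := Nat.mul_le_mul_right 2 h2
      _ = 2 * (q + 1) := by ring
  exact S0305.dih_of_invol X Y hXo hYo hXne (q + 1) hXYo hcard

end Cfsg.Agent.S0306
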