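import Cfsg.Statements.S0307
import Mathlib

set_option autoImplicit false
open Cfsg

namespace Cfsg.Agent.S0307

/-- PSL_n(q) is normal in PGL_n(q) with cyclic quotient of order gcd(n, q-1): the image of the natural map PSL_n → PGL_n is the kernel of a surjective homomorphism onto the cyclic group of that order. -/
theorem result {F : Type*} [Field F] [Fintype F] {q : ℕ} (hF : Fintype.card F = q) (n : ℕ) (hn : 1 ≤ n) : ∃ g : Matrix.ProjGenLinGroup (Fin n) F →* Multiplicative (ZMod (Nat.gcd n (q - 1))), Function.Surjective g ∧ g.ker = (Matrix.ProjectiveSpecialLinearGroup.toPGL : Matrix.ProjectiveSpecialLinearGroup (Fin n) F →* Matrix.ProjGenLinGroup (Fin n) F).range := by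
  classical
  subst hF
  have hn0 : Nonempty (Fin n) := ⟨⟨0, hn⟩⟩
  let R : Subgroup Fˣ := (powMonoidHom n : Fˣ →* Fˣ).range
  let φ : Matrix.GeneralLinearGroup (Fin n) F →* Fˣ ⧸ R :=
    (QuotientGroup.mk' R).comp Matrix.GeneralLinearGroup.det
  have hφ : φ.comp (Matrix.GeneralLinearGroup.scalar (Fin n)) = 1 := by
    ext u
    have : Matrix.GeneralLinearGroup.det (Matrix.GeneralLinearGroup.scalar (Fin n) u) ∈ R := by
      rw [Matrix.GeneralLinearGroup.det_scalar]
      exact ⟨u, by simp⟩
    simpa [φ] using (QuotientGroup.eq_one_iff _).mpr this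
  let ψ : Matrix.ProjGenLinGroup (Fin n) F →* Fˣ ⧸ R := Matrix.ProjGenLinGroup.lift φ hφ
  have hcyc : IsCyclic (Fˣ ⧸ R) := inferInstance
  have hcard : Nat.card (Fˣ ⧸ R) = Nat.gcd n (Fintype.card F - 1) := by
    rw [← Subgroup.index_eq_card, IsCyclic.index_powMonoidHom_range, Nat.card_eq_fintype_card,
      Fintype.card_units, Nat.gcd_comm]
  have hd : Nat.gcd n (Fintype.card F - 1) ≠ 0 := by
    have := Nat.gcd_pos_of_pos_left (Fintype.card F - 1) (show 0 < n by omega)
    omega
  haveI : NeZero (Nat.gcd n (Fintype.card F - 1)) := ⟨hd⟩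
  have hcard' : Nat.card (Multiplicative (ZMod (Nat.gcd n (Fintype.card F - 1)))) =
      Nat.gcd n (Fintype.card F - 1) := by
    rw [Nat.card_eq_fintype_card, Fintype.card_multiplicative, ZMod.card]
  let e : Fˣ ⧸ R ≃* Multiplicative (ZMod (Nat.gcd n (Fintype.card F - 1))) :=
    mulEquivOfCyclicCardEq (hcard.trans hcard'.symm)
  refine ⟨e.toMonoidHom.comp ψ, ?_, ?_⟩
  · apply e.surjective.comp
    intro y
    obtain ⟨u, rfl⟩ := QuotientGroup.mk'_surjective R y
    obtain ⟨A, hA⟩ := Matrix.GeneralLinearGroup.det_surjective (n := Fin n) (R := F) u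
    refine ⟨Matrix.ProjGenLinGroup.mk A, ?_⟩
    rw [← hA]
    rfl
  · ext x
    induction x using Matrix.ProjGenLinGroup.induction_on with
    | mk A =>
      have key : (e.toMonoidHom.comp ψ) (Matrix.ProjGenLinGroup.mk A) = 1 ↔
          Matrix.GeneralLinearGroup.det A ∈ R := by
        rw [MonoidHom.comp_apply]
        change e (ψ (Matrix.ProjGenLinGroup.mk A)) = 1 ↔ _
        rw [MulEquiv.map_eq_one_iff]
        change (QuotientGroup.mk' R) (Matrix.GeneralLinearGroup.det A) = 1 ↔ _
        exact QuotientGroup.eq_one_iff _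
      rw [MonoidHom.mem_ker, key]
      constructor
      · rintro ⟨u, hu⟩
        have hu' : u ^ n = Matrix.GeneralLinearGroup.det A := hu
        have hdet : Matrix.GeneralLinearGroup.det (A * Matrix.GeneralLinearGroup.scalar (Fin n) u⁻¹) = 1 := by
          rw [map_mul, Matrix.GeneralLinearGroup.det_scalar, ← hu']
          simp
        have hdet' : ((A * Matrix.GeneralLinearGroup.scalar (Fin n) u⁻¹ : Matrix.GeneralLinearGroup (Fin n) F) : Matrix (Fin n) (Fin n) F).det = 1 := by
          have := congrArg (fun u : Fˣ => (u : F)) hdet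
          simpa using this
        let s : Matrix.SpecialLinearGroup (Fin n) F := ⟨_, hdet'⟩
        refine ⟨(QuotientGroup.mk s : Matrix.ProjectiveSpecialLinearGroup (Fin n) F), ?_⟩
        rw [Matrix.ProjectiveSpecialLinearGroup.toPGL_mk, Matrix.ProjGenLinGroup.mk_eq_mk_iff]
        refine ⟨u, ?_⟩
        have hs : Matrix.SpecialLinearGroup.toGL s = A * Matrix.GeneralLinearGroup.scalar (Fin n) u⁻¹ := by
          ext i j
          rfl
        rw [hs, mul_assoc, ← map_mul]
        simp
      · rintro ⟨y, hy⟩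
        induction y using QuotientGroup.induction_on with
        | H s =>
          rw [Matrix.ProjectiveSpecialLinearGroup.toPGL_mk, Matrix.ProjGenLinGroup.mk_eq_mk_iff] at hy
          obtain ⟨u, hu⟩ := hy
          rw [← hu, map_mul, Matrix.GeneralLinearGroup.det_scalar]
          have h1 : Matrix.GeneralLinearGroup.det (Matrix.SpecialLinearGroup.toGL s) = 1 := by
            ext
            simp
          rw [h1, one_mul]
          exact ⟨u, by simp⟩

end Cfsg.Agent.S0307
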