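import Cfsg.Statements.S0312
import Cfsg.Agent.Lib.Helper2.BN4
-- import your own Cfsg.Agent.* helpers here

set_option autoImplicit false
open Cfsg

namespace Cfsg.Agent.S0312

/-- Every standard parabolic subgroup of a group with a (B,N)-pair equals its own normaliser. -/
theorem result {G : Type*} [Group G] (P : Cfsg.BNPair G) {J : Set G}
    (hJ : J ⊆ P.S) : Subgroup.normalizer (P.parabolic J : Set G) = P.parabolic J := by
  apply le_antisymm
  · intro g hg
    rw [Subgroup.mem_set_normalizer_iff] at hg
    apply Cfsg.Agent.Lib.Helper2.BN.mem_of_conj_B_le P (Cfsg.Agent.Lib.Helper2.BN.B_le_parabolic P J)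
    intro b hb
    exact (hg b).mp (Cfsg.Agent.Lib.Helper2.BN.B_le_parabolic P J hb)
  · intro g hg
    rw [Subgroup.mem_set_normalizer_iff]
    intro h
    constructor
    · intro hh
      exact (P.parabolic J).mul_mem ((P.parabolic J).mul_mem hg hh) ((P.parabolic J).inv_mem hg)
    · intro hh
      have := (P.parabolic J).mul_mem ((P.parabolic J).mul_mem ((P.parabolic J).inv_mem hg) hh) hg
      have e : g⁻¹ * (g * h * g⁻¹) * g = h := by group
      rw [e] at this
      exact this

end Cfsg.Agent.S0312
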