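import Cfsg.Statements.S0313
import Cfsg.Agent.Lib.Helper2.BN4
-- import your own Cfsg.Agent.* helpers here

set_option autoImplicit false
open Cfsg

namespace Cfsg.Agent.S0313

/-- Two standard parabolic subgroups of a group with a (B,N)-pair which are conjugate in `G` coincide. -/
theorem result {G : Type*} [Group G] (P : Cfsg.BNPair G) {J K : Set G}
    (hJ : J ⊆ P.S) (hK : K ⊆ P.S) (g : G)
    (h : (P.parabolic J).map (MulAut.conj g).toMonoidHom = P.parabolic K) :
    P.parabolic J = P.parabolic K := by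
  have hgK : g ∈ P.parabolic K := by
    apply Cfsg.Agent.Lib.Helper2.BN.mem_of_conj_B_le P (Cfsg.Agent.Lib.Helper2.BN.B_le_parabolic P K)
    intro b hb
    rw [← h]
    exact ⟨b, Cfsg.Agent.Lib.Helper2.BN.B_le_parabolic P J hb, rfl⟩
  have hgJ : g ∈ P.parabolic J := by
    rw [← h] at hgK
    obtain ⟨x, hx, hxg⟩ := hgK
    have hxg' : g * x * g⁻¹ = g := hxg
    have : x = g := by
      have e : x = g⁻¹ * (g * x * g⁻¹) * g := by group
      rw [e, hxg']; group
    rw [← this]; exact hx
  apply le_antisymm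
  · intro x hx
    have h1 : g * x * g⁻¹ ∈ P.parabolic K := by
      rw [← h]; exact ⟨x, hx, rfl⟩
    have := (P.parabolic K).mul_mem ((P.parabolic K).mul_mem ((P.parabolic K).inv_mem hgK) h1) hgK
    have e : g⁻¹ * (g * x * g⁻¹) * g = x := by group
    rw [e] at this
    exact this
  · intro y hy
    rw [← h] at hy
    obtain ⟨x, hx, rfl⟩ := hy
    exact (P.parabolic J).mul_mem ((P.parabolic J).mul_mem hgJ hx) ((P.parabolic J).inv_mem hgJ)

end Cfsg.Agent.S0313
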