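import Cfsg.Statements.S0316
import Cfsg.Agent.Lib.Helper2.BN5
-- import your own Cfsg.Agent.* helpers here

set_option autoImplicit false
open Cfsg

namespace Cfsg.Agent.S0316

open Cfsg.Agent.Lib.Helper2

/-- The map `J ↦ P_J` is a lattice isomorphism from the power set of the set of distinguished generators onto the
subgroups containing `B`. -/
theorem result {G : Type*} [Group G] (P : Cfsg.BNPair G) :
    ∃ e : Set P.S ≃o {M : Subgroup G // P.B ≤ M},
      ∀ J : Set P.S, ((e J : {M : Subgroup G // P.B ≤ M}) : Subgroup G) = P.parabolic (Subtype.val '' J) := by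
  classical
  have hS : ∀ J : Set P.S, Subtype.val '' J ⊆ P.S := by
    rintro J _ ⟨x, _, rfl⟩; exact x.2
  let f : Set P.S → {M : Subgroup G // P.B ≤ M} := fun J =>
    ⟨P.parabolic (Subtype.val '' J), BN.B_le_parabolic P _⟩
  have hf : ∀ a b : Set P.S, f a ≤ f b ↔ a ≤ b := by
    intro a b
    show P.parabolic (Subtype.val '' a) ≤ P.parabolic (Subtype.val '' b) ↔ a ≤ b
    rw [BN.parabolic_le_iff P (hS a) (hS b)]
    exact Set.image_subset_image_iff Subtype.val_injective
  have hsurj : Function.Surjective f := by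
    rintro ⟨M, hM⟩
    refine ⟨Subtype.val ⁻¹' {s | s ∈ P.S ∧ s ∈ M}, ?_⟩
    apply Subtype.ext
    show P.parabolic (Subtype.val '' (Subtype.val ⁻¹' {s | s ∈ P.S ∧ s ∈ M})) = M
    have himg : Subtype.val '' ((Subtype.val : P.S → G) ⁻¹' {s | s ∈ P.S ∧ s ∈ M}) =
        {s | s ∈ P.S ∧ s ∈ M} := by
      ext x
      constructor
      · rintro ⟨y, hy, rfl⟩; exact hy
      · intro hx; exact ⟨⟨x, hx.1⟩, hx, rfl⟩
    rw [himg]
    exact (BN.exists_parabolic_eq P M hM).symm
  exact ⟨OrderIso.ofSurjective (OrderEmbedding.ofMapLEIff f hf) hsurj, fun J => rfl⟩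

end Cfsg.Agent.S0316
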