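import Cfsg.Statements.S0321
import Cfsg.Agent.Lib.Helper2.BN5
-- import your own Cfsg.Agent.* helpers here

set_option autoImplicit false
open Cfsg

namespace Cfsg.Agent.S0321

open Cfsg.Agent.Lib.Helper2

/-- For `n ∈ N` not in `B`, the union `B ∪ B n B` is (the underlying set of) a subgroup exactly when `n` agrees
modulo `B ⊓ N` with one of the distinguished representatives; thus the distinguished involutions are
determined by `B` and `N`. -/
theorem result {G : Type*} [Group G] (P : Cfsg.BNPair G) {n : G}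
    (hn : n ∈ P.N) (hnB : n ∉ P.B) :
    (∃ H : Subgroup G, (H : Set G) = (P.B : Set G) ∪ DoubleCoset.doubleCoset n (P.B : Set G) P.B) ↔ ∃ s ∈ P.S, s⁻¹ * n ∈ P.B := by
  constructor
  · rintro ⟨M, hM⟩
    have hBM : P.B ≤ M := by
      intro b hb
      have : b ∈ (M : Set G) := by rw [hM]; exact Or.inl hb
      exact this
    have hnM : n ∈ M := by
      have : n ∈ (M : Set G) := by rw [hM]; exact Or.inr (BN.mem_dc_self P n)
      exact this
    have hlen : BN.len P n ≠ 0 := fun h => hnB ((BN.len_eq_zero P hn).mp h)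
    obtain ⟨k, hk⟩ := Nat.exists_eq_succ_of_ne_zero hlen
    obtain ⟨s, hs, n1, hn1, rfl, hk1⟩ := BN.exists_left_decomp P hn hk
    have hsM : s ∈ M := by
      apply BN.first_letter_mem P hs hn1 (by omega) hBM
      intro b hb
      exact M.mul_mem (M.mul_mem hnM (hBM hb)) (M.inv_mem hnM)
    have hs' : s ∈ (M : Set G) := hsM
    rw [hM] at hs'
    rcases hs' with hs' | hs'
    · exact absurd hs' (BN.S_not_mem_B P hs)
    · refine ⟨s, hs, ?_⟩
      have := BN.bruhat P hn (P.subset hs) hs'
      have e : s⁻¹ * (s * n1) = ((s * n1)⁻¹ * s)⁻¹ := by group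
      rw [e]; exact P.B.inv_mem this
  · rintro ⟨s, hs, hsn⟩
    refine ⟨P.parabolic {s}, ?_⟩
    have hJ : ({s} : Set G) ⊆ P.S := Set.singleton_subset_iff.mpr hs
    have hns : n ∈ BN.dc P s := BN.mem_dc_of_rel P hsn
    ext g
    constructor
    · intro hg
      obtain ⟨m, hm, hgm⟩ := (BN.mem_parabolic_iff P hJ g).mp hg
      rcases BN.closure_singleton_cases P hs m hm with h1 | h1
      · left; exact (BN.mem_dc_B P h1).mp hgm
      · right
        have h2 : g ∈ BN.dc P s := BN.mem_dc_trans P (BN.mem_dc_of_rel P h1) hgm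
        exact BN.mem_dc_trans P (BN.mem_dc_symm P hns) h2
    · rintro (hg | hg)
      · exact BN.B_le_parabolic P _ hg
      · have h2 : g ∈ BN.dc P s := BN.mem_dc_trans P hns hg
        obtain ⟨b, hb, b', hb', rfl⟩ := (BN.mem_dc P).mp h2
        exact (P.parabolic {s}).mul_mem ((P.parabolic {s}).mul_mem (BN.B_le_parabolic P _ hb)
          (BN.closure_le_parabolic P _ (Subgroup.subset_closure rfl))) (BN.B_le_parabolic P _ hb')

end Cfsg.Agent.S0321
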