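import Cfsg.Statements.S0322
import Cfsg.Agent.Lib.Helper2.BN5
-- import your own Cfsg.Agent.* helpers here

set_option autoImplicit false
open Cfsg

namespace Cfsg.Agent.S0322

open Cfsg.Agent.Lib.Helper2

/-- A group with a (B,N)-pair of rank one acts doubly transitively on the left cosets of `B`. -/
theorem result {G : Type*} [Group G] (P : Cfsg.BNPair G) (h : P.rank = 1) : MulAction.IsMultiplyPretransitive G (G ⧸ P.B) 2 := by
  classical
  have hcard : Nat.card P.S = 1 := h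
  obtain ⟨hsub, ⟨s0⟩⟩ := Nat.card_eq_one_iff_unique.mp hcard
  have hs0 : (s0 : G) ∈ P.S := s0.2
  have hS : ∀ s ∈ P.S, s = (s0 : G) := fun s hs =>
    congrArg Subtype.val (Subsingleton.elim (⟨s, hs⟩ : P.S) s0)
  have hSeq : P.S = {(s0 : G)} := by
    ext x
    constructor
    · intro hx; exact hS x hx
    · rintro rfl; exact hs0
  have hall : ∀ g : G, g ∈ P.B ∨ g ∈ BN.dc P (s0 : G) := by
    intro g
    obtain ⟨n, hn, hgn⟩ := BN.exists_mem_dc P g
    have hn' : n ∈ Subgroup.closure ({(s0:G)} : Set G) ⊔ (P.B ⊓ P.N) := by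
      rw [← hSeq, P.closure_sup]; exact hn
    obtain ⟨L, hL, hrel⟩ := BN.exists_word_of_mem P (J := {(s0:G)})
      (Set.singleton_subset_iff.mpr hs0) hn'
    have hLc : L.prod ∈ Subgroup.closure ({(s0:G)} : Set G) := BN.prod_mem_closure hL
    rcases BN.closure_singleton_cases P hs0 _ hLc with h1 | h1
    · left
      have hnB : n ∈ P.B := by
        have := P.B.mul_mem h1 hrel
        have e : L.prod * (L.prod⁻¹ * n) = n := by group
        rwa [e] at this
      exact (BN.mem_dc_B P hnB).mp hgn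
    · right
      have h2 : (s0:G)⁻¹ * n ∈ P.B := by
        have := P.B.mul_mem h1 hrel
        have e : (s0:G)⁻¹ * L.prod * (L.prod⁻¹ * n) = (s0:G)⁻¹ * n := by group
        rwa [e] at this
      exact BN.mem_dc_trans P (BN.mem_dc_of_rel P h2) hgn
  have key : ∀ a b : G ⧸ P.B, a ≠ b →
      ∃ g : G, g • a = (QuotientGroup.mk 1 : G ⧸ P.B) ∧ g • b = QuotientGroup.mk (s0 : G) := by
    intro a b hab
    obtain ⟨x, rfl⟩ := QuotientGroup.mk_surjective a
    obtain ⟨y, rfl⟩ := QuotientGroup.mk_surjective b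
    have hxy : x⁻¹ * y ∉ P.B := fun hh => hab (QuotientGroup.eq.mpr hh)
    have h1 := (hall (x⁻¹ * y)).resolve_left hxy
    obtain ⟨b1, hb1, b2, hb2, h2⟩ := (BN.mem_dc P).mp h1
    refine ⟨b1⁻¹ * x⁻¹, ?_, ?_⟩
    · show (QuotientGroup.mk (b1⁻¹ * x⁻¹ * x) : G ⧸ P.B) = QuotientGroup.mk 1
      rw [QuotientGroup.eq]
      have e : (b1⁻¹ * x⁻¹ * x)⁻¹ * 1 = b1 := by group
      rw [e]; exact hb1
    · show (QuotientGroup.mk (b1⁻¹ * x⁻¹ * y) : G ⧸ P.B) = QuotientGroup.mk (s0 : G)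
      rw [QuotientGroup.eq]
      have e : (b1⁻¹ * x⁻¹ * y)⁻¹ * (s0:G) = (x⁻¹ * y)⁻¹ * b1 * s0 := by group
      rw [e, h2]
      have e2 : (b1 * (s0:G) * b2)⁻¹ * b1 * s0 = b2⁻¹ := by group
      rw [e2]; exact P.B.inv_mem hb2
  rw [MulAction.is_two_pretransitive_iff]
  intro a b c d hab hcd
  obtain ⟨g1, h1, h2⟩ := key a b hab
  obtain ⟨g2, h3, h4⟩ := key c d hcd
  refine ⟨g2⁻¹ * g1, ?_, ?_⟩
  · rw [mul_smul, h1, ← h3, inv_smul_smul]
  · rw [mul_smul, h2, ← h4, inv_smul_smul]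

end Cfsg.Agent.S0322
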