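import Cfsg.Statements.S0323
import Cfsg.Agent.Lib.Helper2.BN5
-- import your own Cfsg.Agent.* helpers here

set_option autoImplicit false
open scoped Pointwise
open Cfsg

namespace Cfsg.Agent.S0323

open Cfsg.Agent.Lib.Helper2

/-- A doubly transitive action on a set with at least three points yields a (B,N)-pair of rank one:
`B` is the stabiliser of a point `x`, `N` the setwise stabiliser of a pair `{x, y}`. -/
theorem result {G Ω : Type*} [Group G] [MulAction G Ω]
    (h2 : MulAction.IsMultiplyPretransitive G Ω 2) {x y z : Ω} (hxy : x ≠ y) (hyz : y ≠ z) (hxz : x ≠ z) :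
    ∃ P : Cfsg.BNPair G, P.B = MulAction.stabilizer G x ∧
      P.N = MulAction.stabilizer G ({x, y} : Set Ω) ∧ P.rank = 1 := by
  classical
  obtain ⟨s, hsx, hsy⟩ := (MulAction.is_two_pretransitive_iff.mp h2) hxy hxy.symm
  have htr : ∀ u v : Ω, u ≠ x → v ≠ x → ∃ b : G, b • x = x ∧ b • u = v := by
    intro u v hu hv
    exact (MulAction.is_two_pretransitive_iff.mp h2) (Ne.symm hu) (Ne.symm hv)
  have hsinv : s⁻¹ • y = x := by rw [← hsx, inv_smul_smul]
  have hN : ∀ g : G, g ∈ MulAction.stabilizer G ({x, y} : Set Ω) ↔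
      (g • x = x ∧ g • y = y) ∨ (g • x = y ∧ g • y = x) := by
    intro g
    rw [MulAction.mem_stabilizer_iff]
    constructor
    · intro hg
      have h1 : g • x ∈ ({x, y} : Set Ω) := by
        rw [← hg]; exact Set.smul_mem_smul_set (Set.mem_insert _ _)
      have h2 : g • y ∈ ({x, y} : Set Ω) := by
        rw [← hg]; exact Set.smul_mem_smul_set (Set.mem_insert_of_mem _ rfl)
      have hne : g • x ≠ g • y := fun h => hxy (MulAction.injective g h)
      rcases h1 with h1 | h1 <;> rcases h2 with h2 | h2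
      · exact absurd (h1.trans h2.symm) hne
      · left; exact ⟨h1, h2⟩
      · right; exact ⟨h1, h2⟩
      · exact absurd (h1.trans h2.symm) hne
    · rintro (⟨h1, h2⟩ | ⟨h1, h2⟩)
      · rw [Set.smul_set_insert, Set.smul_set_singleton, h1, h2]
      · rw [Set.smul_set_insert, Set.smul_set_singleton, h1, h2, Set.pair_comm]
  have hsN : s ∈ MulAction.stabilizer G ({x, y} : Set Ω) := (hN s).mpr (Or.inr ⟨hsx, hsy⟩)
  have key : ∀ g : G, g • x ≠ x →
      ∃ b ∈ MulAction.stabilizer G x, ∃ c ∈ MulAction.stabilizer G x, g = b * s * c := by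
    intro g hg
    obtain ⟨b, hbx, hby⟩ := htr y (g • x) hxy.symm hg
    refine ⟨b, hbx, (b * s)⁻¹ * g, ?_, by group⟩
    rw [MulAction.mem_stabilizer_iff, mul_smul, ← hby, mul_inv_rev, mul_smul, inv_smul_smul, hsinv]
  refine ⟨{ B := MulAction.stabilizer G x
            N := MulAction.stabilizer G ({x, y} : Set Ω)
            S := {s}
            sup_eq_top := ?_
            conj_mem := ?_
            subset := ?_
            sq_mem := ?_
            inj := ?_
            closure_sup := ?_
            mul_mem_union := ?_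
            conj_ne := ?_ }, rfl, rfl, ?_⟩
  · rw [eq_top_iff]
    intro g _
    by_cases hg : g • x = x
    · exact Subgroup.mem_sup_left hg
    · obtain ⟨b, hb, c, hc, rfl⟩ := key g hg
      exact Subgroup.mul_mem _ (Subgroup.mul_mem _ (Subgroup.mem_sup_left hb)
        (Subgroup.mem_sup_right hsN)) (Subgroup.mem_sup_left hc)
  · intro n hn t ht
    have htx : t • x = x := ht.1
    have hty : t • y = y := by
      rcases (hN t).mp ht.2 with ⟨_, h2⟩ | ⟨h1, _⟩
      · exact h2
      · exact absurd (htx.symm.trans h1) hxy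
    have h3 : t • (n⁻¹ • x) = n⁻¹ • x := by
      rcases (hN n⁻¹).mp (Subgroup.inv_mem _ hn) with ⟨h1, _⟩ | ⟨h1, _⟩
      · rw [h1, htx]
      · rw [h1, hty]
    rw [MulAction.mem_stabilizer_iff, mul_smul, mul_smul, h3, smul_inv_smul]
  · intro a ha
    rw [Set.mem_singleton_iff] at ha
    rw [ha]; exact hsN
  · intro a ha
    rw [Set.mem_singleton_iff] at ha
    rw [ha, MulAction.mem_stabilizer_iff, mul_smul, hsx, hsy]
  · intro a ha b hb _
    rw [Set.mem_singleton_iff] at ha hb
    rw [ha, hb]
  · apply le_antisymm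
    · exact sup_le ((Subgroup.closure_le _).mpr (Set.singleton_subset_iff.mpr hsN)) inf_le_right
    · intro n hn
      rcases (hN n).mp hn with ⟨h1, _⟩ | ⟨h1, _⟩
      · exact Subgroup.mem_sup_right ⟨h1, hn⟩
      · have h4 : s⁻¹ * n ∈ MulAction.stabilizer G x ⊓ MulAction.stabilizer G ({x, y} : Set Ω) := by
          refine ⟨?_, Subgroup.mul_mem _ (Subgroup.inv_mem _ hsN) hn⟩
          show (s⁻¹ * n) • x = x
          rw [mul_smul, h1, hsinv]
        have e : n = s * (s⁻¹ * n) := by group
        rw [e]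
        exact Subgroup.mul_mem _ (Subgroup.mem_sup_left (Subgroup.subset_closure rfl))
          (Subgroup.mem_sup_right h4)
  · intro a ha n hn b hb
    rw [Set.mem_singleton_iff] at ha
    subst ha
    have hbx : b • x = x := hb
    rcases (hN n).mp hn with ⟨h1, _⟩ | ⟨h1, h1'⟩
    · left
      have hg : (a * b * n) • x ≠ x := by
        rw [mul_smul, mul_smul, h1, hbx, hsx]; exact hxy.symm
      obtain ⟨b1, hb1, c1, hc1, hgeq⟩ := key _ hg
      rw [DoubleCoset.mem_doubleCoset]
      refine ⟨b1, hb1, n⁻¹ * c1, Subgroup.mul_mem _ (Subgroup.inv_mem _ h1) hc1, ?_⟩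
      rw [hgeq]; group
    · by_cases hgx : (a * b * n) • x = x
      · left
        have hsn : a * n ∈ MulAction.stabilizer G x := by
          rw [MulAction.mem_stabilizer_iff, mul_smul, h1, hsy]
        rw [DoubleCoset.mem_doubleCoset]
        exact ⟨a * b * n * (a * n)⁻¹, Subgroup.mul_mem _ hgx (Subgroup.inv_mem _ hsn), 1,
          Subgroup.one_mem _, by group⟩
      · right
        obtain ⟨b1, hb1, c1, hc1, hgeq⟩ := key _ hgx
        have h4 : a⁻¹ * n ∈ MulAction.stabilizer G x := by
          rw [MulAction.mem_stabilizer_iff, mul_smul, h1, hsinv]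
        rw [DoubleCoset.mem_doubleCoset]
        refine ⟨b1, hb1, (a⁻¹ * n)⁻¹ * c1, Subgroup.mul_mem _ (Subgroup.inv_mem _ h4) hc1, ?_⟩
        rw [hgeq]; group
  · intro a ha heq
    rw [Set.mem_singleton_iff] at ha
    subst ha
    obtain ⟨b, hbx, hby⟩ := htr y z hxy.symm hxz.symm
    have h5 : a * b * a ∈ ((MulAction.stabilizer G x : Subgroup G) : Set G) := by
      rw [← heq]; exact ⟨b, hbx, rfl⟩
    have h6 : (a * b * a) • x = x := h5
    rw [mul_smul, mul_smul, hsx, hby] at h6
    have h7 : a • z = a • y := by rw [h6, hsy]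
    exact hyz (MulAction.injective a h7).symm
  · show Nat.card (({s} : Set G)) = 1
    exact Nat.card_unique

end Cfsg.Agent.S0323
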