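import Cfsg.Statements.S0326
-- import your own Cfsg.Agent.* helpers here

set_option autoImplicit false
open Cfsg

namespace Cfsg.Agent.S0326

/-- The Suzuki–Tits ovoid over a finite field with `q` elements has `q² + 1` points. -/
theorem result {F : Type*} [Field F] [Fintype F] (m : ℕ) :
    Nat.card (Cfsg.suzukiOvoid F m) = Fintype.card F ^ 2 + 1 := by
  classical
  have hne1 : (![1, 0, 0, 0] : Fin 4 → F) ≠ 0 := by
    intro h
    have := congrFun h 0
    simp at this
  have hne2 : ∀ x y : F, (![x * y + x ^ (2 ^ (m + 1) + 2) + y ^ (2 ^ (m + 1)), y, x, 1] : Fin 4 → F) ≠ 0 := by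
    intro x y h
    have := congrFun h 3
    simp at this
  let g : Option (F × F) → Cfsg.suzukiOvoid F m := fun o =>
    match o with
    | none => ⟨Projectivization.mk F ![1, 0, 0, 0] hne1, ![1, 0, 0, 0], hne1, rfl, Or.inl rfl⟩
    | some (x, y) => ⟨Projectivization.mk F _ (hne2 x y), _, hne2 x y, rfl, Or.inr ⟨x, y, rfl⟩⟩
  have hg : Function.Bijective g := by
    constructor
    · intro o1 o2 h
      have h' := congrArg Subtype.val h
      match o1, o2, h' with
      | none, none, _ => rfl
      | none, some (x, y), h' =>
        exfalso
        have h'' : Projectivization.mk F ![1, 0, 0, 0] hne1 =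
            Projectivization.mk F _ (hne2 x y) := h'
        rw [Projectivization.mk_eq_mk_iff'] at h''
        obtain ⟨a, ha⟩ := h''
        have h3 := congrFun ha 3
        have h0 := congrFun ha 0
        simp at h3 h0
        rw [h3] at h0
        simp at h0
      | some (x, y), none, h' =>
        exfalso
        have h'' : Projectivization.mk F _ (hne2 x y) =
            Projectivization.mk F ![1, 0, 0, 0] hne1 := h'
        rw [Projectivization.mk_eq_mk_iff'] at h''
        obtain ⟨a, ha⟩ := h''
        have h3 := congrFun ha 3
        simp at h3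
      | some (x, y), some (x', y'), h' =>
        have h'' : Projectivization.mk F _ (hne2 x y) =
            Projectivization.mk F _ (hne2 x' y') := h'
        rw [Projectivization.mk_eq_mk_iff'] at h''
        obtain ⟨a, ha⟩ := h''
        have h3 := congrFun ha 3
        have h1 := congrFun ha 1
        have h2 := congrFun ha 2
        simp at h3 h1 h2
        rw [h3, one_mul] at h1 h2
        rw [h1, h2]
    · rintro ⟨p, v, hv, rfl, hv' | ⟨x, y, hv'⟩⟩
      · subst hv'
        exact ⟨none, rfl⟩
      · subst hv'
        exact ⟨some (x, y), rfl⟩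
  rw [← Nat.card_congr (Equiv.ofBijective g hg), Nat.card_eq_fintype_card, Fintype.card_option,
    Fintype.card_prod, pow_two]

end Cfsg.Agent.S0326
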