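import Cfsg.Statements.S0335
import Cfsg.Agent.Lib.Helper2.Sz7
-- import your own Cfsg.Agent.* helpers here

set_option autoImplicit false
open Cfsg

namespace Cfsg.Agent.S0335

open Cfsg.Agent.Lib.Helper2.SzL

/-- The Suzuki–Tits point set is an ovoid: any three distinct points of it are projectively independent
(no line of projective 3-space meets it in more than two points). -/
theorem result {F : Type*} [Field F] [Fintype F] {m : ℕ} (hm : 1 ≤ m)
    (hF : Fintype.card F = 2 ^ (2 * m + 1)) (p : Fin 3 ↪ Cfsg.suzukiOvoid F m) :
    Projectivization.Independent (fun i => (p i : Projectivization F (Fin 4 → F))) := by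
  have h01 : ((p 0 : Cfsg.suzukiOvoid F m) : Projectivization F (Fin 4 → F)) ≠ p 1 := by
    intro h
    have := p.injective (Subtype.ext h)
    exact absurd this (by decide)
  have h02 : ((p 0 : Cfsg.suzukiOvoid F m) : Projectivization F (Fin 4 → F)) ≠ p 2 := by
    intro h
    have := p.injective (Subtype.ext h)
    exact absurd this (by decide)
  have h12 : ((p 1 : Cfsg.suzukiOvoid F m) : Projectivization F (Fin 4 → F)) ≠ p 2 := by
    intro h
    have := p.injective (Subtype.ext h)
    exact absurd this (by decide)
  have h := three_indep hF _ _ _ (p 0).2 (p 1).2 (p 2).2 h01 h02 h12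
  have heq : (fun i => (p i : Projectivization F (Fin 4 → F))) =
      ![(p 0 : Projectivization F (Fin 4 → F)), p 1, p 2] := by
    funext i
    fin_cases i <;> rfl
  rw [heq]
  exact h

end Cfsg.Agent.S0335
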