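import Mathlib
import Cfsg.Statements.S0741

set_option autoImplicit false
open Cfsg

namespace Cfsg.Agent.S0741

/-- an involution normalising a subgroup of even order centralises an involution of it -/
theorem Zinv {G : Type*} [Group G] (L : Subgroup G) [Finite L] (hL : Even (Nat.card L)) (t : G)
    (ht : t * t = 1) (hn : ∀ u ∈ L, t * u * t⁻¹ ∈ L) :
    ∃ u ∈ L, u ≠ 1 ∧ u * u = 1 ∧ t * u = u * t := by
  classical
  haveI := Fintype.ofFinite L
  haveI : Fact (Nat.Prime 2) := ⟨Nat.prime_two⟩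
  have htinv : t⁻¹ = t := inv_eq_of_mul_eq_one_left ht
  let f : Function.End L := fun u => u⁻¹
  have hf : f ^ 2 ^ 1 = 1 := by
    rw [pow_one, pow_two]
    funext u
    change (u⁻¹)⁻¹ = u
    rw [inv_inv]
  have h1 := Equiv.Perm.card_fixedPoints_modEq (p := 2) (n := 1) hf
  have hE : 2 ∣ Fintype.card (Function.fixedPoints f) := by
    have h2 : 2 ∣ Fintype.card L := by
      rw [← Nat.card_eq_fintype_card]; exact even_iff_two_dvd.mp hL
    exact (Nat.modEq_zero_iff_dvd).mp (h1.symm.trans ((Nat.modEq_zero_iff_dvd).mpr h2))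
  have hmemE : ∀ u : L, u ∈ Function.fixedPoints f ↔ u⁻¹ = u := fun u => Iff.rfl
  let c : Function.fixedPoints f → Function.fixedPoints f := fun u =>
    ⟨⟨t * (u.1 : G) * t⁻¹, hn _ u.1.2⟩, by
      rw [hmemE]
      apply Subtype.ext
      change (t * (u.1 : G) * t⁻¹)⁻¹ = t * (u.1 : G) * t⁻¹
      have hu : ((u.1 : L) : G)⁻¹ = (u.1 : G) := congrArg Subtype.val ((hmemE u.1).mp u.2)
      rw [mul_inv_rev, mul_inv_rev, inv_inv, hu, mul_assoc]⟩
  have hc : Function.Involutive c := by
    intro u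
    apply Subtype.ext
    apply Subtype.ext
    change t * (t * (u.1 : G) * t⁻¹) * t⁻¹ = (u.1 : G)
    rw [htinv]
    calc t * (t * (u.1 : G) * t) * t = (t * t) * (u.1 : G) * (t * t) := by group
      _ = (u.1 : G) := by rw [ht, one_mul, mul_one]
  have hσ : (Function.Involutive.toPerm c hc) ^ 2 ^ 1 = 1 := by
    rw [pow_one, pow_two]
    exact Equiv.ext (fun u => hc u)
  let e1 : Function.fixedPoints f := ⟨1, by rw [hmemE, inv_one]⟩
  have he1 : (Function.Involutive.toPerm c hc) e1 = e1 := by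
    apply Subtype.ext
    apply Subtype.ext
    change t * (1 : G) * t⁻¹ = 1
    rw [mul_one, mul_inv_cancel]
  obtain ⟨u, hu1, hu2⟩ := Equiv.Perm.exists_fixed_point_of_prime' (p := 2) (n := 1) hE hσ he1
  have hu : ((u.1 : L) : G)⁻¹ = (u.1 : G) := congrArg Subtype.val ((hmemE u.1).mp u.2)
  refine ⟨(u.1 : G), u.1.2, ?_, ?_, ?_⟩
  · intro h
    apply hu2
    apply Subtype.ext
    apply Subtype.ext
    exact h
  · nth_rewrite 1 [← hu]
    exact inv_mul_cancel _
  · have h3 : t * (u.1 : G) * t⁻¹ = (u.1 : G) :=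
      congrArg (fun z : Function.fixedPoints f => ((z : L) : G)) hu1
    calc t * (u.1 : G) = t * (u.1 : G) * t⁻¹ * t := by group
      _ = (u.1 : G) * t := by rw [h3]

/-- the key involutions of a Zassenhaus group with two-point stabilisers of even order -/
theorem Zt {G Ω : Type*} [Group G] [Finite G] [MulAction G Ω]
    (hZ : Cfsg.IsZassenhausGroup G Ω) {a b : Ω} (hab : a ≠ b)
    (heven : Even (Nat.card ↥(MulAction.stabilizer G a ⊓ MulAction.stabilizer G b))) :
    ∃ t : G, t ≠ 1 ∧ t * t = 1 ∧ t • a = a ∧ t • b = b ∧ ∀ x : Ω, x ≠ a → x ≠ b →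
      t • x ≠ x ∧ ∃ u : G, u * u = 1 ∧ u ≠ 1 ∧ u • a = b ∧ u • b = a ∧ u • x = x ∧
        u • (t • x) = t • x := by
  classical
  obtain ⟨hfaith, h2, h3, -, -⟩ := hZ
  have h2' : ∀ a b c d : Ω, a ≠ b → c ≠ d → ∃ g : G, g • a = c ∧ g • b = d :=
    fun a b c d h h' => MulAction.is_two_pretransitive_iff.mp h2 h h'
  set H := MulAction.stabilizer G a ⊓ MulAction.stabilizer G b with hH
  haveI : Fact (Nat.Prime 2) := ⟨Nat.prime_two⟩
  obtain ⟨t', ht'⟩ := exists_prime_orderOf_dvd_card' (G := H) 2 (even_iff_two_dvd.mp heven)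
  have ht1 : (t' : G) ≠ 1 := by
    intro h
    have : t' = 1 := Subtype.ext h
    rw [this, orderOf_one] at ht'
    omega
  have htt : (t' : G) * (t' : G) = 1 := by
    have := pow_orderOf_eq_one t'
    rw [ht', pow_two] at this
    exact congrArg Subtype.val this
  have hta : (t' : G) • a = a := (Subgroup.mem_inf.mp t'.2).1
  have htb : (t' : G) • b = b := (Subgroup.mem_inf.mp t'.2).2
  refine ⟨(t' : G), ht1, htt, hta, htb, ?_⟩
  intro x hxa hxb
  set t : G := (t' : G) with ht
  have htx : t • x ≠ x := fun h => ht1 (h3 t a b x hab (Ne.symm hxb) (Ne.symm hxa) hta htb h)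
  refine ⟨htx, ?_⟩
  have htinv : t⁻¹ = t := inv_eq_of_mul_eq_one_left htt
  have htty : t • (t • x) = x := by rw [← mul_smul, htt, one_smul]
  have hya : t • x ≠ a := fun h => hxa (smul_left_cancel t (h.trans hta.symm))
  have hyb : t • x ≠ b := fun h => hxb (smul_left_cancel t (h.trans htb.symm))
  set L := MulAction.stabilizer G x ⊓ MulAction.stabilizer G (t • x) with hL
  have hLc : Nat.card L = Nat.card H := by
    obtain ⟨g, hga, hgb⟩ := h2' a b x (t • x) hab (Ne.symm htx)
    have e1 : L = H.map (MulAut.conj g).toMonoidHom := by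
      rw [hL, hH, Subgroup.map_inf _ _ _ (MulAut.conj g).injective, ← hgb, ← hga,
        MulAction.stabilizer_smul_eq_stabilizer_map_conj,
        MulAction.stabilizer_smul_eq_stabilizer_map_conj]
    rw [e1]
    exact Subgroup.card_map_of_injective (MulAut.conj g).injective
  have hLeven : Even (Nat.card L) := by rw [hLc]; exact heven
  have hLn : ∀ u ∈ L, t * u * t⁻¹ ∈ L := by
    intro u hu
    have hux : u • x = x := (Subgroup.mem_inf.mp hu).1
    have huy : u • (t • x) = t • x := (Subgroup.mem_inf.mp hu).2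
    rw [htinv]
    refine Subgroup.mem_inf.mpr ⟨?_, ?_⟩
    · change (t * u * t) • x = x
      rw [mul_smul, mul_smul, huy, htty]
    · change (t * u * t) • (t • x) = t • x
      rw [mul_smul, mul_smul, htty, hux]
  obtain ⟨u, huL, hu1, huu, htu⟩ := Zinv L hLeven t htt hLn
  have hux : u • x = x := (Subgroup.mem_inf.mp huL).1
  have huy : u • (t • x) = t • x := (Subgroup.mem_inf.mp huL).2
  have hfixt : ∀ z : Ω, t • z = z → z = a ∨ z = b := by
    intro z hz
    by_contra hcon
    push_neg at hcon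
    exact ht1 (h3 t a b z hab (Ne.symm hcon.2) (Ne.symm hcon.1) hta htb hz)
  have hua : u • a = b := by
    have h1 : t • (u • a) = u • a := by rw [← mul_smul, htu, mul_smul, hta]
    rcases hfixt _ h1 with h | h
    · exact absurd (h3 u a x (t • x) (Ne.symm hxa) (Ne.symm htx) (Ne.symm hya) h hux huy) hu1
    · exact h
  have hub : u • b = a := by
    have h1 : t • (u • b) = u • b := by rw [← mul_smul, htu, mul_smul, htb]
    rcases hfixt _ h1 with h | h
    · exact h
    · exact absurd (h3 u b x (t • x) (Ne.symm hxb) (Ne.symm htx) (Ne.symm hyb) h hux huy) hu1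
  exact ⟨u, huu, hu1, hua, hub, hux, huy⟩

/-- If the two-point stabilisers of a finite Zassenhaus group of degree `n + 1` have even order `d`, then `2d ≥ n - 1`. -/
theorem result {G Ω : Type*} [Group G] [Finite G] [MulAction G Ω] [Fintype Ω] (hZ : Cfsg.IsZassenhausGroup G Ω) {a b : Ω} (hab : a ≠ b) (heven : Even (Nat.card ↥(MulAction.stabilizer G a ⊓ MulAction.stabilizer G b))) : Fintype.card Ω - 2 ≤ 2 * Nat.card ↥(MulAction.stabilizer G a ⊓ MulAction.stabilizer G b) := by
  classical
  obtain ⟨t, ht1, htt, hta, htb, hx⟩ := Zt hZ hab heven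
  obtain ⟨hfaith, h2, h3, -, -⟩ := hZ
  set H := MulAction.stabilizer G a ⊓ MulAction.stabilizer G b with hH
  haveI := Fintype.ofFinite H
  choose! φ hφ using fun x => fun hxa : x ≠ a => fun hxb : x ≠ b => (hx x hxa hxb).2
  let X' := {x : Ω // x ≠ a ∧ x ≠ b}
  have hcardX : Fintype.card X' = Fintype.card Ω - 2 := by
    have h1 : Fintype.card X' = (Finset.univ \ ({a, b} : Finset Ω)).card :=
      Fintype.card_of_subtype _ (by intro x; simp)
    rw [h1, Finset.card_sdiff_of_subset (Finset.subset_univ _), Finset.card_univ,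
      Finset.card_pair hab]
  rcases isEmpty_or_nonempty X' with hemp | ⟨⟨x₀, hx₀a, hx₀b⟩⟩
  · rw [← hcardX, Fintype.card_eq_zero]
    exact Nat.zero_le _
  · have hφ₀ := hφ x₀ hx₀a hx₀b
    have hmem : ∀ x : X', (φ x₀)⁻¹ * φ x.1 ∈ H := by
      intro x
      have hφx := hφ x.1 x.2.1 x.2.2
      refine Subgroup.mem_inf.mpr ⟨?_, ?_⟩
      · change ((φ x₀)⁻¹ * φ x.1) • a = a
        rw [mul_smul, hφx.2.2.1, inv_smul_eq_iff, hφ₀.2.2.1]
      · change ((φ x₀)⁻¹ * φ x.1) • b = b
        rw [mul_smul, hφx.2.2.2.1, inv_smul_eq_iff, hφ₀.2.2.2.1]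
    let ψ : X' → H := fun x => ⟨_, hmem x⟩
    have hfib : ∀ h ∈ (Finset.univ : Finset X').image ψ,
        ((Finset.univ : Finset X').filter (fun x => ψ x = h)).card ≤ 2 := by
      intro h hh
      obtain ⟨x, -, rfl⟩ := Finset.mem_image.mp hh
      have hφx := hφ x.1 x.2.1 x.2.2
      have htx : t • x.1 ≠ x.1 := (hx x.1 x.2.1 x.2.2).1
      have htxa : t • x.1 ≠ a := fun h => x.2.1 (smul_left_cancel t (h.trans hta.symm))
      have htxb : t • x.1 ≠ b := fun h => x.2.2 (smul_left_cancel t (h.trans htb.symm))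
      have hsub : (Finset.univ : Finset X').filter (fun z => ψ z = ψ x) ⊆
          {x, ⟨t • x.1, htxa, htxb⟩} := by
        intro z hz
        rw [Finset.mem_filter] at hz
        have hzx : φ z.1 = φ x.1 := by
          have := congrArg Subtype.val hz.2
          exact mul_left_cancel this
        have hφz := hφ z.1 z.2.1 z.2.2
        have hfz : φ x.1 • z.1 = z.1 := by rw [← hzx]; exact hφz.2.2.2.2.1
        simp only [Finset.mem_insert, Finset.mem_singleton]
        by_contra hcon
        push_neg at hcon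
        have hz1 : z.1 ≠ x.1 := fun h => hcon.1 (Subtype.ext h)
        have hz2 : z.1 ≠ t • x.1 := fun h => hcon.2 (Subtype.ext h)
        exact hφx.2.1 (h3 (φ x.1) x.1 (t • x.1) z.1 (Ne.symm htx) (Ne.symm hz2) (Ne.symm hz1)
          hφx.2.2.2.2.1 hφx.2.2.2.2.2 hfz)
      exact (Finset.card_le_card hsub).trans Finset.card_le_two
    have h1 := Finset.card_le_mul_card_image (Finset.univ : Finset X') 2 hfib
    rw [Finset.card_univ, hcardX] at h1
    have h2' : ((Finset.univ : Finset X').image ψ).card ≤ Fintype.card H := Finset.card_le_univ _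
    rw [Nat.card_eq_fintype_card]
    omega

end Cfsg.Agent.S0741
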