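import Mathlib
import Cfsg.Statements.S0740
import Cfsg.Agent.S0741

set_option autoImplicit false
open Cfsg

namespace Cfsg.Agent.S0740

/-- In a finite Zassenhaus group any two points `a ≠ b` are swapped by an involution; every such involution has exactly one fixed point when the degree is odd and 0 or 2 fixed points when the degree is even; and if the two-point stabiliser has even order, some such involution has exactly 2 fixed points. -/
theorem result {G Ω : Type*} [Group G] [Finite G] [MulAction G Ω] [Fintype Ω] (hZ : Cfsg.IsZassenhausGroup G Ω) {a b : Ω} (hab : a ≠ b) : (∃ s : G, orderOf s = 2 ∧ s • a = b ∧ s • b = a) ∧ (∀ s : G, orderOf s = 2 → s • a = b → s • b = a → (Odd (Fintype.card Ω) → Nat.card (MulAction.fixedBy Ω s) = 1) ∧ (Even (Fintype.card Ω) → Nat.card (MulAction.fixedBy Ω s) = 0 ∨ Nat.card (MulAction.fixedBy Ω s) = 2)) ∧ (Even (Fintype.card Ω) → Even (Nat.card ↥(MulAction.stabilizer G a ⊓ MulAction.stabilizer G b)) → ∃ s : G, orderOf s = 2 ∧ s • a = b ∧ s • b = a ∧ Nat.card (MulAction.fixedBy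 Ω s) = 2) := by
  classical
  have hZ' := hZ
  obtain ⟨hfaith, h2, h3, ⟨g₀, hg₀1, a', b', ha'b', hg₀a, hg₀b⟩, -⟩ := hZ
  have h2' : ∀ a b c d : Ω, a ≠ b → c ≠ d → ∃ g : G, g • a = c ∧ g • b = d :=
    fun a b c d h h' => MulAction.is_two_pretransitive_iff.mp h2 h h'
  haveI : Fact (Nat.Prime 2) := ⟨Nat.prime_two⟩
  -- a third point
  have hthird : ∃ x : Ω, x ≠ a ∧ x ≠ b := by
    have : ∃ c : Ω, g₀ • c ≠ c := by
      by_contra h
      push_neg at h
      apply hg₀1
      apply FaithfulSMul.eq_of_smul_eq_smul (α := Ω)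
      intro x
      rw [one_smul]; exact h x
    obtain ⟨c, hc⟩ := this
    have hca : c ≠ a' := fun h => hc (h ▸ hg₀a)
    have hcb : c ≠ b' := fun h => hc (h ▸ hg₀b)
    by_contra hcon
    push_neg at hcon
    have key : ∀ x : Ω, x = a ∨ x = b := fun x => by
      by_cases h : x = a
      · exact Or.inl h
      · exact Or.inr (hcon x h)
    rcases key a' with h1 | h1 <;> rcases key b' with h2 | h2 <;> rcases key c with h3 | h3 <;>
      simp_all
  -- fixed point bounds
  have hle2 : ∀ s : G, s ≠ 1 → Nat.card (MulAction.fixedBy Ω s) ≤ 2 := by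
    intro s hs
    by_contra hgt
    push_neg at hgt
    rw [Nat.card_eq_fintype_card] at hgt
    obtain ⟨x, y, z, hxy, hxz, hyz⟩ := Fintype.two_lt_card_iff.mp hgt
    exact hs (h3 s x.1 y.1 z.1 (fun h => hxy (Subtype.ext h)) (fun h => hyz (Subtype.ext h))
      (fun h => hxz (Subtype.ext h)) x.2 y.2 z.2)
  have hpar : ∀ s : G, s * s = 1 →
      Fintype.card Ω ≡ Nat.card (MulAction.fixedBy Ω s) [MOD 2] := by
    intro s hss
    let f : Function.End Ω := fun x => s • x
    have hf : f ^ 2 ^ 1 = 1 := by
      rw [pow_one, pow_two]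
      funext x
      change s • s • x = x
      rw [← mul_smul, hss, one_smul]
    have h1 := Equiv.Perm.card_fixedPoints_modEq (p := 2) (n := 1) hf
    have h2 : Fintype.card (Function.fixedPoints f) = Nat.card (MulAction.fixedBy Ω s) := by
      rw [Nat.card_eq_fintype_card]
      exact Fintype.card_congr (Equiv.refl _)
    rw [h2] at h1
    exact h1
  have hord : ∀ s : G, s * s = 1 → s ≠ 1 → orderOf s = 2 := fun s hss hs =>
    orderOf_eq_prime (by rw [pow_two]; exact hss) hs
  refine ⟨?_, ?_, ?_⟩
  · by_cases heven : Even (Nat.card ↥(MulAction.stabilizer G a ⊓ MulAction.stabilizer G b))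
    · obtain ⟨t, -, -, -, -, hx⟩ := S0741.Zt hZ' hab heven
      obtain ⟨x, hxa, hxb⟩ := hthird
      obtain ⟨-, u, huu, hu1, hua, hub, -, -⟩ := hx x hxa hxb
      exact ⟨u, hord u huu hu1, hua, hub⟩
    · rw [Nat.not_even_iff_odd] at heven
      obtain ⟨g, hga, hgb⟩ := h2' a b b a hab (Ne.symm hab)
      obtain ⟨j, hj⟩ := heven
      have hg2 : g * g ∈ MulAction.stabilizer G a ⊓ MulAction.stabilizer G b := by
        refine Subgroup.mem_inf.mpr ⟨?_, ?_⟩
        · change (g * g) • a = a
          rw [mul_smul, hga, hgb]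
        · change (g * g) • b = b
          rw [mul_smul, hgb, hga]
      have hpow : (g * g) ^ (2 * j + 1) = 1 := by
        have := pow_card_eq_one' (G := ↥(MulAction.stabilizer G a ⊓ MulAction.stabilizer G b))
          (x := ⟨g * g, hg2⟩)
        rw [hj] at this
        exact congrArg Subtype.val this
      have hsq : ∀ i : ℕ, (g ^ (2 * i)) • a = a ∧ (g ^ (2 * i)) • b = b := by
        intro i
        induction i with
        | zero => simp
        | succ i ih =>
          have e1 : g ^ (2 * (i + 1)) = g ^ (2 * i) * (g * g) := by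
            rw [← pow_two, ← pow_add, Nat.mul_succ]
          rw [e1]
          constructor
          · rw [mul_smul, mul_smul, hga, hgb, ih.1]
          · rw [mul_smul, mul_smul, hgb, hga, ih.2]
      have hsa : (g ^ (2 * j + 1)) • a = b := by
        rw [pow_succ', mul_smul, (hsq j).1, hga]
      have hsb : (g ^ (2 * j + 1)) • b = a := by
        rw [pow_succ', mul_smul, (hsq j).2, hgb]
      have hss : g ^ (2 * j + 1) * g ^ (2 * j + 1) = 1 := by
        rw [← pow_two, ← pow_mul, mul_comm, pow_mul, pow_two]; exact hpow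
      have hs1 : g ^ (2 * j + 1) ≠ 1 := by
        intro h
        rw [h, one_smul] at hsa
        exact hab hsa
      exact ⟨_, hord _ hss hs1, hsa, hsb⟩
  · intro s hs hsa hsb
    have hs1 : s ≠ 1 := by
      intro h
      rw [h, orderOf_one] at hs
      omega
    have hss : s * s = 1 := by
      have := pow_orderOf_eq_one s
      rwa [hs, pow_two] at this
    have h1 := hle2 s hs1
    have h2 := hpar s hss
    constructor
    · intro hodd
      have : Nat.card (MulAction.fixedBy Ω s) % 2 = 1 := by
        rw [← h2]; exact Nat.odd_iff.mp hodd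
      omega
    · intro heven
      have : Nat.card (MulAction.fixedBy Ω s) % 2 = 0 := by
        rw [← h2]; exact Nat.even_iff.mp heven
      omega
  · intro hevenΩ heven
    obtain ⟨t, -, -, -, -, hx⟩ := S0741.Zt hZ' hab heven
    obtain ⟨x, hxa, hxb⟩ := hthird
    obtain ⟨htx, u, huu, hu1, hua, hub, hux, huy⟩ := hx x hxa hxb
    refine ⟨u, hord u huu hu1, hua, hub, ?_⟩
    have h1 := hle2 u hu1
    have h2 : 2 ≤ Nat.card (MulAction.fixedBy Ω u) := by
      rw [Nat.card_eq_fintype_card]
      have : 1 < Fintype.card (MulAction.fixedBy Ω u) :=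
        Fintype.one_lt_card_iff.mpr ⟨⟨x, hux⟩, ⟨t • x, huy⟩, fun h => htx (congrArg Subtype.val h).symm⟩
      omega
    omega

end Cfsg.Agent.S0740
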