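import Cfsg.Statements.S0338
import Cfsg.Agent.Lib.Helper2.Zas6
import Cfsg.Agent.S0740
-- import your own Cfsg.Agent.* helpers here

set_option autoImplicit false
open Cfsg

namespace Cfsg.Agent.S0338

open Cfsg.Agent.Lib.Helper2.Zas Cfsg.Agent.Lib.Lead

/-- A Zassenhaus group of odd degree is a simple group. -/
theorem result {G Ω : Type*} [Group G] [MulAction G Ω] [Fintype Ω]
    (hZ : Cfsg.IsZassenhausGroup G Ω) (hodd : Odd (Fintype.card Ω)) : IsSimpleGroup G := by
  classical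
  have h := zdata hZ
  haveI : Finite G := by
    apply Finite.of_injective (fun g : G => (MulAction.toPerm g : Equiv.Perm Ω))
    intro g g' hgg
    have h1 : g⁻¹ * g' = 1 := h.faith _ (fun x => by
      have h2 := congrArg (fun p : Equiv.Perm Ω => p x) hgg
      simp only [MulAction.toPerm_apply] at h2
      rw [mul_smul, ← h2, inv_smul_smul])
    exact (inv_mul_eq_one.mp h1)
  obtain ⟨c₀, d₀, -, hcd₀, -⟩ := h.exists_three
  obtain ⟨t₀, ht₀1, -, -⟩ := h.exists_two_fix hcd₀
  refine { exists_pair_ne := ⟨t₀, 1, ht₀1⟩, eq_bot_or_eq_top_of_normal := fun N hN => ?_ }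
  by_cases hNbot : N = ⊥
  · exact Or.inl hNbot
  right
  haveI := hN
  obtain ⟨n₁, hn₁, hn₁1, c, d, hcd, hn₁c, hn₁d⟩ := normal_two_fix hZ N hNbot
  obtain ⟨H, hHc, hHcard, hHfix⟩ := h.exists_kernel c
  have hHN : H ≤ N := h.kernel_le_normal N hcd hn₁ hn₁1 hn₁c hn₁d H hHc hHcard hHfix
  have hinv : ∀ s : G, s * s = 1 → s ∈ N := by
    intro s hs
    by_cases hs1 : s = 1
    · rw [hs1]; exact N.one_mem
    have hcard := h.invol_fix_odd hodd hs hs1
    obtain ⟨p, hp⟩ : ∃ p : Ω, s • p = p := by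
      obtain ⟨⟨p, hp⟩⟩ := (Nat.card_pos_iff.mp (by rw [hcard]; exact Nat.one_pos)).1
      exact ⟨p, hp⟩
    obtain ⟨g, hg⟩ := h.trans c p
    have hconj : g⁻¹ * s * g ∈ H := by
      apply h.mem_kernel H hHc hHcard hHfix
      · rw [mul_smul, mul_smul, hg, hp, ← hg, inv_smul_smul]
      · intro x hx
        have h1 : s • (g • x) = g • x := by
          rw [mul_smul, mul_smul, inv_smul_eq_iff] at hx
          exact hx
        have h2 := h.invol_only hodd hs hs1 hp (g • x) h1
        rw [← hg] at h2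
        exact smul_left_cancel _ h2
    have h3 : s = g * (g⁻¹ * s * g) * g⁻¹ := by group
    rw [h3]
    exact hN.conj_mem _ (hHN hconj) g
  obtain ⟨s₀, hs₀o, hs₀c, hs₀d⟩ := (Cfsg.Agent.S0740.result hZ hcd).1
  have hs₀ : s₀ * s₀ = 1 := by
    have h1 := pow_orderOf_eq_one s₀
    rw [hs₀o, pow_two] at h1
    exact h1
  have hs₀N : s₀ ∈ N := hinv s₀ hs₀
  have hE : MulAction.stabilizer G c ⊓ MulAction.stabilizer G d ≤ N := by
    intro t ht
    have hsw := h.swap_inv hodd hcd hs₀ hs₀c ht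
    have ht2 : t ^ 2 ∈ N := by
      have h1 : t * s₀ * t⁻¹ ∈ N := hN.conj_mem _ hs₀N t
      have h2 : t * s₀ * t⁻¹ * s₀⁻¹ ∈ N := N.mul_mem h1 (N.inv_mem hs₀N)
      have h3 : t * s₀ * t⁻¹ * s₀⁻¹ = t ^ 2 := by
        have h4 : s₀ * t⁻¹ * s₀⁻¹ = t := by
          have h5 : (s₀ * t * s₀⁻¹)⁻¹ = t := by rw [hsw, inv_inv]
          calc s₀ * t⁻¹ * s₀⁻¹ = (s₀ * t * s₀⁻¹)⁻¹ := by group
            _ = t := h5
        calc t * s₀ * t⁻¹ * s₀⁻¹ = t * (s₀ * t⁻¹ * s₀⁻¹) := by group
          _ = t * t := by rw [h4]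
          _ = t ^ 2 := (pow_two t).symm
      rw [← h3]; exact h2
    have hodd_t : Odd (orderOf t) := by
      by_contra hev
      rw [Nat.not_odd_iff_even] at hev
      obtain ⟨k, hk⟩ := hev
      have hpos : 0 < orderOf t := orderOf_pos t
      have hu1 : t ^ k ≠ 1 := by
        intro h1
        have h2 := orderOf_dvd_of_pow_eq_one h1
        have h3 := Nat.le_of_dvd (by omega) h2
        omega
      have hu2 : t ^ k * t ^ k = 1 := by
        rw [← pow_add, ← hk, pow_orderOf_eq_one]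
      have hmem : t ^ k ∈ MulAction.stabilizer G c ⊓ MulAction.stabilizer G d := pow_mem ht k
      rw [Subgroup.mem_inf, MulAction.mem_stabilizer_iff, MulAction.mem_stabilizer_iff] at hmem
      exact hcd (h.invol_only hodd hu2 hu1 hmem.1 d hmem.2).symm
    obtain ⟨k, hk⟩ := hodd_t
    have h6 : t = (t ^ 2) ^ (k + 1) := by
      rw [← pow_mul]
      have h7 : 2 * (k + 1) = orderOf t + 1 := by omega
      rw [h7, pow_succ, pow_orderOf_eq_one, one_mul]
    rw [h6]
    exact pow_mem ht2 _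
  have hGc : MulAction.stabilizer G c ≤ N := by
    intro g hg
    rw [MulAction.mem_stabilizer_iff] at hg
    have hgd : g • d ≠ c := by
      intro h1
      rw [← hg] at h1
      exact hcd (smul_left_cancel _ h1).symm
    obtain ⟨u, hu, hud⟩ := h.kernel_regular H hHc hHcard hHfix (Ne.symm hcd) hgd
    have hmem : u⁻¹ * g ∈ MulAction.stabilizer G c ⊓ MulAction.stabilizer G d := by
      rw [Subgroup.mem_inf, MulAction.mem_stabilizer_iff, MulAction.mem_stabilizer_iff]
      have huc : u • c = c := hHc hu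
      constructor
      · rw [mul_smul, hg, inv_smul_eq_iff, huc]
      · rw [mul_smul, inv_smul_eq_iff, hud]
    have h8 : g = u * (u⁻¹ * g) := by group
    rw [h8]
    exact N.mul_mem (hHN hu) (hE hmem)
  rw [eq_top_iff]
  intro g _
  obtain ⟨n, hn, hnc⟩ := h.normal_trans N hNbot c (g • c)
  have h9 : n⁻¹ * g ∈ MulAction.stabilizer G c := by
    rw [MulAction.mem_stabilizer_iff, mul_smul, inv_smul_eq_iff, hnc]
  have h10 : g = n * (n⁻¹ * g) := by group
  rw [h10]
  exact N.mul_mem hn (hGc h9)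

end Cfsg.Agent.S0338
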