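import Cfsg.Statements.S0339
import Cfsg.Agent.Lib.Helper2.Zas7
-- import your own Cfsg.Agent.* helpers here

set_option autoImplicit false
open Cfsg

namespace Cfsg.Agent.S0339

open Cfsg.Agent.Lib.Helper2.Zas Cfsg.Agent.Lib.Lead

/-- A non-trivial normal subgroup of a Zassenhaus group is itself a Zassenhaus group on the same set. -/
theorem result {G Ω : Type*} [Group G] [MulAction G Ω] [Finite Ω]
    (hZ : Cfsg.IsZassenhausGroup G Ω) (N : Subgroup G) [N.Normal] (hN : N ≠ ⊥) :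
    Cfsg.IsZassenhausGroup N Ω := by
  classical
  have h := zdata hZ
  haveI : Finite G := by
    apply Finite.of_injective (fun g : G => (MulAction.toPerm g : Equiv.Perm Ω))
    intro g g' hgg
    have h1 : g⁻¹ * g' = 1 := h.faith _ (fun x => by
      have h2 := congrArg (fun p : Equiv.Perm Ω => p x) hgg
      simp only [MulAction.toPerm_apply] at h2
      rw [mul_smul, ← h2, inv_smul_smul])
    exact (inv_mul_eq_one.mp h1)
  have hzn := normal_zdata hZ N hN
  refine ⟨⟨fun {n n'} hnn => ?_⟩, MulAction.is_two_pretransitive_iff.mpr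
    (fun {a b c d} hab hcd => hzn.two a b c d hab hcd), hzn.three, hzn.ex, ?_⟩
  · haveI := hZ.1
    exact Subtype.ext (FaithfulSMul.eq_of_smul_eq_smul (α := Ω) (fun a => hnn a))
  intro M hMn hMt
  by_contra hcon
  push Not at hcon
  have ht : ∀ x y : Ω, ∃ m ∈ M, m • x = y := by
    intro x y
    obtain ⟨⟨m, hm⟩, hxy⟩ := hMt.exists_smul_eq x y
    exact ⟨m, hm, hxy⟩
  have hf : ∀ m ∈ M, ∀ x : Ω, m • x = x → m = 1 := by
    intro m hm x hx
    have h1 : (⟨m, hm⟩ : M) ∈ MulAction.stabilizer M x := hx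
    rw [hcon x, Subgroup.mem_bot] at h1
    exact congrArg Subtype.val h1
  have hconj : ∀ g : G, M.map (MulAut.conjNormal g : N ≃* N).toMonoidHom = M := by
    intro g
    haveI : (M.map (MulAut.conjNormal g : N ≃* N).toMonoidHom).Normal :=
      hMn.map _ (MulEquiv.surjective _)
    apply hzn.regular_normal_unique _ M ?_ ?_ ht hf
    · intro x y
      obtain ⟨m, hm, hxy⟩ := ht (g⁻¹ • x) (g⁻¹ • y)
      refine ⟨MulAut.conjNormal g m, Subgroup.mem_map_of_mem _ hm, ?_⟩
      show ((MulAut.conjNormal g m : N) : G) • x = y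
      rw [MulAut.conjNormal_apply, mul_smul, mul_smul]
      have h1 : (m : G) • g⁻¹ • x = g⁻¹ • y := hxy
      rw [h1, smul_inv_smul]
    · intro m' hm' x hx
      obtain ⟨m, hm, rfl⟩ := Subgroup.mem_map.mp hm'
      have hx' : ((MulAut.conjNormal g m : N) : G) • x = x := hx
      rw [MulAut.conjNormal_apply, mul_smul, mul_smul] at hx'
      have h2 := hf m hm (g⁻¹ • x) (eq_inv_smul_iff.mpr hx')
      rw [h2]; exact map_one _
  have hM'n : (M.map N.subtype).Normal := by
    refine ⟨fun m' hm' g => ?_⟩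
    obtain ⟨m, hm, rfl⟩ := Subgroup.mem_map.mp hm'
    have h1 : MulAut.conjNormal g m ∈ M := by
      have h2 := Subgroup.mem_map_of_mem (MulAut.conjNormal g : N ≃* N).toMonoidHom hm
      rw [hconj g] at h2
      exact h2
    refine Subgroup.mem_map.mpr ⟨MulAut.conjNormal g m, h1, ?_⟩
    show ((MulAut.conjNormal g m : N) : G) = g * (m : G) * g⁻¹
    exact MulAut.conjNormal_apply g m
  haveI hM't : MulAction.IsPretransitive (M.map N.subtype) Ω := by
    refine ⟨fun x y => ?_⟩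
    obtain ⟨m, hm, hxy⟩ := ht x y
    exact ⟨⟨(m : G), Subgroup.mem_map_of_mem _ hm⟩, hxy⟩
  obtain ⟨a, ha⟩ := hZ.2.2.2.2 _ hM'n hM't
  obtain ⟨⟨⟨m', hm'⟩, hm'a⟩, hm'1⟩ := Subgroup.ne_bot_iff_exists_ne_one.mp ha
  obtain ⟨m, hm, rfl⟩ := Subgroup.mem_map.mp hm'
  apply hm'1
  have h1 := hf m hm a hm'a
  apply Subtype.ext
  apply Subtype.ext
  show N.subtype m = 1
  rw [h1]; rfl

end Cfsg.Agent.S0339
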