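import Cfsg.Statements.S0350
-- import your own Cfsg.Agent.* helpers here

set_option autoImplicit false
open Cfsg

namespace Cfsg.Agent.S0350

/-- Counting pairs (t-subset, block containing it) in two ways: the number of blocks of a Steiner system with parameters (t, k, v), multiplied by C(k, t), equals C(v, t). -/
theorem result {α : Type*} [Fintype α] [DecidableEq α] {t k : ℕ} {B : Set (Finset α)} (hB : Cfsg.IsSteinerSystem t k B) : B.ncard * Nat.choose k t = Nat.choose (Fintype.card α) t := by
  classical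
  obtain ⟨hk, hU⟩ := hB
  have hfin : B.Finite := Set.toFinite B
  obtain ⟨Bf, hBf⟩ : ∃ Bf : Finset (Finset α), Bf = hfin.toFinset := ⟨_, rfl⟩
  have hmem : ∀ b, b ∈ Bf ↔ b ∈ B := fun b => by rw [hBf]; exact Set.Finite.mem_toFinset hfin
  have h1 : (Finset.powersetCard t (Finset.univ : Finset α)) =
      Bf.biUnion (fun b => Finset.powersetCard t b) := by
    ext s
    rw [Finset.mem_powersetCard, Finset.mem_biUnion]
    constructor
    · rintro ⟨_, hs⟩
      obtain ⟨b, ⟨hb, hsb⟩, _⟩ := hU s hs
      exact ⟨b, (hmem b).mpr hb, Finset.mem_powersetCard.mpr ⟨hsb, hs⟩⟩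
    · rintro ⟨b, hb, hsb⟩
      rw [Finset.mem_powersetCard] at hsb
      exact ⟨Finset.subset_univ _, hsb.2⟩
  have h2 : (Bf.biUnion (fun b => Finset.powersetCard t b)).card =
      ∑ b ∈ Bf, (Finset.powersetCard t b).card := by
    apply Finset.card_biUnion
    intro b hb b' hb' hne
    have hb := Finset.mem_coe.mp hb
    have hb' := Finset.mem_coe.mp hb'
    show Disjoint (Finset.powersetCard t b) (Finset.powersetCard t b')
    rw [Finset.disjoint_left]
    intro s hs hs'
    rw [Finset.mem_powersetCard] at hs hs'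
    obtain ⟨b0, _, huniq⟩ := hU s hs.2
    have e1 := huniq b ⟨(hmem b).mp hb, hs.1⟩
    have e2 := huniq b' ⟨(hmem b').mp hb', hs'.1⟩
    exact hne (e1.trans e2.symm)
  have h3 : ∑ b ∈ Bf, (Finset.powersetCard t b).card = Bf.card * Nat.choose k t := by
    rw [Finset.sum_congr rfl (fun b hb => by
      rw [Finset.card_powersetCard, hk b ((hmem b).mp hb)]), Finset.sum_const, smul_eq_mul]
  have h4 : B.ncard = Bf.card := by rw [hBf]; exact Set.ncard_eq_toFinset_card B hfin
  rw [h4, ← h3, ← h2, ← h1, Finset.card_powersetCard, Finset.card_univ]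

end Cfsg.Agent.S0350
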