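import Cfsg.Statements.S0351
-- import your own Cfsg.Agent.* helpers here

set_option autoImplicit false
open Cfsg

namespace Cfsg.Agent.S0351

/-- Derived design: removing a point p from the blocks through p of an S(t+1, k+1, v) yields an S(t, k, v-1) on the points other than p. -/
theorem result {α : Type*} [Fintype α] [DecidableEq α] {t k : ℕ} {B : Set (Finset α)} (hB : Cfsg.IsSteinerSystem (t + 1) (k + 1) B) (p : α) : Cfsg.IsSteinerSystem t k {b' : Finset {a : α // a ≠ p} | ∃ b ∈ B, p ∈ b ∧ b' = Finset.subtype (fun a => a ≠ p) b} := by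
  classical
  obtain ⟨hk, hU⟩ := hB
  constructor
  · rintro b' ⟨b, hb, hpb, rfl⟩
    rw [Finset.card_subtype, Finset.filter_ne' b p, Finset.card_erase_of_mem hpb, hk b hb]; rfl
  · intro s' hs'
    have hcard : (insert p (s'.map (Function.Embedding.subtype _))).card = t + 1 := by
      rw [Finset.card_insert_of_notMem, Finset.card_map, hs']
      intro h
      rw [Finset.mem_map] at h
      obtain ⟨a, _, ha⟩ := h
      exact a.2 ha
    obtain ⟨b, ⟨hb, hsb⟩, huniq⟩ := hU _ hcard
    have hpb : p ∈ b := hsb (Finset.mem_insert_self _ _)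
    refine ⟨Finset.subtype (fun a => a ≠ p) b, ⟨⟨b, hb, hpb, rfl⟩, ?_⟩, ?_⟩
    · intro a ha
      rw [Finset.mem_subtype]
      apply hsb
      apply Finset.mem_insert_of_mem
      rw [Finset.mem_map]
      exact ⟨a, ha, rfl⟩
    · rintro b'' ⟨⟨b₂, hb₂, hpb₂, rfl⟩, hsub⟩
      have hbb : b₂ = b := by
        apply huniq
        refine ⟨hb₂, ?_⟩
        intro a ha
        rw [Finset.mem_insert] at ha
        rcases ha with rfl | ha
        · exact hpb₂
        · rw [Finset.mem_map] at ha
          obtain ⟨a', ha', rfl⟩ := ha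
          have h9 := hsub ha'
          rw [Finset.mem_subtype] at h9
          exact h9
      rw [hbb]

end Cfsg.Agent.S0351
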