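import Cfsg.Statements.S0353
-- import your own Cfsg.Agent.* helpers here
import Cfsg.Agent.Lib.Helper7.Steiner
import Cfsg.Agent.S0352

set_option autoImplicit false
open Cfsg

namespace Cfsg.Agent.S0353

open Cfsg.Agent.Lib.Helper7

/-- In an S(5, 8, 24), the symmetric difference of two blocks meeting in four points is a block. -/
theorem result {α : Type*} [Fintype α] [DecidableEq α] (hα : Fintype.card α = 24) {B : Set (Finset α)} (hB : Cfsg.IsSteinerSystem 5 8 B) {b c : Finset α} (hb : b ∈ B) (hc : c ∈ B) (h4 : (b ∩ c).card = 4) : symmDiff b c ∈ B := by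
  classical
  have hfin : B.Finite := Set.toFinite B
  obtain ⟨Bf, hBf⟩ : ∃ Bf : Finset (Finset α), ∀ b, b ∈ Bf ↔ b ∈ B :=
    ⟨hfin.toFinset, fun b => Set.Finite.mem_toFinset hfin⟩
  have hk := hB.1
  have hbc : b ≠ c := by
    rintro rfl
    rw [Finset.inter_self, hk b hb] at h4
    omega
  have int024 : ∀ x ∈ B, ∀ y ∈ B, x ≠ y →
      (x ∩ y).card = 0 ∨ (x ∩ y).card = 2 ∨ (x ∩ y).card = 4 :=
    fun x hx y hy hxy => Cfsg.Agent.S0352.result hα hB hx hy hxy
  have uniq : ∀ s : Finset α, s.card = 5 → ∀ x ∈ B, ∀ y ∈ B, s ⊆ x → s ⊆ y → x = y := by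
    intro s hs x hx y hy hsx hsy
    obtain ⟨b0, _, hu⟩ := hB.2 s hs
    exact (hu x ⟨hx, hsx⟩).trans (hu y ⟨hy, hsy⟩).symm
  have int_eq : ∀ (T : Finset α), T.card = 4 → ∀ x ∈ B, ∀ y ∈ B, x ≠ y → T ⊆ x → T ⊆ y →
      x ∩ y = T := by
    intro T hT x hx y hy hxy hTx hTy
    have h1 : T ⊆ x ∩ y := Finset.subset_inter hTx hTy
    have h2 := Finset.card_le_card h1
    have h3 := int024 x hx y hy hxy
    exact (Finset.eq_of_subset_of_card_le h1 (by omega)).symm
  have hT2 : (b \ c).card = 4 := by
    have h1 := Finset.card_sdiff_add_card_inter b c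
    rw [hk b hb] at h1; omega
  have hT3 : (c \ b).card = 4 := by
    have h1 := Finset.card_sdiff_add_card_inter c b
    rw [hk c hc, Finset.inter_comm] at h1; omega
  obtain ⟨A, hA, hAcard⟩ := Finset.exists_subset_card_eq (show 3 ≤ (b \ c).card by omega)
  have hAb : A ⊆ b := hA.trans Finset.sdiff_subset
  have hAc : ∀ x ∈ A, x ∉ c := fun x hx => (Finset.mem_sdiff.mp (hA hx)).2
  have key : ∀ q ∈ c \ b, ∀ q' ∈ c \ b, q ≠ q' → ∀ d ∈ B, A ⊆ d → q ∈ d → q' ∈ d →
      b \ c ⊆ d := by
    intro q hq q' hq' hqq d hd hAd hqd hq'd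
    rw [Finset.mem_sdiff] at hq hq'
    have hdb : d ≠ b := by rintro rfl; exact hq.2 hqd
    have hAdb : A ⊆ d ∩ b := Finset.subset_inter hAd hAb
    have hdb4 : (d ∩ b).card = 4 := by
      have h1 := Finset.card_le_card hAdb
      have h2 := int024 d hd b hb hdb
      omega
    have hdT : ∀ x ∈ d, x ∈ b → x ∉ c := by
      intro x hxd hxb hxc
      have hlam := st_lambda hB Bf hBf (b ∩ c) (by rw [h4]; norm_num)
      rw [h4, hα] at hlam
      norm_num [Nat.choose] at hlam
      obtain ⟨𝒪', h𝒪'⟩ : ∃ 𝒪' : Finset (Finset α),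
          𝒪' = ((Bf.filter (fun O => b ∩ c ⊆ O)).erase b).erase c := ⟨_, rfl⟩
      have h𝒪'card : 𝒪'.card = 3 := by
        rw [h𝒪', Finset.card_erase_of_mem, Finset.card_erase_of_mem]
        · omega
        · exact Finset.mem_filter.mpr ⟨(hBf b).mpr hb, Finset.inter_subset_left⟩
        · exact Finset.mem_erase.mpr ⟨hbc.symm,
            Finset.mem_filter.mpr ⟨(hBf c).mpr hc, Finset.inter_subset_right⟩⟩
      have h𝒪'mem : ∀ O ∈ 𝒪', O ∈ B ∧ b ∩ c ⊆ O ∧ O ≠ b ∧ O ≠ c := by
        intro O hO
        rw [h𝒪', Finset.mem_erase, Finset.mem_erase, Finset.mem_filter] at hO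
        exact ⟨(hBf O).mp hO.2.2.1, hO.2.2.2, hO.2.1, hO.1⟩
      have hy : ∀ O ∈ 𝒪', ∃ y, y ∈ d ∧ y ∈ O ∧ y ∉ b ∧ y ∉ c := by
        intro O hO
        obtain ⟨hOB, hTO, hOb, hOc⟩ := h𝒪'mem O hO
        have hOd : d ≠ O := by
          rintro rfl
          have h1 : A ∪ (b ∩ c) ⊆ d ∩ b :=
            Finset.union_subset hAdb (Finset.subset_inter hTO Finset.inter_subset_left)
          have h2 : (A ∪ (b ∩ c)).card = 7 := by
            rw [Finset.card_union_of_disjoint, hAcard, h4]
            rw [Finset.disjoint_left]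
            intro a ha ha'
            exact hAc a ha (Finset.mem_inter.mp ha').2
          have h3 := Finset.card_le_card h1
          omega
        have h1 : 1 < (d ∩ O).card := by
          have h2 := int024 d hd O hOB hOd
          have h3 : 0 < (d ∩ O).card := Finset.card_pos.mpr
            ⟨x, Finset.mem_inter.mpr ⟨hxd, hTO (Finset.mem_inter.mpr ⟨hxb, hxc⟩)⟩⟩
          omega
        obtain ⟨y, hy, hyx⟩ := Finset.exists_mem_ne h1 x
        rw [Finset.mem_inter] at hy
        have hyb : y ∉ b := by
          intro hyb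
          have h5 := int_eq (b ∩ c) h4 O hOB b hb hOb hTO Finset.inter_subset_left
          have h6 : y ∈ O ∩ b := Finset.mem_inter.mpr ⟨hy.2, hyb⟩
          rw [h5] at h6
          have h7 : insert x (insert y A) ⊆ d ∩ b := by
            intro z hz
            rw [Finset.mem_insert, Finset.mem_insert] at hz
            rcases hz with rfl | rfl | hz
            · exact Finset.mem_inter.mpr ⟨hxd, hxb⟩
            · exact Finset.mem_inter.mpr ⟨hy.1, hyb⟩
            · exact hAdb hz
          have h8 : (insert x (insert y A)).card = 5 := by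
            rw [Finset.card_insert_of_notMem, Finset.card_insert_of_notMem, hAcard]
            · intro h; exact hAc y h (Finset.mem_inter.mp h6).2
            · rw [Finset.mem_insert]
              rintro (h | h)
              · exact hyx h.symm
              · exact hAc x h hxc
          have h9 := Finset.card_le_card h7
          omega
        refine ⟨y, hy.1, hy.2, hyb, ?_⟩
        intro hyc
        have h5 := int_eq (b ∩ c) h4 O hOB c hc hOc hTO Finset.inter_subset_right
        have h6 : y ∈ O ∩ c := Finset.mem_inter.mpr ⟨hy.2, hyc⟩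
        rw [h5] at h6
        exact hyb (Finset.mem_inter.mp h6).1
      haveI : Nonempty α := ⟨x⟩
      choose! yf hyf using hy
      have hyinj : Set.InjOn yf (𝒪' : Set (Finset α)) := by
        intro O hO O' hO' hyy
        by_contra hne
        rw [Finset.mem_coe] at hO hO'
        obtain ⟨hOB, hTO, hOb, hOc⟩ := h𝒪'mem O hO
        obtain ⟨hOB', hTO', hOb', hOc'⟩ := h𝒪'mem O' hO'
        have h5 := int_eq (b ∩ c) h4 O hOB O' hOB' hne hTO hTO'
        have h6 : yf O ∈ O ∩ O' :=
          Finset.mem_inter.mpr ⟨(hyf O hO).2.1, by rw [hyy]; exact (hyf O' hO').2.1⟩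
        rw [h5] at h6
        exact (hyf O hO).2.2.1 (Finset.mem_inter.mp h6).1
      have hYcard : (𝒪'.image yf).card = 3 := by
        rw [Finset.card_image_of_injOn hyinj, h𝒪'card]
      have hsub : (d ∩ b) ∪ ({q, q'} ∪ 𝒪'.image yf) ⊆ d := by
        intro z hz
        rw [Finset.mem_union, Finset.mem_union] at hz
        rcases hz with hz | hz | hz
        · exact (Finset.mem_inter.mp hz).1
        · rw [Finset.mem_insert, Finset.mem_singleton] at hz
          rcases hz with rfl | rfl
          · exact hqd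
          · exact hq'd
        · obtain ⟨O, hO, rfl⟩ := Finset.mem_image.mp hz
          exact (hyf O hO).1
      have hcard : ((d ∩ b) ∪ ({q, q'} ∪ 𝒪'.image yf)).card = 9 := by
        rw [Finset.card_union_of_disjoint, Finset.card_union_of_disjoint, hdb4,
          Finset.card_pair hqq, hYcard]
        · rw [Finset.disjoint_left]
          intro z hz hz'
          obtain ⟨O, hO, rfl⟩ := Finset.mem_image.mp hz'
          rw [Finset.mem_insert, Finset.mem_singleton] at hz
          rcases hz with h | h
          · exact (hyf O hO).2.2.2 (h ▸ hq.1)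
          · exact (hyf O hO).2.2.2 (h ▸ hq'.1)
        · rw [Finset.disjoint_left]
          intro z hz hz'
          rw [Finset.mem_inter] at hz
          rw [Finset.mem_union] at hz'
          rcases hz' with hz' | hz'
          · rw [Finset.mem_insert, Finset.mem_singleton] at hz'
            rcases hz' with rfl | rfl
            · exact hq.2 hz.2
            · exact hq'.2 hz.2
          · obtain ⟨O, hO, rfl⟩ := Finset.mem_image.mp hz'
            exact (hyf O hO).2.2.1 hz.2
      have h10 := Finset.card_le_card hsub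
      rw [hcard, hk d hd] at h10
      omega
    have hsub : d ∩ b ⊆ b \ c := by
      intro x hx
      rw [Finset.mem_inter] at hx
      exact Finset.mem_sdiff.mpr ⟨hx.2, hdT x hx.1 hx.2⟩
    have heq := Finset.eq_of_subset_of_card_le hsub (by rw [hT2, hdb4])
    rw [← heq]
    exact Finset.inter_subset_left
  obtain ⟨q1, hq1⟩ := Finset.card_pos.mp (by rw [hT3]; norm_num : 0 < (c \ b).card)
  have hq1' := Finset.mem_sdiff.mp hq1
  have hF1 : (insert q1 (b \ c)).card = 5 := by
    rw [Finset.card_insert_of_notMem, hT2]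
    intro h; exact hq1'.2 (Finset.mem_sdiff.mp h).1
  obtain ⟨d, ⟨hd, hFd⟩, _⟩ := hB.2 _ hF1
  have hT2d : b \ c ⊆ d := (Finset.subset_insert _ _).trans hFd
  have hq1d : q1 ∈ d := hFd (Finset.mem_insert_self _ _)
  have hT3d : c \ b ⊆ d := by
    intro q hq
    by_cases hqq : q = q1
    · rw [hqq]; exact hq1d
    · have hqm := Finset.mem_sdiff.mp hq
      have hF : (insert q1 (insert q A)).card = 5 := by
        rw [Finset.card_insert_of_notMem, Finset.card_insert_of_notMem, hAcard]
        · intro h; exact hqm.2 (hAb h)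
        · rw [Finset.mem_insert]
          rintro (h | h)
          · exact hqq h.symm
          · exact hq1'.2 (hAb h)
      obtain ⟨d', ⟨hd', hFd'⟩, _⟩ := hB.2 _ hF
      have hAd' : A ⊆ d' :=
        fun a ha => hFd' (Finset.mem_insert_of_mem (Finset.mem_insert_of_mem ha))
      have hq1d' : q1 ∈ d' := hFd' (Finset.mem_insert_self _ _)
      have hqd' : q ∈ d' := hFd' (Finset.mem_insert_of_mem (Finset.mem_insert_self _ _))
      have h1 := key q1 hq1 q hq (Ne.symm hqq) d' hd' hAd' hq1d' hqd'
      have h2 : d' = d := by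
        apply uniq _ hF1 d' hd' d hd _ hFd
        intro z hz
        rw [Finset.mem_insert] at hz
        rcases hz with rfl | hz
        · exact hq1d'
        · exact h1 hz
      rw [← h2]; exact hqd'
  have hsub : symmDiff b c ⊆ d := by
    rw [symmDiff_def]
    exact Finset.union_subset hT2d hT3d
  have hcard : (symmDiff b c).card = 8 := by
    rw [symmDiff_def]
    show ((b \ c) ∪ (c \ b)).card = 8
    rw [Finset.card_union_of_disjoint, hT2, hT3]
    exact disjoint_sdiff_sdiff
  have hfinal := Finset.eq_of_subset_of_card_le hsub (by rw [hcard, hk d hd])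
  rw [hfinal]; exact hd

end Cfsg.Agent.S0353
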