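import Cfsg.Statements.S0354
-- import your own Cfsg.Agent.* helpers here
import Cfsg.Agent.Lib.Helper7.Steiner

set_option autoImplicit false
open Cfsg

namespace Cfsg.Agent.S0354

open Cfsg.Agent.Lib.Helper7

/-- In an S(5, 8, 24), each block is disjoint from exactly 30 blocks. -/
theorem result {α : Type*} [Fintype α] [DecidableEq α] (hα : Fintype.card α = 24) {B : Set (Finset α)} (hB : Cfsg.IsSteinerSystem 5 8 B) {b : Finset α} (hb : b ∈ B) : {c : Finset α | c ∈ B ∧ Disjoint b c}.ncard = 30 := by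
  classical
  have hfin : B.Finite := Set.toFinite B
  obtain ⟨Bf, hBf⟩ : ∃ Bf : Finset (Finset α), ∀ b, b ∈ Bf ↔ b ∈ B :=
    ⟨hfin.toFinset, fun b => Set.Finite.mem_toFinset hfin⟩
  have h0 := st_block_moment hB Bf hBf b hb 0 (by norm_num)
  have h1 := st_block_moment hB Bf hBf b hb 1 (by norm_num)
  have h2 := st_block_moment hB Bf hBf b hb 2 (by norm_num)
  have h3 := st_block_moment hB Bf hBf b hb 3 (by norm_num)
  have h4 := st_block_moment hB Bf hBf b hb 4 (by norm_num)
  rw [hα] at h0 h1 h2 h3 h4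
  simp only [Finset.sum_range_succ, Finset.sum_range_zero] at h0 h1 h2 h3 h4
  norm_num [Nat.choose, -Finset.card_eq_zero] at h0 h1 h2 h3 h4
  have hn0 : ((Bf.erase b).filter (fun c => (c ∩ b).card = 0)).card = 30 := by omega
  have hset : {c : Finset α | c ∈ B ∧ Disjoint b c} =
      ↑((Bf.erase b).filter (fun c => (c ∩ b).card = 0)) := by
    ext c
    simp only [Set.mem_setOf_eq, Finset.coe_filter, Finset.mem_erase, Finset.card_eq_zero]
    rw [hBf c, Finset.disjoint_iff_inter_eq_empty, Finset.inter_comm]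
    constructor
    · rintro ⟨hc, hd⟩
      refine ⟨⟨?_, hc⟩, hd⟩
      rintro rfl
      rw [Finset.inter_self] at hd
      have h9 := hB.1 c hc
      rw [hd] at h9
      simp at h9
    · rintro ⟨⟨_, hc⟩, hd⟩
      exact ⟨hc, hd⟩
  rw [hset, Set.ncard_coe_finset, hn0]

end Cfsg.Agent.S0354
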