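import Cfsg.Statements.S0357
-- import your own Cfsg.Agent.* helpers here
import Cfsg.Agent.Lib.Helper7.Steiner

set_option autoImplicit false
open Cfsg

namespace Cfsg.Agent.S0357

open Cfsg.Agent.Lib.Helper7

/-- In a Steiner system S(5, 6, 12), the complement of every block is again a block. -/
theorem result {α : Type*} [Fintype α] [DecidableEq α] (hα : Fintype.card α = 12) {B : Set (Finset α)} (hB : Cfsg.IsSteinerSystem 5 6 B) {b : Finset α} (hb : b ∈ B) : bᶜ ∈ B := by
  classical
  have hfin : B.Finite := Set.toFinite B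
  obtain ⟨Bf, hBf⟩ : ∃ Bf : Finset (Finset α), ∀ b, b ∈ Bf ↔ b ∈ B :=
    ⟨hfin.toFinset, fun b => Set.Finite.mem_toFinset hfin⟩
  have h0 := st_block_moment hB Bf hBf b hb 0 (by norm_num)
  have h1 := st_block_moment hB Bf hBf b hb 1 (by norm_num)
  have h2 := st_block_moment hB Bf hBf b hb 2 (by norm_num)
  have h3 := st_block_moment hB Bf hBf b hb 3 (by norm_num)
  have h4 := st_block_moment hB Bf hBf b hb 4 (by norm_num)
  rw [hα] at h0 h1 h2 h3 h4
  simp only [Finset.sum_range_succ, Finset.sum_range_zero] at h0 h1 h2 h3 h4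
  norm_num [Nat.choose, -Finset.card_eq_zero] at h0 h1 h2 h3 h4
  have hn0 : ((Bf.erase b).filter (fun c => (c ∩ b).card = 0)).card = 1 := by omega
  obtain ⟨c, hc⟩ := Finset.card_pos.mp (by rw [hn0]; norm_num)
  rw [Finset.mem_filter, Finset.mem_erase, Finset.card_eq_zero] at hc
  obtain ⟨⟨_, hcB⟩, hd⟩ := hc
  have hcB' := (hBf c).mp hcB
  have hsub : c ⊆ bᶜ := by
    intro x hx
    rw [Finset.mem_compl]
    intro hxb
    have h9 : x ∈ c ∩ b := Finset.mem_inter.mpr ⟨hx, hxb⟩
    rw [hd] at h9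
    simp at h9
  have hcard : bᶜ.card ≤ c.card := by
    rw [Finset.card_compl, hα, hB.1 b hb, hB.1 c hcB']
  rw [← Finset.eq_of_subset_of_card_le hsub hcard]
  exact hcB'

end Cfsg.Agent.S0357
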