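import Cfsg.Statements.S0384
-- import your own Cfsg.Agent.* helpers here
import Mathlib
import Cfsg.Agent.Lib.Helper7.GolayC14

set_option autoImplicit false
open scoped Pointwise
open Cfsg

namespace Cfsg.Agent.S0384

/-- A dodecad stabiliser is sharply 5-transitive on the dodecad. -/
theorem result (d : Finset Cfsg.GolayPt) (hd : d ∈ Cfsg.dodecads) (x y : Fin 5 ↪ Cfsg.GolayPt) (hx : ∀ i, x i ∈ d) (hy : ∀ i, y i ∈ d) : ∃! g : MulAction.stabilizer Cfsg.M24 d, ∀ i, ((g : Cfsg.M24) : Equiv.Perm Cfsg.GolayPt) (x i) = y i := by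
  obtain ⟨g, hg, hgd, hgx⟩ := Cfsg.Agent.Lib.Helper7.gc_dodecad_five d hd x y hx hy
  refine ⟨⟨⟨g, hg⟩, hgd⟩, hgx, ?_⟩
  intro g' hg'
  have h1 : ((g' : Cfsg.M24) : Equiv.Perm Cfsg.GolayPt)⁻¹ * g = 1 := by
    apply Cfsg.Agent.Lib.Helper7.gc_dodecad_sharp d hd x hx
      (mul_mem (inv_mem (g' : Cfsg.M24).2) hg)
    · rw [mul_smul, hgd]
      have h2 : ((g' : Cfsg.M24) : Equiv.Perm Cfsg.GolayPt) • d = d := g'.2
      rw [inv_smul_eq_iff, h2]
    · intro i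
      rw [Equiv.Perm.mul_apply, hgx, ← hg' i]
      exact Equiv.symm_apply_apply _ _
  apply Subtype.ext
  apply Subtype.ext
  show ((g' : Cfsg.M24) : Equiv.Perm Cfsg.GolayPt) = g
  exact inv_mul_eq_one.mp h1

end Cfsg.Agent.S0384
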