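import Cfsg.Statements.S0427
-- import your own Cfsg.Agent.* helpers here
import Cfsg.Agent.Lib.Helper7.Steiner22

set_option autoImplicit false
open Cfsg

namespace Cfsg.Agent.S0427


open Cfsg.Agent.Lib.Helper7

section

theorem count_set {α : Type*} [DecidableEq α] {B : Set (Finset α)} (Bf : Finset (Finset α))
    (hBf : ∀ b, b ∈ Bf ↔ b ∈ B) (s : Set B) (P : Finset α → Prop) [DecidablePred P]
    (h : ∀ x : B, x ∈ s ↔ P (x : Finset α)) : Nat.card s = (Bf.filter P).card := by
  rw [← Nat.card_eq_finsetCard]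
  apply Nat.card_congr
  refine ⟨fun x => ⟨x.1.1, Finset.mem_filter.mpr ⟨(hBf _).mpr x.1.2, (h x.1).mp x.2⟩⟩,
    fun c => ⟨⟨c.1, (hBf _).mp (Finset.mem_filter.mp c.2).1⟩,
      (h _).mpr (Finset.mem_filter.mp c.2).2⟩, ?_, ?_⟩
  · intro x
    rfl
  · intro c
    rfl

end

/-- The block graph (adjacent = disjoint) of an S(3, 6, 22) is strongly regular with parameters (77, 16, 0, 4). -/
theorem result {α : Type*} [Fintype α] (hα : Fintype.card α = 22) {B : Set (Finset α)} (hB : Cfsg.IsSteinerSystem 3 6 B) [Fintype B] [DecidableRel (Cfsg.blockGraph B).Adj] : (Cfsg.blockGraph B).IsSRGWith 77 16 0 4 := by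
  classical
  have hfin : B.Finite := Set.toFinite B
  obtain ⟨Bf, hBf⟩ : ∃ Bf : Finset (Finset α), ∀ b, b ∈ Bf ↔ b ∈ B :=
    ⟨hfin.toFinset, fun b => Set.Finite.mem_toFinset hfin⟩
  have hadj : ∀ v w : B, (Cfsg.blockGraph B).Adj v w ↔
      Disjoint (v : Finset α) (w : Finset α) := by
    intro v w
    unfold Cfsg.blockGraph
    rw [SimpleGraph.fromRel_adj]
    constructor
    · rintro ⟨_, h | h⟩
      · exact h
      · exact h.symm
    · intro h
      refine ⟨?_, Or.inl h⟩
      rintro rfl
      exact ((s22_disj_iff hB v.2).mp h).1 rfl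
  refine ⟨?_, ?_, ?_, ?_⟩
  · rw [← Nat.card_eq_fintype_card, ← Nat.card_univ,
      count_set Bf hBf Set.univ (fun _ => True) (fun x => by simp)]
    rw [Finset.filter_true_of_mem (fun _ _ => trivial)]
    exact s22_card hα hB Bf hBf
  · intro v
    rw [← SimpleGraph.card_neighborSet_eq_degree, ← Nat.card_eq_fintype_card,
      count_set Bf hBf _ (fun c => Disjoint (v : Finset α) c)
        (fun x => by rw [SimpleGraph.mem_neighborSet, hadj])]
    exact s22_deg hα hB Bf hBf v.2
  · intro v w hvw
    have hne : (v : Finset α) ≠ w := by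
      intro h
      exact (Cfsg.blockGraph B).ne_of_adj hvw (Subtype.ext h)
    rw [← Nat.card_eq_fintype_card,
      count_set Bf hBf _ (fun d => Disjoint (v : Finset α) d ∧ Disjoint (w : Finset α) d)
        (fun x => by rw [SimpleGraph.mem_commonNeighbors, hadj, hadj])]
    exact (s22_common hα hB Bf hBf v.2 w.2 hne).1 ((hadj v w).mp hvw)
  · intro v w hvw hnadj
    have hne : (v : Finset α) ≠ w := by
      intro h
      exact hvw (Subtype.ext h)
    rw [← Nat.card_eq_fintype_card,
      count_set Bf hBf _ (fun d => Disjoint (v : Finset α) d ∧ Disjoint (w : Finset α) d)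
        (fun x => by rw [SimpleGraph.mem_commonNeighbors, hadj, hadj])]
    exact (s22_common hα hB Bf hBf v.2 w.2 hne).2 (fun h => hnadj ((hadj v w).mpr h))

end Cfsg.Agent.S0427
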