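import Cfsg.Statements.S0428
-- import your own Cfsg.Agent.* helpers here
import Cfsg.Agent.Lib.Helper7.Steiner22

set_option autoImplicit false
open Cfsg

namespace Cfsg.Agent.S0428


open Cfsg.Agent.Lib.Helper7

/-- The point-block graph of an S(3, 6, 22) is strongly regular with parameters (100, 22, 0, 6). -/
theorem result {α : Type*} [Fintype α] (hα : Fintype.card α = 22) {B : Set (Finset α)} (hB : Cfsg.IsSteinerSystem 3 6 B) [Fintype B] [DecidableRel (Cfsg.pointBlockGraph B).Adj] : (Cfsg.pointBlockGraph B).IsSRGWith 100 22 0 6 := by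
  classical
  have hfin : B.Finite := Set.toFinite B
  obtain ⟨Bf, hBf⟩ : ∃ Bf : Finset (Finset α), ∀ b, b ∈ Bf ↔ b ∈ B :=
    ⟨hfin.toFinset, fun b => Set.Finite.mem_toFinset hfin⟩
  have a00 : ¬ (Cfsg.pointBlockGraph B).Adj none none := pb_adj_none_none
  have a01 : ∀ a : α, (Cfsg.pointBlockGraph B).Adj none (some (Sum.inl a)) := pb_adj_none_inl
  have a02 : ∀ c : B, ¬ (Cfsg.pointBlockGraph B).Adj none (some (Sum.inr c)) := pb_adj_none_inr
  have a11 : ∀ a a' : α, ¬ (Cfsg.pointBlockGraph B).Adj (some (Sum.inl a)) (some (Sum.inl a')) :=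
    pb_adj_inl_inl
  have a12 : ∀ (a : α) (c : B), (Cfsg.pointBlockGraph B).Adj (some (Sum.inl a)) (some (Sum.inr c))
      ↔ a ∈ (c : Finset α) := pb_adj_inl_inr
  have a22 : ∀ (b c : B), (Cfsg.pointBlockGraph B).Adj (some (Sum.inr b)) (some (Sum.inr c))
      ↔ Disjoint (b : Finset α) (c : Finset α) := pb_adj_inr_inr hB
  have a10 : ∀ a : α, (Cfsg.pointBlockGraph B).Adj (some (Sum.inl a)) none :=
    fun a => (a01 a).symm
  have a20 : ∀ c : B, ¬ (Cfsg.pointBlockGraph B).Adj (some (Sum.inr c)) none :=
    fun c h => a02 c h.symm
  have a21 : ∀ (a : α) (c : B), (Cfsg.pointBlockGraph B).Adj (some (Sum.inr c)) (some (Sum.inl a))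
      ↔ a ∈ (c : Finset α) := fun a c => by rw [SimpleGraph.adj_comm]; exact a12 a c
  have hfb : ∀ b : Finset α, Finset.univ.filter (fun a => a ∈ b) = b := by
    intro b; ext; simp
  refine ⟨?_, ?_, ?_, ?_⟩
  · rw [← Nat.card_eq_fintype_card, Finite.card_option, Nat.card_sum, Nat.card_eq_fintype_card, hα]
    have : Nat.card B = 77 := by
      rw [← Nat.card_univ, s22_count_set Bf hBf Set.univ (fun _ => True) (fun x => by simp),
        Finset.filter_true_of_mem (fun _ _ => trivial)]
      exact s22_card hα hB Bf hBf
    rw [this]
  · intro v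
    rw [← SimpleGraph.card_neighborSet_eq_degree, ← Nat.card_eq_fintype_card]
    rcases v with _ | a | b
    · rw [s22_count_opt Bf hBf _ (fun _ => True) (fun _ => False) False
        (by simp [SimpleGraph.mem_neighborSet, a00])
        (fun a => by simp [SimpleGraph.mem_neighborSet, a01])
        (fun c => by simp [SimpleGraph.mem_neighborSet, a02])]
      simp [hα]
    · rw [s22_count_opt Bf hBf _ (fun _ => False) (fun c => a ∈ c) True
        (by simp [SimpleGraph.mem_neighborSet, a10])
        (fun a => by simp [SimpleGraph.mem_neighborSet, a11])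
        (fun c => by simp [SimpleGraph.mem_neighborSet, a12]),
        s22_point hα hB Bf hBf a]
      simp
    · rw [s22_count_opt Bf hBf _ (fun a => a ∈ (b : Finset α)) (fun c => Disjoint (b : Finset α) c)
        False
        (by simp [SimpleGraph.mem_neighborSet, a20])
        (fun a => by simp [SimpleGraph.mem_neighborSet, a21])
        (fun c => by simp [SimpleGraph.mem_neighborSet, a22]),
        s22_deg hα hB Bf hBf b.2, hfb, hB.1 b b.2]
      simp
  · intro v w hvw
    rw [← Nat.card_eq_fintype_card]
    rcases v with _ | a | b <;> rcases w with _ | a' | c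
    · exact absurd hvw a00
    · rw [s22_count_opt Bf hBf _ (fun _ => False) (fun _ => False) False
        (by simp [SimpleGraph.mem_commonNeighbors, a00])
        (fun a => by simp [SimpleGraph.mem_commonNeighbors, a11])
        (fun c => by simp [SimpleGraph.mem_commonNeighbors, a02])]
      simp
    · exact absurd hvw (a02 c)
    · rw [s22_count_opt Bf hBf _ (fun _ => False) (fun _ => False) False
        (by simp [SimpleGraph.mem_commonNeighbors, a00])
        (fun a => by simp [SimpleGraph.mem_commonNeighbors, a11])
        (fun c => by simp [SimpleGraph.mem_commonNeighbors, a02])]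
      simp
    · exact absurd hvw (a11 a a')
    · have hac : a ∈ (c : Finset α) := (a12 a c).mp hvw
      rw [s22_count_opt Bf hBf _ (fun _ => False)
        (fun d => a ∈ d ∧ Disjoint (c : Finset α) d) False
        (by simp [SimpleGraph.mem_commonNeighbors, a20])
        (fun a => by simp [SimpleGraph.mem_commonNeighbors, a11])
        (fun d => by simp [SimpleGraph.mem_commonNeighbors, a12, a22])]
      have e : Bf.filter (fun d => a ∈ d ∧ Disjoint (c : Finset α) d) = ∅ := by
        rw [Finset.filter_eq_empty_iff]
        rintro d _ ⟨h1, h2⟩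
        exact Finset.disjoint_left.mp h2 hac h1
      rw [e]
      simp
    · exact absurd hvw (a20 b)
    · have hab : a' ∈ (b : Finset α) := (a21 a' b).mp hvw
      rw [s22_count_opt Bf hBf _ (fun _ => False)
        (fun d => Disjoint (b : Finset α) d ∧ a' ∈ d) False
        (by simp [SimpleGraph.mem_commonNeighbors, a20])
        (fun a => by simp [SimpleGraph.mem_commonNeighbors, a11])
        (fun d => by simp [SimpleGraph.mem_commonNeighbors, a12, a22])]
      have e : Bf.filter (fun d => Disjoint (b : Finset α) d ∧ a' ∈ d) = ∅ := by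
        rw [Finset.filter_eq_empty_iff]
        rintro d _ ⟨h2, h1⟩
        exact Finset.disjoint_left.mp h2 hab h1
      rw [e]
      simp
    · have hbc : Disjoint (b : Finset α) c := (a22 b c).mp hvw
      have hne : (b : Finset α) ≠ c := by
        intro h
        exact (Cfsg.pointBlockGraph B).ne_of_adj hvw (by rw [Subtype.ext h])
      rw [s22_count_opt Bf hBf _ (fun a => a ∈ (b : Finset α) ∧ a ∈ (c : Finset α))
        (fun d => Disjoint (b : Finset α) d ∧ Disjoint (c : Finset α) d) False
        (by simp [SimpleGraph.mem_commonNeighbors, a20])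
        (fun a => by simp [SimpleGraph.mem_commonNeighbors, a21])
        (fun d => by simp [SimpleGraph.mem_commonNeighbors, a22]),
        (s22_common hα hB Bf hBf b.2 c.2 hne).1 hbc]
      have e : Finset.univ.filter (fun a => a ∈ (b : Finset α) ∧ a ∈ (c : Finset α)) = ∅ := by
        rw [Finset.filter_eq_empty_iff]
        rintro x _ ⟨h1, h2⟩
        exact Finset.disjoint_left.mp hbc h1 h2
      rw [e]
      simp
  · intro v w hne hnadj
    rw [← Nat.card_eq_fintype_card]
    rcases v with _ | a | b <;> rcases w with _ | a' | c
    · exact absurd rfl hne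
    · exact absurd (a01 a') hnadj
    · rw [s22_count_opt Bf hBf _ (fun a => a ∈ (c : Finset α)) (fun _ => False) False
        (by simp [SimpleGraph.mem_commonNeighbors, a00])
        (fun a => by simp [SimpleGraph.mem_commonNeighbors, a01, a21])
        (fun d => by simp [SimpleGraph.mem_commonNeighbors, a02]),
        hfb, hB.1 c c.2]
      simp
    · exact absurd (a10 a) hnadj
    · have haa : a ≠ a' := by
        intro h
        exact hne (by rw [h])
      rw [s22_count_opt Bf hBf _ (fun _ => False) (fun d => a ∈ d ∧ a' ∈ d) True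
        (by simp [SimpleGraph.mem_commonNeighbors, a10])
        (fun a => by simp [SimpleGraph.mem_commonNeighbors, a11])
        (fun d => by simp [SimpleGraph.mem_commonNeighbors, a12]),
        s22_pair hα hB Bf hBf haa]
      simp
    · have hac : a ∉ (c : Finset α) := fun h => hnadj ((a12 a c).mpr h)
      rw [s22_count_opt Bf hBf _ (fun _ => False)
        (fun d => a ∈ d ∧ Disjoint (c : Finset α) d) False
        (by simp [SimpleGraph.mem_commonNeighbors, a20])
        (fun a => by simp [SimpleGraph.mem_commonNeighbors, a11])
        (fun d => by simp [SimpleGraph.mem_commonNeighbors, a12, a22]),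
        s22_point_block hα hB Bf hBf c.2 hac]
      simp
    · rw [s22_count_opt Bf hBf _ (fun a => a ∈ (b : Finset α)) (fun _ => False) False
        (by simp [SimpleGraph.mem_commonNeighbors, a00])
        (fun a => by simp [SimpleGraph.mem_commonNeighbors, a01, a21])
        (fun d => by simp [SimpleGraph.mem_commonNeighbors, a02]),
        hfb, hB.1 b b.2]
      simp
    · have hab : a' ∉ (b : Finset α) := fun h => hnadj ((a21 a' b).mpr h)
      rw [s22_count_opt Bf hBf _ (fun _ => False)
        (fun d => a' ∈ d ∧ Disjoint (b : Finset α) d) False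
        (by simp [SimpleGraph.mem_commonNeighbors, a20])
        (fun a => by simp [SimpleGraph.mem_commonNeighbors, a11])
        (fun d => by simp [SimpleGraph.mem_commonNeighbors, a12, a22, and_comm]),
        s22_point_block hα hB Bf hBf b.2 hab]
      simp
    · have hnd : ¬ Disjoint (b : Finset α) c := fun h => hnadj ((a22 b c).mpr h)
      have hbc : (b : Finset α) ≠ c := by
        intro h
        exact hne (by rw [Subtype.ext h])
      rw [s22_count_opt Bf hBf _ (fun a => a ∈ (b : Finset α) ∧ a ∈ (c : Finset α))
        (fun d => Disjoint (b : Finset α) d ∧ Disjoint (c : Finset α) d) False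
        (by simp [SimpleGraph.mem_commonNeighbors, a20])
        (fun a => by simp [SimpleGraph.mem_commonNeighbors, a21])
        (fun d => by simp [SimpleGraph.mem_commonNeighbors, a22]),
        (s22_common hα hB Bf hBf b.2 c.2 hbc).2 hnd]
      have e : Finset.univ.filter (fun a => a ∈ (b : Finset α) ∧ a ∈ (c : Finset α)) =
          (b : Finset α) ∩ c := by
        ext x
        simp
      rw [e, s22_inter_two hα hB b.2 c.2 hbc hnd]
      simp

end Cfsg.Agent.S0428
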