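import Mathlib
import Cfsg.Statements.S0439

set_option autoImplicit false
open Cfsg

namespace Cfsg.Agent.S0439

open Equiv in
theorem swap_mul_swap_pow {α : Type*} [DecidableEq α] [Fintype α] (a b c d : α) (hab : a ≠ b) (hcd : c ≠ d) :
    (swap a b * swap c d) ^ 2 = 1 ∨ (swap a b * swap c d) ^ 3 = 1 := by
  have h3 : ∀ x y z : α, x ≠ y → x ≠ z → y ≠ z → (swap x y * swap x z) ^ 3 = 1 := by
    intro x y z hxy hxz hyz
    have := (Equiv.Perm.isThreeCycle_swap_mul_swap_same hxy hxz hyz).orderOf
    rw [← this]
    exact pow_orderOf_eq_one _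
  by_cases hca : c = a
  · subst hca
    by_cases hdb : d = b
    · subst hdb
      left
      rw [Equiv.swap_mul_self, one_pow]
    · right
      exact h3 c b d hab hcd (Ne.symm hdb)
  · by_cases hcb : c = b
    · subst hcb
      by_cases hda : d = a
      · subst hda
        left
        rw [Equiv.swap_comm d c, Equiv.swap_mul_self, one_pow]
      · right
        rw [Equiv.swap_comm a c]
        exact h3 c a d (Ne.symm hab) hcd (Ne.symm hda)
    · by_cases hda : d = a
      · subst hda
        right
        rw [Equiv.swap_comm c d]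
        exact h3 d b c hab (Ne.symm hcd) (Ne.symm hcb)
      · by_cases hdb : d = b
        · subst hdb
          right
          rw [Equiv.swap_comm a d, Equiv.swap_comm c d]
          exact h3 d a c (Ne.symm hab) (Ne.symm hcd) (Ne.symm hca)
        · left
          have hcomm : swap a b * swap c d = swap c d * swap a b := by
            have := Equiv.swap_apply_apply (swap a b) c d
            rw [Equiv.swap_apply_of_ne_of_ne hca hcb, Equiv.swap_apply_of_ne_of_ne hda hdb] at this
            calc swap a b * swap c d = (swap a b * swap c d * (swap a b)⁻¹) * swap a b := by group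
              _ = swap c d * swap a b := by rw [← this]
          rw [pow_two]
          calc swap a b * swap c d * (swap a b * swap c d)
              = swap a b * swap c d * (swap c d * swap a b) := by rw [hcomm]
            _ = swap a b * (swap c d * swap c d) * swap a b := by group
            _ = 1 := by rw [Equiv.swap_mul_self, mul_one, Equiv.swap_mul_self]

/-- In the symmetric group of degree n ≥ 2, the set of transpositions is a conjugacy class of 3-transpositions which generates the group. -/
theorem result (n : ℕ) (hn : 2 ≤ n) : Cfsg.IsThreeTranspositionClass {σ : Equiv.Perm (Fin n) | σ.IsSwap} := by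
  obtain ⟨m, rfl⟩ : ∃ m, n = m + 2 := ⟨n - 2, by omega⟩
  refine ⟨⟨?_, ?_⟩, ?_, Equiv.Perm.closure_isSwap⟩
  · intro d hd
    exact Equiv.Perm.IsSwap.orderOf hd
  · rintro d ⟨a, b, hab, rfl⟩ e ⟨c, d', hcd, rfl⟩
    exact swap_mul_swap_pow a b c d' hab hcd
  · have h01 : (0 : Fin (m + 2)) ≠ 1 := by
      intro h
      have := congrArg Fin.val h
      simp at this
    refine ⟨Equiv.swap 0 1, ⟨0, 1, h01, rfl⟩, ?_⟩
    ext σ
    show σ.IsSwap ↔ IsConj (Equiv.swap (0 : Fin (m + 2)) 1) σ
    constructor
    · rintro ⟨a, b, hab, rfl⟩
      exact Equiv.Perm.isConj_swap h01 hab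
    · intro h
      obtain ⟨c, hc⟩ := isConj_iff.mp h
      rw [← hc]
      refine ⟨c 0, c 1, fun h => h01 (c.injective h), ?_⟩
      exact (Equiv.swap_apply_apply c 0 1).symm

end Cfsg.Agent.S0439
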