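import Mathlib
import Cfsg.Statements.S0440
import Cfsg.Agent.Lib.Helper5.Symp

set_option autoImplicit false
open Cfsg

namespace Cfsg.Agent.S0440

theorem z2c : ∀ c : ZMod 2, c = 0 ∨ c = 1 := by decide
theorem z2d : ∀ c : ZMod 2, c + c = 0 := by decide

/-- the symplectic transvection over the field of two elements -/
def T (n : ℕ) (w : Fin n ⊕ Fin n → ZMod 2) : Matrix.symplecticGroup (Fin n) (ZMod 2) :=
  ⟨Cfsg.sympTransvection n w 1, Cfsg.Agent.S0764.result n w 1⟩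

open Matrix Cfsg.Agent.Lib.Helper5

theorem T_mulVec (n : ℕ) (w x : Fin n ⊕ Fin n → ZMod 2) :
    ((T n w : Matrix.symplecticGroup (Fin n) (ZMod 2)) : Matrix (Fin n ⊕ Fin n) (Fin n ⊕ Fin n) (ZMod 2)) *ᵥ x =
      x + Cfsg.sympForm n (ZMod 2) x w • w := by
  show Cfsg.sympTransvection n w 1 *ᵥ x = _
  rw [sympTransvection_mulVec, one_mul]

theorem ext_mv (n : ℕ) (A B : Matrix.symplecticGroup (Fin n) (ZMod 2))
    (h : ∀ x : Fin n ⊕ Fin n → ZMod 2,
      (A : Matrix (Fin n ⊕ Fin n) (Fin n ⊕ Fin n) (ZMod 2)) *ᵥ x =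
      (B : Matrix (Fin n ⊕ Fin n) (Fin n ⊕ Fin n) (ZMod 2)) *ᵥ x) : A = B := by
  apply Subtype.ext
  apply Matrix.toLin'.injective
  apply LinearMap.ext
  intro x
  rw [Matrix.toLin'_apply, Matrix.toLin'_apply]
  exact h x

theorem mul_mv (n : ℕ) (A B : Matrix.symplecticGroup (Fin n) (ZMod 2)) (x : Fin n ⊕ Fin n → ZMod 2) :
    ((A * B : Matrix.symplecticGroup (Fin n) (ZMod 2)) : Matrix (Fin n ⊕ Fin n) (Fin n ⊕ Fin n) (ZMod 2)) *ᵥ x =
      (A : Matrix (Fin n ⊕ Fin n) (Fin n ⊕ Fin n) (ZMod 2)) *ᵥ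
        ((B : Matrix (Fin n ⊕ Fin n) (Fin n ⊕ Fin n) (ZMod 2)) *ᵥ x) := by
  rw [Matrix.mulVec_mulVec]; rfl

theorem one_mv (n : ℕ) (x : Fin n ⊕ Fin n → ZMod 2) :
    ((1 : Matrix.symplecticGroup (Fin n) (ZMod 2)) : Matrix (Fin n ⊕ Fin n) (Fin n ⊕ Fin n) (ZMod 2)) *ᵥ x = x :=
  Matrix.one_mulVec x

theorem conj_T (n : ℕ) (A : Matrix.symplecticGroup (Fin n) (ZMod 2)) (w : Fin n ⊕ Fin n → ZMod 2) :
    A * T n w * A⁻¹ = T n ((A : Matrix (Fin n ⊕ Fin n) (Fin n ⊕ Fin n) (ZMod 2)) *ᵥ w) := by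
  rw [mul_inv_eq_iff_eq_mul]
  apply ext_mv
  intro x
  rw [mul_mv, mul_mv, T_mulVec, T_mulVec, Matrix.mulVec_add, Matrix.mulVec_smul,
    sympForm_mulVec_of_mem n _ A.2]

theorem T_sq (n : ℕ) (w : Fin n ⊕ Fin n → ZMod 2) : T n w * T n w = 1 := by
  apply ext_mv
  intro x
  rw [mul_mv, T_mulVec, T_mulVec, sympForm_add_left, sympForm_smul_left, sympForm_self, mul_zero,
    add_zero, add_assoc, ← add_smul, z2d, zero_smul, add_zero, one_mv]

theorem T_ne_one (n : ℕ) (w : Fin n ⊕ Fin n → ZMod 2) (hw : w ≠ 0) : T n w ≠ 1 := by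
  intro h
  obtain ⟨a, ha⟩ := exists_sympForm_ne_zero n w hw
  have h1 := T_mulVec n w a
  rw [h, one_mv] at h1
  have h3 : Cfsg.sympForm n (ZMod 2) a w = 1 := by
    rcases z2c (Cfsg.sympForm n (ZMod 2) a w) with h4 | h4
    · exfalso; apply ha; rw [sympForm_swap, h4, neg_zero]
    · exact h4
  rw [h3, one_smul] at h1
  apply hw
  have h5 : a + 0 = a + w := by rw [add_zero]; exact h1
  exact (add_left_cancel h5).symm

theorem orderOf_T (n : ℕ) (w : Fin n ⊕ Fin n → ZMod 2) (hw : w ≠ 0) : orderOf (T n w) = 2 := by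
  apply orderOf_eq_prime
  · rw [pow_two]; exact T_sq n w
  · exact T_ne_one n w hw

theorem mem_D (n : ℕ) (g : Matrix.symplecticGroup (Fin n) (ZMod 2)) :
    ((g : Matrix (Fin n ⊕ Fin n) (Fin n ⊕ Fin n) (ZMod 2)) - 1).rank = 1 ↔
      ∃ w : Fin n ⊕ Fin n → ZMod 2, w ≠ 0 ∧ g = T n w := by
  constructor
  · intro hr
    have hfr : Module.finrank (ZMod 2) (LinearMap.range
        ((g : Matrix (Fin n ⊕ Fin n) (Fin n ⊕ Fin n) (ZMod 2)) - 1).mulVecLin) = 1 := hr
    obtain ⟨⟨a, ha⟩, ha0, hspan⟩ := finrank_eq_one_iff'.1 hfr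
    have ha0' : a ≠ 0 := fun h => ha0 (Subtype.ext h)
    have hM : ∀ x : Fin n ⊕ Fin n → ZMod 2,
        ((g : Matrix (Fin n ⊕ Fin n) (Fin n ⊕ Fin n) (ZMod 2)) - 1) *ᵥ x = 0 ∨
        ((g : Matrix (Fin n ⊕ Fin n) (Fin n ⊕ Fin n) (ZMod 2)) - 1) *ᵥ x = a := by
      intro x
      obtain ⟨c, hc⟩ := hspan ⟨((g : Matrix (Fin n ⊕ Fin n) (Fin n ⊕ Fin n) (ZMod 2)) - 1) *ᵥ x,
        LinearMap.mem_range.2 ⟨x, rfl⟩⟩
      have hc' : c • a = ((g : Matrix (Fin n ⊕ Fin n) (Fin n ⊕ Fin n) (ZMod 2)) - 1) *ᵥ x := by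
        have := congrArg Subtype.val hc
        exact this
      rcases z2c c with h | h
      · left; rw [← hc', h, zero_smul]
      · right; rw [← hc', h, one_smul]
    have hg : ∀ x : Fin n ⊕ Fin n → ZMod 2,
        (g : Matrix (Fin n ⊕ Fin n) (Fin n ⊕ Fin n) (ZMod 2)) *ᵥ x =
          x + ((g : Matrix (Fin n ⊕ Fin n) (Fin n ⊕ Fin n) (ZMod 2)) - 1) *ᵥ x := by
      intro x
      rw [Matrix.sub_mulVec, Matrix.one_mulVec]; abel
    have hMM : ∀ x y : Fin n ⊕ Fin n → ZMod 2, Cfsg.sympForm n (ZMod 2)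
        (((g : Matrix (Fin n ⊕ Fin n) (Fin n ⊕ Fin n) (ZMod 2)) - 1) *ᵥ x)
        (((g : Matrix (Fin n ⊕ Fin n) (Fin n ⊕ Fin n) (ZMod 2)) - 1) *ᵥ y) = 0 := by
      intro x y
      rcases hM x with h | h
      · rw [h, sympForm_zero_left]
      · rcases hM y with h' | h'
        · rw [h', sympForm_zero_right]
        · rw [h, h', sympForm_self]
    have hrel : ∀ x y : Fin n ⊕ Fin n → ZMod 2, Cfsg.sympForm n (ZMod 2) x
        (((g : Matrix (Fin n ⊕ Fin n) (Fin n ⊕ Fin n) (ZMod 2)) - 1) *ᵥ y) =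
        Cfsg.sympForm n (ZMod 2) (((g : Matrix (Fin n ⊕ Fin n) (Fin n ⊕ Fin n) (ZMod 2)) - 1) *ᵥ x) y := by
      intro x y
      have h := sympForm_mulVec_of_mem n _ g.2 x y
      rw [hg x, hg y, sympForm_add_left, sympForm_add_right, sympForm_add_right, hMM, add_zero] at h
      have h2 := z2d (Cfsg.sympForm n (ZMod 2)
        (((g : Matrix (Fin n ⊕ Fin n) (Fin n ⊕ Fin n) (ZMod 2)) - 1) *ᵥ x) y)
      linear_combination h - h2
    obtain ⟨y0, hy0⟩ := LinearMap.mem_range.1 ha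
    have hy0' : ((g : Matrix (Fin n ⊕ Fin n) (Fin n ⊕ Fin n) (ZMod 2)) - 1) *ᵥ y0 = a := hy0
    obtain ⟨z, hz⟩ := exists_sympForm_ne_zero n a ha0'
    have hz1 : Cfsg.sympForm n (ZMod 2) z a = 1 := by
      rcases z2c (Cfsg.sympForm n (ZMod 2) z a) with h4 | h4
      · exfalso; apply hz; rw [sympForm_swap, h4, neg_zero]
      · exact h4
    have hay0 : Cfsg.sympForm n (ZMod 2) a y0 = 1 := by
      have h1 := hrel z y0
      rw [hy0', hz1] at h1
      rcases hM z with h | h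
      · rw [h, sympForm_zero_left] at h1
        exact absurd h1 one_ne_zero
      · rw [h] at h1; exact h1.symm
    refine ⟨a, ha0', ?_⟩
    apply ext_mv
    intro x
    rw [hg x, T_mulVec]
    congr 1
    have h1 := hrel x y0
    rw [hy0'] at h1
    rcases hM x with h | h
    · rw [h, sympForm_zero_left] at h1
      rw [h, h1, zero_smul]
    · rw [h, hay0] at h1
      rw [h, h1, one_smul]
  · rintro ⟨w, hw, rfl⟩
    have hle : ((T n w : Matrix (Fin n ⊕ Fin n) (Fin n ⊕ Fin n) (ZMod 2)) - 1).rank ≤ 1 := by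
      have : (T n w : Matrix (Fin n ⊕ Fin n) (Fin n ⊕ Fin n) (ZMod 2)) - 1 =
          Matrix.vecMulVec w (Matrix.J (Fin n) (ZMod 2) *ᵥ w) := by
        show Cfsg.sympTransvection n w 1 - 1 = _
        unfold Cfsg.sympTransvection
        rw [one_smul, add_sub_cancel_left]
      rw [this]
      exact Matrix.rank_vecMulVec_le _ _
    have hne : ((T n w : Matrix (Fin n ⊕ Fin n) (Fin n ⊕ Fin n) (ZMod 2)) - 1).rank ≠ 0 := by
      intro h0
      have hfr : Module.finrank (ZMod 2) (LinearMap.range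
          ((T n w : Matrix (Fin n ⊕ Fin n) (Fin n ⊕ Fin n) (ZMod 2)) - 1).mulVecLin) = 0 := h0
      rw [Submodule.finrank_eq_zero] at hfr
      apply T_ne_one n w hw
      apply ext_mv
      intro x
      have hx : ((T n w : Matrix (Fin n ⊕ Fin n) (Fin n ⊕ Fin n) (ZMod 2)) - 1) *ᵥ x ∈
          LinearMap.range ((T n w : Matrix (Fin n ⊕ Fin n) (Fin n ⊕ Fin n) (ZMod 2)) - 1).mulVecLin :=
        LinearMap.mem_range.2 ⟨x, rfl⟩
      rw [hfr, Submodule.mem_bot, Matrix.sub_mulVec, Matrix.one_mulVec, sub_eq_zero] at hx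
      rw [hx, one_mv]
    omega

theorem T_comm (n : ℕ) (u v : Fin n ⊕ Fin n → ZMod 2) (h : Cfsg.sympForm n (ZMod 2) u v = 0) :
    T n u * T n v = T n v * T n u := by
  have h' : Cfsg.sympForm n (ZMod 2) v u = 0 := by rw [sympForm_swap, h, neg_zero]
  apply ext_mv
  intro x
  rw [mul_mv, mul_mv, T_mulVec, T_mulVec, T_mulVec, T_mulVec, sympForm_add_left, sympForm_add_left,
    sympForm_smul_left, sympForm_smul_left, h, h']
  simp only [mul_zero, add_zero]
  abel

theorem T_braid (n : ℕ) (u v : Fin n ⊕ Fin n → ZMod 2) (h : Cfsg.sympForm n (ZMod 2) u v = 1) :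
    T n u * T n v * T n u = T n (u + v) := by
  have h' : Cfsg.sympForm n (ZMod 2) v u = 1 := by rw [sympForm_swap, h]; decide
  have hinv : (T n u)⁻¹ = T n u := inv_eq_of_mul_eq_one_right (T_sq n u)
  have h1 := conj_T n (T n u) v
  rw [hinv, T_mulVec, h', one_smul, add_comm v u] at h1
  exact h1

/-- In the symplectic group in dimension 2n ≥ 2 over the field with two elements, the elements g for which g - 1 has rank one (the symplectic transvections) form a conjugacy class of 3-transpositions generating the group. -/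
theorem result (n : ℕ) (hn : 1 ≤ n) : Cfsg.IsThreeTranspositionClass {g : Matrix.symplecticGroup (Fin n) (ZMod 2) | ((g : Matrix (Fin n ⊕ Fin n) (Fin n ⊕ Fin n) (ZMod 2)) - 1).rank = 1} := by
  classical
  have key : ∀ g : Matrix.symplecticGroup (Fin n) (ZMod 2),
      g ∈ {g : Matrix.symplecticGroup (Fin n) (ZMod 2) |
        ((g : Matrix (Fin n ⊕ Fin n) (Fin n ⊕ Fin n) (ZMod 2)) - 1).rank = 1} ↔
      ∃ w : Fin n ⊕ Fin n → ZMod 2, w ≠ 0 ∧ g = T n w := fun g => mem_D n g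
  refine ⟨⟨?_, ?_⟩, ?_, ?_⟩
  · intro d hd
    obtain ⟨w, hw, rfl⟩ := (key d).1 hd
    exact orderOf_T n w hw
  · intro d hd e he
    obtain ⟨u, hu, rfl⟩ := (key d).1 hd
    obtain ⟨v, hv, rfl⟩ := (key e).1 he
    rcases z2c (Cfsg.sympForm n (ZMod 2) u v) with h | h
    · left
      rw [pow_two]
      calc T n u * T n v * (T n u * T n v) = T n u * (T n v * T n u) * T n v := by group
        _ = T n u * (T n u * T n v) * T n v := by rw [T_comm n u v h]
        _ = (T n u * T n u) * (T n v * T n v) := by group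
        _ = 1 := by rw [T_sq, T_sq, one_mul]
    · right
      have h' : Cfsg.sympForm n (ZMod 2) v u = 1 := by rw [sympForm_swap, h]; decide
      calc (T n u * T n v) ^ 3 = (T n u * T n v * T n u) * (T n v * T n u * T n v) := by
            rw [pow_succ, pow_two]; simp only [mul_assoc]
        _ = T n (u + v) * T n (v + u) := by rw [T_braid n u v h, T_braid n v u h']
        _ = 1 := by rw [add_comm v u, T_sq]
  · have hn' : 0 < n := hn
    let w0 : Fin n ⊕ Fin n → ZMod 2 := Pi.single (Sum.inl ⟨0, hn'⟩) 1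
    have hw0 : w0 ≠ 0 := by
      intro h
      have := congrFun h (Sum.inl ⟨0, hn'⟩)
      simp [w0] at this
    refine ⟨T n w0, (key _).2 ⟨w0, hw0, rfl⟩, ?_⟩
    ext g
    rw [key]
    show _ ↔ IsConj (T n w0) g
    rw [isConj_iff]
    constructor
    · rintro ⟨w, hw, rfl⟩
      obtain ⟨A, _, hA⟩ := trans_vec n w0 w hw0 hw
      exact ⟨A, by rw [conj_T, hA]⟩
    · rintro ⟨A, rfl⟩
      refine ⟨(A : Matrix (Fin n ⊕ Fin n) (Fin n ⊕ Fin n) (ZMod 2)) *ᵥ w0, ?_, conj_T n A w0⟩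
      intro h0
      obtain ⟨a, ha⟩ := exists_sympForm_ne_zero n w0 hw0
      apply ha
      rw [← sympForm_mulVec_of_mem n _ A.2 w0 a, h0, sympForm_zero_left]
  · rw [eq_top_iff, ← transvectionSubgroup_eq_top (F := ZMod 2) n]
    unfold transvectionSubgroup
    rw [Subgroup.closure_le]
    rintro A ⟨w, c, hA⟩
    by_cases hw : w = 0
    · have : A = 1 := by
        apply Subtype.ext
        rw [hA, hw]
        unfold Cfsg.sympTransvection
        simp
      rw [this]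
      exact Subgroup.one_mem _
    · rcases z2c c with h | h
      · have : A = 1 := by
          apply Subtype.ext
          rw [hA, h]
          unfold Cfsg.sympTransvection
          simp
        rw [this]
        exact Subgroup.one_mem _
      · apply Subgroup.subset_closure
        rw [key]
        refine ⟨w, hw, ?_⟩
        apply Subtype.ext
        rw [hA, h]
        rfl

end Cfsg.Agent.S0440
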