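import Cfsg.Statements.S0442
import Mathlib.Tactic.Group

set_option autoImplicit false
open Cfsg

namespace Cfsg.Agent.S0442

theorem semiconj_inv {G : Type*} [Group G] {a b : G} (ha : a * a = 1) (hb : b * b = 1) :
    SemiconjBy a (a * b) (a * b)⁻¹ := by
  have hainv : a⁻¹ = a := inv_eq_of_mul_eq_one_left ha
  have hbinv : b⁻¹ = b := inv_eq_of_mul_eq_one_left hb
  show a * (a * b) = (a * b)⁻¹ * a
  rw [mul_inv_rev, hainv, hbinv, mul_assoc, ha, mul_one, ← mul_assoc, ha, one_mul]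

theorem even_case {G : Type*} [Group G] {a b : G} (ha : a * a = 1) (hb : b * b = 1) (m : ℕ)
    (h : (a * b) ^ (2 * m) = 1) : Commute ((a * b) ^ m) a := by
  have hs := (semiconj_inv ha hb).pow_right m
  have h1 : (a * b) ^ m * (a * b) ^ m = 1 := by rw [← pow_add, ← two_mul]; exact h
  have h2 : ((a * b)⁻¹) ^ m = (a * b) ^ m := by
    rw [inv_pow]; exact inv_eq_of_mul_eq_one_left h1
  rw [h2] at hs
  exact hs.eq.symm

theorem odd_case {G : Type*} [Group G] {a g : G} (ha : a * a = 1) (m : ℕ)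
    (h : (a * (g⁻¹ * a * g)) ^ (2 * m + 1) = 1) :
    Commute (g * (a * (g⁻¹ * a * g)) ^ m) a := by
  have hb : (g⁻¹ * a * g) * (g⁻¹ * a * g) = 1 := by
    calc (g⁻¹ * a * g) * (g⁻¹ * a * g) = g⁻¹ * (a * a) * g := by group
      _ = 1 := by rw [ha]; group
  have hs := (semiconj_inv ha hb).pow_right (m + 1)
  have h1 : (a * (g⁻¹ * a * g)) ^ m * (a * (g⁻¹ * a * g)) ^ (m + 1) = 1 := by
    rw [← pow_add]
    have e : m + (m + 1) = 2 * m + 1 := by ring
    rw [e]; exact h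
  have h2 : ((a * (g⁻¹ * a * g))⁻¹) ^ (m + 1) = (a * (g⁻¹ * a * g)) ^ m := by
    rw [inv_pow]; exact (eq_inv_of_mul_eq_one_left h1).symm
  rw [h2] at hs
  have h3 : (g⁻¹ * a * g) * (a * (g⁻¹ * a * g)) ^ m = (a * (g⁻¹ * a * g)) ^ m * a := by
    calc (g⁻¹ * a * g) * (a * (g⁻¹ * a * g)) ^ m
        = (a * a) * (g⁻¹ * a * g) * (a * (g⁻¹ * a * g)) ^ m := by rw [ha, one_mul]
      _ = a * ((a * (g⁻¹ * a * g)) * (a * (g⁻¹ * a * g)) ^ m) := by simp only [mul_assoc]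
      _ = a * (a * (g⁻¹ * a * g)) ^ (m + 1) := by rw [← pow_succ']
      _ = (a * (g⁻¹ * a * g)) ^ m * a := hs.eq
  show g * (a * (g⁻¹ * a * g)) ^ m * a = a * (g * (a * (g⁻¹ * a * g)) ^ m)
  calc g * (a * (g⁻¹ * a * g)) ^ m * a = g * ((a * (g⁻¹ * a * g)) ^ m * a) := by group
    _ = g * ((g⁻¹ * a * g) * (a * (g⁻¹ * a * g)) ^ m) := by rw [h3]
    _ = a * (g * (a * (g⁻¹ * a * g)) ^ m) := by group

/-- A standard trick for producing elements of an involution centraliser: for an involution a and an element g, let b be the conjugate g⁻¹ * a * g. If a * b has odd order 2m + 1 then g * (a * b) ^ m commutes with a; if a * b has even order 2m then (a * b) ^ m and (a * (g * a * g⁻¹)) ^ m commute with a. -/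
theorem result {G : Type*} [Group G] (a g : G) (ha : orderOf a = 2) : (∀ m : ℕ, orderOf (a * (g⁻¹ * a * g)) = 2 * m + 1 → Commute (g * (a * (g⁻¹ * a * g)) ^ m) a) ∧ (∀ m : ℕ, orderOf (a * (g⁻¹ * a * g)) = 2 * m → Commute ((a * (g⁻¹ * a * g)) ^ m) a ∧ Commute ((a * (g * a * g⁻¹)) ^ m) a) := by
  have ha2 : a * a = 1 := by
    have := pow_orderOf_eq_one a
    rw [ha, pow_two] at this
    exact this
  refine ⟨fun m hm => ?_, fun m hm => ⟨?_, ?_⟩⟩
  · apply odd_case ha2 m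
    rw [← hm]; exact pow_orderOf_eq_one _
  · have hb : (g⁻¹ * a * g) * (g⁻¹ * a * g) = 1 := by
      calc (g⁻¹ * a * g) * (g⁻¹ * a * g) = g⁻¹ * (a * a) * g := by group
        _ = 1 := by rw [ha2]; group
    apply even_case ha2 hb m
    rw [← hm]; exact pow_orderOf_eq_one _
  · have hb : (g * a * g⁻¹) * (g * a * g⁻¹) = 1 := by
      calc (g * a * g⁻¹) * (g * a * g⁻¹) = g * (a * a) * g⁻¹ := by group
        _ = 1 := by rw [ha2]; group
    apply even_case ha2 hb m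
    have h1 : (a * (g⁻¹ * a * g)) ^ (2 * m) = 1 := by
      rw [← hm]; exact pow_orderOf_eq_one _
    have e : a * (g * a * g⁻¹) = (g * (a * (g⁻¹ * a * g)) * g⁻¹)⁻¹ := by
      have hainv : a⁻¹ = a := inv_eq_of_mul_eq_one_left ha2
      calc a * (g * a * g⁻¹) = a⁻¹ * (g * a⁻¹ * g⁻¹) := by rw [hainv]
        _ = (g * (a * (g⁻¹ * a * g)) * g⁻¹)⁻¹ := by group
    rw [e, inv_pow, conj_pow, h1]
    group

end Cfsg.Agent.S0442
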