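import Cfsg.Statements.S0443

set_option autoImplicit false
open Cfsg

namespace Cfsg.Agent.S0443

/-- Two definitions of a 2-central involution agree: an element t of order 2 of a finite group lies in the centre of some Sylow 2-subgroup if and only if its centraliser contains some Sylow 2-subgroup. -/
theorem result {G : Type*} [Group G] [Finite G] (t : G) (ht : orderOf t = 2) : Cfsg.IsTwoCentralInvolution t ↔ ∃ P : Sylow 2 G, (P : Subgroup G) ≤ Subgroup.centralizer ({t} : Set G) := by
  constructor
  · rintro ⟨_, P, htP, hcomm⟩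
    refine ⟨P, fun x hx => ?_⟩
    rw [Subgroup.mem_centralizer_iff]
    intro h hh
    rw [Set.mem_singleton_iff] at hh
    rw [hh]; exact (hcomm x hx).symm
  · rintro ⟨P, hP⟩
    have hcomm : ∀ x ∈ (P : Subgroup G), x * t = t * x := by
      intro x hx
      exact (Subgroup.mem_centralizer_iff.mp (hP hx) t (Set.mem_singleton t)).symm
    refine ⟨ht, P, ?_, fun x hx => hcomm x hx⟩
    have htp : IsPGroup 2 (Subgroup.zpowers t) := by
      apply IsPGroup.of_card (n := 1)
      rw [Nat.card_zpowers, ht, pow_one]
    have hnorm : (P : Subgroup G) ≤ Subgroup.normalizer (Subgroup.zpowers t : Set G) := by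
      refine le_trans ?_ (Subgroup.centralizer_le_normalizer _)
      intro x hx
      rw [Subgroup.mem_centralizer_iff]
      intro y hy
      obtain ⟨k, rfl⟩ := Subgroup.mem_zpowers_iff.mp hy
      exact ((Commute.zpow_left (hcomm x hx).symm k)).eq
    have h1 : IsPGroup 2 ↥((P : Subgroup G) ⊔ Subgroup.zpowers t) :=
      IsPGroup.to_sup_of_normal_right' P.2 htp hnorm
    have h2 := P.is_maximal' h1 le_sup_left
    have h3 : t ∈ (P : Subgroup G) ⊔ Subgroup.zpowers t :=
      (le_sup_right : Subgroup.zpowers t ≤ _) (Subgroup.mem_zpowers t)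
    rw [h2] at h3
    exact h3

end Cfsg.Agent.S0443
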