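import Mathlib
import Cfsg.Statements.S0444
import Cfsg.Agent.Lib.Helper5.Invol

set_option autoImplicit false
open Cfsg

namespace Cfsg.Agent.S0444

open Cfsg.Agent.Lib.Helper5

/-- Two members of a set of 3-transpositions which do not commute generate a subgroup isomorphic to the symmetric group on three letters. -/
theorem result {G : Type*} [Group G] {E : Set G} (hE : Cfsg.IsThreeTranspositionSet E) {d e : G} (hd : d ∈ E) (he : e ∈ E) (h : ¬ Commute d e) : Nonempty (Subgroup.closure ({d, e} : Set G) ≃* Equiv.Perm (Fin 3)) := by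
  classical
  obtain ⟨hord, h3⟩ := hE
  have hdd := sq_of_order_two (hord d hd)
  have hee := sq_of_order_two (hord e he)
  have hdinv := inv_of_order_two (hord d hd)
  have heinv := inv_of_order_two (hord e he)
  have hde3 : (d * e) ^ 3 = 1 := by
    rcases h3 d hd e he with h2 | h3'
    · exfalso; apply h
      have h2' : d * e * (d * e) = 1 := by rw [← pow_two]; exact h2
      have := eq_inv_of_mul_eq_one_left h2'
      rw [mul_inv_rev, hdinv, heinv] at this
      exact this
    · exact h3'
  have hde1 : d * e ≠ 1 := by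
    intro h1
    apply h
    have : d = e⁻¹ := eq_inv_of_mul_eq_one_left h1
    rw [heinv] at this
    rw [this]
  haveI : Fact (Nat.Prime 3) := ⟨Nat.prime_three⟩
  have hord3 : orderOf (d * e) = 3 := orderOf_eq_prime hde3 hde1
  obtain ⟨H, hH⟩ : ∃ H : Subgroup G, H = Subgroup.closure ({d, e} : Set G) := ⟨_, rfl⟩
  rw [← hH]
  have hdH : d ∈ H := hH ▸ Subgroup.subset_closure (by simp)
  have heH : e ∈ H := hH ▸ Subgroup.subset_closure (by simp)
  obtain ⟨F, hFdef⟩ : ∃ F : Fin 3 × Fin 2 → H, ∀ p, ((F p : H) : G) = (d * e) ^ (p.1 : ℕ) * d ^ (p.2 : ℕ) :=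
    ⟨fun p => ⟨(d * e) ^ (p.1 : ℕ) * d ^ (p.2 : ℕ),
      H.mul_mem (H.pow_mem (H.mul_mem hdH heH) _) (H.pow_mem hdH _)⟩, fun p => rfl⟩
  have hzmod : ∀ k : ℤ, (d * e) ^ ((k % 3).toNat) = (d * e) ^ k := by
    intro k
    have h1 := zpow_mod_orderOf (d * e) k
    rw [hord3] at h1
    rw [← zpow_natCast, Int.toNat_of_nonneg (Int.emod_nonneg k (by norm_num))]
    exact_mod_cast h1
  have hF : Function.Surjective F := by
    rintro ⟨x, hx⟩
    rw [hH, mem_closure_pair_iff d e hdd hee] at hx
    obtain ⟨k, hk | hk⟩ := hx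
    · refine ⟨(⟨(k % 3).toNat, by omega⟩, 0), ?_⟩
      apply Subtype.ext
      rw [hFdef]
      simp only [Fin.val_zero, pow_zero, mul_one]
      rw [hk]
      exact hzmod k
    · refine ⟨(⟨(k % 3).toNat, by omega⟩, 1), ?_⟩
      apply Subtype.ext
      rw [hFdef]
      simp only [Fin.val_one, pow_one]
      rw [hk, hzmod k]
  haveI : Finite H := Finite.of_surjective F hF
  have hcard_le : Nat.card H ≤ 6 := by
    have := Nat.card_le_card_of_surjective F hF
    simpa using this
  have h2dvd : 2 ∣ Nat.card H := by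
    have := Subgroup.orderOf_dvd_natCard H hdH
    rwa [hord d hd] at this
  have h3dvd : 3 ∣ Nat.card H := by
    have := Subgroup.orderOf_dvd_natCard H (H.mul_mem hdH heH)
    rwa [hord3] at this
  have hcard : Nat.card H = 6 := by
    have h6 : 2 * 3 ∣ Nat.card H :=
      Nat.Coprime.mul_dvd_of_dvd_of_dvd (by norm_num : Nat.Coprime 2 3) h2dvd h3dvd
    have hpos : 0 < Nat.card H := Nat.card_pos
    obtain ⟨c, hc⟩ := h6
    omega
  obtain ⟨d', hd'⟩ : ∃ d' : H, (d' : G) = d := ⟨⟨d, hdH⟩, rfl⟩
  obtain ⟨e', he'⟩ : ∃ e' : H, (e' : G) = e := ⟨⟨e, heH⟩, rfl⟩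
  have hd'ord : orderOf d' = 2 := by
    rw [← Subgroup.orderOf_coe, hd']; exact hord d hd
  have hd'd' : d' * d' = 1 := sq_of_order_two hd'ord
  have hKmem : ∀ x ∈ Subgroup.zpowers d', x = 1 ∨ x = d' := by
    intro x hx
    obtain ⟨k, rfl⟩ := Subgroup.mem_zpowers_iff.mp hx
    rcases Int.even_or_odd' k with ⟨m, rfl | rfl⟩
    · left
      rw [zpow_mul, zpow_two, hd'd', one_zpow]
    · right
      rw [zpow_add, zpow_mul, zpow_two, hd'd', one_zpow, one_mul, zpow_one]
  have hKcard : Nat.card (Subgroup.zpowers d') = 2 := by rw [Nat.card_zpowers, hd'ord]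
  have hKindex : (Subgroup.zpowers d').index = 3 := by
    have := (Subgroup.zpowers d').card_mul_index
    rw [hKcard, hcard] at this
    omega
  have hinj : Function.Injective (MulAction.toPermHom H (H ⧸ Subgroup.zpowers d')) := by
    rw [← MonoidHom.ker_eq_bot_iff, ← Subgroup.normalCore_eq_ker, eq_bot_iff]
    intro x hx
    rw [Subgroup.mem_bot]
    by_contra hx1
    have hxK : x ∈ Subgroup.zpowers d' := Subgroup.normalCore_le _ hx
    have hxd : x = d' := by
      rcases hKmem x hxK with h1 | h1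
      · exact absurd h1 hx1
      · exact h1
    have hconj : e' * d' * e'⁻¹ ∈ Subgroup.zpowers d' := Subgroup.normalCore_le _ (by
      have hn : ((Subgroup.zpowers d').normalCore).Normal := Subgroup.normalCore_normal _
      exact hn.conj_mem _ (hxd ▸ hx) e')
    rcases hKmem _ hconj with h1 | h1
    · have h1' := congrArg (Subtype.val) h1
      simp only [Subgroup.coe_mul, Subgroup.coe_inv, Subgroup.coe_one, hd', he'] at h1'
      have : d = 1 := by
        have e1 : d = e⁻¹ * (e * d * e⁻¹) * e := by group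
        rw [e1, h1']; group
      exact ne_one_of_order_two (hord d hd) this
    · have h1' := congrArg (Subtype.val) h1
      simp only [Subgroup.coe_mul, Subgroup.coe_inv, hd', he'] at h1'
      apply h
      show d * e = e * d
      calc d * e = (e * d * e⁻¹) * e := by rw [h1']
        _ = e * d := by group
  have hbij : Function.Bijective (MulAction.toPermHom H (H ⧸ Subgroup.zpowers d')) := by
    rw [Nat.bijective_iff_injective_and_card]
    refine ⟨hinj, ?_⟩
    rw [hcard, Nat.card_perm]
    have : Nat.card (H ⧸ Subgroup.zpowers d') = 3 := hKindex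
    rw [this]
    rfl
  have hq : Nat.card (H ⧸ Subgroup.zpowers d') = 3 := hKindex
  exact ⟨(MulEquiv.ofBijective _ hbij).trans (Equiv.permCongrHom (Finite.equivFinOfCardEq hq))⟩

end Cfsg.Agent.S0444
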