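import Mathlib
import Cfsg.Statements.S0445
import Cfsg.Agent.S2572

set_option autoImplicit false
open Cfsg

namespace Cfsg.Agent.S0445

open Matrix

theorem isTransv : Cfsg.IsTransvection (Matrix.transvection (0 : Fin 5) 1 (1 : ZMod 2)) := by
  have hN : Matrix.transvection (0 : Fin 5) 1 (1 : ZMod 2) - 1 =
      Matrix.vecMulVec (Pi.single 0 1) (Pi.single 1 1) := by
    unfold Matrix.transvection
    rw [add_sub_cancel_left]
    ext i j
    simp only [Matrix.vecMulVec_apply, Matrix.single_apply, Pi.single_apply]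
    by_cases hi : i = 0 <;> by_cases hj : j = 1 <;> simp [hi, hj, eq_comm]
  refine ⟨?_, ?_⟩
  · rw [hN]
    have hle : (Matrix.vecMulVec (Pi.single (0 : Fin 5) (1 : ZMod 2)) (Pi.single (1 : Fin 5) 1)).rank ≤ 1 :=
      Matrix.rank_vecMulVec_le _ _
    have hne : (Matrix.vecMulVec (Pi.single (0 : Fin 5) (1 : ZMod 2)) (Pi.single (1 : Fin 5) 1)).rank ≠ 0 := by
      intro h0
      have hfr : Module.finrank (ZMod 2) (LinearMap.range
          (Matrix.vecMulVec (Pi.single (0 : Fin 5) (1 : ZMod 2)) (Pi.single (1 : Fin 5) 1)).mulVecLin) = 0 := h0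
      rw [Submodule.finrank_eq_zero] at hfr
      have hx : (Matrix.vecMulVec (Pi.single (0 : Fin 5) (1 : ZMod 2)) (Pi.single (1 : Fin 5) 1)) *ᵥ
          (Pi.single 1 1) ∈ LinearMap.range
          (Matrix.vecMulVec (Pi.single (0 : Fin 5) (1 : ZMod 2)) (Pi.single (1 : Fin 5) 1)).mulVecLin :=
        LinearMap.mem_range.2 ⟨_, rfl⟩
      rw [hfr, Submodule.mem_bot, Matrix.vecMulVec_mulVec, single_dotProduct, one_mul,
        Pi.single_eq_same] at hx
      have := congrFun hx 0
      simp at this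
    omega
  · rw [hN, Matrix.vecMulVec_mul_vecMulVec, single_dotProduct, one_mul,
      Pi.single_eq_of_ne (by decide : (1 : Fin 5) ≠ 0), zero_smul]
    ext i j
    simp [Matrix.vecMulVec_apply]

/-- In the special linear group of dimension 5 over the field with two elements, the centraliser of a transvection has order 21504 = 2 ^ 7 · 168 (it is an extension of an extraspecial group of order 2 ^ 7 by the simple group of order 168). -/
theorem result (s : Matrix.SpecialLinearGroup (Fin 5) (ZMod 2)) (hs : (s : Matrix (Fin 5) (Fin 5) (ZMod 2)) = Matrix.transvection 0 1 1) : Nat.card (Subgroup.centralizer ({s} : Set (Matrix.SpecialLinearGroup (Fin 5) (ZMod 2)))) = 21504 := by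
  classical
  have hsurj : ∀ g : GL (Fin 5) (ZMod 2), ∃ x : Matrix.SpecialLinearGroup (Fin 5) (ZMod 2),
      Matrix.SpecialLinearGroup.toGL x = g := by
    intro g
    have hdet : (g : Matrix (Fin 5) (Fin 5) (ZMod 2)).det = 1 := by
      have hu : IsUnit (g : Matrix (Fin 5) (Fin 5) (ZMod 2)).det :=
        (Matrix.isUnit_iff_isUnit_det _).1 g.isUnit
      have h2 : ∀ x : ZMod 2, IsUnit x → x = 1 := by
        intro x hx
        fin_cases x
        · exact absurd hx not_isUnit_zero
        · rfl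
      exact h2 _ hu
    obtain ⟨x, hx⟩ : ∃ x : Matrix.SpecialLinearGroup (Fin 5) (ZMod 2),
        (x : Matrix (Fin 5) (Fin 5) (ZMod 2)) = (g : Matrix (Fin 5) (Fin 5) (ZMod 2)) :=
      ⟨⟨_, hdet⟩, rfl⟩
    refine ⟨x, Units.ext ?_⟩
    rw [Matrix.SpecialLinearGroup.coe_GL_coe_matrix, hx]
  have hcongr : Nat.card (Subgroup.centralizer ({s} : Set (Matrix.SpecialLinearGroup (Fin 5) (ZMod 2)))) =
      Nat.card (Subgroup.centralizer ({Matrix.SpecialLinearGroup.toGL s} : Set (GL (Fin 5) (ZMod 2)))) := by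
    apply Nat.card_congr
    refine Equiv.ofBijective (fun x => ⟨Matrix.SpecialLinearGroup.toGL x.1, ?_⟩) ⟨?_, ?_⟩
    · have hx := x.2
      rw [Subgroup.mem_centralizer_singleton_iff] at hx ⊢
      rw [← map_mul, ← map_mul, hx]
    · intro x y h
      have h1 : Matrix.SpecialLinearGroup.toGL x.1 = Matrix.SpecialLinearGroup.toGL y.1 :=
        congrArg Subtype.val h
      exact Subtype.ext (Matrix.SpecialLinearGroup.toGL_injective h1)
    · rintro ⟨g, hg⟩
      obtain ⟨x, rfl⟩ := hsurj g
      refine ⟨⟨x, ?_⟩, rfl⟩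
      rw [Subgroup.mem_centralizer_singleton_iff] at hg ⊢
      apply Matrix.SpecialLinearGroup.toGL_injective
      rw [map_mul, map_mul, hg]
  rw [hcongr]
  have ht : Cfsg.IsTransvection ((Matrix.SpecialLinearGroup.toGL s : GL (Fin 5) (ZMod 2)) :
      Matrix (Fin 5) (Fin 5) (ZMod 2)) := by
    rw [Matrix.SpecialLinearGroup.coe_GL_coe_matrix, hs]
    exact isTransv
  rw [Cfsg.Agent.S2572.result (ZMod.card 2) (by norm_num : 2 ≤ 5) _ ht]
  decide

end Cfsg.Agent.S0445
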