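import Cfsg.Statements.S0446

set_option autoImplicit false
open Cfsg

namespace Cfsg.Agent.S0446

/-- Every finite group of even order contains a 2-central involution, i.e. an element of order 2 in the centre of some Sylow 2-subgroup. -/
theorem result {G : Type*} [Group G] [Finite G] (h : Even (Nat.card G)) : ∃ t : G, Cfsg.IsTwoCentralInvolution t := by
  haveI : Fact (Nat.Prime 2) := ⟨Nat.prime_two⟩
  obtain ⟨P⟩ : Nonempty (Sylow 2 G) := inferInstance
  have hne : (P : Subgroup G) ≠ ⊥ := Sylow.ne_bot_of_dvd_card P (even_iff_two_dvd.mp h)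
  haveI hnt : Nontrivial ↥(P : Subgroup G) := (Subgroup.nontrivial_iff_ne_bot _).mpr hne
  have hPp : IsPGroup 2 ↥(P : Subgroup G) := P.2
  haveI hZnt : Nontrivial ↥(Subgroup.center ↥(P : Subgroup G)) := IsPGroup.center_nontrivial hPp
  have hZp : IsPGroup 2 ↥(Subgroup.center ↥(P : Subgroup G)) := hPp.to_subgroup _
  have hdvd : 2 ∣ Nat.card ↥(Subgroup.center ↥(P : Subgroup G)) := by
    obtain ⟨n, hn⟩ := IsPGroup.iff_card.mp hZp
    rcases Nat.eq_zero_or_pos n with h0 | hpos
    · rw [h0, pow_zero] at hn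
      have := Finite.one_lt_card (α := ↥(Subgroup.center ↥(P : Subgroup G)))
      omega
    · rw [hn]; exact dvd_pow_self 2 hpos.ne'
  obtain ⟨z, hz⟩ := exists_prime_orderOf_dvd_card' 2 hdvd
  refine ⟨((z : ↥(P : Subgroup G)) : G), ?_, P, (z : ↥(P : Subgroup G)).2, ?_⟩
  · rw [Subgroup.orderOf_coe, Subgroup.orderOf_coe]; exact hz
  · intro x hx
    have := Subgroup.mem_center_iff.mp z.2 ⟨x, hx⟩
    exact congrArg Subtype.val this

end Cfsg.Agent.S0446
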