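import Mathlib
import Cfsg.Statements.S0481
import Cfsg.Agent.Lib.Helper8.Basic

set_option autoImplicit false
open Cfsg

namespace Cfsg.Agent.S0481

open Cfsg.Agent.Lib.Helper8

/-- Large extraspecial subgroups: let z be an involution of a finite group G whose centraliser C contains a normal 2-subgroup Q with centre of order 2 and all squares central, such that every element of G centralising Q lies in Q. Then C contains a Sylow 2-subgroup of G, and any involution of G whose centraliser contains a Sylow 2-subgroup of G is conjugate to z. -/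
theorem result {G : Type*} [Group G] [Finite G] (z : G) (hz : orderOf z = 2) (Q : Subgroup G) (hQC : Q ≤ Subgroup.centralizer ({z} : Set G)) (hQn : ∀ g ∈ Subgroup.centralizer ({z} : Set G), ∀ q ∈ Q, g * q * g⁻¹ ∈ Q) (hQ2 : IsPGroup 2 Q) (hZ : Nat.card (Subgroup.center Q) = 2) (hsq : ∀ x : Q, x ^ 2 ∈ Subgroup.center Q) (hlarge : Subgroup.centralizer (Q : Set G) ≤ Q) : (∃ P : Sylow 2 G, (P : Subgroup G) ≤ Subgroup.centralizer ({z} : Set G)) ∧ ∀ u : G, orderOf u = 2 → (∃ P : Sylow 2 G, (P : Subgroup G) ≤ Subgroup.centralizer ({u} : Set G)) → IsConj z u := by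
  haveI : Fact (Nat.Prime 2) := ⟨Nat.prime_two⟩
  have hz1 : z ≠ 1 := by
    rintro rfl
    rw [orderOf_one] at hz
    omega
  have hzQc : z ∈ Subgroup.centralizer (Q : Set G) := by
    rw [Subgroup.mem_centralizer_iff]
    intro q hq
    have := Subgroup.mem_centralizer_iff.mp (hQC hq) z (Set.mem_singleton z)
    exact this.symm
  have hzQ : z ∈ Q := hlarge hzQc
  obtain ⟨y, hy, huniq⟩ := (Nat.card_eq_two_iff' (1 : Subgroup.center Q)).mp hZ
  -- central elements of Q other than 1 are equal to y
  have hcen : ∀ x : G, x ∈ Subgroup.centralizer (Q : Set G) → x ≠ 1 → x = ((y : Q) : G) := by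
    intro x hx hx1
    have hxQ : x ∈ Q := hlarge hx
    have hxc : (⟨x, hxQ⟩ : Q) ∈ Subgroup.center Q := by
      rw [Subgroup.mem_center_iff]
      intro q
      apply Subtype.ext
      exact Subgroup.mem_centralizer_iff.mp hx q.1 q.2
    have := huniq ⟨⟨x, hxQ⟩, hxc⟩ (fun h => hx1 (by
      have h2 := congrArg (fun t : Subgroup.center Q => ((t : Q) : G)) h
      simpa using h2))
    rw [← this]
  have hzy : z = ((y : Q) : G) := hcen z hzQc hz1
  obtain ⟨P, hP⟩ := hQ2.exists_le_sylow
  have hPz : (P : Subgroup G) ≤ Subgroup.centralizer ({z} : Set G) := by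
    haveI : Nontrivial (P : Subgroup G) := by
      rw [Subgroup.nontrivial_iff_exists_ne_one]
      exact ⟨z, hP hzQ, hz1⟩
    haveI := P.2.center_nontrivial
    obtain ⟨⟨w, hwc⟩, hw1⟩ := exists_ne (1 : Subgroup.center (P : Subgroup G))
    have hw1' : (w : G) ≠ 1 := by
      intro h
      apply hw1
      apply Subtype.ext
      apply Subtype.ext
      exact h
    have hwcomm : ∀ s ∈ (P : Subgroup G), s * (w : G) = (w : G) * s := by
      intro s hs
      have := Subgroup.mem_center_iff.mp hwc ⟨s, hs⟩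
      exact congrArg Subtype.val this
    have hwQ : (w : G) ∈ Subgroup.centralizer (Q : Set G) := by
      rw [Subgroup.mem_centralizer_iff]
      intro q hq
      exact hwcomm q (hP hq)
    have hwz : (w : G) = z := by rw [hzy]; exact hcen _ hwQ hw1'
    intro s hs
    rw [Subgroup.mem_centralizer_iff]
    intro t ht
    rw [Set.mem_singleton_iff] at ht
    rw [ht, ← hwz]
    exact (hwcomm s hs).symm
  refine ⟨⟨P, hPz⟩, ?_⟩
  intro u hu hPu
  obtain ⟨P', hP'⟩ := hPu
  obtain ⟨g, hg⟩ := MulAction.exists_smul_eq G P P'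
  have hu1 : g⁻¹ * u * g ≠ 1 := by
    intro h
    have : u = g * (g⁻¹ * u * g) * g⁻¹ := by group
    rw [h] at this
    have : u = 1 := by rw [this]; group
    rw [this, orderOf_one] at hu
    omega
  have hucomm : ∀ s ∈ (P : Subgroup G), s * (g⁻¹ * u * g) = (g⁻¹ * u * g) * s := by
    intro s hs
    have hs' : g * s * g⁻¹ ∈ (P' : Subgroup G) := by
      rw [← hg, h8_mem_smul_sylow]
      have : g⁻¹ * (g * s * g⁻¹) * g = s := by group
      rw [this]
      exact hs
    have := Subgroup.mem_centralizer_iff.mp (hP' hs') u (Set.mem_singleton u)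
    calc s * (g⁻¹ * u * g) = g⁻¹ * ((g * s * g⁻¹) * u) * g := by group
      _ = g⁻¹ * (u * (g * s * g⁻¹)) * g := by rw [this]
      _ = (g⁻¹ * u * g) * s := by group
  have huQ : g⁻¹ * u * g ∈ Subgroup.centralizer (Q : Set G) := by
    rw [Subgroup.mem_centralizer_iff]
    intro q hq
    exact hucomm q (hP hq)
  have huz : g⁻¹ * u * g = z := by rw [hzy]; exact hcen _ huQ hu1
  rw [isConj_iff]
  refine ⟨g, ?_⟩
  rw [← huz]
  group

end Cfsg.Agent.S0481
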