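import Mathlib
import Cfsg.Statements.S0493
import Cfsg.Agent.Lib.Helper6.SimpleP2QR
import Cfsg.Agent.Lib.Helper6.Sylow4
import Cfsg.Agent.Lib.Helper6.SelfCent

set_option autoImplicit false
open Cfsg

namespace Cfsg.Agent.S0493


open Cfsg.Agent.Lib.Helper6 in
theorem pgroup_false {G : Type*} [Group G] [Finite G] [IsSimpleGroup G] (p k : ℕ) [Fact p.Prime]
    (hG : Nat.card G = p ^ k) (hnc : ¬ IsMulCommutative G) : False := by
  have hpg : IsPGroup p G := IsPGroup.of_card hG
  have hcn : Nontrivial (Subgroup.center G) := hpg.center_nontrivial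
  rcases (inferInstance : (Subgroup.center G).Normal).eq_bot_or_eq_top with h | h
  · exact (Subgroup.nontrivial_iff_ne_bot _).mp hcn h
  · apply hnc
    refine ⟨⟨fun a b => ?_⟩⟩
    have hb : b ∈ Subgroup.center G := h ▸ Subgroup.mem_top b
    exact Subgroup.mem_center_iff.mp hb a

open Cfsg.Agent.Lib.Helper6 in
theorem sylow_normal_false {G : Type*} [Group G] [Finite G] [IsSimpleGroup G] (p : ℕ) [Fact p.Prime]
    (hp : p ∣ Nat.card G) (hnp : ∀ k, Nat.card G ≠ p ^ k) (P : Sylow p G)
    (hP : (P : Subgroup G).Normal) : False := by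
  have h1 := st_one_lt_card_sylow hp hnp
  haveI := Sylow.unique_of_normal P hP
  rw [Nat.card_unique] at h1
  omega

open Cfsg.Agent.Lib.Helper6 in
theorem order56_false {G : Type*} [Group G] [Finite G] [IsSimpleGroup G] (hn : Nat.card G = 56) : False := by
  classical
  haveI : Fact (Nat.Prime 7) := ⟨by norm_num⟩
  haveI : Fact (Nat.Prime 2) := ⟨by norm_num⟩
  obtain ⟨j, hj0, hn7, hdvd7, -, hP7⟩ := st_sylow_data (G := G) 7 1 8
    (hn.trans (by norm_num)) (by norm_num) (by norm_num) (by norm_num)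
  have hj : j = 1 := by
    have := Nat.le_of_dvd (by norm_num) hdvd7
    omega
  subst hj
  have h48 : Nat.card {g : G // orderOf g = 7} = 48 := by
    rw [sc_card_order_p (G := G) 7 (fun P => by simpa using (hP7 P).1), hn7]
  obtain ⟨j', hj0', hn2, hdvd2, -, hP2⟩ := st_sylow_data (G := G) 2 3 7
    (hn.trans (by norm_num)) (by norm_num) (by norm_num) (by norm_num)
  have h2 : 1 < Nat.card (Sylow 2 G) := by rw [hn2]; omega
  haveI : Nontrivial (Sylow 2 G) := Finite.one_lt_card_iff_nontrivial.mp h2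
  obtain ⟨P, Q, hPQ⟩ := exists_pair_ne (Sylow 2 G)
  have hcP : Nat.card (P : Subgroup G) = 8 := by simpa using (hP2 P).1
  have hcQ : Nat.card (Q : Subgroup G) = 8 := by simpa using (hP2 Q).1
  have hex : ∃ x, x ∈ (Q : Subgroup G) ∧ x ∉ (P : Subgroup G) := by
    by_contra hcon
    push Not at hcon
    have hle : (Q : Subgroup G) ≤ (P : Subgroup G) := hcon
    have heq : (Q : Subgroup G) = (P : Subgroup G) :=
      Subgroup.eq_of_le_of_card_ge hle (by rw [hcP, hcQ])
    exact hPQ (Sylow.ext heq.symm)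
  obtain ⟨x, hxQ, hxP⟩ := hex
  have hord : ∀ (R : Sylow 2 G) (g : G), g ∈ (R : Subgroup G) → Nat.card (R : Subgroup G) = 8 → orderOf g ≠ 7 := by
    intro R g hg hc h7
    have h3 : orderOf g ∣ 8 := by
      rw [← hc]
      exact Subgroup.orderOf_dvd_natCard _ hg
    rw [h7] at h3
    omega
  have hsub : insert x ((P : Subgroup G) : Set G) ⊆ {g : G | orderOf g ≠ 7} := by
    intro g hg
    rcases Set.mem_insert_iff.mp hg with rfl | hg
    · exact hord Q _ hxQ hcQ
    · exact hord P g hg hcP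
  have h9 : 9 ≤ Nat.card {g : G // orderOf g ≠ 7} := by
    have h3 : (insert x ((P : Subgroup G) : Set G)).ncard = 9 := by
      rw [Set.ncard_insert_of_notMem hxP (Set.toFinite _), ← Nat.card_coe_set_eq]
      have : Nat.card ((P : Subgroup G) : Set G) = 8 := hcP
      omega
    have h4 := Set.ncard_le_ncard hsub (Set.toFinite _)
    rw [h3, ← Nat.card_coe_set_eq] at h4
    exact h4
  haveI := Fintype.ofFinite G
  have hsum : Nat.card {g : G // orderOf g = 7} + Nat.card {g : G // orderOf g ≠ 7} = Nat.card G := by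
    rw [Nat.card_eq_fintype_card, Nat.card_eq_fintype_card, Nat.card_eq_fintype_card,
      Fintype.card_subtype, Fintype.card_subtype]
    rw [Finset.card_filter_add_card_filter_not, Finset.card_univ]
  omega

/-- A finite simple group of order at most 100 that is not cyclic has order 60. -/
theorem result {G : Type*} [Group G] [Finite G] [IsSimpleGroup G]
    (hG : ¬ IsCyclic G) (h : Nat.card G ≤ 100) : Nat.card G = 60 := by
  have h1 := Cfsg.Agent.Lib.Helper6.st_one_lt_card (G := G)
  by_contra hne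
  have hnp : ¬ (Nat.card G).Prime := fun hp => by
    haveI : Fact (Nat.card G).Prime := ⟨hp⟩
    exact hG (isCyclic_of_prime_card (p := Nat.card G) rfl)
  have hnc := Cfsg.Agent.Lib.Helper6.st_not_comm hnp
  obtain ⟨n, hn⟩ : ∃ n, Nat.card G = n := ⟨_, rfl⟩
  rw [hn] at h h1 hne hnp
  interval_cases n
  · exact hnp (by norm_num)
  · exact hnp (by norm_num)
  · haveI : Fact (Nat.Prime 2) := ⟨by norm_num⟩
    exact pgroup_false 2 2 (hn.trans (by norm_num)) hnc
  · exact hnp (by norm_num)
  · haveI : Fact (Nat.Prime 3) := ⟨by norm_num⟩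
    obtain ⟨j, hj0, -, hdvd, hfact, -⟩ := Cfsg.Agent.Lib.Helper6.st_sylow_data (G := G) 3 1 2 (hn.trans (by norm_num)) (by norm_num) (by norm_num) (by norm_num)
    have hj : j ≤ 0 := by have := Nat.le_of_dvd (by norm_num) hdvd; omega
    interval_cases j <;> (revert hdvd hfact; decide)
  · exact hnp (by norm_num)
  · haveI : Fact (Nat.Prime 2) := ⟨by norm_num⟩
    exact pgroup_false 2 3 (hn.trans (by norm_num)) hnc
  · haveI : Fact (Nat.Prime 3) := ⟨by norm_num⟩
    exact pgroup_false 3 2 (hn.trans (by norm_num)) hnc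
  · haveI : Fact (Nat.Prime 5) := ⟨by norm_num⟩
    obtain ⟨j, hj0, -, hdvd, hfact, -⟩ := Cfsg.Agent.Lib.Helper6.st_sylow_data (G := G) 5 1 2 (hn.trans (by norm_num)) (by norm_num) (by norm_num) (by norm_num)
    have hj : j ≤ 0 := by have := Nat.le_of_dvd (by norm_num) hdvd; omega
    interval_cases j <;> (revert hdvd hfact; decide)
  · exact hnp (by norm_num)
  · haveI : Fact (Nat.Prime 2) := ⟨by norm_num⟩
    obtain ⟨j, hj0, -, hdvd, hfact, -⟩ := Cfsg.Agent.Lib.Helper6.st_sylow_data (G := G) 2 2 3 (hn.trans (by norm_num)) (by norm_num) (by norm_num) (by norm_num)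
    have hj : j ≤ 1 := by have := Nat.le_of_dvd (by norm_num) hdvd; omega
    interval_cases j <;> (revert hdvd hfact; decide)
  · exact hnp (by norm_num)
  · haveI : Fact (Nat.Prime 7) := ⟨by norm_num⟩
    obtain ⟨j, hj0, -, hdvd, hfact, -⟩ := Cfsg.Agent.Lib.Helper6.st_sylow_data (G := G) 7 1 2 (hn.trans (by norm_num)) (by norm_num) (by norm_num) (by norm_num)
    have hj : j ≤ 0 := by have := Nat.le_of_dvd (by norm_num) hdvd; omega
    interval_cases j <;> (revert hdvd hfact; decide)
  · haveI : Fact (Nat.Prime 3) := ⟨by norm_num⟩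
    obtain ⟨j, hj0, -, hdvd, hfact, -⟩ := Cfsg.Agent.Lib.Helper6.st_sylow_data (G := G) 3 1 5 (hn.trans (by norm_num)) (by norm_num) (by norm_num) (by norm_num)
    have hj : j ≤ 1 := by have := Nat.le_of_dvd (by norm_num) hdvd; omega
    interval_cases j <;> (revert hdvd hfact; decide)
  · haveI : Fact (Nat.Prime 2) := ⟨by norm_num⟩
    exact pgroup_false 2 4 (hn.trans (by norm_num)) hnc
  · exact hnp (by norm_num)
  · haveI : Fact (Nat.Prime 3) := ⟨by norm_num⟩
    obtain ⟨j, hj0, -, hdvd, hfact, -⟩ := Cfsg.Agent.Lib.Helper6.st_sylow_data (G := G) 3 2 2 (hn.trans (by norm_num)) (by norm_num) (by norm_num) (by norm_num)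
    have hj : j ≤ 0 := by have := Nat.le_of_dvd (by norm_num) hdvd; omega
    interval_cases j <;> (revert hdvd hfact; decide)
  · exact hnp (by norm_num)
  · haveI : Fact (Nat.Prime 5) := ⟨by norm_num⟩
    obtain ⟨j, hj0, -, hdvd, hfact, -⟩ := Cfsg.Agent.Lib.Helper6.st_sylow_data (G := G) 5 1 4 (hn.trans (by norm_num)) (by norm_num) (by norm_num) (by norm_num)
    have hj : j ≤ 0 := by have := Nat.le_of_dvd (by norm_num) hdvd; omega
    interval_cases j <;> (revert hdvd hfact; decide)
  · haveI : Fact (Nat.Prime 7) := ⟨by norm_num⟩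
    obtain ⟨j, hj0, -, hdvd, hfact, -⟩ := Cfsg.Agent.Lib.Helper6.st_sylow_data (G := G) 7 1 3 (hn.trans (by norm_num)) (by norm_num) (by norm_num) (by norm_num)
    have hj : j ≤ 0 := by have := Nat.le_of_dvd (by norm_num) hdvd; omega
    interval_cases j <;> (revert hdvd hfact; decide)
  · haveI : Fact (Nat.Prime 11) := ⟨by norm_num⟩
    obtain ⟨j, hj0, -, hdvd, hfact, -⟩ := Cfsg.Agent.Lib.Helper6.st_sylow_data (G := G) 11 1 2 (hn.trans (by norm_num)) (by norm_num) (by norm_num) (by norm_num)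
    have hj : j ≤ 0 := by have := Nat.le_of_dvd (by norm_num) hdvd; omega
    interval_cases j <;> (revert hdvd hfact; decide)
  · exact hnp (by norm_num)
  · haveI : Fact (Nat.Prime 2) := ⟨by norm_num⟩
    obtain ⟨j, hj0, -, hdvd, hfact, -⟩ := Cfsg.Agent.Lib.Helper6.st_sylow_data (G := G) 2 3 3 (hn.trans (by norm_num)) (by norm_num) (by norm_num) (by norm_num)
    have hj : j ≤ 1 := by have := Nat.le_of_dvd (by norm_num) hdvd; omega
    interval_cases j <;> (revert hdvd hfact; decide)
  · haveI : Fact (Nat.Prime 5) := ⟨by norm_num⟩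
    exact pgroup_false 5 2 (hn.trans (by norm_num)) hnc
  · haveI : Fact (Nat.Prime 13) := ⟨by norm_num⟩
    obtain ⟨j, hj0, -, hdvd, hfact, -⟩ := Cfsg.Agent.Lib.Helper6.st_sylow_data (G := G) 13 1 2 (hn.trans (by norm_num)) (by norm_num) (by norm_num) (by norm_num)
    have hj : j ≤ 0 := by have := Nat.le_of_dvd (by norm_num) hdvd; omega
    interval_cases j <;> (revert hdvd hfact; decide)
  · haveI : Fact (Nat.Prime 3) := ⟨by norm_num⟩
    exact pgroup_false 3 3 (hn.trans (by norm_num)) hnc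
  · haveI : Fact (Nat.Prime 7) := ⟨by norm_num⟩
    obtain ⟨j, hj0, -, hdvd, hfact, -⟩ := Cfsg.Agent.Lib.Helper6.st_sylow_data (G := G) 7 1 4 (hn.trans (by norm_num)) (by norm_num) (by norm_num) (by norm_num)
    have hj : j ≤ 0 := by have := Nat.le_of_dvd (by norm_num) hdvd; omega
    interval_cases j <;> (revert hdvd hfact; decide)
  · exact hnp (by norm_num)
  · haveI : Fact (Nat.Prime 5) := ⟨by norm_num⟩
    obtain ⟨R⟩ : Nonempty (Sylow 5 G) := inferInstance
    have hR := Cfsg.Agent.Lib.Helper6.sy_pqr 2 3 5 (by norm_num) (by norm_num) (by norm_num) (by norm_num) (hn.trans (by norm_num)) R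
    refine sylow_normal_false 5 (by rw [hn]; norm_num) ?_ R hR
    intro k hk
    rw [hn] at hk
    have h2 : 2 ∣ 5 ^ k := hk ▸ (by norm_num : 2 ∣ 30)
    have h3 := Nat.Prime.dvd_of_dvd_pow Nat.prime_two h2
    omega
  · exact hnp (by norm_num)
  · haveI : Fact (Nat.Prime 2) := ⟨by norm_num⟩
    exact pgroup_false 2 5 (hn.trans (by norm_num)) hnc
  · haveI : Fact (Nat.Prime 3) := ⟨by norm_num⟩
    obtain ⟨j, hj0, -, hdvd, hfact, -⟩ := Cfsg.Agent.Lib.Helper6.st_sylow_data (G := G) 3 1 11 (hn.trans (by norm_num)) (by norm_num) (by norm_num) (by norm_num)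
    have hj : j ≤ 3 := by have := Nat.le_of_dvd (by norm_num) hdvd; omega
    interval_cases j <;> (revert hdvd hfact; decide)
  · haveI : Fact (Nat.Prime 17) := ⟨by norm_num⟩
    obtain ⟨j, hj0, -, hdvd, hfact, -⟩ := Cfsg.Agent.Lib.Helper6.st_sylow_data (G := G) 17 1 2 (hn.trans (by norm_num)) (by norm_num) (by norm_num) (by norm_num)
    have hj : j ≤ 0 := by have := Nat.le_of_dvd (by norm_num) hdvd; omega
    interval_cases j <;> (revert hdvd hfact; decide)
  · haveI : Fact (Nat.Prime 5) := ⟨by norm_num⟩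
    obtain ⟨j, hj0, -, hdvd, hfact, -⟩ := Cfsg.Agent.Lib.Helper6.st_sylow_data (G := G) 5 1 7 (hn.trans (by norm_num)) (by norm_num) (by norm_num) (by norm_num)
    have hj : j ≤ 1 := by have := Nat.le_of_dvd (by norm_num) hdvd; omega
    interval_cases j <;> (revert hdvd hfact; decide)
  · haveI : Fact (Nat.Prime 3) := ⟨by norm_num⟩
    obtain ⟨j, hj0, -, hdvd, hfact, -⟩ := Cfsg.Agent.Lib.Helper6.st_sylow_data (G := G) 3 2 4 (hn.trans (by norm_num)) (by norm_num) (by norm_num) (by norm_num)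
    have hj : j ≤ 1 := by have := Nat.le_of_dvd (by norm_num) hdvd; omega
    interval_cases j <;> (revert hdvd hfact; decide)
  · exact hnp (by norm_num)
  · haveI : Fact (Nat.Prime 19) := ⟨by norm_num⟩
    obtain ⟨j, hj0, -, hdvd, hfact, -⟩ := Cfsg.Agent.Lib.Helper6.st_sylow_data (G := G) 19 1 2 (hn.trans (by norm_num)) (by norm_num) (by norm_num) (by norm_num)
    have hj : j ≤ 0 := by have := Nat.le_of_dvd (by norm_num) hdvd; omega
    interval_cases j <;> (revert hdvd hfact; decide)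
  · haveI : Fact (Nat.Prime 13) := ⟨by norm_num⟩
    obtain ⟨j, hj0, -, hdvd, hfact, -⟩ := Cfsg.Agent.Lib.Helper6.st_sylow_data (G := G) 13 1 3 (hn.trans (by norm_num)) (by norm_num) (by norm_num) (by norm_num)
    have hj : j ≤ 0 := by have := Nat.le_of_dvd (by norm_num) hdvd; omega
    interval_cases j <;> (revert hdvd hfact; decide)
  · haveI : Fact (Nat.Prime 5) := ⟨by norm_num⟩
    obtain ⟨j, hj0, -, hdvd, hfact, -⟩ := Cfsg.Agent.Lib.Helper6.st_sylow_data (G := G) 5 1 8 (hn.trans (by norm_num)) (by norm_num) (by norm_num) (by norm_num)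
    have hj : j ≤ 1 := by have := Nat.le_of_dvd (by norm_num) hdvd; omega
    interval_cases j <;> (revert hdvd hfact; decide)
  · exact hnp (by norm_num)
  · haveI : Fact (Nat.Prime 7) := ⟨by norm_num⟩
    obtain ⟨j, hj0, -, hdvd, hfact, -⟩ := Cfsg.Agent.Lib.Helper6.st_sylow_data (G := G) 7 1 6 (hn.trans (by norm_num)) (by norm_num) (by norm_num) (by norm_num)
    have hj : j ≤ 0 := by have := Nat.le_of_dvd (by norm_num) hdvd; omega
    interval_cases j <;> (revert hdvd hfact; decide)
  · exact hnp (by norm_num)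
  · haveI : Fact (Nat.Prime 11) := ⟨by norm_num⟩
    obtain ⟨j, hj0, -, hdvd, hfact, -⟩ := Cfsg.Agent.Lib.Helper6.st_sylow_data (G := G) 11 1 4 (hn.trans (by norm_num)) (by norm_num) (by norm_num) (by norm_num)
    have hj : j ≤ 0 := by have := Nat.le_of_dvd (by norm_num) hdvd; omega
    interval_cases j <;> (revert hdvd hfact; decide)
  · haveI : Fact (Nat.Prime 3) := ⟨by norm_num⟩
    obtain ⟨j, hj0, -, hdvd, hfact, -⟩ := Cfsg.Agent.Lib.Helper6.st_sylow_data (G := G) 3 2 5 (hn.trans (by norm_num)) (by norm_num) (by norm_num) (by norm_num)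
    have hj : j ≤ 1 := by have := Nat.le_of_dvd (by norm_num) hdvd; omega
    interval_cases j <;> (revert hdvd hfact; decide)
  · haveI : Fact (Nat.Prime 23) := ⟨by norm_num⟩
    obtain ⟨j, hj0, -, hdvd, hfact, -⟩ := Cfsg.Agent.Lib.Helper6.st_sylow_data (G := G) 23 1 2 (hn.trans (by norm_num)) (by norm_num) (by norm_num) (by norm_num)
    have hj : j ≤ 0 := by have := Nat.le_of_dvd (by norm_num) hdvd; omega
    interval_cases j <;> (revert hdvd hfact; decide)
  · exact hnp (by norm_num)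
  · haveI : Fact (Nat.Prime 2) := ⟨by norm_num⟩
    obtain ⟨j, hj0, -, hdvd, hfact, -⟩ := Cfsg.Agent.Lib.Helper6.st_sylow_data (G := G) 2 4 3 (hn.trans (by norm_num)) (by norm_num) (by norm_num) (by norm_num)
    have hj : j ≤ 1 := by have := Nat.le_of_dvd (by norm_num) hdvd; omega
    interval_cases j <;> (revert hdvd hfact; decide)
  · haveI : Fact (Nat.Prime 7) := ⟨by norm_num⟩
    exact pgroup_false 7 2 (hn.trans (by norm_num)) hnc
  · haveI : Fact (Nat.Prime 5) := ⟨by norm_num⟩
    obtain ⟨j, hj0, -, hdvd, hfact, -⟩ := Cfsg.Agent.Lib.Helper6.st_sylow_data (G := G) 5 2 2 (hn.trans (by norm_num)) (by norm_num) (by norm_num) (by norm_num)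
    have hj : j ≤ 0 := by have := Nat.le_of_dvd (by norm_num) hdvd; omega
    interval_cases j <;> (revert hdvd hfact; decide)
  · haveI : Fact (Nat.Prime 3) := ⟨by norm_num⟩
    obtain ⟨j, hj0, -, hdvd, hfact, -⟩ := Cfsg.Agent.Lib.Helper6.st_sylow_data (G := G) 3 1 17 (hn.trans (by norm_num)) (by norm_num) (by norm_num) (by norm_num)
    have hj : j ≤ 5 := by have := Nat.le_of_dvd (by norm_num) hdvd; omega
    interval_cases j <;> (revert hdvd hfact; decide)
  · haveI : Fact (Nat.Prime 13) := ⟨by norm_num⟩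
    obtain ⟨j, hj0, -, hdvd, hfact, -⟩ := Cfsg.Agent.Lib.Helper6.st_sylow_data (G := G) 13 1 4 (hn.trans (by norm_num)) (by norm_num) (by norm_num) (by norm_num)
    have hj : j ≤ 0 := by have := Nat.le_of_dvd (by norm_num) hdvd; omega
    interval_cases j <;> (revert hdvd hfact; decide)
  · exact hnp (by norm_num)
  · haveI : Fact (Nat.Prime 3) := ⟨by norm_num⟩
    obtain ⟨j, hj0, -, hdvd, hfact, -⟩ := Cfsg.Agent.Lib.Helper6.st_sylow_data (G := G) 3 3 2 (hn.trans (by norm_num)) (by norm_num) (by norm_num) (by norm_num)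
    have hj : j ≤ 0 := by have := Nat.le_of_dvd (by norm_num) hdvd; omega
    interval_cases j <;> (revert hdvd hfact; decide)
  · haveI : Fact (Nat.Prime 11) := ⟨by norm_num⟩
    obtain ⟨j, hj0, -, hdvd, hfact, -⟩ := Cfsg.Agent.Lib.Helper6.st_sylow_data (G := G) 11 1 5 (hn.trans (by norm_num)) (by norm_num) (by norm_num) (by norm_num)
    have hj : j ≤ 0 := by have := Nat.le_of_dvd (by norm_num) hdvd; omega
    interval_cases j <;> (revert hdvd hfact; decide)
  · exact order56_false hn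
  · haveI : Fact (Nat.Prime 19) := ⟨by norm_num⟩
    obtain ⟨j, hj0, -, hdvd, hfact, -⟩ := Cfsg.Agent.Lib.Helper6.st_sylow_data (G := G) 19 1 3 (hn.trans (by norm_num)) (by norm_num) (by norm_num) (by norm_num)
    have hj : j ≤ 0 := by have := Nat.le_of_dvd (by norm_num) hdvd; omega
    interval_cases j <;> (revert hdvd hfact; decide)
  · haveI : Fact (Nat.Prime 29) := ⟨by norm_num⟩
    obtain ⟨j, hj0, -, hdvd, hfact, -⟩ := Cfsg.Agent.Lib.Helper6.st_sylow_data (G := G) 29 1 2 (hn.trans (by norm_num)) (by norm_num) (by norm_num) (by norm_num)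
    have hj : j ≤ 0 := by have := Nat.le_of_dvd (by norm_num) hdvd; omega
    interval_cases j <;> (revert hdvd hfact; decide)
  · exact hnp (by norm_num)
  · exact hne rfl
  · exact hnp (by norm_num)
  · haveI : Fact (Nat.Prime 31) := ⟨by norm_num⟩
    obtain ⟨j, hj0, -, hdvd, hfact, -⟩ := Cfsg.Agent.Lib.Helper6.st_sylow_data (G := G) 31 1 2 (hn.trans (by norm_num)) (by norm_num) (by norm_num) (by norm_num)
    have hj : j ≤ 0 := by have := Nat.le_of_dvd (by norm_num) hdvd; omega
    interval_cases j <;> (revert hdvd hfact; decide)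
  · haveI : Fact (Nat.Prime 7) := ⟨by norm_num⟩
    obtain ⟨j, hj0, -, hdvd, hfact, -⟩ := Cfsg.Agent.Lib.Helper6.st_sylow_data (G := G) 7 1 9 (hn.trans (by norm_num)) (by norm_num) (by norm_num) (by norm_num)
    have hj : j ≤ 1 := by have := Nat.le_of_dvd (by norm_num) hdvd; omega
    interval_cases j <;> (revert hdvd hfact; decide)
  · haveI : Fact (Nat.Prime 2) := ⟨by norm_num⟩
    exact pgroup_false 2 6 (hn.trans (by norm_num)) hnc
  · haveI : Fact (Nat.Prime 5) := ⟨by norm_num⟩
    obtain ⟨j, hj0, -, hdvd, hfact, -⟩ := Cfsg.Agent.Lib.Helper6.st_sylow_data (G := G) 5 1 13 (hn.trans (by norm_num)) (by norm_num) (by norm_num) (by norm_num)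
    have hj : j ≤ 2 := by have := Nat.le_of_dvd (by norm_num) hdvd; omega
    interval_cases j <;> (revert hdvd hfact; decide)
  · haveI : Fact (Nat.Prime 11) := ⟨by norm_num⟩
    obtain ⟨j, hj0, -, hdvd, hfact, -⟩ := Cfsg.Agent.Lib.Helper6.st_sylow_data (G := G) 11 1 6 (hn.trans (by norm_num)) (by norm_num) (by norm_num) (by norm_num)
    have hj : j ≤ 0 := by have := Nat.le_of_dvd (by norm_num) hdvd; omega
    interval_cases j <;> (revert hdvd hfact; decide)
  · exact hnp (by norm_num)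
  · haveI : Fact (Nat.Prime 17) := ⟨by norm_num⟩
    obtain ⟨j, hj0, -, hdvd, hfact, -⟩ := Cfsg.Agent.Lib.Helper6.st_sylow_data (G := G) 17 1 4 (hn.trans (by norm_num)) (by norm_num) (by norm_num) (by norm_num)
    have hj : j ≤ 0 := by have := Nat.le_of_dvd (by norm_num) hdvd; omega
    interval_cases j <;> (revert hdvd hfact; decide)
  · haveI : Fact (Nat.Prime 3) := ⟨by norm_num⟩
    obtain ⟨j, hj0, -, hdvd, hfact, -⟩ := Cfsg.Agent.Lib.Helper6.st_sylow_data (G := G) 3 1 23 (hn.trans (by norm_num)) (by norm_num) (by norm_num) (by norm_num)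
    have hj : j ≤ 7 := by have := Nat.le_of_dvd (by norm_num) hdvd; omega
    interval_cases j <;> (revert hdvd hfact; decide)
  · haveI : Fact (Nat.Prime 5) := ⟨by norm_num⟩
    obtain ⟨j, hj0, -, hdvd, hfact, -⟩ := Cfsg.Agent.Lib.Helper6.st_sylow_data (G := G) 5 1 14 (hn.trans (by norm_num)) (by norm_num) (by norm_num) (by norm_num)
    have hj : j ≤ 2 := by have := Nat.le_of_dvd (by norm_num) hdvd; omega
    interval_cases j <;> (revert hdvd hfact; decide)
  · exact hnp (by norm_num)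
  · haveI : Fact (Nat.Prime 3) := ⟨by norm_num⟩
    obtain ⟨j, hj0, -, hdvd, hfact, -⟩ := Cfsg.Agent.Lib.Helper6.st_sylow_data (G := G) 3 2 8 (hn.trans (by norm_num)) (by norm_num) (by norm_num) (by norm_num)
    have hj : j ≤ 2 := by have := Nat.le_of_dvd (by norm_num) hdvd; omega
    interval_cases j <;> (revert hdvd hfact; decide)
  · exact hnp (by norm_num)
  · haveI : Fact (Nat.Prime 37) := ⟨by norm_num⟩
    obtain ⟨j, hj0, -, hdvd, hfact, -⟩ := Cfsg.Agent.Lib.Helper6.st_sylow_data (G := G) 37 1 2 (hn.trans (by norm_num)) (by norm_num) (by norm_num) (by norm_num)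
    have hj : j ≤ 0 := by have := Nat.le_of_dvd (by norm_num) hdvd; omega
    interval_cases j <;> (revert hdvd hfact; decide)
  · haveI : Fact (Nat.Prime 5) := ⟨by norm_num⟩
    obtain ⟨j, hj0, -, hdvd, hfact, -⟩ := Cfsg.Agent.Lib.Helper6.st_sylow_data (G := G) 5 2 3 (hn.trans (by norm_num)) (by norm_num) (by norm_num) (by norm_num)
    have hj : j ≤ 0 := by have := Nat.le_of_dvd (by norm_num) hdvd; omega
    interval_cases j <;> (revert hdvd hfact; decide)
  · haveI : Fact (Nat.Prime 19) := ⟨by norm_num⟩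
    obtain ⟨j, hj0, -, hdvd, hfact, -⟩ := Cfsg.Agent.Lib.Helper6.st_sylow_data (G := G) 19 1 4 (hn.trans (by norm_num)) (by norm_num) (by norm_num) (by norm_num)
    have hj : j ≤ 0 := by have := Nat.le_of_dvd (by norm_num) hdvd; omega
    interval_cases j <;> (revert hdvd hfact; decide)
  · haveI : Fact (Nat.Prime 7) := ⟨by norm_num⟩
    obtain ⟨j, hj0, -, hdvd, hfact, -⟩ := Cfsg.Agent.Lib.Helper6.st_sylow_data (G := G) 7 1 11 (hn.trans (by norm_num)) (by norm_num) (by norm_num) (by norm_num)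
    have hj : j ≤ 1 := by have := Nat.le_of_dvd (by norm_num) hdvd; omega
    interval_cases j <;> (revert hdvd hfact; decide)
  · haveI : Fact (Nat.Prime 13) := ⟨by norm_num⟩
    obtain ⟨j, hj0, -, hdvd, hfact, -⟩ := Cfsg.Agent.Lib.Helper6.st_sylow_data (G := G) 13 1 6 (hn.trans (by norm_num)) (by norm_num) (by norm_num) (by norm_num)
    have hj : j ≤ 0 := by have := Nat.le_of_dvd (by norm_num) hdvd; omega
    interval_cases j <;> (revert hdvd hfact; decide)
  · exact hnp (by norm_num)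
  · haveI : Fact (Nat.Prime 2) := ⟨by norm_num⟩
    obtain ⟨j, hj0, -, hdvd, hfact, -⟩ := Cfsg.Agent.Lib.Helper6.st_sylow_data (G := G) 2 4 5 (hn.trans (by norm_num)) (by norm_num) (by norm_num) (by norm_num)
    have hj : j ≤ 2 := by have := Nat.le_of_dvd (by norm_num) hdvd; omega
    interval_cases j <;> (revert hdvd hfact; decide)
  · haveI : Fact (Nat.Prime 3) := ⟨by norm_num⟩
    exact pgroup_false 3 4 (hn.trans (by norm_num)) hnc
  · haveI : Fact (Nat.Prime 41) := ⟨by norm_num⟩
    obtain ⟨j, hj0, -, hdvd, hfact, -⟩ := Cfsg.Agent.Lib.Helper6.st_sylow_data (G := G) 41 1 2 (hn.trans (by norm_num)) (by norm_num) (by norm_num) (by norm_num)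
    have hj : j ≤ 0 := by have := Nat.le_of_dvd (by norm_num) hdvd; omega
    interval_cases j <;> (revert hdvd hfact; decide)
  · exact hnp (by norm_num)
  · haveI : Fact (Nat.Prime 7) := ⟨by norm_num⟩
    obtain ⟨j, hj0, -, hdvd, hfact, -⟩ := Cfsg.Agent.Lib.Helper6.st_sylow_data (G := G) 7 1 12 (hn.trans (by norm_num)) (by norm_num) (by norm_num) (by norm_num)
    have hj : j ≤ 1 := by have := Nat.le_of_dvd (by norm_num) hdvd; omega
    interval_cases j <;> (revert hdvd hfact; decide)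
  · haveI : Fact (Nat.Prime 5) := ⟨by norm_num⟩
    obtain ⟨j, hj0, -, hdvd, hfact, -⟩ := Cfsg.Agent.Lib.Helper6.st_sylow_data (G := G) 5 1 17 (hn.trans (by norm_num)) (by norm_num) (by norm_num) (by norm_num)
    have hj : j ≤ 3 := by have := Nat.le_of_dvd (by norm_num) hdvd; omega
    interval_cases j <;> (revert hdvd hfact; decide)
  · haveI : Fact (Nat.Prime 43) := ⟨by norm_num⟩
    obtain ⟨j, hj0, -, hdvd, hfact, -⟩ := Cfsg.Agent.Lib.Helper6.st_sylow_data (G := G) 43 1 2 (hn.trans (by norm_num)) (by norm_num) (by norm_num) (by norm_num)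
    have hj : j ≤ 0 := by have := Nat.le_of_dvd (by norm_num) hdvd; omega
    interval_cases j <;> (revert hdvd hfact; decide)
  · haveI : Fact (Nat.Prime 3) := ⟨by norm_num⟩
    obtain ⟨j, hj0, -, hdvd, hfact, -⟩ := Cfsg.Agent.Lib.Helper6.st_sylow_data (G := G) 3 1 29 (hn.trans (by norm_num)) (by norm_num) (by norm_num) (by norm_num)
    have hj : j ≤ 9 := by have := Nat.le_of_dvd (by norm_num) hdvd; omega
    interval_cases j <;> (revert hdvd hfact; decide)
  · haveI : Fact (Nat.Prime 11) := ⟨by norm_num⟩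
    obtain ⟨j, hj0, -, hdvd, hfact, -⟩ := Cfsg.Agent.Lib.Helper6.st_sylow_data (G := G) 11 1 8 (hn.trans (by norm_num)) (by norm_num) (by norm_num) (by norm_num)
    have hj : j ≤ 0 := by have := Nat.le_of_dvd (by norm_num) hdvd; omega
    interval_cases j <;> (revert hdvd hfact; decide)
  · exact hnp (by norm_num)
  · have h60 := Cfsg.Agent.Lib.Helper6.st_p2qr (G := G) 3 2 5 (by norm_num) (by norm_num) (by norm_num) (hn.trans (by norm_num))
    omega
  · haveI : Fact (Nat.Prime 7) := ⟨by norm_num⟩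
    obtain ⟨j, hj0, -, hdvd, hfact, -⟩ := Cfsg.Agent.Lib.Helper6.st_sylow_data (G := G) 7 1 13 (hn.trans (by norm_num)) (by norm_num) (by norm_num) (by norm_num)
    have hj : j ≤ 1 := by have := Nat.le_of_dvd (by norm_num) hdvd; omega
    interval_cases j <;> (revert hdvd hfact; decide)
  · haveI : Fact (Nat.Prime 23) := ⟨by norm_num⟩
    obtain ⟨j, hj0, -, hdvd, hfact, -⟩ := Cfsg.Agent.Lib.Helper6.st_sylow_data (G := G) 23 1 4 (hn.trans (by norm_num)) (by norm_num) (by norm_num) (by norm_num)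
    have hj : j ≤ 0 := by have := Nat.le_of_dvd (by norm_num) hdvd; omega
    interval_cases j <;> (revert hdvd hfact; decide)
  · haveI : Fact (Nat.Prime 31) := ⟨by norm_num⟩
    obtain ⟨j, hj0, -, hdvd, hfact, -⟩ := Cfsg.Agent.Lib.Helper6.st_sylow_data (G := G) 31 1 3 (hn.trans (by norm_num)) (by norm_num) (by norm_num) (by norm_num)
    have hj : j ≤ 0 := by have := Nat.le_of_dvd (by norm_num) hdvd; omega
    interval_cases j <;> (revert hdvd hfact; decide)
  · haveI : Fact (Nat.Prime 47) := ⟨by norm_num⟩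
    obtain ⟨j, hj0, -, hdvd, hfact, -⟩ := Cfsg.Agent.Lib.Helper6.st_sylow_data (G := G) 47 1 2 (hn.trans (by norm_num)) (by norm_num) (by norm_num) (by norm_num)
    have hj : j ≤ 0 := by have := Nat.le_of_dvd (by norm_num) hdvd; omega
    interval_cases j <;> (revert hdvd hfact; decide)
  · haveI : Fact (Nat.Prime 5) := ⟨by norm_num⟩
    obtain ⟨j, hj0, -, hdvd, hfact, -⟩ := Cfsg.Agent.Lib.Helper6.st_sylow_data (G := G) 5 1 19 (hn.trans (by norm_num)) (by norm_num) (by norm_num) (by norm_num)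
    have hj : j ≤ 3 := by have := Nat.le_of_dvd (by norm_num) hdvd; omega
    interval_cases j <;> (revert hdvd hfact; decide)
  · haveI : Fact (Nat.Prime 2) := ⟨by norm_num⟩
    obtain ⟨j, hj0, -, hdvd, hfact, -⟩ := Cfsg.Agent.Lib.Helper6.st_sylow_data (G := G) 2 5 3 (hn.trans (by norm_num)) (by norm_num) (by norm_num) (by norm_num)
    have hj : j ≤ 1 := by have := Nat.le_of_dvd (by norm_num) hdvd; omega
    interval_cases j <;> (revert hdvd hfact; decide)
  · exact hnp (by norm_num)
  · haveI : Fact (Nat.Prime 7) := ⟨by norm_num⟩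
    obtain ⟨j, hj0, -, hdvd, hfact, -⟩ := Cfsg.Agent.Lib.Helper6.st_sylow_data (G := G) 7 2 2 (hn.trans (by norm_num)) (by norm_num) (by norm_num) (by norm_num)
    have hj : j ≤ 0 := by have := Nat.le_of_dvd (by norm_num) hdvd; omega
    interval_cases j <;> (revert hdvd hfact; decide)
  · haveI : Fact (Nat.Prime 3) := ⟨by norm_num⟩
    obtain ⟨j, hj0, -, hdvd, hfact, -⟩ := Cfsg.Agent.Lib.Helper6.st_sylow_data (G := G) 3 2 11 (hn.trans (by norm_num)) (by norm_num) (by norm_num) (by norm_num)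
    have hj : j ≤ 3 := by have := Nat.le_of_dvd (by norm_num) hdvd; omega
    interval_cases j <;> (revert hdvd hfact; decide)
  · haveI : Fact (Nat.Prime 5) := ⟨by norm_num⟩
    obtain ⟨j, hj0, -, hdvd, hfact, -⟩ := Cfsg.Agent.Lib.Helper6.st_sylow_data (G := G) 5 2 4 (hn.trans (by norm_num)) (by norm_num) (by norm_num) (by norm_num)
    have hj : j ≤ 0 := by have := Nat.le_of_dvd (by norm_num) hdvd; omega
    interval_cases j <;> (revert hdvd hfact; decide)

end Cfsg.Agent.S0493
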