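import Mathlib
import Cfsg.Statements.S0499
import Cfsg.Agent.S0071
import Cfsg.Agent.S0493
import Cfsg.Agent.Lib.Helper6.Sylow5
import Cfsg.Agent.Lib.Helper6.SimpleP2QR

set_option autoImplicit false
open Cfsg

namespace Cfsg.Agent.S0499

theorem no_aut5 {Q : Type*} [Group Q] [Finite Q] (hQ : Nat.card Q = 8) (α : MulAut Q)
    (h5 : orderOf α = 5) : False := by
  classical
  haveI : Fact (Nat.Prime 5) := ⟨by norm_num⟩
  obtain ⟨F, hF⟩ : ∃ F : Subgroup Q, ∀ x, x ∈ F ↔ α x = x :=
    ⟨{ carrier := {x | α x = x}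
       mul_mem' := by
         intro a b ha hb
         show α (a * b) = a * b
         rw [map_mul, ha, hb]
       one_mem' := map_one α
       inv_mem' := by
         intro a ha
         show α a⁻¹ = a⁻¹
         rw [map_inv, ha] }, fun x => Iff.rfl⟩
  have hp : IsPGroup 5 (Subgroup.zpowers α) := by
    apply IsPGroup.of_card (n := 1)
    rw [Nat.card_zpowers, h5, pow_one]
  have hmod := hp.card_modEq_card_fixedPoints Q
  have hfix : MulAction.fixedPoints (Subgroup.zpowers α) Q = (F : Set Q) := by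
    ext x
    constructor
    · intro hx
      have := hx ⟨α, Subgroup.mem_zpowers α⟩
      exact (hF x).mpr this
    · intro hx β
      have h1 : α ∈ MulAction.stabilizer (MulAut Q) x := (hF x).mp hx
      have h2 : Subgroup.zpowers α ≤ MulAction.stabilizer (MulAut Q) x := (Subgroup.zpowers_le).mpr h1
      exact h2 β.2
  rw [hfix, hQ] at hmod
  have hcF : Nat.card (F : Set Q) = Nat.card F := rfl
  rw [hcF] at hmod
  have hdvd : Nat.card F ∣ 2 ^ 3 := by
    have := Subgroup.card_subgroup_dvd_card F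
    rw [hQ] at this
    exact this
  obtain ⟨i, hi, hci⟩ := (Nat.dvd_prime_pow Nat.prime_two).mp hdvd
  have hc8 : Nat.card F = 8 := by
    rw [hci] at hmod ⊢
    unfold Nat.ModEq at hmod
    interval_cases i <;> simp_all
  have hFtop : F = ⊤ := Subgroup.eq_top_of_card_eq F (by rw [hc8, hQ])
  have hα : α = 1 := by
    ext x
    have : x ∈ F := by rw [hFtop]; exact Subgroup.mem_top x
    exact (hF x).mp this
  rw [hα, orderOf_one] at h5
  omega

theorem odd_dvd_aux (d : ℕ) (h1 : d ∣ 5040) (h2 : Nat.Coprime d 2) (h3 : ¬ 3 ∣ d) (h7 : ¬ 7 ∣ d)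
    (hne : d ≠ 1) : d = 5 := by
  have c16 : Nat.Coprime d 16 := by
    have := Nat.Coprime.pow_right 4 h2
    simpa using this
  have e1 : d ∣ 315 := c16.dvd_of_dvd_mul_left (by simpa using h1)
  have c3 : Nat.Coprime d 3 := ((Nat.Prime.coprime_iff_not_dvd Nat.prime_three).mpr h3).symm
  have c9 : Nat.Coprime d 9 := by
    have := Nat.Coprime.pow_right 2 c3
    simpa using this
  have e2 : d ∣ 35 := c9.dvd_of_dvd_mul_left (by simpa using e1)
  have c7 : Nat.Coprime d 7 := ((Nat.Prime.coprime_iff_not_dvd (by norm_num : Nat.Prime 7)).mpr h7).symm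
  have e3 : d ∣ 5 := c7.dvd_of_dvd_mul_left (by simpa using e2)
  rcases (Nat.dvd_prime Nat.prime_five).mp e3 with h | h
  · exact absurd h hne
  · exact h

/-- A non-abelian finite simple group of even order has order divisible by 12, 16 or 56. -/
theorem result {G : Type*} [Group G] [Finite G] [IsSimpleGroup G]
    (hG : ¬ IsMulCommutative G) (h2 : Even (Nat.card G)) :
    12 ∣ Nat.card G ∨ 16 ∣ Nat.card G ∨ 56 ∣ Nat.card G := by
  classical
  haveI : Fact (Nat.Prime 2) := ⟨Nat.prime_two⟩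
  obtain ⟨T⟩ : Nonempty (Sylow 2 G) := inferInstance
  have h2G : 2 ∣ Nat.card G := even_iff_two_dvd.mp h2
  obtain ⟨a, ha⟩ := T.2.exists_card_eq
  have hTcard1 : Nat.card (T : Subgroup G) ≠ 1 := by
    intro h
    exact T.ne_bot_of_dvd_card h2G (Subgroup.card_eq_one.mp h)
  have hTcardG : Nat.card (T : Subgroup G) ≠ Nat.card G := by
    intro h
    exact Cfsg.Agent.S0493.pgroup_false 2 a (h ▸ ha) hG
  have hnocomp : ¬ ∃ N : Subgroup G, N.Normal ∧ N.IsComplement' (T : Subgroup G) := fun ⟨N, hN, hc⟩ =>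
    Cfsg.Agent.Lib.Helper6.st_no_normal_complement (T : Subgroup G) N hN hc hTcard1 hTcardG
  rw [Cfsg.Agent.S0071.result T] at hnocomp
  push Not at hnocomp
  obtain ⟨Q, hQT, g, hgN, hgodd, hgC⟩ := hnocomp
  by_cases h16 : 16 ∣ Nat.card G
  · right; left; exact h16
  have hTG : Nat.card (T : Subgroup G) ∣ Nat.card G := Subgroup.card_subgroup_dvd_card _
  have ha3 : a ≤ 3 := by
    by_contra hcon
    push Not at hcon
    apply h16
    have : (2 : ℕ) ^ 4 ∣ 2 ^ a := pow_dvd_pow 2 hcon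
    rw [← ha] at this
    exact this.trans hTG
  have hQd : Nat.card Q ∣ 2 ^ a := ha ▸ Subgroup.card_dvd_of_le hQT
  obtain ⟨b, hb, hQc⟩ := (Nat.dvd_prime_pow Nat.prime_two).mp hQd
  obtain ⟨α, hαdef⟩ : ∃ α : MulAut Q, α = Q.normalizerMonoidHom ⟨g, hgN⟩ := ⟨_, rfl⟩
  have hα1 : α ≠ 1 := by
    intro h
    apply hgC
    have h1 : (⟨g, hgN⟩ : Subgroup.normalizer (Q : Set G)) ∈ Q.normalizerMonoidHom.ker := by
      rw [MonoidHom.mem_ker, ← hαdef, h]
    rw [Subgroup.normalizerMonoidHom_ker, Subgroup.mem_subgroupOf] at h1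
    exact h1
  have hαg : orderOf α ∣ orderOf g := by
    rw [hαdef]
    have := orderOf_map_dvd Q.normalizerMonoidHom (⟨g, hgN⟩ : Subgroup.normalizer (Q : Set G))
    rwa [Subgroup.orderOf_mk] at this
  have hαaut : orderOf α ∣ (Nat.card Q - 1).factorial :=
    (orderOf_dvd_natCard α).trans (Cfsg.Agent.Lib.Helper6.sy_card_mulAut_dvd Q)
  have hαodd : Nat.Coprime (orderOf α) 2 := Nat.Coprime.coprime_dvd_left hαg hgodd
  have hαG : orderOf α ∣ Nat.card G := hαg.trans (orderOf_dvd_natCard g)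
  have hQG : Nat.card Q ∣ Nat.card G := Subgroup.card_subgroup_dvd_card Q
  have hαne1 : orderOf α ≠ 1 := fun h => hα1 (orderOf_eq_one_iff.mp h)
  have hb3 : b ≤ 3 := le_trans hb ha3
  interval_cases b
  · rw [hQc] at hαaut
    exact absurd (Nat.dvd_one.mp (by simpa using hαaut)) hαne1
  · rw [hQc] at hαaut
    exact absurd (Nat.dvd_one.mp (by simpa using hαaut)) hαne1
  · rw [hQc] at hαaut hQG
    have e1 : orderOf α ∣ 3 := hαodd.dvd_of_dvd_mul_left (by simpa [Nat.factorial] using hαaut)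
    rcases (Nat.dvd_prime Nat.prime_three).mp e1 with h | h
    · exact absurd h hαne1
    · rw [h] at hαG
      left
      exact Nat.Coprime.mul_dvd_of_dvd_of_dvd (by norm_num : Nat.Coprime 4 3) (by simpa using hQG) hαG
  · rw [hQc] at hαaut hQG
    have hfact : orderOf α ∣ 5040 := by simpa [Nat.factorial] using hαaut
    have h8G : 8 ∣ Nat.card G := by simpa using hQG
    by_cases h3 : 3 ∣ orderOf α
    · left
      have h24 : 8 * 3 ∣ Nat.card G :=
        Nat.Coprime.mul_dvd_of_dvd_of_dvd (by norm_num : Nat.Coprime 8 3) h8G (h3.trans hαG)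
      exact Dvd.dvd.trans (by norm_num) h24
    by_cases h7 : 7 ∣ orderOf α
    · right; right
      have h56 : 8 * 7 ∣ Nat.card G :=
        Nat.Coprime.mul_dvd_of_dvd_of_dvd (by norm_num : Nat.Coprime 8 7) h8G (h7.trans hαG)
      exact h56
    exfalso
    have h5 := odd_dvd_aux (orderOf α) hfact hαodd h3 h7 hαne1
    exact no_aut5 (by rw [hQc]; norm_num) α h5

end Cfsg.Agent.S0499
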