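import Mathlib
import Cfsg.Statements.S0502

set_option autoImplicit false
set_option linter.unusedSectionVars false

open Cfsg

namespace Cfsg.Agent.S0502

variable {P : Type*} [Group P]

theorem k_sq (V : Subgroup P) (hV : IsKleinFour ↥V) {x : P} (hx : x ∈ V) : x * x = 1 := by
  have := Monoid.pow_exponent_eq_one (⟨x, hx⟩ : ↥V)
  rw [hV.exponent_two] at this
  have h2 := congrArg Subtype.val this
  simpa [pow_two] using h2

theorem comm_of_sq {x y : P} (hx : x * x = 1) (hy : y * y = 1) (hxy : (x * y) * (x * y) = 1) :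
    x * y = y * x := by
  have hxi : x⁻¹ = x := inv_eq_of_mul_eq_one_left hx
  have hyi : y⁻¹ = y := inv_eq_of_mul_eq_one_left hy
  have hxyi : (x * y)⁻¹ = x * y := inv_eq_of_mul_eq_one_left hxy
  calc x * y = (x * y)⁻¹ := hxyi.symm
    _ = y⁻¹ * x⁻¹ := mul_inv_rev x y
    _ = y * x := by rw [hxi, hyi]

theorem klein_of_pair [Finite P] (u v : P) (hu : u * u = 1) (hv : v * v = 1) (huv : u * v = v * u)
    (hu1 : u ≠ 1) (hv1 : v ≠ 1) (hne : u ≠ v) :
    ∃ W : Subgroup P, IsKleinFour ↥W ∧ u ∈ W ∧ v ∈ W ∧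
      ∀ w ∈ W, w = 1 ∨ w = u ∨ w = v ∨ w = u * v := by
  classical
  have hui : u⁻¹ = u := inv_eq_of_mul_eq_one_left hu
  have hvi : v⁻¹ = v := inv_eq_of_mul_eq_one_left hv
  have hc : Commute u v := huv
  have hu2 : u ^ 2 = 1 := by rw [pow_two]; exact hu
  have hv2 : v ^ 2 = 1 := by rw [pow_two]; exact hv
  let W : Subgroup P :=
    { carrier := {w | ∃ i j : ℕ, w = u ^ i * v ^ j}
      mul_mem' := by
        rintro x y ⟨i, j, rfl⟩ ⟨k, l, rfl⟩
        refine ⟨i + k, j + l, ?_⟩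
        rw [(hc.pow_pow k j).symm.mul_mul_mul_comm, ← pow_add, ← pow_add]
      one_mem' := ⟨0, 0, by simp⟩
      inv_mem' := by
        rintro x ⟨i, j, rfl⟩
        refine ⟨i, j, ?_⟩
        rw [mul_inv_rev, ← inv_pow, ← inv_pow, hui, hvi]
        exact ((hc.pow_pow i j).eq).symm }
  have hWmem : ∀ w, w ∈ W ↔ ∃ i j : ℕ, w = u ^ i * v ^ j := fun w => Iff.rfl
  have huW : u ∈ W := (hWmem u).mpr ⟨1, 0, by simp⟩
  have hvW : v ∈ W := (hWmem v).mpr ⟨0, 1, by simp⟩
  have hchar : ∀ w ∈ W, w = 1 ∨ w = u ∨ w = v ∨ w = u * v := by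
    intro w hw
    obtain ⟨i, j, rfl⟩ := (hWmem w).mp hw
    rw [pow_eq_pow_mod i hu2, pow_eq_pow_mod j hv2]
    rcases Nat.mod_two_eq_zero_or_one i with hi | hi <;>
      rcases Nat.mod_two_eq_zero_or_one j with hj | hj <;>
      rw [hi, hj] <;> simp
  have hset : (W : Set P) = {1, u, v, u * v} := by
    ext w
    constructor
    · intro hw
      rcases hchar w hw with h | h | h | h <;> simp [h]
    · intro hw
      simp only [Set.mem_insert_iff, Set.mem_singleton_iff] at hw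
      rcases hw with h | h | h | h
      · rw [h]; exact W.one_mem
      · rw [h]; exact huW
      · rw [h]; exact hvW
      · rw [h]; exact W.mul_mem huW hvW
  have hcard : Nat.card ↥W = 4 := by
    have h0 : Nat.card ↥W = (W : Set P).ncard := Nat.card_coe_set_eq (W : Set P)
    rw [h0, hset]
    have h3 : v ≠ u * v := fun h => hu1 (by
      have : u * v = 1 * v := by rw [one_mul]; exact h.symm
      exact mul_right_cancel this)
    have h2 : u ∉ ({v, u * v} : Set P) := by
      simp only [Set.mem_insert_iff, Set.mem_singleton_iff, not_or]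
      exact ⟨hne, fun h => hv1 (by
        have : u * v = u * 1 := by rw [mul_one]; exact h.symm
        exact mul_left_cancel this)⟩
    have h1 : (1 : P) ∉ ({u, v, u * v} : Set P) := by
      simp only [Set.mem_insert_iff, Set.mem_singleton_iff, not_or]
      refine ⟨fun h => hu1 h.symm, fun h => hv1 h.symm, fun h => hne ?_⟩
      have : u = v⁻¹ := eq_inv_of_mul_eq_one_left h.symm
      rw [this, hvi]
    rw [Set.ncard_insert_of_notMem h1, Set.ncard_insert_of_notMem h2, Set.ncard_pair h3]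
  have hexp2 : Monoid.exponent ↥W = 2 := by
    have hdvd : Monoid.exponent ↥W ∣ 2 := by
      apply Monoid.exponent_dvd_of_forall_pow_eq_one
      intro g
      apply Subtype.ext
      show (g : P) ^ 2 = 1
      rcases hchar g.1 g.2 with h | h | h | h
      · rw [h, one_pow]
      · rw [h]; exact hu2
      · rw [h]; exact hv2
      · rw [h, hc.mul_pow, hu2, hv2, one_mul]
    rcases (Nat.dvd_prime Nat.prime_two).mp hdvd with h | h
    · exfalso
      rw [Monoid.exp_eq_one_iff] at h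
      have := h.allEq (⟨u, huW⟩ : ↥W) 1
      exact hu1 (congrArg Subtype.val this)
    · exact h
  exact ⟨W, ⟨hcard, hexp2⟩, huW, hvW, hchar⟩

theorem klein_gen [Finite P] (U : Subgroup P) (hU : IsKleinFour ↥U) {x y : P} (hx : x ∈ U)
    (hy : y ∈ U) (hx1 : x ≠ 1) (hy1 : y ≠ 1) (hxy : x ≠ y) :
    ∀ w ∈ U, w = 1 ∨ w = x ∨ w = y ∨ w = x * y := by
  have hxx := k_sq U hU hx
  have hyy := k_sq U hU hy
  have hc := comm_of_sq hxx hyy (k_sq U hU (U.mul_mem hx hy))
  obtain ⟨W, hW, hxW, hyW, hchar⟩ := klein_of_pair x y hxx hyy hc hx1 hy1 hxy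
  have hle : W ≤ U := by
    intro w hw
    rcases hchar w hw with h | h | h | h
    · rw [h]; exact U.one_mem
    · rw [h]; exact hx
    · rw [h]; exact hy
    · rw [h]; exact U.mul_mem hx hy
  have heq : W = U := Subgroup.eq_of_le_of_card_ge hle (by rw [hW.card_four, hU.card_four])
  intro w hw
  exact hchar w (by rw [heq]; exact hw)

theorem comm_gen {x y a b : P} (ha : a = 1 ∨ a = x ∨ a = y ∨ a = x * y)
    (hxb : Commute x b) (hyb : Commute y b) : Commute a b := by
  rcases ha with h | h | h | h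
  · rw [h]; exact Commute.one_left b
  · rw [h]; exact hxb
  · rw [h]; exact hyb
  · rw [h]; exact hxb.mul_left hyb

theorem comm44 {x y z t a b : P} (ha : a = 1 ∨ a = x ∨ a = y ∨ a = x * y)
    (hb : b = 1 ∨ b = z ∨ b = t ∨ b = z * t)
    (hxz : Commute x z) (hxt : Commute x t) (hyz : Commute y z) (hyt : Commute y t) :
    a * b = b * a := by
  have h1 : Commute x b := (comm_gen hb hxz.symm hxt.symm).symm
  have h2 : Commute y b := (comm_gen hb hyz.symm hyt.symm).symm
  exact (comm_gen ha h1 h2).eq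

/-- the centralizer of `x` inside `E₁` -/
def Cx (E₁ : Subgroup P) (x : P) : Subgroup P where
  carrier := {v | v ∈ E₁ ∧ x * v = v * x}
  mul_mem' := by
    rintro a b ⟨ha, hax⟩ ⟨hb, hbx⟩
    exact ⟨E₁.mul_mem ha hb,
      (Commute.mul_right (show Commute x a from hax) (show Commute x b from hbx)).eq⟩
  one_mem' := ⟨E₁.one_mem, (Commute.one_right x).eq⟩
  inv_mem' := by
    rintro a ⟨ha, hax⟩
    exact ⟨E₁.inv_mem ha, (Commute.inv_right (show Commute x a from hax)).eq⟩

theorem mem_Cx {E₁ : Subgroup P} {x v : P} : v ∈ Cx E₁ x ↔ v ∈ E₁ ∧ x * v = v * x := Iff.rfl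

theorem card_bound [Finite P] (E₁ : Subgroup P) (hab : ∀ u ∈ E₁, ∀ v ∈ E₁, u * v = v * u)
    (hexp : ∀ e ∈ E₁, e * e = 1) (x : P) (hx : x * x = 1) (hnorm : ∀ e ∈ E₁, x * e * x⁻¹ ∈ E₁) :
    Nat.card ↥E₁ ≤ Nat.card ↥(Cx E₁ x) * Nat.card ↥(Cx E₁ x) := by
  have hxi : x⁻¹ = x := inv_eq_of_mul_eq_one_left hx
  let f : ↥E₁ →* ↥E₁ :=
    { toFun := fun v => ⟨(v : P) * (x * v * x⁻¹), E₁.mul_mem v.2 (hnorm v v.2)⟩
      map_one' := by
        apply Subtype.ext
        show ((1 : ↥E₁) : P) * (x * ((1 : ↥E₁) : P) * x⁻¹) = ((1 : ↥E₁) : P)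
        rw [OneMemClass.coe_one]; group
      map_mul' := by
        intro a b
        apply Subtype.ext
        show (a : P) * b * (x * ((a : P) * b) * x⁻¹)
          = (a : P) * (x * a * x⁻¹) * ((b : P) * (x * b * x⁻¹))
        have hc := hab b b.2 (x * a * x⁻¹) (hnorm a a.2)
        calc (a : P) * b * (x * ((a : P) * b) * x⁻¹)
            = a * ((b : P) * (x * a * x⁻¹)) * (x * b * x⁻¹) := by group
          _ = a * ((x * a * x⁻¹) * (b : P)) * (x * b * x⁻¹) := by rw [hc]
          _ = (a : P) * (x * a * x⁻¹) * ((b : P) * (x * b * x⁻¹)) := by group }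
  have hf : ∀ v : ↥E₁, ((f v : ↥E₁) : P) = (v : P) * (x * v * x⁻¹) := fun v => rfl
  have hcard : Nat.card ↥E₁ = Nat.card ↥f.ker * Nat.card ↥f.range := by
    rw [← Subgroup.index_ker]
    exact (Subgroup.card_mul_index f.ker).symm
  have hker : Nat.card ↥f.ker ≤ Nat.card ↥(Cx E₁ x) := by
    refine Nat.card_le_card_of_injective
      (fun v : ↥f.ker => (⟨((v.1 : ↥E₁) : P), ?_⟩ : ↥(Cx E₁ x))) ?_
    · refine mem_Cx.mpr ⟨v.1.2, ?_⟩
      have h1 : ((f v.1 : ↥E₁) : P) = 1 := by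
        have := (MonoidHom.mem_ker).mp v.2
        rw [this]; rfl
      rw [hf] at h1
      have hvv := hexp v.1 v.1.2
      have hvi : ((v.1 : ↥E₁) : P)⁻¹ = v.1 := inv_eq_of_mul_eq_one_left hvv
      have h2 : x * ((v.1 : ↥E₁) : P) * x⁻¹ = ((v.1 : ↥E₁) : P) := by
        have := eq_inv_of_mul_eq_one_right h1
        rw [this, hvi]
      calc x * ((v.1 : ↥E₁) : P) = (x * ((v.1 : ↥E₁) : P) * x⁻¹) * x := by group
        _ = ((v.1 : ↥E₁) : P) * x := by rw [h2]
    · intro v w h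
      apply Subtype.ext
      apply Subtype.ext
      have h' := congrArg (fun z : ↥(Cx E₁ x) => (z : P)) h
      exact h'
  have hrange : Nat.card ↥f.range ≤ Nat.card ↥(Cx E₁ x) := by
    refine Nat.card_le_card_of_injective
      (fun w : ↥f.range => (⟨((w.1 : ↥E₁) : P), ?_⟩ : ↥(Cx E₁ x))) ?_
    · refine mem_Cx.mpr ⟨w.1.2, ?_⟩
      obtain ⟨v, hv⟩ := (MonoidHom.mem_range).mp w.2
      have h1 : ((w.1 : ↥E₁) : P) = (v : P) * (x * v * x⁻¹) := by rw [← hv]; rfl
      rw [h1]
      have hc := hab v v.2 (x * v * x⁻¹) (hnorm v v.2)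
      calc x * ((v : P) * (x * v * x⁻¹)) = (x * v * x⁻¹) * ((x * x) * (v : P) * x⁻¹) := by group
        _ = (x * v * x⁻¹) * ((v : P) * x⁻¹) := by rw [hx, one_mul]
        _ = ((x * v * x⁻¹) * (v : P)) * x⁻¹ := by group
        _ = ((v : P) * (x * v * x⁻¹)) * x⁻¹ := by rw [hc]
        _ = ((v : P) * (x * v * x⁻¹)) * x := by rw [hxi]
    · intro v w h
      apply Subtype.ext
      apply Subtype.ext
      have h' := congrArg (fun z : ↥(Cx E₁ x) => (z : P)) h
      exact h'
  calc Nat.card ↥E₁ = Nat.card ↥f.ker * Nat.card ↥f.range := hcard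
    _ ≤ Nat.card ↥(Cx E₁ x) * Nat.card ↥(Cx E₁ x) := Nat.mul_le_mul hker hrange

theorem exists_third [Finite P] (H : Subgroup P) (h3 : 3 ≤ Nat.card ↥H) (e : P) (he : e * e = 1) :
    ∃ x ∈ H, x ≠ 1 ∧ x ≠ e := by
  by_contra h
  have hle : H ≤ Subgroup.zpowers e := by
    intro w hw
    by_cases hw1 : w = 1
    · rw [hw1]; exact Subgroup.one_mem _
    · by_cases hwe : w = e
      · rw [hwe]; exact Subgroup.mem_zpowers e
      · exact absurd ⟨w, hw, hw1, hwe⟩ h
  have h2 : Nat.card ↥(Subgroup.zpowers e) ≤ 2 := by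
    rw [Nat.card_zpowers]
    exact orderOf_le_of_pow_eq_one (by norm_num) (by rw [pow_two]; exact he)
  have := Subgroup.card_le_of_le hle
  omega

/-- the commuting relation on Klein four-subgroups -/
abbrev R (P : Type*) [Group P] : Subgroup P → Subgroup P → Prop :=
  fun A B => IsKleinFour A ∧ IsKleinFour B ∧ ∀ a ∈ A, ∀ b ∈ B, a * b = b * a

theorem rtg_symm {r : Subgroup P → Subgroup P → Prop} (hs : ∀ A B, r A B → r B A)
    {U V : Subgroup P} (h : Relation.ReflTransGen r U V) : Relation.ReflTransGen r V U := by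
  induction h with
  | refl => exact Relation.ReflTransGen.refl
  | tail _ hbc ih => exact Relation.ReflTransGen.head (hs _ _ hbc) ih

theorem to_E [Finite P] (E : Subgroup P) [hEn : E.Normal]
    (hab : ∀ u ∈ E, ∀ v ∈ E, u * v = v * u)
    (hexp : ∀ e ∈ E, e * e = 1) (hE8 : 8 ≤ Nat.card ↥E) (U : Subgroup P) (hU : IsKleinFour ↥U) :
    ∃ W : Subgroup P, IsKleinFour ↥W ∧ W ≤ E ∧ Relation.ReflTransGen (R P) U W := by
  have hU4 := hU.card_four
  obtain ⟨a, haU, ha1, -⟩ := exists_third U (by omega) 1 (one_mul 1)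
  have haa := k_sq U hU haU
  obtain ⟨b, hbU, hb1, hba⟩ := exists_third U (by omega) a haa
  have hbb := k_sq U hU hbU
  have hUcomm : ∀ x ∈ U, ∀ y ∈ U, x * y = y * x := fun x hx y hy =>
    comm_of_sq (k_sq U hU hx) (k_sq U hU hy) (k_sq U hU (U.mul_mem hx hy))
  have hcab : Commute a b := hUcomm a haU b hbU
  have hUchar := klein_gen U hU haU hbU ha1 hb1 (Ne.symm hba)
  have hC1 := card_bound E hab hexp a haa (fun e he => hEn.conj_mem e he a)
  have hC1card : 3 ≤ Nat.card ↥(Cx E a) := by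
    by_contra hlt
    have h2 : Nat.card ↥(Cx E a) ≤ 2 := by omega
    have := Nat.mul_le_mul h2 h2
    omega
  have hC2 := card_bound (Cx E a) (fun u hu v hv => hab u (mem_Cx.mp hu).1 v (mem_Cx.mp hv).1)
    (fun e he => hexp e (mem_Cx.mp he).1) b hbb
    (fun e he => mem_Cx.mpr ⟨hEn.conj_mem e (mem_Cx.mp he).1 b,
      ((hcab.mul_right (show Commute a e from (mem_Cx.mp he).2)).mul_right hcab.inv_right).eq⟩)
  have hC2card : 2 ≤ Nat.card ↥(Cx (Cx E a) b) := by
    by_contra hlt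
    have h1 : Nat.card ↥(Cx (Cx E a) b) ≤ 1 := by omega
    have := Nat.mul_le_mul h1 h1
    omega
  obtain ⟨e, heC, he1⟩ : ∃ e ∈ Cx (Cx E a) b, e ≠ 1 := by
    by_contra h
    have hbot : Cx (Cx E a) b = ⊥ :=
      (Subgroup.eq_bot_iff_forall _).mpr (fun m hm => by_contra (fun hm1 => h ⟨m, hm, hm1⟩))
    rw [hbot, Subgroup.card_bot] at hC2card
    omega
  have heE : e ∈ E := (mem_Cx.mp (mem_Cx.mp heC).1).1
  have hae : Commute a e := (mem_Cx.mp (mem_Cx.mp heC).1).2
  have hbe : Commute b e := (mem_Cx.mp heC).2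
  have hee := hexp e heE
  by_cases heU : e ∈ U
  · obtain ⟨b', hb'U, hb'1, hb'e⟩ := exists_third U (by omega) e hee
    have hb'b' := k_sq U hU hb'U
    have hUchar' := klein_gen U hU heU hb'U he1 hb'1 (Ne.symm hb'e)
    have hC := card_bound E hab hexp b' hb'b' (fun x hx => hEn.conj_mem x hx b')
    have hCcard : 3 ≤ Nat.card ↥(Cx E b') := by
      by_contra hlt
      have h2 : Nat.card ↥(Cx E b') ≤ 2 := by omega
      have := Nat.mul_le_mul h2 h2
      omega
    obtain ⟨e', he'C, he'1, he'e⟩ := exists_third (Cx E b') hCcard e hee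
    have he'E : e' ∈ E := (mem_Cx.mp he'C).1
    obtain ⟨W, hW, heW, he'W, hWchar⟩ := klein_of_pair e e' hee (hexp e' he'E)
      (hab e heE e' he'E) he1 he'1 (Ne.symm he'e)
    refine ⟨W, hW, ?_, Relation.ReflTransGen.single ⟨hU, hW, ?_⟩⟩
    · intro w hw
      rcases hWchar w hw with h | h | h | h
      · rw [h]; exact E.one_mem
      · rw [h]; exact heE
      · rw [h]; exact he'E
      · rw [h]; exact E.mul_mem heE he'E
    · intro x hx y hy
      exact comm44 (hUchar' x hx) (hWchar y hy) (Commute.refl e) (hab e heE e' he'E)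
        (hUcomm b' hb'U e heU) ((mem_Cx.mp he'C).2)
  · have hane : a ≠ e := fun h => heU (by rw [← h]; exact haU)
    obtain ⟨W₁, hW₁, haW₁, heW₁, hW₁char⟩ := klein_of_pair a e haa hee hae.eq ha1 he1 hane
    obtain ⟨e', he'C, he'1, he'e⟩ := exists_third (Cx E a) hC1card e hee
    have he'E : e' ∈ E := (mem_Cx.mp he'C).1
    obtain ⟨W₂, hW₂, heW₂, he'W₂, hW₂char⟩ := klein_of_pair e e' hee (hexp e' he'E)
      (hab e heE e' he'E) he1 he'1 (Ne.symm he'e)
    refine ⟨W₂, hW₂, ?_, Relation.ReflTransGen.tail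
      (Relation.ReflTransGen.single ⟨hU, hW₁, ?_⟩) ⟨hW₁, hW₂, ?_⟩⟩
    · intro w hw
      rcases hW₂char w hw with h | h | h | h
      · rw [h]; exact E.one_mem
      · rw [h]; exact heE
      · rw [h]; exact he'E
      · rw [h]; exact E.mul_mem heE he'E
    · intro x hx y hy
      exact comm44 (hUchar x hx) (hW₁char y hy) (Commute.refl a) hae hcab.symm hbe
    · intro x hx y hy
      exact comm44 (hW₁char x hx) (hW₂char y hy) hae ((mem_Cx.mp he'C).2) (Commute.refl e)
        (hab e heE e' he'E)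

/-- If a finite 2-group has a normal elementary abelian subgroup of order at least 8, then any two of its Klein
four-subgroups are joined by a chain of Klein four-subgroups with consecutive members commuting elementwise. -/
theorem result {P : Type*} [Group P] [Finite P] (hP : IsPGroup 2 P)
    (E : Subgroup P) [E.Normal] (hE : IsMulCommutative E) (hE2 : ∀ e ∈ E, e ^ 2 = 1) (hE8 : 8 ≤ Nat.card E) :
    Cfsg.IsFourConnected P := by
  have hab : ∀ u ∈ E, ∀ v ∈ E, u * v = v * u := by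
    intro u hu v hv
    have := hE.is_comm.comm (⟨u, hu⟩ : ↥E) ⟨v, hv⟩
    exact congrArg Subtype.val this
  have hexp : ∀ e ∈ E, e * e = 1 := fun e he => by rw [← pow_two]; exact hE2 e he
  intro U V hU hV
  obtain ⟨W₁, hW₁, hW₁E, h1⟩ := to_E E hab hexp hE8 U hU
  obtain ⟨W₂, hW₂, hW₂E, h2⟩ := to_E E hab hexp hE8 V hV
  have hmid : R P W₁ W₂ := ⟨hW₁, hW₂, fun a ha b hb => hab a (hW₁E ha) b (hW₂E hb)⟩
  have hsymm : ∀ A B, R P A B → R P B A :=
    fun A B h => ⟨h.2.1, h.1, fun a ha b hb => (h.2.2 b hb a ha).symm⟩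
  exact (h1.tail hmid).trans (rtg_symm hsymm h2)

end Cfsg.Agent.S0502
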