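import Mathlib
import Cfsg.Statements.S0520
import Cfsg.Agent.S0502

set_option autoImplicit false
set_option linter.unusedSectionVars false

open Cfsg

namespace Cfsg.Agent.S0520

open Cfsg.Agent.S0502 (k_sq comm_of_sq klein_of_pair exists_third R rtg_symm)

variable {G : Type*} [Group G]

/-- conjugate of a subgroup -/
def cj (g : G) (V : Subgroup G) : Subgroup G := V.map (MulAut.conj g).toMonoidHom

theorem mem_cj {g x : G} {V : Subgroup G} : x ∈ cj g V ↔ g⁻¹ * x * g ∈ V := by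
  unfold cj
  rw [Subgroup.mem_map]
  constructor
  · rintro ⟨v, hv, rfl⟩
    have : g⁻¹ * ((MulAut.conj g).toMonoidHom v) * g = v := by
      show g⁻¹ * (g * v * g⁻¹) * g = v
      group
    rw [this]; exact hv
  · intro h
    refine ⟨g⁻¹ * x * g, h, ?_⟩
    show g * (g⁻¹ * x * g) * g⁻¹ = x
    group

theorem cj_mem {g v : G} {V : Subgroup G} (hv : v ∈ V) : g * v * g⁻¹ ∈ cj g V := by
  rw [mem_cj]
  have : g⁻¹ * (g * v * g⁻¹) * g = v := by group
  rw [this]; exact hv

theorem cj_mul (g h : G) (V : Subgroup G) : cj (g * h) V = cj g (cj h V) := by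
  ext x
  rw [mem_cj, mem_cj, mem_cj]
  have : (g * h)⁻¹ * x * (g * h) = h⁻¹ * (g⁻¹ * x * g) * h := by group
  rw [this]

theorem cj_one (V : Subgroup G) : cj 1 V = V := by
  ext x
  rw [mem_cj]
  simp

theorem cj_inv_cj (g : G) (V : Subgroup G) : cj g⁻¹ (cj g V) = V := by
  rw [← cj_mul, inv_mul_cancel, cj_one]

theorem cj_mono (g : G) {V W : Subgroup G} (h : V ≤ W) : cj g V ≤ cj g W := by
  intro x hx
  rw [mem_cj] at hx ⊢
  exact h hx

theorem card_cj (g : G) (V : Subgroup G) : Nat.card ↥(cj g V) = Nat.card ↥V :=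
  Subgroup.card_map_of_injective (MulAut.conj g).injective

theorem k4_of (W : Subgroup G) (hcard : Nat.card ↥W = 4) (hsq : ∀ w ∈ W, w * w = 1) :
    IsKleinFour ↥W := by
  refine ⟨hcard, ?_⟩
  have hdvd : Monoid.exponent ↥W ∣ 2 := by
    apply Monoid.exponent_dvd_of_forall_pow_eq_one
    intro g
    apply Subtype.ext
    show (g : G) ^ 2 = 1
    rw [pow_two]; exact hsq g.1 g.2
  rcases (Nat.dvd_prime Nat.prime_two).mp hdvd with h | h
  · exfalso
    rw [Monoid.exp_eq_one_iff] at h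
    have := h
    have := Nat.card_of_subsingleton (1 : ↥W)
    omega
  · exact h

theorem k4_cj (g : G) {V : Subgroup G} (hV : IsKleinFour ↥V) : IsKleinFour ↥(cj g V) := by
  apply k4_of _ (by rw [card_cj]; exact hV.card_four)
  intro w hw
  rw [mem_cj] at hw
  have := k_sq V hV hw
  have e : w * w = g * ((g⁻¹ * w * g) * (g⁻¹ * w * g)) * g⁻¹ := by group
  rw [e, this]; group

theorem k4_pgroup {V : Subgroup G} (hV : IsKleinFour ↥V) : IsPGroup 2 ↥V :=
  IsPGroup.of_card (n := 2) (by rw [hV.card_four]; norm_num)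

theorem k4_map {Q : Subgroup G} {W : Subgroup ↥Q} (hW : IsKleinFour ↥W) :
    IsKleinFour ↥(W.map Q.subtype) := by
  apply k4_of _ (by rw [Subgroup.card_map_of_injective Q.subtype_injective]; exact hW.card_four)
  intro x hx
  obtain ⟨w, hw, rfl⟩ := Subgroup.mem_map.mp hx
  have := k_sq W hW hw
  exact congrArg (fun z : ↥Q => (z : G)) this

theorem k4_sub {U Q : Subgroup G} (hU : IsKleinFour ↥U) (hUQ : U ≤ Q) :
    IsKleinFour ↥(U.subgroupOf Q) := by
  apply k4_of _ (by
    rw [Nat.card_congr (Subgroup.subgroupOfEquivOfLe hUQ).toEquiv]; exact hU.card_four)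
  intro w hw
  apply Subtype.ext
  exact k_sq U hU (Subgroup.mem_subgroupOf.mp hw)

theorem R_symm (A B : Subgroup G) (h : R G A B) : R G B A :=
  ⟨h.2.1, h.1, fun a ha b hb => (h.2.2 b hb a ha).symm⟩

theorem R_cj (g : G) {A B : Subgroup G} (h : R G A B) : R G (cj g A) (cj g B) := by
  refine ⟨k4_cj g h.1, k4_cj g h.2.1, ?_⟩
  intro a ha b hb
  rw [mem_cj] at ha hb
  have hc := h.2.2 _ ha _ hb
  calc a * b = g * ((g⁻¹ * a * g) * (g⁻¹ * b * g)) * g⁻¹ := by group
    _ = g * ((g⁻¹ * b * g) * (g⁻¹ * a * g)) * g⁻¹ := by rw [hc]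
    _ = b * a := by group

theorem conn_cj (g : G) {A B : Subgroup G} (h : Relation.ReflTransGen (R G) A B) :
    Relation.ReflTransGen (R G) (cj g A) (cj g B) := by
  induction h with
  | refl => exact Relation.ReflTransGen.refl
  | tail _ hbc ih => exact ih.tail (R_cj g hbc)

theorem mem_smul_sylow {H : Type*} [Group H] {p : ℕ} (P : Sylow p H) (h x : H) :
    x ∈ ((h • P : Sylow p H) : Subgroup H) ↔ h⁻¹ * x * h ∈ (P : Subgroup H) := by
  rw [Sylow.coe_subgroup_smul, Subgroup.mem_pointwise_smul_iff_inv_smul_mem]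
  have : (MulAut.conj h)⁻¹ • x = h⁻¹ * x * h := by
    rw [MulAut.smul_def, MulAut.conj_inv_apply]
  rw [this]

theorem norm_cj {x w : G} {A : Subgroup G}
    (hw : w ∈ Subgroup.normalizer ((cj x A : Subgroup G) : Set G)) :
    x⁻¹ * w * x ∈ Subgroup.normalizer (A : Set G) := by
  rw [Subgroup.mem_normalizer_iff] at hw ⊢
  intro h
  have h1 := hw (x * h * x⁻¹)
  rw [mem_cj, mem_cj] at h1
  have e1 : x⁻¹ * (x * h * x⁻¹) * x = h := by group
  have e2 : x⁻¹ * (w * (x * h * x⁻¹) * w⁻¹) * x = x⁻¹ * w * x * h * (x⁻¹ * w * x)⁻¹ := by group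
  rw [e1, e2] at h1
  exact h1

theorem four_top {H : Type*} [Group H] [Finite H] (h : ¬ Cfsg.PRankLE 2 1 H) :
    ∃ W : Subgroup H, IsKleinFour ↥W := by
  have h' : ¬ ∀ A : Subgroup H, IsMulCommutative A → (∀ a ∈ A, a ^ 2 = 1) → Nat.card A ≤ 2 ^ 1 := h
  obtain ⟨A, hA⟩ := not_forall.mp h'
  obtain ⟨hcomm, hA⟩ := Classical.not_imp.mp hA
  obtain ⟨hexp, hcard⟩ := Classical.not_imp.mp hA
  have h3 : 3 ≤ Nat.card ↥A := by
    have : ¬ Nat.card ↥A ≤ 2 := by simpa using hcard
    omega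
  have hsq : ∀ a ∈ A, a * a = 1 := fun a ha => by rw [← pow_two]; exact hexp a ha
  obtain ⟨a, haA, ha1, -⟩ := exists_third A h3 1 (one_mul 1)
  obtain ⟨b, hbA, hb1, hba⟩ := exists_third A h3 a (hsq a haA)
  have hc : a * b = b * a := by
    have := hcomm.is_comm.comm (⟨a, haA⟩ : ↥A) ⟨b, hbA⟩
    exact congrArg Subtype.val this
  obtain ⟨W, hW, -⟩ := klein_of_pair a b (hsq a haA) (hsq b hbA) hc ha1 hb1 (Ne.symm hba)
  exact ⟨W, hW⟩

theorem four_of_rank [Finite G] (Q : Subgroup G) (h : ¬ Cfsg.PRankLE 2 1 ↥Q) :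
    ∃ V : Subgroup G, IsKleinFour ↥V ∧ V ≤ Q := by
  obtain ⟨W, hW⟩ := four_top h
  refine ⟨W.map Q.subtype, k4_map hW, ?_⟩
  intro x hx
  obtain ⟨w, -, rfl⟩ := Subgroup.mem_map.mp hx
  exact w.2

theorem rank_of_four (Q V : Subgroup G) (hV : IsKleinFour ↥V) (hVQ : V ≤ Q) :
    ¬ Cfsg.PRankLE 2 1 ↥Q := by
  intro h
  have h' := h (V.subgroupOf Q) ?_ ?_
  · rw [Nat.card_congr (Subgroup.subgroupOfEquivOfLe hVQ).toEquiv, hV.card_four] at h'
    norm_num at h'
  · refine ⟨⟨fun x y => ?_⟩⟩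
    apply Subtype.ext
    apply Subtype.ext
    show ((x : ↥Q) : G) * ((y : ↥Q) : G) = ((y : ↥Q) : G) * ((x : ↥Q) : G)
    exact comm_of_sq (k_sq V hV (Subgroup.mem_subgroupOf.mp x.2))
      (k_sq V hV (Subgroup.mem_subgroupOf.mp y.2))
      (k_sq V hV (V.mul_mem (Subgroup.mem_subgroupOf.mp x.2) (Subgroup.mem_subgroupOf.mp y.2)))
  · intro a ha
    apply Subtype.ext
    show (a : G) ^ 2 = 1
    rw [pow_two]
    exact k_sq V hV (Subgroup.mem_subgroupOf.mp ha)

section main

variable [Finite G] (S : Sylow 2 G)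

theorem SL (N B₁ B₂ : Subgroup G) (h1 : B₁ ≤ N) (h2 : B₂ ≤ N)
    (hp1 : IsPGroup 2 ↥B₁) (hp2 : IsPGroup 2 ↥B₂) :
    ∃ n ∈ N, ∃ y : G, B₁ ≤ cj y (S : Subgroup G) ∧ cj n B₂ ≤ cj y (S : Subgroup G) := by
  have : Fact (Nat.Prime 2) := ⟨Nat.prime_two⟩
  obtain ⟨P₁, hP₁⟩ := (hp1.comap_subtype (K := N)).exists_le_sylow
  obtain ⟨P₂, hP₂⟩ := (hp2.comap_subtype (K := N)).exists_le_sylow
  obtain ⟨n, hn⟩ := MulAction.exists_smul_eq ↥N P₂ P₁
  have hT : IsPGroup 2 ↥((P₁ : Subgroup ↥N).map N.subtype) := P₁.isPGroup'.map N.subtype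
  obtain ⟨Q, hQ⟩ := hT.exists_le_sylow
  obtain ⟨y, hy⟩ := MulAction.exists_smul_eq G S Q
  have hmemQ : ∀ x : G, x ∈ (Q : Subgroup G) → x ∈ cj y (S : Subgroup G) := by
    intro x hx
    rw [← hy, mem_smul_sylow] at hx
    exact mem_cj.mpr hx
  refine ⟨n.1, n.2, y, ?_, ?_⟩
  · intro b hb
    apply hmemQ
    apply hQ
    exact Subgroup.mem_map.mpr ⟨⟨b, h1 hb⟩, hP₁ (Subgroup.mem_comap.mpr hb), rfl⟩
  · intro z hz
    rw [mem_cj] at hz
    apply hmemQ
    apply hQ
    have hzN : z ∈ N := by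
      have : z = n.1 * (n.1⁻¹ * z * n.1) * n.1⁻¹ := by group
      rw [this]
      exact N.mul_mem (N.mul_mem n.2 (h2 hz)) (N.inv_mem n.2)
    refine Subgroup.mem_map.mpr ⟨⟨z, hzN⟩, ?_, rfl⟩
    rw [← hn, mem_smul_sylow]
    apply hP₂
    rw [Subgroup.mem_comap]
    exact hz

theorem into_S (B : Subgroup G) (hp : IsPGroup 2 ↥B) (N : Subgroup G) (hBN : B ≤ N)
    (hSN : (S : Subgroup G) ≤ N) : ∃ n ∈ N, cj n B ≤ (S : Subgroup G) := by
  obtain ⟨n, hn, y, h1, h2⟩ := SL S N (S : Subgroup G) B hSN hBN S.isPGroup' hp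
  have hSy : cj y (S : Subgroup G) = (S : Subgroup G) :=
    (Subgroup.eq_of_le_of_card_ge h1 (card_cj y _).le).symm
  exact ⟨n, hn, le_of_le_of_eq h2 hSy⟩

theorem norm_grow (A : Subgroup G) (hA : A ≤ (S : Subgroup G)) (hne : A ≠ (S : Subgroup G)) :
    ∃ x ∈ (S : Subgroup G), x ∉ A ∧ x ∈ Subgroup.normalizer (A : Set G) := by
  have : Fact (Nat.Prime 2) := ⟨Nat.prime_two⟩
  have : Group.IsNilpotent ↥(S : Subgroup G) := S.isPGroup'.isNilpotent
  have hnc : NormalizerCondition ↥(S : Subgroup G) := Group.normalizerCondition_of_isNilpotent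
  have hlt : A.subgroupOf (S : Subgroup G) < ⊤ := by
    rw [lt_top_iff_ne_top]
    intro h
    apply hne
    apply le_antisymm hA
    intro s hs
    have : (⟨s, hs⟩ : ↥(S : Subgroup G)) ∈ A.subgroupOf (S : Subgroup G) := by
      rw [h]; exact Subgroup.mem_top _
    exact Subgroup.mem_subgroupOf.mp this
  obtain ⟨x, hxN, hxA⟩ := SetLike.exists_of_lt (hnc _ hlt)
  refine ⟨x.1, x.2, fun h => hxA (Subgroup.mem_subgroupOf.mpr h), ?_⟩
  rw [Subgroup.mem_normalizer_iff] at hxN ⊢
  intro h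
  constructor
  · intro hh
    have := (hxN ⟨h, hA hh⟩).mp (Subgroup.mem_subgroupOf.mpr hh)
    exact Subgroup.mem_subgroupOf.mp this
  · intro hh
    have hS : h ∈ (S : Subgroup G) := by
      have e : h = x.1⁻¹ * (x.1 * h * x.1⁻¹) * x.1 := by group
      rw [e]
      exact Subgroup.mul_mem _ (Subgroup.mul_mem _ (Subgroup.inv_mem _ x.2) (hA hh)) x.2
    have := (hxN ⟨h, hS⟩).mpr (Subgroup.mem_subgroupOf.mpr hh)
    exact Subgroup.mem_subgroupOf.mp this

/-- the 2-generated core -/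
abbrev MM : Subgroup G :=
  ⨆ Q : {Q : Subgroup G // Q ≤ (S : Subgroup G) ∧ ¬ Cfsg.PRankLE 2 1 Q},
    Subgroup.normalizer ((Q : Subgroup G) : Set G)

theorem norm_le_M (Q V : Subgroup G) (hV : IsKleinFour ↥V) (hVQ : V ≤ Q)
    (hQS : Q ≤ (S : Subgroup G)) : Subgroup.normalizer (Q : Set G) ≤ MM S :=
  le_iSup (fun Q : {Q : Subgroup G // Q ≤ (S : Subgroup G) ∧ ¬ Cfsg.PRankLE 2 1 Q} =>
    Subgroup.normalizer ((Q : Subgroup G) : Set G)) ⟨Q, hQS, rank_of_four Q V hV hVQ⟩

theorem FL : ∀ (k : ℕ) (V : Subgroup G), IsKleinFour ↥V → ∀ A : Subgroup G, V ≤ A →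
    A ≤ (S : Subgroup G) → Nat.card ↥(S : Subgroup G) - Nat.card ↥A = k →
    ∀ x : G, cj x A ≤ (S : Subgroup G) → x ∈ MM S := by
  intro k
  induction k using Nat.strong_induction_on with
  | _ k ih =>
    intro V hV A hVA hAS hk x hx
    by_cases hAeq : A = (S : Subgroup G)
    · have hcj : cj x (S : Subgroup G) = (S : Subgroup G) := by
        rw [hAeq] at hx
        exact Subgroup.eq_of_le_of_card_ge hx (card_cj x _).ge
      have hxn : x ∈ Subgroup.normalizer ((S : Subgroup G) : Set G) := by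
        rw [Subgroup.mem_normalizer_iff]
        intro h
        constructor
        · intro hh
          have := cj_mem (g := x) hh
          rw [hcj] at this; exact this
        · intro hh
          rw [← hcj, mem_cj] at hh
          have e : x⁻¹ * (x * h * x⁻¹) * x = h := by group
          rw [e] at hh; exact hh
      exact norm_le_M S (S : Subgroup G) V hV (by rw [← hAeq]; exact hVA) le_rfl hxn
    · obtain ⟨u, huS, huA, huN⟩ := norm_grow S A hAS hAeq
      have hA'ne : cj x A ≠ (S : Subgroup G) := by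
        intro h
        apply hAeq
        exact Subgroup.eq_of_le_of_card_ge hAS (by rw [← h, card_cj])
      obtain ⟨u', hu'S, hu'A, hu'N⟩ := norm_grow S (cj x A) hx hA'ne
      have hAB : A ≤ (S : Subgroup G) ⊓ Subgroup.normalizer (A : Set G) :=
        le_inf hAS Subgroup.le_normalizer
      have hA'B' : cj x A ≤ (S : Subgroup G) ⊓ Subgroup.normalizer ((cj x A : Subgroup G) : Set G) :=
        le_inf hx Subgroup.le_normalizer
      have hBS : (S : Subgroup G) ⊓ Subgroup.normalizer (A : Set G) ≤ (S : Subgroup G) := inf_le_left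
      have hB'S : (S : Subgroup G) ⊓ Subgroup.normalizer ((cj x A : Subgroup G) : Set G)
          ≤ (S : Subgroup G) := inf_le_left
      have hBcard : Nat.card ↥A
          < Nat.card ↥((S : Subgroup G) ⊓ Subgroup.normalizer (A : Set G)) := by
        by_contra hle
        have := Subgroup.eq_of_le_of_card_ge hAB (not_lt.mp hle)
        exact huA (by rw [this]; exact Subgroup.mem_inf.mpr ⟨huS, huN⟩)
      have hB'card : Nat.card ↥A
          < Nat.card ↥((S : Subgroup G) ⊓ Subgroup.normalizer ((cj x A : Subgroup G) : Set G)) := by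
        rw [← card_cj x A]
        by_contra hle
        have := Subgroup.eq_of_le_of_card_ge hA'B' (not_lt.mp hle)
        exact hu'A (by rw [this]; exact Subgroup.mem_inf.mpr ⟨hu'S, hu'N⟩)
      have hBle := Subgroup.card_le_of_le hBS
      have hB'le := Subgroup.card_le_of_le hB'S
      -- the conjugate of B' back into the normalizer of A
      have hB₂N : cj x⁻¹ ((S : Subgroup G) ⊓ Subgroup.normalizer ((cj x A : Subgroup G) : Set G))
          ≤ Subgroup.normalizer (A : Set G) := by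
        intro z hz
        rw [mem_cj, inv_inv] at hz
        have := norm_cj (Subgroup.mem_inf.mp hz).2
        have e : x⁻¹ * (x * z * x⁻¹) * x = z := by group
        rw [e] at this; exact this
      have hp1 : IsPGroup 2 ↥((S : Subgroup G) ⊓ Subgroup.normalizer (A : Set G)) :=
        S.isPGroup'.to_le hBS
      have hp2 : IsPGroup 2
          ↥(cj x⁻¹ ((S : Subgroup G) ⊓ Subgroup.normalizer ((cj x A : Subgroup G) : Set G))) :=
        (S.isPGroup'.to_le hB'S).map (MulAut.conj x⁻¹).toMonoidHom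
      obtain ⟨n, hnN, y, h1, h2⟩ := SL S (Subgroup.normalizer (A : Set G)) _ _ inf_le_right hB₂N hp1 hp2
      have hnM : n ∈ MM S := norm_le_M S A V hV hVA hAS hnN
      have c1 : cj y⁻¹ ((S : Subgroup G) ⊓ Subgroup.normalizer (A : Set G)) ≤ (S : Subgroup G) := by
        have := cj_mono y⁻¹ h1
        rwa [cj_inv_cj] at this
      have hyM : y⁻¹ ∈ MM S :=
        ih _ (by omega) V hV _ (hVA.trans hAB) hBS rfl y⁻¹ c1
      have c2 : cj (y⁻¹ * (n * x⁻¹))
          ((S : Subgroup G) ⊓ Subgroup.normalizer ((cj x A : Subgroup G) : Set G)) ≤ (S : Subgroup G) := by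
        rw [cj_mul, cj_mul]
        have := cj_mono y⁻¹ h2
        rwa [cj_inv_cj] at this
      have hM2 : y⁻¹ * (n * x⁻¹) ∈ MM S :=
        ih _ (by omega) (cj x V) (k4_cj x hV) _ ((cj_mono x hVA).trans hA'B') hB'S rfl _ c2
      have hx' : x⁻¹ ∈ MM S := by
        have e : x⁻¹ = n⁻¹ * (y⁻¹)⁻¹ * (y⁻¹ * (n * x⁻¹)) := by group
        rw [e]
        exact mul_mem (mul_mem (inv_mem hnM) (inv_mem hyM)) hM2
      exact inv_mem_iff.mp hx'

theorem claimA (V₀ : Subgroup G) (hV₀ : IsKleinFour ↥V₀) (hV₀S : V₀ ≤ (S : Subgroup G)) :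
    ∀ V : Subgroup G, Relation.ReflTransGen (R G) V₀ V →
      ∃ m ∈ MM S, cj m V ≤ (S : Subgroup G) := by
  intro V h
  induction h with
  | refl => exact ⟨1, one_mem _, by rw [cj_one]; exact hV₀S⟩
  | @tail b c _ hbc ih =>
    obtain ⟨m, hm, hmb⟩ := ih
    have hSM : (S : Subgroup G) ≤ MM S :=
      Subgroup.le_normalizer.trans (norm_le_M S (S : Subgroup G) V₀ hV₀ hV₀S le_rfl)
    have hK := R_cj m hbc
    have hle : cj m c ≤ MM S := by
      refine le_trans ?_ (norm_le_M S (cj m b) (cj m b) hK.1 le_rfl hmb)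
      intro w hw
      rw [Subgroup.mem_normalizer_iff]
      intro h
      constructor
      · intro hh
        have hc := hK.2.2 h hh w hw
        have e : w * h * w⁻¹ = h := by rw [← hc]; group
        rw [e]; exact hh
      · intro hh
        have hc := hK.2.2 (w * h * w⁻¹) hh w hw
        have e : h = w * h * w⁻¹ := by
          have : w * h = w * (w * h * w⁻¹) := by rw [← hc]; group
          exact mul_left_cancel this
        rw [e]; exact hh
    obtain ⟨n, hn, hnS⟩ := into_S S (cj m c) (k4_pgroup (k4_cj m hbc.2.1)) (MM S) hle hSM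
    exact ⟨n * m, mul_mem hn hm, by rw [cj_mul]; exact hnS⟩

theorem F1 (hS : Cfsg.IsFourConnected ↥(S : Subgroup G)) (U V : Subgroup G)
    (hU : IsKleinFour ↥U) (hV : IsKleinFour ↥V) (hUS : U ≤ (S : Subgroup G))
    (hVS : V ≤ (S : Subgroup G)) : Relation.ReflTransGen (R G) U V := by
  have key : ∀ A B : Subgroup ↥(S : Subgroup G),
      Relation.ReflTransGen (R ↥(S : Subgroup G)) A B →
      Relation.ReflTransGen (R G) (A.map (S : Subgroup G).subtype)
        (B.map (S : Subgroup G).subtype) := by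
    intro A B h
    induction h with
    | refl => exact Relation.ReflTransGen.refl
    | tail _ hbc ih =>
      refine ih.tail ⟨k4_map hbc.1, k4_map hbc.2.1, ?_⟩
      intro a ha b hb
      obtain ⟨a', ha', rfl⟩ := Subgroup.mem_map.mp ha
      obtain ⟨b', hb', rfl⟩ := Subgroup.mem_map.mp hb
      have := hbc.2.2 a' ha' b' hb'
      exact congrArg (fun z : ↥(S : Subgroup G) => (z : G)) this
  have hU' : IsKleinFour ↥(U.subgroupOf (S : Subgroup G)) := k4_sub hU hUS
  have hV' : IsKleinFour ↥(V.subgroupOf (S : Subgroup G)) := k4_sub hV hVS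
  have := key _ _ (hS _ _ hU' hV')
  rwa [Subgroup.map_subgroupOf_eq_of_le hUS, Subgroup.map_subgroupOf_eq_of_le hVS] at this

theorem dir1 (hS : Cfsg.IsFourConnected ↥(S : Subgroup G)) (V₀ : Subgroup G)
    (hV₀ : IsKleinFour ↥V₀) (hV₀S : V₀ ≤ (S : Subgroup G)) (hM : MM S = ⊤) :
    Cfsg.IsFourConnected G := by
  let H' : Subgroup G :=
    { carrier := {g | ∀ V : Subgroup G, Relation.ReflTransGen (R G) V₀ V →
        Relation.ReflTransGen (R G) V₀ (cj g V)}
      mul_mem' := by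
        intro g h hg hh V hV
        rw [cj_mul]
        exact hg _ (hh V hV)
      one_mem' := by
        intro V hV
        rw [cj_one]; exact hV
      inv_mem' := by
        intro g hg V hV
        have h1 := hg V₀ Relation.ReflTransGen.refl
        have h2 := conn_cj g⁻¹ h1
        rw [cj_inv_cj] at h2
        have h3 := conn_cj g⁻¹ hV
        exact (rtg_symm R_symm h2).trans h3 }
  have hH' : ∀ g, g ∈ H' ↔ ∀ V : Subgroup G, Relation.ReflTransGen (R G) V₀ V →
      Relation.ReflTransGen (R G) V₀ (cj g V) := fun g => Iff.rfl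
  have hle : MM S ≤ H' := by
    apply iSup_le
    rintro ⟨Q, hQS, hQr⟩
    intro g hg
    have hg' : g ∈ Subgroup.normalizer (Q : Set G) := hg
    rw [hH']
    intro V hV
    obtain ⟨V₁, hV₁, hV₁Q⟩ := four_of_rank Q hQr
    have hgV₁ : cj g V₁ ≤ Q := by
      intro w hw
      rw [mem_cj] at hw
      have := (Subgroup.mem_normalizer_iff.mp hg' (g⁻¹ * w * g)).mp (hV₁Q hw)
      have e : g * (g⁻¹ * w * g) * g⁻¹ = w := by group
      rw [e] at this; exact this
    have c1 := F1 S hS V₀ V₁ hV₀ hV₁ hV₀S (hV₁Q.trans hQS)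
    have c2 := F1 S hS V₀ (cj g V₁) hV₀ (k4_cj g hV₁) hV₀S (hgV₁.trans hQS)
    exact (c2.trans (rtg_symm R_symm (conn_cj g c1))).trans (conn_cj g hV)
  have hall : ∀ W : Subgroup G, IsKleinFour ↥W → Relation.ReflTransGen (R G) V₀ W := by
    intro W hW
    obtain ⟨n, -, hn⟩ := into_S S W (k4_pgroup hW) ⊤ le_top le_top
    have c := F1 S hS V₀ (cj n W) hV₀ (k4_cj n hW) hV₀S hn
    have hmem : n⁻¹ ∈ H' := hle (by rw [hM]; exact Subgroup.mem_top _)
    have := (hH' _).mp hmem (cj n W) c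
    rwa [cj_inv_cj] at this
  intro U V hU hV
  exact (rtg_symm R_symm (hall U hU)).trans (hall V hV)

theorem dir2 (V₀ : Subgroup G) (hV₀ : IsKleinFour ↥V₀) (hV₀S : V₀ ≤ (S : Subgroup G))
    (hconn : Cfsg.IsFourConnected G) : MM S = ⊤ := by
  rw [eq_top_iff]
  intro g _
  have c : Relation.ReflTransGen (R G) V₀ (cj g V₀) := hconn V₀ (cj g V₀) hV₀ (k4_cj g hV₀)
  obtain ⟨m, hm, hmS⟩ := claimA S V₀ hV₀ hV₀S _ c
  rw [← cj_mul] at hmS
  have := FL S _ V₀ hV₀ V₀ le_rfl hV₀S rfl (m * g) hmS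
  have e : g = m⁻¹ * (m * g) := by group
  rw [e]; exact mul_mem (inv_mem hm) this

end main

/-- Let G be a finite group of 2-rank at least 2 and S a Sylow 2-subgroup whose commuting graph of Klein four-subgroups is
connected. Then the commuting graph of Klein four-subgroups of G is disconnected if and only if the 2-generated core — the
subgroup generated by the normalizers N_G(Q) of the subgroups Q of S that contain a Klein four-group — is a proper
subgroup of G. -/
theorem result {G : Type*} [Group G] [Finite G] (h2 : ¬ Cfsg.PRankLE 2 1 G)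
    (S : Sylow 2 G) (hS : Cfsg.IsFourConnected (S : Subgroup G)) :
    ¬ Cfsg.IsFourConnected G ↔
      (⨆ Q : {Q : Subgroup G // Q ≤ (S : Subgroup G) ∧ ¬ Cfsg.PRankLE 2 1 Q},
          Subgroup.normalizer ((Q : Subgroup G) : Set G)) ≠ ⊤ := by
  obtain ⟨W, hW⟩ := four_top h2
  obtain ⟨n, -, hn⟩ := into_S S W (k4_pgroup hW) ⊤ le_top le_top
  have hV₀ := k4_cj n hW
  constructor
  · intro hnc hM
    exact hnc (dir1 S hS (cj n W) hV₀ hn hM)
  · intro hM hconn
    exact hM (dir2 S (cj n W) hV₀ hn hconn)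

end Cfsg.Agent.S0520
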