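import Cfsg.Statements.S0526
import Mathlib
import Cfsg.Agent.Lib.Helper9.Supersolvable
import Cfsg.Agent.Lib.Helper9.CyclicNormal

set_option autoImplicit false
open Cfsg

namespace Cfsg.Agent.S0526

open Subgroup Cfsg.Agent.Lib.Helper9 in
open scoped commutatorElement in
theorem chain_le_upperCentralSeries {G : Type*} [Group G] {K : Subgroup G}
    (h : SSC (⊥ : Subgroup G) K) :
    ∃ n : ℕ, K.subgroupOf (commutator G) ≤ Subgroup.upperCentralSeries (commutator G) n := by
  induction h with
  | refl _ => exact ⟨0, by rw [Subgroup.bot_subgroupOf]; exact bot_le⟩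
  | step K g hK hn ih =>
    obtain ⟨n, hle⟩ := ih
    have hKn := hK.normal_right
    refine ⟨n + 1, fun x hx => ?_⟩
    rw [mem_subgroupOf] at hx
    rw [Subgroup.mem_upperCentralSeries_succ_iff]
    intro y
    apply hle
    rw [mem_subgroupOf]
    have hπx : (QuotientGroup.mk' K) (x : G) ∈ zpowers ((QuotientGroup.mk' K) g) := by
      have : (QuotientGroup.mk' K) (x : G) ∈ (K ⊔ zpowers g).map (QuotientGroup.mk' K) :=
        mem_map_of_mem _ hx
      rwa [Subgroup.map_sup, MonoidHom.map_zpowers, QuotientGroup.map_mk'_self, bot_sup_eq] at this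
    have hnorm : (zpowers ((QuotientGroup.mk' K) g)).Normal := by
      have := hn.map (QuotientGroup.mk' K) (QuotientGroup.mk'_surjective K)
      rwa [Subgroup.map_sup, MonoidHom.map_zpowers, QuotientGroup.map_mk'_self, bot_sup_eq] at this
    have hπy : (QuotientGroup.mk' K) (y : G) ∈ commutator (G ⧸ K) := by
      have hmap : (commutator G).map (QuotientGroup.mk' K) ≤ commutator (G ⧸ K) := by
        rw [commutator_def, Subgroup.map_commutator]
        exact Subgroup.commutator_mono le_top le_top
      exact hmap (mem_map_of_mem _ y.2)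
    have hc := commutator_le_centralizer_zpowers _ hnorm hπy
    rw [mem_centralizer_iff] at hc
    have h1 := hc _ hπx
    have : (QuotientGroup.mk' K) ((⁅x, y⁆ : commutator G) : G) = 1 := by
      simp only [commutatorElement_def, Subgroup.coe_mul, Subgroup.coe_inv, map_mul, map_inv]
      rw [h1]; group
    rwa [QuotientGroup.mk'_apply, QuotientGroup.eq_one_iff] at this


/-- In a finite supersolvable group the commutator subgroup is nilpotent. -/
theorem result {G : Type*} [Group G] [Finite G] (hG : Cfsg.IsSupersolvable G) : Group.IsNilpotent (commutator G) := by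
  obtain ⟨n, hn⟩ := chain_le_upperCentralSeries (Cfsg.Agent.Lib.Helper9.isSupersolvable_iff.mp hG)
  rw [Subgroup.top_subgroupOf] at hn
  exact ⟨⟨n, top_le_iff.mp hn⟩⟩

end Cfsg.Agent.S0526
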