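import Cfsg.Statements.S0529
import Mathlib
import Cfsg.Agent.Lib.Helper9.SSOrder

set_option autoImplicit false
open Cfsg

namespace Cfsg.Agent.S0529

universe u in
open Subgroup Cfsg.Agent.Lib.Helper9 in
theorem exists_normal_card_eq_largest_prime : ∀ (n : ℕ) (G : Type u) [Group G] [Finite G],
    Nat.card G = n → Cfsg.IsSupersolvable G → ∀ q : ℕ, q.Prime → q ∣ n →
    (∀ r : ℕ, r.Prime → r ∣ n → r ≤ q) → ∃ P : Subgroup G, P.Normal ∧ Nat.card P = q := by
  intro n
  induction n using Nat.strong_induction_on with
  | _ n ih =>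
    intro G _ _ hcard hG q hq hqn hmax
    have hnt : Nontrivial G := by
      rw [← Finite.one_lt_card_iff_nontrivial, hcard]
      exact lt_of_lt_of_le hq.one_lt (Nat.le_of_dvd (hcard ▸ Nat.card_pos) hqn)
    obtain ⟨N, hN, hp⟩ := exists_normal_prime_card hG
    by_cases hpq : Nat.card N = q
    · exact ⟨N, hN, hpq⟩
    · have hmul : Nat.card N * Nat.card (G ⧸ N) = n := by
        rw [← hcard, ← Subgroup.index_eq_card, Subgroup.card_mul_index]
      have hple : Nat.card N ≤ q := hmax _ hp (hmul ▸ dvd_mul_right _ _)
      have hplt : Nat.card N < q := lt_of_le_of_ne hple hpq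
      have hq' : q ∣ Nat.card (G ⧸ N) := by
        have h1 : q ∣ Nat.card N * Nat.card (G ⧸ N) := hmul ▸ hqn
        exact (Nat.Coprime.dvd_mul_left ((Nat.coprime_primes hq hp).mpr (Ne.symm hpq))).mp h1
      have hq_ss := isSupersolvable_of_surjective (QuotientGroup.mk' N)
        (QuotientGroup.mk'_surjective N) hG
      have hlt := card_quotient_lt_of_prime_card N hp
      obtain ⟨P', hP'n, hP'c⟩ := ih _ (hcard ▸ hlt) (G ⧸ N) rfl hq_ss q hq hq'
        (fun r hr hrd => hmax r hr (hmul ▸ Dvd.dvd.mul_left hrd _))
      have hKn : (P'.comap (QuotientGroup.mk' N)).Normal := hP'n.comap _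
      have hKcard : Nat.card (P'.comap (QuotientGroup.mk' N)) = Nat.card N * q := by
        rw [card_comap_of_surjective' _ (QuotientGroup.mk'_surjective N), QuotientGroup.ker_mk',
          hP'c]
      have hqf : Fact q.Prime := ⟨hq⟩
      obtain ⟨Q⟩ : Nonempty (Sylow q (P'.comap (QuotientGroup.mk' N))) := inferInstance
      have hQcard : Nat.card Q = q := by
        rw [Q.card_eq_multiplicity, hKcard, Nat.factorization_mul hp.ne_zero hq.ne_zero]
        have h2 : (Nat.factorization (Nat.card N)) q = 0 := by
          apply Nat.factorization_eq_zero_of_not_dvd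
          intro hd
          exact hpq ((Nat.prime_dvd_prime_iff_eq hq hp).mp hd).symm
        simp [h2, hq.factorization_self]
      have hQidx : (Q : Subgroup (P'.comap (QuotientGroup.mk' N))).index = Nat.card N := by
        have h1 := Subgroup.card_mul_index (Q : Subgroup (P'.comap (QuotientGroup.mk' N)))
        rw [hQcard, hKcard, mul_comm (Nat.card N)] at h1
        exact Nat.eq_of_mul_eq_mul_left hq.pos h1
      have hone : Nat.card (Sylow q (P'.comap (QuotientGroup.mk' N))) = 1 := by
        have h1 := card_sylow_modEq_one q (P'.comap (QuotientGroup.mk' N))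
        have h2 : Nat.card (Sylow q (P'.comap (QuotientGroup.mk' N))) ∣ Nat.card N :=
          hQidx ▸ Q.card_dvd_index
        rcases (Nat.dvd_prime hp).mp h2 with h | h
        · exact h
        · exfalso
          rw [h] at h1
          unfold Nat.ModEq at h1
          rw [Nat.mod_eq_of_lt hplt, Nat.mod_eq_of_lt hq.one_lt] at h1
          exact hp.one_lt.ne' h1
      have hsub : Subsingleton (Sylow q (P'.comap (QuotientGroup.mk' N))) :=
        (Nat.card_eq_one_iff_unique.mp hone).1
      have hQchar : (Q : Subgroup (P'.comap (QuotientGroup.mk' N))).Characteristic :=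
        Sylow.characteristic_of_subsingleton Q
      exact ⟨(Q : Subgroup (P'.comap (QuotientGroup.mk' N))).map
        (P'.comap (QuotientGroup.mk' N)).subtype, inferInstance,
        by rw [Subgroup.card_subtype, hQcard]⟩

universe u in
open Subgroup Cfsg.Agent.Lib.Helper9 in
theorem exists_sorted_chain : ∀ (n : ℕ) (G : Type u) [Group G] [Finite G],
    Nat.card G = n → Cfsg.IsSupersolvable G →
    ∃ (m : ℕ) (H : Fin (m + 1) → Subgroup G), H 0 = ⊥ ∧ H (Fin.last m) = ⊤ ∧
      (∀ i, (H i).Normal) ∧
      (∀ i : Fin m, H i.castSucc ≤ H i.succ ∧ ((H i.castSucc).relIndex (H i.succ)).Prime) ∧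
      ∀ i j : Fin m, i ≤ j →
        (H j.castSucc).relIndex (H j.succ) ≤ (H i.castSucc).relIndex (H i.succ) := by
  intro n
  induction n using Nat.strong_induction_on with
  | _ n ih =>
    intro G _ _ hcard hG
    rcases subsingleton_or_nontrivial G with hs | hnt
    · exact ⟨0, fun _ => ⊥, rfl, Subsingleton.elim _ _, fun _ => inferInstance,
        fun i => i.elim0, fun i => i.elim0⟩
    · have hn1 : 1 < n := hcard ▸ Finite.one_lt_card_iff_nontrivial.mpr hnt
      have hne : n.primeFactors.Nonempty := Nat.nonempty_primeFactors.mpr hn1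
      set q := n.primeFactors.max' hne with hqdef
      have hqmem : q ∈ n.primeFactors := Finset.max'_mem _ _
      have hq : q.Prime := Nat.prime_of_mem_primeFactors hqmem
      have hqn : q ∣ n := Nat.dvd_of_mem_primeFactors hqmem
      have hmax : ∀ r : ℕ, r.Prime → r ∣ n → r ≤ q := by
        intro r hr hrn
        exact Finset.le_max' _ _ (Nat.mem_primeFactors.mpr ⟨hr, hrn, by omega⟩)
      obtain ⟨P, hPn, hPc⟩ := exists_normal_card_eq_largest_prime n G hcard hG q hq hqn hmax
      have hmul : Nat.card P * Nat.card (G ⧸ P) = n := by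
        rw [← hcard, ← Subgroup.index_eq_card, Subgroup.card_mul_index]
      have hq_ss := isSupersolvable_of_surjective (QuotientGroup.mk' P)
        (QuotientGroup.mk'_surjective P) hG
      have hlt := card_quotient_lt_of_prime_card P (hPc ▸ hq)
      obtain ⟨m', H', h0, hl, hnorm, hstep, hsort⟩ := ih _ (hcard ▸ hlt) (G ⧸ P) rfl hq_ss
      have hsurj := QuotientGroup.mk'_surjective P
      have hrel : ∀ A B : Subgroup (G ⧸ P),
          (A.comap (QuotientGroup.mk' P)).relIndex (B.comap (QuotientGroup.mk' P)) =
            A.relIndex B := by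
        intro A B
        rw [Subgroup.relIndex_comap, Subgroup.map_comap_eq_self_of_surjective hsurj]
      have hle : ∀ j : Fin m', (H' j.castSucc).relIndex (H' j.succ) ≤ q := by
        intro j
        apply hmax _ (hstep j).2
        refine (Subgroup.relIndex_dvd_card _ _).trans ((Subgroup.card_subgroup_dvd_card _).trans ?_)
        exact hmul ▸ dvd_mul_left _ _
      refine ⟨m' + 1, Fin.cons ⊥ (fun i => (H' i).comap (QuotientGroup.mk' P)), ?_, ?_, ?_, ?_, ?_⟩
      · exact Fin.cons_zero _ _
      · rw [← Fin.succ_last, Fin.cons_succ, hl, Subgroup.comap_top]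
      · intro i
        refine Fin.cases ?_ (fun j => ?_) i
        · rw [Fin.cons_zero]; infer_instance
        · rw [Fin.cons_succ]; exact (hnorm j).comap _
      · intro i
        refine Fin.cases ?_ (fun j => ?_) i
        · rw [Fin.castSucc_zero, Fin.cons_zero, Fin.cons_succ, h0, MonoidHom.comap_bot,
            QuotientGroup.ker_mk', Subgroup.relIndex_bot_left, hPc]
          exact ⟨bot_le, hq⟩
        · rw [← Fin.succ_castSucc, Fin.cons_succ, Fin.cons_succ, hrel]
          exact ⟨Subgroup.comap_mono (hstep j).1, (hstep j).2⟩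
      · intro i j
        refine Fin.cases ?_ (fun j' => ?_) j
        · intro hij
          have hi0 : i = 0 := Fin.le_zero_iff.mp hij
          rw [hi0]
        · refine Fin.cases ?_ (fun i' => ?_) i
          · intro _
            rw [Fin.castSucc_zero, Fin.cons_zero, ← Fin.succ_castSucc, Fin.cons_succ,
              Fin.cons_succ, Fin.cons_succ, hrel, h0, MonoidHom.comap_bot,
              QuotientGroup.ker_mk', Subgroup.relIndex_bot_left, hPc]
            exact hle j'
          · intro hij
            rw [← Fin.succ_castSucc, ← Fin.succ_castSucc, Fin.cons_succ, Fin.cons_succ,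
              Fin.cons_succ, Fin.cons_succ, hrel, hrel]
            exact hsort i' j' (Fin.succ_le_succ_iff.mp hij)


/-- A finite supersolvable group has a chain of normal subgroups, from the trivial subgroup to the whole group, in which every step has prime index and the primes occurring are non-increasing as one goes up the chain. -/
theorem result {G : Type*} [Group G] [Finite G] (hG : Cfsg.IsSupersolvable G) : ∃ (n : ℕ) (H : Fin (n + 1) → Subgroup G), H 0 = ⊥ ∧ H (Fin.last n) = ⊤ ∧ (∀ i, (H i).Normal) ∧ (∀ i : Fin n, H i.castSucc ≤ H i.succ ∧ ((H i.castSucc).relIndex (H i.succ)).Prime) ∧ ∀ i j : Fin n, i ≤ j → (H j.castSucc).relIndex (H j.succ) ≤ (H i.castSucc).relIndex (H i.succ) := by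
  exact exists_sorted_chain _ G rfl hG

end Cfsg.Agent.S0529
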