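import Cfsg.Statements.S0530
import Mathlib
import Cfsg.Agent.Lib.Helper9.Supersolvable

set_option autoImplicit false
open Cfsg

namespace Cfsg.Agent.S0530

open Subgroup Cfsg.Agent.Lib.Helper9 in
theorem isSupersolvable_of_isCyclic' {G : Type*} [Group G] [IsCyclic G] :
    Cfsg.IsSupersolvable G := by
  rw [isSupersolvable_iff]
  obtain ⟨g, hg⟩ := IsCyclic.exists_generator (α := G)
  have e : (⊤ : Subgroup G) = ⊥ ⊔ zpowers g := by
    rw [bot_sup_eq]; exact ((Subgroup.eq_top_iff' _).mpr hg).symm
  have hN : (⊤ : Subgroup G).Normal := inferInstance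
  rw [e] at hN ⊢
  exact SSC.step _ _ (SSC.refl inferInstance) hN

open Subgroup in
theorem exists_central_prime_order {P : Type*} [Group P] [Finite P] [Nontrivial P] (p : ℕ)
    [Fact p.Prime] (hP : IsPGroup p P) : ∃ z : P, z ∈ center P ∧ orderOf z = p := by
  have := hP.center_nontrivial
  have hc : IsPGroup p (center P) := hP.to_subgroup _
  have hdvd : p ∣ Nat.card (center P) := by
    rcases hc.card_eq_or_dvd with h | h
    · have := Finite.one_lt_card_iff_nontrivial.mpr (inferInstance : Nontrivial (center P))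
      omega
    · exact h
  obtain ⟨z, hz⟩ := exists_prime_orderOf_dvd_card' p hdvd
  exact ⟨z, z.2, by rw [Subgroup.orderOf_coe]; exact hz⟩

open Subgroup in
theorem normal_zpowers_of_conj_mem {G : Type*} [Group G] (z : G)
    (h : ∀ g : G, g * z * g⁻¹ ∈ zpowers z) : (zpowers z).Normal := by
  constructor
  intro n hn g
  obtain ⟨k, rfl⟩ := mem_zpowers_iff.mp hn
  rw [← conj_zpow]
  exact zpow_mem (h g) k

open Subgroup in
theorem exists_normal_card_eq_prime {G : Type*} [Group G] [Finite G] (p n : ℕ) [hp : Fact p.Prime]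
    (hG : Nat.card G = 2 * p ^ (n + 1)) : ∃ N : Subgroup G, N.Normal ∧ Nat.card N = p := by
  by_cases hp2 : p = 2
  · subst hp2
    have hPG : IsPGroup 2 G := IsPGroup.of_card (n := n + 2) (by rw [hG]; ring)
    have hnt : Nontrivial G := by
      rw [← Finite.one_lt_card_iff_nontrivial, hG]
      have : 0 < 2 ^ (n + 1) := by positivity
      omega
    obtain ⟨z, hzc, hzo⟩ := exists_central_prime_order 2 hPG
    refine ⟨zpowers z, normal_zpowers_of_conj_mem z (fun g => ?_), by rw [Nat.card_zpowers, hzo]⟩
    rw [mem_center_iff] at hzc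
    rw [hzc g, mul_inv_cancel_right]
    exact mem_zpowers z
  · obtain ⟨P⟩ : Nonempty (Sylow p G) := inferInstance
    have hfac : (2 * p ^ (n + 1)).factorization p = n + 1 := by
      rw [Nat.factorization_mul (by norm_num) (pow_ne_zero _ hp.1.ne_zero), Nat.factorization_pow]
      have h2 : (Nat.factorization 2) p = 0 := by
        apply Nat.factorization_eq_zero_of_not_dvd
        intro hd
        exact hp2 ((Nat.prime_dvd_prime_iff_eq hp.1 Nat.prime_two).mp hd)
      simp [h2, hp.1.factorization_self]
    have hPcard : Nat.card P = p ^ (n + 1) := by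
      rw [P.card_eq_multiplicity, hG, hfac]
    have hidx : (P : Subgroup G).index = 2 := by
      have := Subgroup.card_mul_index (P : Subgroup G)
      rw [hPcard, hG, mul_comm 2] at this
      exact Nat.eq_of_mul_eq_mul_left (pow_pos hp.1.pos _) this
    have hPn : (P : Subgroup G).Normal := Subgroup.normal_of_index_eq_two hidx
    have hnt : Nontrivial P := by
      rw [← Finite.one_lt_card_iff_nontrivial, hPcard]
      exact Nat.one_lt_pow (by omega) hp.1.one_lt
    obtain ⟨z, hzc, hzo⟩ := exists_central_prime_order p P.isPGroup'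
    have hzG : orderOf (z : G) = p := by rw [Subgroup.orderOf_coe]; exact hzo
    have hz_comm : ∀ x ∈ (P : Subgroup G), x * (z : G) = (z : G) * x := by
      intro x hx
      rw [mem_center_iff] at hzc
      exact congrArg Subtype.val (hzc ⟨x, hx⟩)
    obtain ⟨t, ht⟩ : ∃ t : G, t ∉ (P : Subgroup G) := by
      by_contra hcon
      simp only [not_exists, not_not] at hcon
      have : (P : Subgroup G) = ⊤ := (Subgroup.eq_top_iff' _).mpr hcon
      rw [this, Subgroup.index_top] at hidx
      omega
    have ht2 : t * t ∈ (P : Subgroup G) :=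
      (Subgroup.mul_mem_iff_of_index_two hidx).mpr (iff_of_false ht ht)
    have hcoset : ∀ g : G, g ∉ (P : Subgroup G) → t⁻¹ * g ∈ (P : Subgroup G) := by
      intro g hg
      refine (Subgroup.mul_mem_iff_of_index_two hidx).mpr (iff_of_false ?_ hg)
      rwa [inv_mem_iff]
    have hz'P : t * (z : G) * t⁻¹ ∈ (P : Subgroup G) := hPn.conj_mem _ z.2 t
    have hz'comm : ∀ x ∈ (P : Subgroup G), x * (t * (z : G) * t⁻¹) = t * (z : G) * t⁻¹ * x := by
      intro x hx
      have hy := hz_comm (t⁻¹ * x * t) (by simpa using hPn.conj_mem x hx t⁻¹)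
      calc x * (t * (z : G) * t⁻¹) = t * ((t⁻¹ * x * t) * (z : G)) * t⁻¹ := by group
        _ = t * ((z : G) * (t⁻¹ * x * t)) * t⁻¹ := by rw [hy]
        _ = t * (z : G) * t⁻¹ * x := by group
    by_cases hw : (z : G) * (t * (z : G) * t⁻¹) = 1
    · have hinv : t * (z : G) * t⁻¹ = (z : G)⁻¹ := eq_inv_of_mul_eq_one_right hw
      refine ⟨zpowers (z : G), normal_zpowers_of_conj_mem _ (fun g => ?_),
        by rw [Nat.card_zpowers, hzG]⟩
      by_cases hg : g ∈ (P : Subgroup G)
      · rw [hz_comm g hg, mul_inv_cancel_right]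
        exact mem_zpowers _
      · have hx := hcoset g hg
        have h1 := hz_comm _ hx
        have : g * (z : G) * g⁻¹ = t * (z : G) * t⁻¹ := by
          calc g * (z : G) * g⁻¹ = t * ((t⁻¹ * g) * (z : G)) * (t⁻¹ * g)⁻¹ * t⁻¹ := by group
            _ = t * ((z : G) * (t⁻¹ * g)) * (t⁻¹ * g)⁻¹ * t⁻¹ := by rw [h1]
            _ = t * (z : G) * t⁻¹ := by group
        rw [this, hinv]
        exact inv_mem (mem_zpowers _)
    · set w := (z : G) * (t * (z : G) * t⁻¹) with hwdef
      have hzz' : (z : G) * (t * (z : G) * t⁻¹) = t * (z : G) * t⁻¹ * (z : G) :=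
        hz'comm _ z.2
      have hwP : ∀ x ∈ (P : Subgroup G), x * w = w * x := by
        intro x hx
        calc x * w = (x * (z : G)) * (t * (z : G) * t⁻¹) := by rw [hwdef]; simp only [mul_assoc]
          _ = (z : G) * (x * (t * (z : G) * t⁻¹)) := by rw [hz_comm x hx]; simp only [mul_assoc]
          _ = (z : G) * ((t * (z : G) * t⁻¹) * x) := by rw [hz'comm x hx]
          _ = w * x := by rw [hwdef]; simp only [mul_assoc]
      have hwt : t * w = w * t := by
        have h1 := hz_comm _ ht2
        calc t * w = t * ((z : G) * (t * (z : G) * t⁻¹)) := by rw [hwdef]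
          _ = t * ((t * (z : G) * t⁻¹) * (z : G)) := by rw [hzz']
          _ = ((t * t) * (z : G)) * t⁻¹ * (z : G) := by group
          _ = ((z : G) * (t * t)) * t⁻¹ * (z : G) := by rw [h1]
          _ = w * t := by rw [hwdef]; group
      have hwc : ∀ g : G, g * w = w * g := by
        intro g
        by_cases hg : g ∈ (P : Subgroup G)
        · exact hwP g hg
        · have hx := hwP _ (hcoset g hg)
          calc g * w = t * ((t⁻¹ * g) * w) := by group
            _ = t * (w * (t⁻¹ * g)) := by rw [hx]
            _ = (t * w) * (t⁻¹ * g) := by group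
            _ = (w * t) * (t⁻¹ * g) := by rw [hwt]
            _ = w * g := by group
      have hwp : w ^ p = 1 := by
        have hc : Commute (z : G) (t * (z : G) * t⁻¹) := hzz'
        have hzp : (z : G) ^ p = 1 := by
          have := pow_orderOf_eq_one (z : G)
          rwa [hzG] at this
        rw [hwdef, hc.mul_pow, conj_pow, hzp]
        group
      have hwo : orderOf w = p := orderOf_eq_prime hwp hw
      refine ⟨zpowers w, normal_zpowers_of_conj_mem _ (fun g => ?_), by rw [Nat.card_zpowers, hwo]⟩
      rw [hwc g, mul_inv_cancel_right]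
      exact mem_zpowers _

universe u in
open Subgroup Cfsg.Agent.Lib.Helper9 in
theorem ss_of_card : ∀ (n : ℕ) (G : Type u) [Group G] [Finite G] (p : ℕ), p.Prime →
    Nat.card G = 2 * p ^ n → Cfsg.IsSupersolvable G := by
  intro n
  induction n with
  | zero =>
    intro G _ _ p hp hG
    have : Fact (Nat.Prime 2) := ⟨Nat.prime_two⟩
    have : IsCyclic G := isCyclic_of_prime_card (p := 2) (by rw [hG]; norm_num)
    exact isSupersolvable_of_isCyclic'
  | succ n ih =>
    intro G _ _ p hp hG
    have : Fact p.Prime := ⟨hp⟩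
    obtain ⟨N, hN, hNc⟩ := exists_normal_card_eq_prime p n hG
    have hq : Nat.card (G ⧸ N) = 2 * p ^ n := by
      have h1 := Subgroup.card_mul_index N
      rw [hNc, hG, Subgroup.index_eq_card] at h1
      have h2 : p * Nat.card (G ⧸ N) = p * (2 * p ^ n) := by rw [h1]; ring
      exact Nat.eq_of_mul_eq_mul_left hp.pos h2
    have : IsCyclic N := isCyclic_of_prime_card (p := p) hNc
    exact isSupersolvable_of_ssc_of_quotient N (SSC.of_isCyclic N) (ih (G ⧸ N) p hp hq)


/-- A finite group whose order is twice a prime power is supersolvable. -/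
theorem result {G : Type*} [Group G] [Finite G] (p n : ℕ) (hp : p.Prime) (hG : Nat.card G = 2 * p ^ n) : Cfsg.IsSupersolvable G := by
  exact ss_of_card n G p hp hG

end Cfsg.Agent.S0530
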