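import Cfsg.Statements.S0533
import Mathlib
import Cfsg.Agent.S0532
import Cfsg.Agent.S0560
import Cfsg.Agent.Lib.Helper7.Coprime
import Cfsg.Agent.Lib.Helper9.Supersolvable
import Cfsg.Agent.Lib.Helper9.SSOrder
import Cfsg.Agent.Lib.Helper9.SSInd
import Cfsg.Agent.Lib.Helper9.ConjLemmas
import Cfsg.Agent.Lib.Helper9.CarterSys2

set_option autoImplicit false
open Cfsg

namespace Cfsg.Agent.S0533

open Subgroup
open scoped Pointwise
open Cfsg.Agent.Lib.Helper9

universe u

theorem clt {G : Type u} [Group G] (h : ∀ H : Subgroup G, Cfsg.HasSubgroupOfEveryOrder H)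
    (H : Subgroup G) (d : ℕ) (hd : d ∣ Nat.card H) : ∃ L : Subgroup G, L ≤ H ∧ Nat.card L = d := by
  obtain ⟨L', hL'⟩ := h H d hd
  exact ⟨L'.map H.subtype, Subgroup.map_subtype_le L', by
    rw [Subgroup.card_map_of_injective H.subtype_injective]; exact hL'⟩

theorem exists_normal_prime {G : Type u} [Group G] [Finite G] [Nontrivial G]
    (h : ∀ H : Subgroup G, Cfsg.HasSubgroupOfEveryOrder H) :
    ∃ N : Subgroup G, N.Normal ∧ (Nat.card N).Prime := by
  classical
  have hne : (Nat.card G).primeFactors.Nonempty := Nat.nonempty_primeFactors.mpr Finite.one_lt_card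
  have hqmem := Finset.max'_mem _ hne
  set q := (Nat.card G).primeFactors.max' hne with hq
  have hqp : q.Prime := Nat.prime_of_mem_primeFactors hqmem
  have hqdvd : q ∣ Nat.card G := Nat.dvd_of_mem_primeFactors hqmem
  have hmax : ∀ r : ℕ, r.Prime → r ∣ Nat.card G → r ≤ q := fun r hr hrd =>
    Finset.le_max' _ _ (Nat.mem_primeFactors.mpr ⟨hr, hrd, Nat.card_pos.ne'⟩)
  have hfact : Fact q.Prime := ⟨hqp⟩
  obtain ⟨Q⟩ : Nonempty (Sylow q G) := inferInstance
  have hQn : (Q : Subgroup G).Normal := Cfsg.Agent.S0532.result h q hqdvd hmax Q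
  have hQcard : Nat.card (Q : Subgroup G) = q ^ (Nat.card G).factorization q := Q.card_eq_multiplicity
  have hapos : 0 < (Nat.card G).factorization q :=
    Nat.Prime.factorization_pos_of_dvd hqp Nat.card_pos.ne' hqdvd
  obtain ⟨k, hk⟩ : q ^ (Nat.card G).factorization q ∣ Nat.card G := Nat.ordProj_dvd _ _
  have hkq : k.Coprime q := by
    have h1 := Nat.coprime_ordCompl hqp (Nat.card_pos (α := G)).ne'
    have h2 : Nat.card G / q ^ (Nat.card G).factorization q = k :=
      Nat.div_eq_of_eq_mul_right (pow_pos hqp.pos _) hk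
    rw [h2] at h1
    exact h1.symm
  set Z : Subgroup G := (Q : Subgroup G) ⊓ centralizer ((Q : Subgroup G) : Set G) with hZ
  have hZn : Z.Normal := inferInstance
  have hZbot : Z ≠ ⊥ := by
    have hQnt : Nontrivial (Q : Subgroup G) := by
      rw [← Finite.one_lt_card_iff_nontrivial, hQcard]
      exact Nat.one_lt_pow hapos.ne' hqp.one_lt
    have hc := IsPGroup.center_nontrivial (G := (Q : Subgroup G)) Q.isPGroup'
    obtain ⟨z, hz⟩ := exists_ne (1 : Subgroup.center (Q : Subgroup G))
    intro hbot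
    apply hz
    have hzZ : ((z : (Q : Subgroup G)) : G) ∈ Z := by
      refine Subgroup.mem_inf.mpr ⟨(z : (Q : Subgroup G)).2, ?_⟩
      rw [Subgroup.mem_centralizer_iff]
      intro x hx
      have h1 := (Subgroup.mem_center_iff.mp z.2) ⟨x, hx⟩
      exact congrArg Subtype.val h1
    rw [hbot, Subgroup.mem_bot] at hzZ
    apply Subtype.ext
    apply Subtype.ext
    exact hzZ
  have hZp : IsPGroup q Z := Q.isPGroup'.to_le inf_le_left
  obtain ⟨b, hb⟩ := IsPGroup.iff_card.mp hZp
  have hbpos : b ≠ 0 := by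
    intro h0
    rw [h0, pow_zero] at hb
    exact hZbot (Subgroup.card_eq_one.mp hb)
  obtain ⟨K, -, hKc⟩ := clt h ⊤ k (by rw [Subgroup.card_top, hk]; exact dvd_mul_left _ _)
  have hKZ : (Nat.card K).Coprime (Nat.card Z) := by
    rw [hKc, hb]; exact hkq.pow_right _
  have hHcard : Nat.card (K ⊔ Z : Subgroup G) = Nat.card Z * Nat.card K :=
    Cfsg.Agent.Lib.Helper7.card_sup_of_coprime Subgroup.le_normalizer_of_normal hKZ
  obtain ⟨L, hLH, hLc⟩ := clt h (K ⊔ Z) (q * k) (by
    rw [hHcard, hb, hKc]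
    exact Nat.mul_dvd_mul (dvd_pow_self q hbpos) dvd_rfl)
  have hNcard : Nat.card (L ⊓ Z : Subgroup G) = q := by
    have h1 : Nat.card (L ⊓ Z : Subgroup G) ∣ q ^ b := by
      rw [← hb]; exact Subgroup.card_dvd_of_le inf_le_right
    obtain ⟨j, -, hj⟩ := (Nat.dvd_prime_pow hqp).mp h1
    have h2 : Nat.card (L ⊓ Z : Subgroup G) * (L ⊓ Z).relIndex L = q * k := by
      rw [← hLc]; exact card_mul_relIndex_of_le inf_le_left
    have h3 : (L ⊓ Z).relIndex L ∣ k := by
      rw [Subgroup.inf_relIndex_left, ← Subgroup.relIndex_sup_left]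
      have h4 : Z.relIndex (Z ⊔ L) * (Z ⊔ L).relIndex (K ⊔ Z) = Z.relIndex (K ⊔ Z) :=
        Subgroup.relIndex_mul_relIndex _ _ _ le_sup_left (sup_le le_sup_right hLH)
      have h5 : Z.relIndex (K ⊔ Z) ∣ k := by
        rw [Subgroup.relIndex_sup_right, ← hKc]; exact Subgroup.relIndex_dvd_card Z K
      exact (Dvd.intro _ h4).trans h5
    obtain ⟨s, hs⟩ := h3
    have hrpos : 0 < (L ⊓ Z).relIndex L := by
      rcases Nat.eq_zero_or_pos ((L ⊓ Z).relIndex L) with h0 | h0
      · rw [h0, mul_zero] at h2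
        have hkpos : 0 < k := by
          rcases Nat.eq_zero_or_pos k with hk0 | hk0
          · rw [hk0, mul_zero] at hk; exact absurd hk Nat.card_pos.ne'
          · exact hk0
        have := Nat.mul_pos hqp.pos hkpos
        omega
      · exact h0
    have h6 : Nat.card (L ⊓ Z : Subgroup G) = q * s := by
      have h7 : (L ⊓ Z).relIndex L * Nat.card (L ⊓ Z : Subgroup G) = (L ⊓ Z).relIndex L * (q * s) := by
        rw [mul_comm, h2, hs]; ring
      exact Nat.eq_of_mul_eq_mul_left hrpos h7
    have hsk : s ∣ k := Dvd.intro_left _ hs.symm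
    have hs1 : s = 1 := by
      have h8 : s ∣ q ^ j := by rw [← hj, h6]; exact dvd_mul_left _ _
      exact Nat.eq_one_of_dvd_coprimes (hkq.pow_right j) hsk h8
    rw [h6, hs1, mul_one]
  have hNnorm : (L ⊓ Z : Subgroup G).Normal := by
    rw [← Subgroup.normalizer_eq_top_iff]
    have hle : (Q : Subgroup G) ⊔ L ≤ normalizer ((L ⊓ Z : Subgroup G) : Set G) := by
      refine sup_le ?_ ?_
      · intro x hx
        apply Subgroup.centralizer_le_normalizer
        rw [Subgroup.mem_centralizer_iff]
        intro y hy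
        have hyZ := (Subgroup.mem_inf.mp hy).2
        have hyc := (Subgroup.mem_inf.mp hyZ).2
        exact ((Subgroup.mem_centralizer_iff.mp hyc) x hx).symm
      · intro l hl
        apply mem_normalizer_of_conj_smul_le
        intro x hx
        rw [mem_conj_smul_iff] at hx
        have hx1 := (Subgroup.mem_inf.mp hx).1
        have hx2 := (Subgroup.mem_inf.mp hx).2
        refine Subgroup.mem_inf.mpr ⟨?_, ?_⟩
        · have h1 := L.mul_mem (L.mul_mem hl hx1) (L.inv_mem hl)
          rwa [show l * (l⁻¹ * x * l) * l⁻¹ = x by group] at h1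
        · have h1 := hZn.conj_mem _ hx2 l
          rwa [show l * (l⁻¹ * x * l) * l⁻¹ = x by group] at h1
    have htop : (Q : Subgroup G) ⊔ L = ⊤ := by
      apply Subgroup.eq_top_of_le_card
      apply Nat.le_of_dvd Nat.card_pos
      rw [hk]
      apply Nat.Coprime.mul_dvd_of_dvd_of_dvd (hkq.symm.pow_left _)
      · rw [← hQcard]; exact Subgroup.card_dvd_of_le le_sup_left
      · have h1 : k ∣ Nat.card L := by rw [hLc]; exact dvd_mul_left _ _
        exact h1.trans (Subgroup.card_dvd_of_le le_sup_right)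
    rw [htop] at hle
    exact top_le_iff.mp hle
  exact ⟨L ⊓ Z, hNnorm, by rw [hNcard]; exact hqp⟩

theorem clt_quotient {G : Type u} [Group G] [Finite G]
    (h : ∀ H : Subgroup G, Cfsg.HasSubgroupOfEveryOrder H) (N : Subgroup G) [N.Normal]
    (hN : (Nat.card N).Prime) : ∀ H' : Subgroup (G ⧸ N), Cfsg.HasSubgroupOfEveryOrder H' := by
  intro H' d hd
  have hf : Function.Surjective (QuotientGroup.mk' N) := QuotientGroup.mk'_surjective N
  have hcardH : Nat.card (H'.comap (QuotientGroup.mk' N)) = Nat.card N * Nat.card H' := by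
    have h1 := card_comap_of_surjective' (QuotientGroup.mk' N) hf H'
    rwa [QuotientGroup.ker_mk'] at h1
  suffices hs : ∃ V : Subgroup (G ⧸ N), V ≤ H' ∧ Nat.card V = d by
    obtain ⟨V, hV, hVd⟩ := hs
    exact ⟨V.subgroupOf H', by
      rw [Nat.card_congr (Subgroup.subgroupOfEquivOfLe hV).toEquiv]; exact hVd⟩
  obtain ⟨U, hU, hUc⟩ := clt h (H'.comap (QuotientGroup.mk' N)) (Nat.card N * d) (by
    rw [hcardH]; exact Nat.mul_dvd_mul_left _ hd)
  by_cases hNU : N ≤ U
  · refine ⟨U.map (QuotientGroup.mk' N), Subgroup.map_le_iff_le_comap.mpr hU, ?_⟩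
    have h1 := card_comap_of_surjective' (QuotientGroup.mk' N) hf (U.map (QuotientGroup.mk' N))
    rw [Subgroup.comap_map_eq, QuotientGroup.ker_mk', sup_eq_left.mpr hNU, hUc] at h1
    exact (Nat.eq_of_mul_eq_mul_left Nat.card_pos h1).symm
  · have hNU' : N ⊓ U = ⊥ := by
      have h1 : Nat.card (N ⊓ U : Subgroup G) ∣ Nat.card N := Subgroup.card_dvd_of_le inf_le_left
      rcases (Nat.dvd_prime hN).mp h1 with h2 | h2
      · exact Subgroup.card_eq_one.mp h2
      · exfalso; apply hNU
        have h3 : N ⊓ U = N := Subgroup.eq_of_le_of_card_ge inf_le_left h2.ge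
        rw [← h3]; exact inf_le_right
    obtain ⟨W, hW, hWc⟩ := clt h U d (by rw [hUc]; exact dvd_mul_left _ _)
    refine ⟨W.map (QuotientGroup.mk' N), Subgroup.map_le_iff_le_comap.mpr (hW.trans hU), ?_⟩
    have h1 := card_comap_of_surjective' (QuotientGroup.mk' N) hf (W.map (QuotientGroup.mk' N))
    rw [Subgroup.comap_map_eq, QuotientGroup.ker_mk'] at h1
    have h2 : Nat.card (W ⊔ N : Subgroup G) = Nat.card W * Nat.card N := by
      have h3 := Cfsg.Agent.S0560.card_mul_card_eq W N
      have h4 : W ⊓ N = ⊥ := by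
        rw [eq_bot_iff, ← hNU']; exact le_inf inf_le_right (inf_le_left.trans hW)
      rw [h4, Subgroup.card_bot, mul_one] at h3
      rw [h3]
      have h5 : ((W ⊔ N : Subgroup G) : Set G) = (W : Set G) * (N : Set G) := Subgroup.mul_normal W N
      rw [← h5]; rfl
    rw [h2, hWc, mul_comm] at h1
    exact (Nat.eq_of_mul_eq_mul_left Nat.card_pos h1).symm

theorem main : ∀ (n : ℕ) (G : Type u) [Group G] [Finite G], Nat.card G ≤ n →
    (∀ H : Subgroup G, Cfsg.HasSubgroupOfEveryOrder H) → Cfsg.IsSupersolvable G := by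
  intro n
  induction n with
  | zero =>
    intro G _ _ hn
    exact absurd hn (by have := Nat.card_pos (α := G); omega)
  | succ n ih =>
    intro G _ _ hn h
    rcases subsingleton_or_nontrivial G with hs | hnt
    · exact isSupersolvable_of_subsingleton
    · obtain ⟨N, hNn, hNp⟩ := exists_normal_prime h
      have := hNn
      have hlt := card_quotient_lt_of_prime_card N hNp
      have hq := ih (G ⧸ N) (by omega) (clt_quotient h N hNp)
      have hfact : Fact (Nat.card N).Prime := ⟨hNp⟩
      have hcyc : IsCyclic N := isCyclic_of_prime_card (p := Nat.card N) rfl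
      exact isSupersolvable_of_ssc_of_quotient N (SSC.of_isCyclic N) hq


/-- If every subgroup of a finite group has subgroups of all orders dividing its order, then the group is supersolvable. -/
theorem result {G : Type*} [Group G] [Finite G] (h : ∀ H : Subgroup G, Cfsg.HasSubgroupOfEveryOrder H) : Cfsg.IsSupersolvable G := by
  exact main (Nat.card G) G le_rfl h

end Cfsg.Agent.S0533
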