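import Cfsg.Statements.S0534
import Mathlib
import Cfsg.Agent.Lib.Helper7.Hall
import Cfsg.Agent.Lib.Helper9.SSOrder

set_option autoImplicit false
open Cfsg

namespace Cfsg.Agent.S0534


open Cfsg.Agent.Lib.Helper9

universe u

theorem comm_clt : ∀ (n : ℕ) (A : Type u) [CommGroup A] [Finite A], Nat.card A = n →
    ∀ b, b ∣ n → ∃ B : Subgroup A, Nat.card B = b := by
  intro n
  induction n using Nat.strong_induction_on with
  | _ n ih =>
    intro A _ _ hn b hb
    by_cases hb1 : b = 1
    · exact ⟨⊥, by rw [hb1]; exact Subgroup.card_bot⟩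
    obtain ⟨p, hp, hpb⟩ := Nat.exists_prime_and_dvd hb1
    have : Fact p.Prime := ⟨hp⟩
    obtain ⟨x, hx⟩ := exists_prime_orderOf_dvd_card' p (hn ▸ hpb.trans hb)
    have hC : Nat.card (Subgroup.zpowers x) = p := by rw [Nat.card_zpowers, hx]
    have hmul : Nat.card (Subgroup.zpowers x) * Nat.card (A ⧸ Subgroup.zpowers x) = n := by
      rw [← hn, ← Subgroup.index_eq_card, Subgroup.card_mul_index]
    have hlt : Nat.card (A ⧸ Subgroup.zpowers x) < n := by
      have h1 : 0 < Nat.card (A ⧸ Subgroup.zpowers x) := Nat.card_pos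
      have h2 := hp.two_le
      rw [hC] at hmul
      nlinarith
    obtain ⟨b', rfl⟩ := hpb
    have hb' : b' ∣ Nat.card (A ⧸ Subgroup.zpowers x) := by
      rw [← hmul, hC] at hb; exact (Nat.mul_dvd_mul_iff_left hp.pos).mp hb
    obtain ⟨B', hB'⟩ := ih _ hlt (A ⧸ Subgroup.zpowers x) rfl b' hb'
    refine ⟨B'.comap (QuotientGroup.mk' (Subgroup.zpowers x)), ?_⟩
    rw [card_comap_of_surjective' _ (QuotientGroup.mk'_surjective _), QuotientGroup.ker_mk', hC,
      hB']

theorem nt_split (n a d : ℕ) (hn : n ≠ 0) (ha : a ≠ 0)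
    (hA : ∀ p : ℕ, p.Prime → p ∣ a → p ∣ n)
    (hexp : ∀ p : ℕ, p.Prime → p ∣ n → a.factorization p + 1 = n.factorization p)
    (hd : d ∣ n * a) : ∃ m b n' : ℕ, m * b = d ∧ b ∣ a ∧ n = m * n' ∧ m.Coprime n' := by
  classical
  have hd0 : d ≠ 0 := fun h => by
    rw [h, zero_dvd_iff] at hd; exact (mul_ne_zero hn ha) hd
  set fm : ℕ →₀ ℕ :=
    n.factorization.filter (fun p => n.factorization p ≤ d.factorization p) with hfm
  have hfm_apply : ∀ p, fm p =
      if n.factorization p ≤ d.factorization p then n.factorization p else 0 := by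
    intro p; rw [hfm, Finsupp.filter_apply]
  have hprime : ∀ p ∈ fm.support, p.Prime := by
    intro p hp
    rw [Finsupp.mem_support_iff, hfm_apply] at hp
    by_contra hnp
    rw [Nat.factorization_eq_zero_of_not_prime n hnp] at hp
    simp at hp
  have hmf : (fm.prod (· ^ ·)).factorization = fm := Nat.prod_pow_factorization_eq_self hprime
  have hm0 : fm.prod (· ^ ·) ≠ 0 := by
    intro h0
    rw [Finsupp.prod, Finset.prod_eq_zero_iff] at h0
    obtain ⟨p, hp, hp0⟩ := h0
    exact (pow_ne_zero _ (hprime p hp).ne_zero) hp0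
  generalize fm.prod (· ^ ·) = m at hmf hm0
  have hmd : m ∣ d := by
    rw [← Nat.factorization_le_iff_dvd hm0 hd0, hmf]
    intro p; rw [hfm_apply]; split_ifs with h
    · exact h
    · exact Nat.zero_le _
  have hmn : m ∣ n := by
    rw [← Nat.factorization_le_iff_dvd hm0 hn, hmf]
    intro p; rw [hfm_apply]; split_ifs with h
    · exact le_rfl
    · exact Nat.zero_le _
  refine ⟨m, d / m, n / m, Nat.mul_div_cancel' hmd, ?_, (Nat.mul_div_cancel' hmn).symm, ?_⟩
  · have hdm0 : d / m ≠ 0 := by
      intro h0
      have h1 := Nat.mul_div_cancel' hmd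
      rw [h0, mul_zero] at h1; exact hd0 h1.symm
    rw [← Nat.factorization_le_iff_dvd hdm0 ha, Nat.factorization_div hmd, hmf]
    intro p
    rw [Finsupp.tsub_apply, hfm_apply]
    have hle : d.factorization p ≤ n.factorization p + a.factorization p := by
      have h1 := (Nat.factorization_le_iff_dvd hd0 (mul_ne_zero hn ha)).mpr hd p
      rwa [Nat.factorization_mul hn ha, Finsupp.add_apply] at h1
    by_cases hp : p.Prime
    · by_cases hpn : p ∣ n
      · have h2 := hexp p hp hpn
        split_ifs with h <;> omega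
      · have h1 : n.factorization p = 0 := Nat.factorization_eq_zero_of_not_dvd hpn
        have h2 : a.factorization p = 0 :=
          Nat.factorization_eq_zero_of_not_dvd (fun h => hpn (hA p hp h))
        split_ifs with h <;> omega
    · rw [Nat.factorization_eq_zero_of_not_prime d hp]; simp
  · apply Nat.coprime_of_dvd
    intro p hp hpm hpnm
    have hnm0 : n / m ≠ 0 := by
      intro h0
      have h1 := Nat.mul_div_cancel' hmn
      rw [h0, mul_zero] at h1; exact hn h1.symm
    have h1 : 0 < m.factorization p := hp.factorization_pos_of_dvd hm0 hpm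
    have h2 : 0 < (n / m).factorization p := hp.factorization_pos_of_dvd hnm0 hpnm
    rw [Nat.factorization_div hmn, Finsupp.tsub_apply, hmf] at h2
    rw [hmf] at h1
    rw [hfm_apply] at h1 h2
    split_ifs at h1 h2 with h <;> omega


/-- Let G be a finite solvable group and A a finite abelian group such that every prime dividing the order of A divides the order of G and, for each prime p dividing the order of G, the exponent of p in the order of A is one less than its exponent in the order of G. Then G × A has a subgroup of every order dividing its order. -/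
theorem result {G A : Type*} [Group G] [CommGroup A] [Finite G] [Finite A] [Group.IsSolvable G] (hA : ∀ p : ℕ, p.Prime → p ∣ Nat.card A → p ∣ Nat.card G) (hexp : ∀ p : ℕ, p.Prime → p ∣ Nat.card G → (Nat.card A).factorization p + 1 = (Nat.card G).factorization p) : Cfsg.HasSubgroupOfEveryOrder (G × A) := by
  intro d hd
  have hcard : Nat.card (G × A) = Nat.card G * Nat.card A := Nat.card_prod G A
  rw [hcard] at hd
  obtain ⟨m, b, n', hmb, hba, hn, hcop⟩ := nt_split (Nat.card G) (Nat.card A) d
    Nat.card_pos.ne' Nat.card_pos.ne' hA hexp hd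
  obtain ⟨H₁, hH₁⟩ := Cfsg.Agent.Lib.Helper7.hall_exists (Nat.card G) G le_rfl m n' hn hcop
  obtain ⟨B, hB⟩ := comm_clt _ A rfl b hba
  refine ⟨H₁.prod B, ?_⟩
  rw [Nat.card_congr (Subgroup.prodEquiv H₁ B).toEquiv, Nat.card_prod, hH₁, hB, hmb]

end Cfsg.Agent.S0534
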