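import Cfsg.Statements.S0535
import Mathlib
import Cfsg.Agent.Lib.Helper7.HallSystem

set_option autoImplicit false
open Cfsg

namespace Cfsg.Agent.S0535


universe u

theorem transport_hyp {G : Type u} [Group G]
    (h : ∀ H : Subgroup G, H ≠ ⊥ → ∀ p : ℕ, p.Prime → p ∣ Nat.card H →
      ∃ K : Subgroup H, K ≠ ⊤ ∧ ∃ k : ℕ, K.index = p ^ k) (L : Subgroup G) :
    ∀ H : Subgroup L, H ≠ ⊥ → ∀ p : ℕ, p.Prime → p ∣ Nat.card H →
      ∃ K : Subgroup H, K ≠ ⊤ ∧ ∃ k : ℕ, K.index = p ^ k := by
  intro H hH p hp hdvd
  have hne : H.map L.subtype ≠ ⊥ := by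
    rwa [Ne, Subgroup.map_eq_bot_iff_of_injective _ L.subtype_injective]
  have hcard : Nat.card (H.map L.subtype) = Nat.card H :=
    Subgroup.card_map_of_injective L.subtype_injective
  obtain ⟨K, hK, k, hk⟩ := h (H.map L.subtype) hne p hp (hcard ▸ hdvd)
  have hsurj : Function.Surjective
      (H.equivMapOfInjective L.subtype L.subtype_injective).toMonoidHom :=
    (H.equivMapOfInjective L.subtype L.subtype_injective).surjective
  refine ⟨K.comap (H.equivMapOfInjective L.subtype L.subtype_injective).toMonoidHom, ?_, k, ?_⟩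
  · intro htop
    apply hK
    rw [← Subgroup.map_comap_eq_self_of_surjective hsurj K, htop,
      Subgroup.map_top_of_surjective _ hsurj]
  · rw [Subgroup.index_comap_of_surjective _ hsurj, hk]

theorem solvable_aux : ∀ (n : ℕ) (G : Type u) [Group G] [Finite G], Nat.card G = n →
    (∀ H : Subgroup G, H ≠ ⊥ → ∀ p : ℕ, p.Prime → p ∣ Nat.card H →
      ∃ K : Subgroup H, K ≠ ⊤ ∧ ∃ k : ℕ, K.index = p ^ k) → Group.IsSolvable G := by
  intro n
  induction n using Nat.strong_induction_on with
  | _ n ih =>
    intro G _ _ hn h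
    apply Cfsg.Agent.Lib.Helper7.solvable_of_hasPCompl (Nat.card G) G le_rfl
    intro p hp
    by_cases hpG : p ∣ Nat.card G
    · have hne : (⊤ : Subgroup G) ≠ ⊥ := by
        intro h0
        have h1 : Nat.card G = 1 := by
          rw [← Subgroup.card_top (G := G), h0, Subgroup.card_bot]
        rw [h1] at hpG
        exact hp.one_lt.ne' (Nat.dvd_one.mp hpG)
      obtain ⟨K, hK, k, hk⟩ := h ⊤ hne p hp (by rw [Subgroup.card_top]; exact hpG)
      have hK₁idx : (K.map (⊤ : Subgroup G).subtype).index = p ^ k := by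
        rw [Subgroup.index_map_subtype, hk, Subgroup.index_top, mul_one]
      have hK₁ne : K.map (⊤ : Subgroup G).subtype ≠ ⊤ := by
        intro htop
        rw [htop, Subgroup.index_top] at hK₁idx
        apply hK
        rw [← Subgroup.index_eq_one, hk, ← hK₁idx]
      generalize K.map (⊤ : Subgroup G).subtype = K₁ at hK₁idx hK₁ne
      have hlt : Nat.card K₁ < n := by
        rw [← hn]; exact Cfsg.Agent.Lib.Helper7.card_lt_of_ne_top hK₁ne
      have hsol : Group.IsSolvable K₁ := ih _ hlt K₁ rfl (transport_hyp h K₁)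
      have hcop1 : (Nat.card K₁ / p ^ (Nat.card K₁).factorization p).Coprime p :=
        (Nat.coprime_ordCompl hp Nat.card_pos.ne').symm
      have hprod : Nat.card K₁ = (Nat.card K₁ / p ^ (Nat.card K₁).factorization p)
          * p ^ (Nat.card K₁).factorization p := by
        rw [mul_comm]; exact (Nat.ordProj_mul_ordCompl_eq_self _ p).symm
      obtain ⟨H₀, hH₀⟩ := Cfsg.Agent.Lib.Helper7.hall_exists (Nat.card K₁) K₁ le_rfl _ _ hprod
        (hcop1.pow_right _)
      refine ⟨H₀.map K₁.subtype, ?_, (Nat.card K₁).factorization p + k, ?_⟩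
      · rw [Subgroup.card_map_of_injective K₁.subtype_injective, hH₀]; exact hcop1
      · rw [Subgroup.index_map_subtype, hK₁idx, pow_add]
        congr 1
        have h1 := H₀.card_mul_index
        rw [hH₀] at h1
        have hmpos : 0 < Nat.card K₁ / p ^ (Nat.card K₁).factorization p := by
          rw [← hH₀]; exact Nat.card_pos
        exact Nat.eq_of_mul_eq_mul_left hmpos (h1.trans hprod)
    · refine ⟨⊤, ?_, 0, by simp⟩
      rw [Subgroup.card_top]
      exact ((Nat.Prime.coprime_iff_not_dvd hp).mpr hpG).symm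


/-- Suppose that for every nontrivial subgroup H of a finite group and every prime p dividing the order of H there is a proper subgroup of H whose index in H is a power of p. Then the group is solvable. -/
theorem result {G : Type*} [Group G] [Finite G] (h : ∀ H : Subgroup G, H ≠ ⊥ → ∀ p : ℕ, p.Prime → p ∣ Nat.card H → ∃ K : Subgroup H, K ≠ ⊤ ∧ ∃ k : ℕ, K.index = p ^ k) : Group.IsSolvable G := by
  exact solvable_aux _ G rfl h

end Cfsg.Agent.S0535
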