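import Cfsg.Statements.S0537
import Mathlib
import Cfsg.Agent.Lib.Helper9.Schmidt
import Cfsg.Agent.Lib.Helper6.PAction

set_option autoImplicit false
open Cfsg

namespace Cfsg.Agent.S0537


open Subgroup
open scoped Pointwise
open Cfsg.Agent.Lib.Helper9

section
variable {G : Type*} [Group G]

theorem comm_of_isMulCommutative {H : Subgroup G} (hH : IsMulCommutative H) :
    ∀ a ∈ H, ∀ b ∈ H, a * b = b * a :=
  fun a ha b hb => congrArg Subtype.val (mul_comm' (⟨a, ha⟩ : H) ⟨b, hb⟩)

/-- The subgroup of elements of order dividing `q` in an abelian subgroup. -/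
def omega (Q : Subgroup G) (hc : ∀ x ∈ Q, ∀ y ∈ Q, x * y = y * x) (q : ℕ) : Subgroup G where
  carrier := {x | x ∈ Q ∧ x ^ q = 1}
  mul_mem' := by
    rintro a b ⟨ha, ha'⟩ ⟨hb, hb'⟩
    exact ⟨Q.mul_mem ha hb, by
      rw [(show Commute a b from hc a ha b hb).mul_pow, ha', hb', one_mul]⟩
  one_mem' := ⟨Q.one_mem, one_pow q⟩
  inv_mem' := by
    rintro a ⟨ha, ha'⟩
    exact ⟨Q.inv_mem ha, by rw [inv_pow, ha', inv_one]⟩

theorem omega_normal (Q : Subgroup G) [hQ : Q.Normal] (hc : ∀ x ∈ Q, ∀ y ∈ Q, x * y = y * x)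
    (q : ℕ) : (omega Q hc q).Normal := by
  constructor
  rintro x ⟨hx, hx'⟩ g
  exact ⟨hQ.conj_mem x hx g, by rw [conj_pow, hx', mul_one, mul_inv_cancel]⟩

theorem commute_of_commute_omega (Q : Subgroup G) [hQn : Q.Normal]
    (hQc : ∀ x ∈ Q, ∀ y ∈ Q, x * y = y * x) (q : ℕ) [Fact q.Prime] (hQ : IsPGroup q Q) (a : G)
    (k : ℕ) (hak : a ^ k = 1) (hkq : k.Coprime q)
    (hΩ : ∀ x ∈ Q, x ^ q = 1 → a * x = x * a) : ∀ x ∈ Q, a * x = x * a := by
  have key : ∀ j : ℕ, ∀ x ∈ Q, x ^ (q ^ j) = 1 → a * x = x * a := by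
    intro j
    induction j with
    | zero => intro x _ hx; rw [pow_zero, pow_one] at hx; rw [hx, mul_one, one_mul]
    | succ j ih =>
      intro x hx hxj
      have hy : a * x ^ q = x ^ q * a :=
        ih (x ^ q) (Q.pow_mem hx q) (by rw [← pow_mul, ← pow_succ']; exact hxj)
      have hzQ : a * x * a⁻¹ * x⁻¹ ∈ Q := Q.mul_mem (hQn.conj_mem x hx a) (Q.inv_mem hx)
      have hzq : (a * x * a⁻¹ * x⁻¹) ^ q = 1 := by
        have hc : Commute (a * x * a⁻¹) x⁻¹ := hQc _ (hQn.conj_mem x hx a) _ (Q.inv_mem hx)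
        rw [hc.mul_pow, conj_pow, inv_pow, hy, mul_inv_cancel_right, mul_inv_cancel]
      have hca : Commute a (a * x * a⁻¹ * x⁻¹) := hΩ _ hzQ hzq
      have h1 := Cfsg.Agent.Lib.Helper6.pa_comm_eq_one (p := q) a x k 1 hak hkq
        (by rw [pow_one]; exact hzq) hca
      calc a * x = (a * x * a⁻¹ * x⁻¹) * (x * a) := by group
        _ = x * a := by rw [h1, one_mul]
  intro x hx
  obtain ⟨j, hj⟩ := hQ ⟨x, hx⟩
  have hj' : x ^ (q ^ j) = 1 := by have := congrArg Subtype.val hj; simpa using this
  exact key j x hx hj'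

end


/-- A finite non-abelian group in which every proper subgroup is abelian is either of prime-power order, or is generated by a cyclic Sylow p-subgroup and a normal Sylow q-subgroup that is elementary abelian, for distinct primes p and q. -/
theorem result {G : Type*} [Group G] [Finite G] (hna : ¬ IsMulCommutative G) (h : ∀ H : Subgroup G, H ≠ ⊤ → IsMulCommutative H) : (∃ p : ℕ, p.Prime ∧ IsPGroup p G) ∨ ∃ p q : ℕ, p.Prime ∧ q.Prime ∧ p ≠ q ∧ ∃ (P : Sylow p G) (Q : Sylow q G), IsCyclic P ∧ (Q : Subgroup G).Normal ∧ Cfsg.IsElementaryAbelian q (Q : Subgroup G) ∧ (P : Subgroup G) ⊔ Q = ⊤ := by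
  classical
  have hcomm_of : ∀ H : Subgroup G, H ≠ ⊤ → ∀ a ∈ H, ∀ b ∈ H, a * b = b * a :=
    fun H hH => comm_of_isMulCommutative (h H hH)
  have hnc : ¬ ∀ a b : G, a * b = b * a := fun hc => hna (isMulCommutative_iff.mpr hc)
  have hgen : ∀ P Q : Subgroup G, P ⊔ Q = ⊤ → (∀ a ∈ P, ∀ b ∈ P, a * b = b * a) →
      (∀ a ∈ Q, ∀ b ∈ Q, a * b = b * a) → (∀ a ∈ P, ∀ b ∈ Q, a * b = b * a) → False := by
    intro P Q hPQ hP hQ hPQc
    apply hnc
    have hPc : P ≤ center G := by
      intro a ha
      have h1 : P ⊔ Q ≤ centralizer ({a} : Set G) := by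
        refine sup_le ?_ ?_
        · intro x hx
          refine mem_centralizer_iff.mpr (fun z hz => ?_)
          rw [Set.mem_singleton_iff] at hz; rw [hz]; exact hP a ha x hx
        · intro x hx
          refine mem_centralizer_iff.mpr (fun z hz => ?_)
          rw [Set.mem_singleton_iff] at hz; rw [hz]; exact hPQc a ha x hx
      rw [hPQ] at h1
      rw [Subgroup.mem_center_iff]
      intro g
      exact (mem_centralizer_iff.mp (h1 (mem_top g)) a (Set.mem_singleton a)).symm
    have hQc : Q ≤ center G := by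
      intro b hb
      have h1 : P ⊔ Q ≤ centralizer ({b} : Set G) := by
        refine sup_le ?_ ?_
        · intro x hx
          refine mem_centralizer_iff.mpr (fun z hz => ?_)
          rw [Set.mem_singleton_iff] at hz; rw [hz]; exact (hPQc x hx b hb).symm
        · intro x hx
          refine mem_centralizer_iff.mpr (fun z hz => ?_)
          rw [Set.mem_singleton_iff] at hz; rw [hz]; exact hQ b hb x hx
      rw [hPQ] at h1
      rw [Subgroup.mem_center_iff]
      intro g
      exact (mem_centralizer_iff.mp (h1 (mem_top g)) b (Set.mem_singleton b)).symm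
    have htop : center G = ⊤ := top_le_iff.mp (hPQ ▸ sup_le hPc hQc)
    intro a b
    have : a ∈ center G := htop ▸ mem_top a
    exact ((Subgroup.mem_center_iff.mp this) b).symm
  by_cases hnil : Group.IsNilpotent G
  · left
    have hall : ∀ (p : ℕ) [Fact p.Prime] (P : Sylow p G), (P : Subgroup G).Normal :=
      ((Group.isNilpotent_of_finite_tfae (G := G)).out 0 3).mp hnil
    by_contra hcon
    have hprop : ∀ (p : ℕ) [Fact p.Prime] (P : Sylow p G), (P : Subgroup G) ≠ ⊤ := by
      intro p hp P hP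
      apply hcon
      refine ⟨p, hp.out, ?_⟩
      intro g
      obtain ⟨k, hk⟩ := P.isPGroup' ⟨g, hP ▸ mem_top g⟩
      exact ⟨k, by have := congrArg Subtype.val hk; simpa using this⟩
    apply hnc
    have hcen : ∀ (p : ℕ) [Fact p.Prime] (P : Sylow p G), (P : Subgroup G) ≤ center G := by
      intro p hp P a ha
      have h1 : centralizer ({a} : Set G) = ⊤ := by
        apply Cfsg.Agent.Lib.Helper7.eq_top_of_sylow_le
        intro r hr
        by_cases hrp : r = p
        · subst hrp
          refine ⟨P, ?_⟩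
          intro x hx
          refine mem_centralizer_iff.mpr (fun z hz => ?_)
          rw [Set.mem_singleton_iff] at hz; rw [hz]
          exact hcomm_of _ (hprop r P) a ha x hx
        · obtain ⟨R⟩ : Nonempty (Sylow r G) := inferInstance
          refine ⟨R, ?_⟩
          intro x hx
          refine mem_centralizer_iff.mpr (fun z hz => ?_)
          rw [Set.mem_singleton_iff] at hz; rw [hz]
          have hdis : Disjoint (P : Subgroup G) (R : Subgroup G) :=
            IsPGroup.disjoint_of_ne p r (Ne.symm hrp) _ _ P.isPGroup' R.isPGroup'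
          exact (Subgroup.commute_of_normal_of_disjoint _ _ (hall p P) (hall r R) hdis a x ha hx).eq
      rw [Subgroup.mem_center_iff]
      intro g
      exact (mem_centralizer_iff.mp (h1 ▸ mem_top g) a (Set.mem_singleton a)).symm
    have htop : center G = ⊤ := by
      apply Cfsg.Agent.Lib.Helper7.eq_top_of_sylow_le
      intro r hr
      obtain ⟨R⟩ : Nonempty (Sylow r G) := inferInstance
      exact ⟨R, hcen r R⟩
    intro a b
    have : a ∈ center G := htop ▸ mem_top a
    exact ((Subgroup.mem_center_iff.mp this) b).symm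
  · right
    have hprop : ∀ H : Subgroup G, H ≠ ⊤ → Group.IsNilpotent H := by
      intro H hH
      have hHc := h H hH
      open scoped IsMulCommutative in infer_instance
    obtain ⟨p, q, hp, hq, hpq, P, Q, hcyc, hQn, hPQ⟩ := schmidt_structure hnil hprop
    have hpF : Fact p.Prime := ⟨hp⟩
    have hqF : Fact q.Prime := ⟨hq⟩
    have hQtop : (Q : Subgroup G) ≠ ⊤ := by
      intro hQ
      apply hnil
      have hGq : IsPGroup q G := by
        intro g
        obtain ⟨k, hk⟩ := Q.isPGroup' ⟨g, hQ ▸ mem_top g⟩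
        exact ⟨k, by have := congrArg Subtype.val hk; simpa using this⟩
      exact hGq.isNilpotent
    have hQc := hcomm_of _ hQtop
    have hPtop : (P : Subgroup G) ≠ ⊤ := by
      intro hP
      apply hnil
      have hGp : IsPGroup p G := by
        intro g
        obtain ⟨k, hk⟩ := P.isPGroup' ⟨g, hP ▸ mem_top g⟩
        exact ⟨k, by have := congrArg Subtype.val hk; simpa using this⟩
      exact hGp.isNilpotent
    have hPc := hcomm_of _ hPtop
    have hdisj : Disjoint (P : Subgroup G) (Q : Subgroup G) :=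
      IsPGroup.disjoint_of_ne p q hpq _ _ P.isPGroup' Q.isPGroup'
    refine ⟨p, q, hp, hq, hpq, P, Q, hcyc, hQn, ⟨h _ hQtop, ?_⟩, hPQ⟩
    by_contra hcon
    have hx₀ : ∃ x₀ ∈ (Q : Subgroup G), x₀ ^ q ≠ 1 := by
      by_contra h'
      apply hcon
      intro a ha
      by_contra h''
      exact h' ⟨a, ha, h''⟩
    obtain ⟨x₀, hx₀Q, hx₀⟩ := hx₀
    have hΩn : (omega (Q : Subgroup G) hQc q).Normal := omega_normal _ hQc q
    have hne : (P : Subgroup G) ⊔ omega (Q : Subgroup G) hQc q ≠ ⊤ := by
      intro htop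
      have h1 : x₀ ∈ ((omega (Q : Subgroup G) hQc q ⊔ (P : Subgroup G) : Subgroup G) : Set G) := by
        rw [sup_comm, htop]; exact mem_top x₀
      rw [Subgroup.normal_mul] at h1
      obtain ⟨w, hw, a, ha, hwa⟩ := h1
      have hwa' : w * a = x₀ := hwa
      have haQ : a ∈ (Q : Subgroup G) := by
        have : a = w⁻¹ * x₀ := by rw [← hwa']; group
        rw [this]
        exact Subgroup.mul_mem _ (Subgroup.inv_mem _ hw.1) hx₀Q
      have ha1 : a = 1 := Subgroup.disjoint_def.mp hdisj ha haQ
      apply hx₀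
      rw [← hwa', ha1, mul_one]
      exact hw.2
    have hc1 := hcomm_of _ hne
    have hPQc : ∀ a ∈ (P : Subgroup G), ∀ b ∈ (Q : Subgroup G), a * b = b * a := by
      intro a ha
      obtain ⟨m, hm⟩ := IsPGroup.iff_card.mp P.isPGroup'
      have hak : a ^ (p ^ m) = 1 := by
        have h1 : (⟨a, ha⟩ : (P : Subgroup G)) ^ Nat.card (P : Subgroup G) = 1 := pow_card_eq_one'
        rw [hm] at h1
        have := congrArg Subtype.val h1
        simpa using this
      apply commute_of_commute_omega (Q : Subgroup G) hQc q Q.isPGroup' a (p ^ m) hak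
        (Nat.Coprime.pow_left m ((Nat.coprime_primes hp hq).mpr hpq))
      intro x hx hxq
      exact hc1 a ((le_sup_left : (P : Subgroup G) ≤ (P : Subgroup G) ⊔ omega (Q : Subgroup G) hQc q) ha) x
        ((le_sup_right : omega (Q : Subgroup G) hQc q ≤ (P : Subgroup G) ⊔ omega (Q : Subgroup G) hQc q)
          ⟨hx, hxq⟩)
    exact hgen _ _ hPQ hPc hQc hPQc

end Cfsg.Agent.S0537
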