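import Cfsg.Statements.S0540
import Mathlib
import Cfsg.Agent.Lib.Helper9.WielandtRel

set_option autoImplicit false
open Pointwise
open Cfsg

namespace Cfsg.Agent.S0540


open Subgroup
open scoped Pointwise
open Cfsg.Agent.Lib.Helper9


/-- A uniqueness lemma of zipper type. Let A be a subgroup of a finite group G and U a nonempty family of subgroups. For V in U write S(V) for the set of conjugates of A that lie in V and are subnormal in V. Assume: A belongs to S(V) for every V in U; a member of some S(W) that lies in V belongs to S(V); and for all V, W in U the normalizer of the join of S(V) ∩ S(W) lies in some member of U. Then U has a greatest element. -/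
theorem result {G : Type*} [Group G] [Finite G] (A : Subgroup G) (U : Set (Subgroup G)) (hU : U.Nonempty) (S : Subgroup G → Set (Subgroup G)) (hS : ∀ V B : Subgroup G, B ∈ S V ↔ (∃ g : G, B = MulAut.conj g • A) ∧ B ≤ V ∧ (B.subgroupOf V).IsSubnormal) (h1 : ∀ V ∈ U, A ∈ S V) (h2 : ∀ V ∈ U, ∀ W ∈ U, ∀ B ∈ S W, B ≤ V → B ∈ S V) (h3 : ∀ V ∈ U, ∀ W ∈ U, ∃ X ∈ U, Subgroup.normalizer ((sSup (S V ∩ S W) : Subgroup G) : Set G) ≤ X) : ∃ M ∈ U, ∀ V ∈ U, V ≤ M := by
  classical
  have hSinv : ∀ V B : Subgroup G, B ∈ S V → ∀ v ∈ V, MulAut.conj v • B ∈ S V := by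
    intro V B hB v hv
    obtain ⟨⟨g, rfl⟩, hBV, hBsn⟩ := (hS V _).mp hB
    rw [hS]
    refine ⟨⟨v * g, (conj_smul_smul A v g).symm⟩, ?_, ?_⟩
    · intro x hx
      rw [mem_conj_smul_iff] at hx
      have h1 := hBV hx
      have : x = v * (v⁻¹ * x * v) * v⁻¹ := by group
      rw [this]
      exact V.mul_mem (V.mul_mem hv h1) (V.inv_mem hv)
    · rw [← conj_smul_subgroupOf V _ ⟨v, hv⟩]
      exact hBsn.smul _
  have hSle : ∀ V B : Subgroup G, B ∈ S V → B ≤ V := fun V B hB => ((hS V B).mp hB).2.1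
  have hSsn : ∀ V B : Subgroup G, B ∈ S V → (B.subgroupOf V).IsSubnormal :=
    fun V B hB => ((hS V B).mp hB).2.2
  have hL : ∀ (V : Subgroup G) (T₀ : Set (Subgroup G)), T₀ ⊂ S V →
      ∃ B ∈ S V, B ∉ T₀ ∧ B ≤ normalizer ((sSup T₀ : Subgroup G) : Set G) := by
    intro V T₀ h
    exact wielandt_normalizer_rel V (S V) T₀ (hSle V) (hSsn V) (hSinv V) h
  by_cases huniq : ∀ V W : Subgroup G, Maximal (· ∈ U) V → Maximal (· ∈ U) W → V = W
  · obtain ⟨V₀, hV₀⟩ := hU
    obtain ⟨M, -, hM⟩ := Finite.exists_le_maximal (p := (· ∈ U)) hV₀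
    refine ⟨M, hM.prop, ?_⟩
    intro V hV
    obtain ⟨M', hVM', hM'⟩ := Finite.exists_le_maximal (p := (· ∈ U)) hV
    rw [huniq M M' hM hM']; exact hVM'
  exfalso
  have hne : {p : Subgroup G × Subgroup G |
      Maximal (· ∈ U) p.1 ∧ Maximal (· ∈ U) p.2 ∧ p.1 ≠ p.2}.Nonempty := by
    by_contra hcon
    apply huniq
    intro V W hV hW
    by_contra hVW
    exact hcon ⟨(V, W), hV, hW, hVW⟩
  obtain ⟨⟨V, W⟩, ⟨hVmax, hWmax, hVW⟩, hbest⟩ := Set.Finite.exists_maximalFor
    (fun p : Subgroup G × Subgroup G => (S p.1 ∩ S p.2).ncard) _ (Set.toFinite _) hne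
  simp only at hVmax hWmax hVW hbest
  obtain ⟨X, hXU, hNX⟩ := h3 V hVmax.prop W hWmax.prop
  obtain ⟨M, hXM, hMmax⟩ := Finite.exists_le_maximal (p := (· ∈ U)) hXU
  have hNM : normalizer ((sSup (S V ∩ S W) : Subgroup G) : Set G) ≤ M := hNX.trans hXM
  have hF1 : ∀ C ∈ S V ∩ S W, C ≤ M :=
    fun C hC => ((le_sSup hC).trans le_normalizer).trans hNM
  have claim : ∀ V' : Subgroup G, Maximal (· ∈ U) V' → S V ∩ S W ⊆ S V' →
      (∀ C ∈ S V ∩ S W, C ∈ S M) → V' = M := by
    intro V' hV'max hsub hF2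
    by_cases heq : S V ∩ S W = S V'
    · have hle : V' ≤ M := by
        refine le_trans ?_ hNM
        intro v hv
        apply mem_normalizer_of_conj_smul_le
        rw [conj_smul_le_iff]
        apply sSup_le
        intro B hB
        rw [← conj_smul_le_iff]
        apply le_sSup
        rw [heq] at hB ⊢
        exact hSinv V' B hB v hv
      exact le_antisymm hle (hV'max.2 hMmax.prop hle)
    · have hss : S V ∩ S W ⊂ S V' := lt_of_le_of_ne hsub heq
      obtain ⟨B, hB, hBn, hBN⟩ := hL V' _ hss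
      have hBM : B ∈ S M := h2 M hMmax.prop V' hV'max.prop B hB (hBN.trans hNM)
      by_contra hV'M
      have hpair : ((V', M) : Subgroup G × Subgroup G) ∈ {p : Subgroup G × Subgroup G |
          Maximal (· ∈ U) p.1 ∧ Maximal (· ∈ U) p.2 ∧ p.1 ≠ p.2} := ⟨hV'max, hMmax, hV'M⟩
      have hlt : (S V ∩ S W).ncard < (S V' ∩ S M).ncard := by
        apply Set.ncard_lt_ncard _ (Set.toFinite _)
        constructor
        · intro C hC; exact ⟨hsub hC, hF2 C hC⟩
        · intro hcon; exact hBn (hcon ⟨hB, hBM⟩)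
      have := hbest hpair hlt.le
      exact absurd this (not_le.mpr hlt)
  have hF2 : ∀ C ∈ S V ∩ S W, C ∈ S M :=
    fun C hC => h2 M hMmax.prop V hVmax.prop C hC.1 (hF1 C hC)
  have e1 := claim V hVmax Set.inter_subset_left hF2
  have e2 := claim W hWmax Set.inter_subset_right hF2
  exact hVW (e1.trans e2.symm)

end Cfsg.Agent.S0540
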