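import Cfsg.Statements.S0546
import Mathlib
import Cfsg.Agent.Lib.Helper9.SysNorm

set_option autoImplicit false
open Cfsg

namespace Cfsg.Agent.S0546


open Subgroup
open scoped Pointwise commutatorElement
open Cfsg.Agent.Lib.Helper9


/-- The normal closure of a system normalizer of a finite solvable group is the whole group. -/
theorem result {G : Type*} [Group G] [Finite G] [Group.IsSolvable G] (K : Nat.Primes → Subgroup G) (hK : Cfsg.IsComplementSystem K) : Subgroup.normalClosure ((Cfsg.systemNormalizer K : Subgroup G) : Set G) = ⊤ := by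
  by_contra hne
  have hCn : (normalClosure ((Cfsg.systemNormalizer K : Subgroup G) : Set G)).Normal :=
    Subgroup.normalClosure_normal
  have hDC : Cfsg.systemNormalizer K ≤ normalClosure ((Cfsg.systemNormalizer K : Subgroup G) : Set G) :=
    Subgroup.le_normalClosure
  generalize normalClosure ((Cfsg.systemNormalizer K : Subgroup G) : Set G) = C at hne hCn hDC
  have hQnt : Nontrivial (G ⧸ C) :=
    not_subsingleton_iff_nontrivial.mp (fun h => hne (QuotientGroup.subsingleton_iff.mp h))
  have hlt := Group.IsSolvable.commutator_lt_top_of_nontrivial (G ⧸ C)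
  have hMn : (C ⊔ commutator G).Normal := inferInstance
  have hMne : C ⊔ commutator G ≠ ⊤ := by
    intro h
    apply hlt.ne
    have h1 := congrArg (Subgroup.map (QuotientGroup.mk' C)) h
    rw [Subgroup.map_sup, Subgroup.map_top_of_surjective _ (QuotientGroup.mk'_surjective C),
      commutator_def, Subgroup.map_commutator,
      Subgroup.map_top_of_surjective _ (QuotientGroup.mk'_surjective C)] at h1
    have h2 : C.map (QuotientGroup.mk' C) = ⊥ := by
      rw [eq_bot_iff]
      rintro _ ⟨c, hc, rfl⟩
      rw [mem_bot]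
      exact (QuotientGroup.eq_one_iff c).mpr hc
    rw [h2, bot_sup_eq] at h1
    rw [commutator_def]; exact h1
  have hDM : Cfsg.systemNormalizer K ≤ C ⊔ commutator G := hDC.trans le_sup_left
  have hcM : commutator G ≤ C ⊔ commutator G := le_sup_right
  generalize C ⊔ commutator G = M at hMn hMne hDM hcM
  have hcomm : ∀ a b : G ⧸ M, a * b * a⁻¹ = b := by
    intro a b
    obtain ⟨a, rfl⟩ := QuotientGroup.mk'_surjective M a
    obtain ⟨b, rfl⟩ := QuotientGroup.mk'_surjective M b
    have h1 : a * b * a⁻¹ * b⁻¹ ∈ M := by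
      apply hcM
      rw [commutator_def]
      exact Subgroup.commutator_mem_commutator (Subgroup.mem_top a) (Subgroup.mem_top b)
    have h2 : (QuotientGroup.mk' M) (a * b * a⁻¹ * b⁻¹) = 1 := (QuotientGroup.eq_one_iff _).mpr h1
    rw [map_mul, map_inv, mul_inv_eq_one, map_mul, map_mul, map_inv] at h2
    exact h2
  have h1 := Cfsg.Agent.Lib.Helper9.systemNormalizer_map K hK M
  have h2 : (Cfsg.systemNormalizer K).map (QuotientGroup.mk' M) = ⊥ := by
    rw [eq_bot_iff]
    rintro _ ⟨c, hc, rfl⟩
    rw [mem_bot]
    exact (QuotientGroup.eq_one_iff c).mpr (hDM hc)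
  have h3 : Cfsg.systemNormalizer (fun p => (K p).map (QuotientGroup.mk' M)) = ⊤ := by
    rw [eq_top_iff]
    intro y _
    refine Subgroup.mem_iInf.mpr (fun p => ?_)
    rw [mem_normalizer_iff]
    intro h
    rw [hcomm y h]
  rw [h2] at h1
  rw [h1] at h3
  apply hMne
  apply QuotientGroup.subsingleton_iff.mp
  constructor
  intro a b
  have ha : a ∈ (⊥ : Subgroup (G ⧸ M)) := by rw [h3]; exact Subgroup.mem_top a
  have hb : b ∈ (⊥ : Subgroup (G ⧸ M)) := by rw [h3]; exact Subgroup.mem_top b
  rw [mem_bot] at ha hb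
  rw [ha, hb]

end Cfsg.Agent.S0546
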