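import Cfsg.Statements.S0547
import Mathlib
import Cfsg.Agent.Lib.Helper9.PrimSolv

set_option autoImplicit false
open Cfsg

namespace Cfsg.Agent.S0547

open Cfsg.Agent.Lib.Helper9


/-- Let a finite solvable group G act faithfully and primitively on a set, and let M be a minimal normal subgroup of G. Then M is transitive with trivial point stabilizers, and the number of points equals the order of M, which is a prime power p ^ d with d ≥ 1. -/
theorem result {G : Type*} [Group G] [Finite G] [Group.IsSolvable G] {Ω : Type*} [Nonempty Ω] [MulAction G Ω] [FaithfulSMul G Ω] (hprim : MulAction.IsPreprimitive G Ω) (M : Subgroup G) [M.Normal] (hM : M ≠ ⊥) (hmin : ∀ K : Subgroup G, K.Normal → K ≤ M → K = ⊥ ∨ K = M) : MulAction.IsPretransitive M Ω ∧ (∀ ω : Ω, MulAction.stabilizer M ω = ⊥) ∧ ∃ p d : ℕ, p.Prime ∧ 0 < d ∧ Nat.card Ω = p ^ d ∧ Nat.card M = p ^ d := by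
  have hc := minimal_normal_comm M hM hmin
  have htr : MulAction.IsPretransitive M Ω := prim_isPretransitive hprim M hM
  have hstab : ∀ ω : Ω, MulAction.stabilizer M ω = ⊥ := fun ω => stabilizer_eq_bot_of_comm M hc ω
  refine ⟨htr, hstab, ?_⟩
  obtain ⟨p, d, hp, hd, hcard⟩ := minimal_normal_card M hM hmin
  refine ⟨p, d, hp, hd, ?_, hcard⟩
  rw [← hcard]
  obtain ⟨ω₀⟩ := ‹Nonempty Ω›
  symm
  apply Nat.card_congr
  refine Equiv.ofBijective (fun m : M => m • ω₀) ⟨?_, ?_⟩
  · intro m m' h
    replace h : m • ω₀ = m' • ω₀ := h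
    have h1 : m'⁻¹ * m ∈ MulAction.stabilizer M ω₀ := by
      rw [MulAction.mem_stabilizer_iff, mul_smul]
      show m'⁻¹ • (m • ω₀) = ω₀
      rw [h, inv_smul_smul]
    rw [hstab ω₀, Subgroup.mem_bot, inv_mul_eq_one] at h1
    exact h1.symm
  · intro a
    exact MulAction.exists_smul_eq M ω₀ a

end Cfsg.Agent.S0547
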