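import Cfsg.Statements.S0548
import Mathlib
import Cfsg.Agent.Lib.Helper9.PrimSolv

set_option autoImplicit false
open Cfsg

namespace Cfsg.Agent.S0548

open Cfsg.Agent.Lib.Helper9
open scoped Pointwise


/-- Let a finite solvable group G act faithfully and primitively on a set, let M be a minimal normal subgroup and H the stabilizer of a point. Then H is a complement to M, no non-identity element of H centralizes M, and the only subgroups of M normalized by H are the trivial subgroup and M. -/
theorem result {G : Type*} [Group G] [Finite G] [Group.IsSolvable G] {Ω : Type*} [MulAction G Ω] [FaithfulSMul G Ω] (hprim : MulAction.IsPreprimitive G Ω) (M : Subgroup G) [M.Normal] (hM : M ≠ ⊥) (hmin : ∀ K : Subgroup G, K.Normal → K ≤ M → K = ⊥ ∨ K = M) (ω : Ω) : Subgroup.IsComplement' M (MulAction.stabilizer G ω) ∧ MulAction.stabilizer G ω ⊓ Subgroup.centralizer (M : Set G) = ⊥ ∧ ∀ K : Subgroup G, K ≤ M → MulAction.stabilizer G ω ≤ Subgroup.normalizer (K : Set G) → K = ⊥ ∨ K = M := by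
  have hc := minimal_normal_comm M hM hmin
  have htr : MulAction.IsPretransitive M Ω := prim_isPretransitive hprim M hM
  have hstab : MulAction.stabilizer M ω = ⊥ := stabilizer_eq_bot_of_comm M hc ω
  have hmul : (M : Set G) * (MulAction.stabilizer G ω : Set G) = Set.univ := by
    ext g
    simp only [Set.mem_univ, iff_true]
    obtain ⟨m, hm⟩ := MulAction.exists_smul_eq M ω (g • ω)
    refine ⟨(m : G), m.2, (m : G)⁻¹ * g, ?_, by group⟩
    rw [SetLike.mem_coe, MulAction.mem_stabilizer_iff, mul_smul, ← hm]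
    show (m : G)⁻¹ • ((m : G) • ω) = ω
    rw [inv_smul_smul]
  refine ⟨?_, ?_, ?_⟩
  · apply Subgroup.isComplement'_of_disjoint_and_mul_eq_univ _ hmul
    rw [disjoint_iff, eq_bot_iff]
    rintro x ⟨hxM, hxH⟩
    have h1 : (⟨x, hxM⟩ : M) ∈ MulAction.stabilizer M ω := by
      rw [MulAction.mem_stabilizer_iff]
      exact hxH
    rw [hstab, Subgroup.mem_bot] at h1
    rw [Subgroup.mem_bot]
    exact congrArg Subtype.val h1
  · rw [eq_bot_iff]
    rintro h ⟨hhH, hhC⟩
    rw [Subgroup.mem_bot]
    apply FaithfulSMul.eq_of_smul_eq_smul (α := Ω)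
    intro a
    obtain ⟨x, rfl⟩ := MulAction.exists_smul_eq M ω a
    show h • ((x : G) • ω) = (1 : G) • ((x : G) • ω)
    rw [one_smul, ← mul_smul, ← Subgroup.mem_centralizer_iff.mp hhC x x.2, mul_smul]
    congr 1
  · intro K hKM hHK
    apply hmin K _ hKM
    constructor
    intro k hk g
    have hg : g ∈ (M : Set G) * (MulAction.stabilizer G ω : Set G) := by rw [hmul]; trivial
    obtain ⟨m, hm, h, hh, rfl⟩ := hg
    have h1 : h * k * h⁻¹ ∈ K := (Subgroup.mem_normalizer_iff.mp (hHK hh) k).mp hk
    have h2 : m * h * k * (m * h)⁻¹ = h * k * h⁻¹ := by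
      have h3 := hc m hm (h * k * h⁻¹) (hKM h1)
      calc m * h * k * (m * h)⁻¹ = m * (h * k * h⁻¹) * m⁻¹ := by group
        _ = h * k * h⁻¹ := by rw [h3]; group
    rw [h2]; exact h1

end Cfsg.Agent.S0548
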