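import Cfsg.Statements.S0550
import Mathlib
import Cfsg.Agent.Lib.Helper9.CoreFree

set_option autoImplicit false
open Cfsg

namespace Cfsg.Agent.S0550

open Cfsg.Agent.Lib.Helper9
open scoped Pointwise

/-- Let U be a maximal subgroup with trivial normal core in a finite group G, and A ≠ B two minimal normal subgroups. Then A is the centralizer of B and B that of A, U complements each of them, A and B are non-abelian, and A, B and (A ⊔ B) ∩ U are pairwise isomorphic. -/
theorem result {G : Type*} [Group G] [Finite G] (U : Subgroup G) (hU : IsCoatom U) (hcore : U.normalCore = ⊥) (A B : Subgroup G) [A.Normal] [B.Normal] (hA : A ≠ ⊥) (hB : B ≠ ⊥) (hAmin : ∀ K : Subgroup G, K.Normal → K ≤ A → K = ⊥ ∨ K = A) (hBmin : ∀ K : Subgroup G, K.Normal → K ≤ B → K = ⊥ ∨ K = B) (hAB : A ≠ B) : Subgroup.centralizer (B : Set G) = A ∧ Subgroup.centralizer (A : Set G) = B ∧ Subgroup.IsComplement' A U ∧ Subgroup.IsComplement' B U ∧ ¬ IsMulCommutative A ∧ Nonempty (A ≃* B) ∧ Nonempty (A ≃* ↥((A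 ⊔ B) ⊓ U)) := by
  have hAn : A.Normal := inferInstance
  have hBn : B.Normal := inferInstance
  have hinf : A ⊓ B = ⊥ := by
    rcases hAmin (A ⊓ B) inferInstance inf_le_left with h | h
    · exact h
    · exfalso
      have hle : A ≤ B := by rw [← h]; exact inf_le_right
      rcases hBmin A hAn hle with h' | h'
      · exact hA h'
      · exact hAB h'
  have hAcB : A ≤ Subgroup.centralizer (B : Set G) := by
    rw [← Subgroup.commutator_eq_bot_iff_le_centralizer, ← le_bot_iff, ← hinf]
    exact Subgroup.commutator_le_inf A B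
  have hBcA : B ≤ Subgroup.centralizer (A : Set G) := by
    rw [← Subgroup.commutator_eq_bot_iff_le_centralizer, ← le_bot_iff, ← hinf, inf_comm]
    exact Subgroup.commutator_le_inf B A
  have hcB : Subgroup.centralizer (B : Set G) = A := by
    rcases centralizer_minimal_of_corefree hU hcore B hB A hAn hAcB with h | h
    · exact absurd h hA
    · exact h.symm
  have hcA : Subgroup.centralizer (A : Set G) = B := by
    rcases centralizer_minimal_of_corefree hU hcore A hA B hBn hBcA with h | h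
    · exact absurd h hB
    · exact h.symm
  have hAU : A ⊓ U = ⊥ := by
    rw [← hcB]; exact centralizer_inf_eq_bot_of_corefree hU hcore B hB
  have hBU : B ⊓ U = ⊥ := by
    rw [← hcA]; exact centralizer_inf_eq_bot_of_corefree hU hcore A hA
  have cAU : Subgroup.IsComplement' A U := by
    apply Subgroup.isComplement'_of_disjoint_and_mul_eq_univ (disjoint_iff.mpr hAU)
    rw [← Subgroup.normal_mul, sup_eq_top_of_corefree hU hcore hAn hA, Subgroup.coe_top]
  have cBU : Subgroup.IsComplement' B U := by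
    apply Subgroup.isComplement'_of_disjoint_and_mul_eq_univ (disjoint_iff.mpr hBU)
    rw [← Subgroup.normal_mul, sup_eq_top_of_corefree hU hcore hBn hB, Subgroup.coe_top]
  have hdec : ∀ (K : Subgroup G), K.Normal → K ≠ ⊥ → K ≤ A ⊔ B →
      ∀ x ∈ A ⊔ B, ∃ h ∈ (A ⊔ B) ⊓ U, ∃ k ∈ K, x = h * k := by
    intro K hKn hK hKle x hx
    have h1 : x ∈ U ⊔ K := by
      rw [sup_comm, sup_eq_top_of_corefree hU hcore hKn hK]; exact Subgroup.mem_top x
    rw [← SetLike.mem_coe, Subgroup.mul_normal] at h1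
    obtain ⟨u, hu, k, hk, rfl⟩ := h1
    refine ⟨u, ⟨?_, hu⟩, k, hk, rfl⟩
    have : u = u * k * k⁻¹ := by group
    rw [this]
    exact Subgroup.mul_mem _ hx (Subgroup.inv_mem _ (hKle hk))
  have pA : ∀ x ∈ A ⊔ B, ∃ h ∈ A, ∃ k ∈ B, x = h * k := by
    intro x hx
    rw [← SetLike.mem_coe, Subgroup.mul_normal] at hx
    obtain ⟨a, ha, b, hb, rfl⟩ := hx
    exact ⟨a, ha, b, hb, rfl⟩
  have pB : ∀ x ∈ A ⊔ B, ∃ h ∈ B, ∃ k ∈ A, x = h * k := by
    intro x hx
    rw [sup_comm, ← SetLike.mem_coe, Subgroup.mul_normal] at hx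
    obtain ⟨b, hb, a, ha, rfl⟩ := hx
    exact ⟨b, hb, a, ha, rfl⟩
  have dDB : Disjoint ((A ⊔ B) ⊓ U) B := by
    rw [disjoint_iff, ← le_bot_iff, ← hBU]
    exact le_inf inf_le_right (inf_le_left.trans inf_le_right)
  have dDA : Disjoint ((A ⊔ B) ⊓ U) A := by
    rw [disjoint_iff, ← le_bot_iff, ← hAU]
    exact le_inf inf_le_right (inf_le_left.trans inf_le_right)
  have eAD := nonempty_mulEquiv_of_complements_in (A ⊔ B) B A ((A ⊔ B) ⊓ U) le_sup_right
    le_sup_left inf_le_left (disjoint_iff.mpr hinf) dDB pA (hdec B hBn hB le_sup_right)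
  have eBD := nonempty_mulEquiv_of_complements_in (A ⊔ B) A B ((A ⊔ B) ⊓ U) le_sup_left
    le_sup_right inf_le_left (disjoint_iff.mpr (inf_comm A B ▸ hinf)) dDA pB
    (hdec A hAn hA le_sup_left)
  refine ⟨hcB, hcA, cAU, cBU, ?_, ?_, eAD⟩
  · intro hcomm
    have hle : A ≤ B := by
      rw [← hcA]; exact Subgroup.le_centralizer_iff_isMulCommutative.mpr hcomm
    rcases hBmin A hAn hle with h' | h'
    · exact hA h'
    · exact hAB h'
  · obtain ⟨e1⟩ := eAD
    obtain ⟨e2⟩ := eBD
    exact ⟨e1.trans e2.symm⟩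

end Cfsg.Agent.S0550
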