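import Cfsg.Statements.S0587
import Mathlib
import Cfsg.Agent.Lib.Helper9.CoreFree
import Cfsg.Agent.Lib.Helper7.PCore

set_option autoImplicit false
open Cfsg

namespace Cfsg.Agent.S0587


open Subgroup
open scoped Pointwise
open Cfsg.Agent.Lib.Helper9 Cfsg.Agent.Lib.Helper7

section
variable {G : Type*} [Group G]

theorem centralizer_eq_self {M : Subgroup G} (hM : IsCoatom M) (hcore : M.normalCore = ⊥)
    (A : Subgroup G) [hAn : A.Normal] (hA : A ≠ ⊥) (hc : ∀ a ∈ A, ∀ b ∈ A, a * b = b * a) :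
    centralizer (A : Set G) = A := by
  have hle : A ≤ centralizer (A : Set G) :=
    fun a ha => mem_centralizer_iff.mpr (fun b hb => hc b hb a ha)
  rcases centralizer_minimal_of_corefree hM hcore A hA A hAn hle with h | h
  · exact absurd h hA
  · exact h.symm

variable [Finite G]

theorem pCore_comm (p : ℕ) [Fact p.Prime] (hL : Cfsg.pCore p G ≠ ⊥) {M : Subgroup G}
    (hM : IsCoatom M) (hcore : M.normalCore = ⊥) :
    ∀ a ∈ Cfsg.pCore p G, ∀ b ∈ Cfsg.pCore p G, a * b = b * a := by
  have hLn : (Cfsg.pCore p G).Normal := pCore_normal p G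
  have hLp : IsPGroup p (Cfsg.pCore p G) := pCore_isPGroup p G
  generalize Cfsg.pCore p G = L at hL hLn hLp
  have : Nontrivial L := (Subgroup.nontrivial_iff_ne_bot L).mpr hL
  have hZ : ⊥ < Subgroup.center L := hLp.bot_lt_center
  have hZn : ((Subgroup.center L).map L.subtype).Normal :=
    ConjAct.normal_of_characteristic_of_normal
  have hZne : (Subgroup.center L).map L.subtype ≠ ⊥ := by
    intro h
    rw [Subgroup.map_eq_bot_iff_of_injective _ L.subtype_injective] at h
    exact hZ.ne' h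
  have hZc : ∀ a ∈ (Subgroup.center L).map L.subtype,
      ∀ b ∈ (Subgroup.center L).map L.subtype, a * b = b * a := by
    rintro _ ⟨a, ha, rfl⟩ _ ⟨b, hb, rfl⟩
    have h1 := Subgroup.mem_center_iff.mp ha b
    exact congrArg Subtype.val h1.symm
  have hCZ := centralizer_eq_self hM hcore _ hZne hZc
  have hLZ : L ≤ (Subgroup.center L).map L.subtype := by
    rw [← hCZ]
    intro l hl
    rw [mem_centralizer_iff]
    rintro _ ⟨z, hz, rfl⟩
    have h1 := Subgroup.mem_center_iff.mp hz ⟨l, hl⟩
    exact congrArg Subtype.val h1.symm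
  intro a ha b hb
  exact hZc a (hLZ ha) b (hLZ hb)

theorem card_pCore_mod (p : ℕ) [Fact p.Prime] (hL : Cfsg.pCore p G ≠ ⊥) {M : Subgroup G}
    (hM : IsCoatom M) (hcore : M.normalCore = ⊥)
    (hc : ∀ a ∈ Cfsg.pCore p G, ∀ b ∈ Cfsg.pCore p G, a * b = b * a)
    (hmin : ∀ K : Subgroup G, K.Normal → K ≤ Cfsg.pCore p G → K = ⊥ ∨ K = Cfsg.pCore p G)
    (q : ℕ) [Fact q.Prime] (hQ : Cfsg.pCore q ↥M ≠ ⊥) :
    Nat.card (Cfsg.pCore p G) % q = 1 % q := by
  classical
  have hLn : (Cfsg.pCore p G).Normal := pCore_normal p G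
  have hQ'n : (Cfsg.pCore q ↥M).Normal := pCore_normal q M
  have hQ'p : IsPGroup q (Cfsg.pCore q ↥M) := pCore_isPGroup q M
  generalize Cfsg.pCore q ↥M = Q' at hQ hQ'n hQ'p
  generalize Cfsg.pCore p G = L at hL hc hmin hLn
  have hCn : (L ⊓ centralizer ((Q'.map M.subtype : Subgroup G) : Set G)).Normal := by
    constructor
    intro x hx g
    obtain ⟨l, hl, u, hu, rfl⟩ := exists_mul_of_corefree hM hcore hLn hL g
    have h1 : u * x * u⁻¹ ∈ L ⊓ centralizer ((Q'.map M.subtype : Subgroup G) : Set G) := by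
      refine ⟨hLn.conj_mem x hx.1 u, ?_⟩
      refine mem_centralizer_iff.mpr ?_
      rintro _ ⟨y, hy, rfl⟩
      have hy' : (⟨u, hu⟩ : M)⁻¹ * y * (⟨u, hu⟩ : M) ∈ Q' := by
        have := hQ'n.conj_mem y hy (⟨u, hu⟩ : M)⁻¹
        simpa using this
      have h2 := mem_centralizer_iff.mp hx.2 (u⁻¹ * (y : G) * u) ⟨_, hy', by simp⟩
      calc (y : G) * (u * x * u⁻¹) = u * ((u⁻¹ * (y : G) * u) * x) * u⁻¹ := by group
        _ = u * (x * (u⁻¹ * (y : G) * u)) * u⁻¹ := by rw [h2]
        _ = u * x * u⁻¹ * (y : G) := by group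
    have h3 : l * u * x * (l * u)⁻¹ = u * x * u⁻¹ := by
      have h4 := hc l hl (u * x * u⁻¹) h1.1
      calc l * u * x * (l * u)⁻¹ = l * (u * x * u⁻¹) * l⁻¹ := by group
        _ = u * x * u⁻¹ := by rw [h4]; group
    rw [h3]; exact h1
  have hCbot : L ⊓ centralizer ((Q'.map M.subtype : Subgroup G) : Set G) = ⊥ := by
    rcases hmin _ hCn inf_le_left with h | h
    · exact h
    · exfalso
      have h1 : L ≤ centralizer ((Q'.map M.subtype : Subgroup G) : Set G) := by
        rw [← h]; exact inf_le_right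
      have h2 : Q'.map M.subtype ≤ centralizer (L : Set G) ⊓ M :=
        le_inf (Subgroup.le_centralizer_iff.mp h1) (map_subtype_le _)
      rw [centralizer_inf_eq_bot_of_corefree hM hcore L hL, le_bot_iff,
        Subgroup.map_eq_bot_iff_of_injective _ M.subtype_injective] at h2
      exact hQ h2
  let act : MulAction Q' L := MulAction.compHom L
    ((MulAut.conjNormal : G →* MulAut L).comp (M.subtype.comp Q'.subtype))
  have hsmul : ∀ (y : Q') (x : L), ((y • x : L) : G) = ((y : M) : G) * x * ((y : M) : G)⁻¹ :=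
    fun y x => rfl
  have hmod := hQ'p.card_modEq_card_fixedPoints L
  have hfix : Nat.card (MulAction.fixedPoints Q' L) = 1 := by
    rw [Nat.card_eq_one_iff_unique]
    refine ⟨⟨?_⟩, ⟨⟨1, ?_⟩⟩⟩
    · have key : ∀ x : MulAction.fixedPoints Q' L, x = ⟨1, fun y => by
          apply Subtype.ext; rw [hsmul]; simp⟩ := by
        rintro ⟨x, hx⟩
        apply Subtype.ext
        show x = 1
        have hxC : (x : G) ∈ L ⊓ centralizer ((Q'.map M.subtype : Subgroup G) : Set G) := by
          refine ⟨x.2, ?_⟩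
          refine mem_centralizer_iff.mpr ?_
          rintro _ ⟨y, hy, rfl⟩
          have h1 := congrArg Subtype.val (hx ⟨y, hy⟩)
          rw [hsmul] at h1
          have h2 : ((y : M) : G) * (x : G) = (x : G) * ((y : M) : G) := by
            calc ((y : M) : G) * (x : G)
                = (((y : M) : G) * (x : G) * ((y : M) : G)⁻¹) * ((y : M) : G) := by group
              _ = (x : G) * ((y : M) : G) := by rw [h1]
          exact h2
        rw [hCbot, mem_bot] at hxC
        exact Subtype.ext hxC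
      intro a b
      rw [key a, key b]
    · intro y
      apply Subtype.ext; rw [hsmul]; simp
  rw [hfix] at hmod
  exact hmod
end


/-- Let G be a finite group whose largest normal p-subgroup L is nontrivial, and M a maximal subgroup of G with trivial normal core. Then L is elementary abelian, M is a complement to L, L is a minimal normal subgroup of G, the centralizer of L is L, and for every prime q such that the largest normal q-subgroup of M is nontrivial, the order of L is congruent to 1 modulo q and q ≠ p. -/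
theorem result {G : Type*} [Group G] [Finite G] (p : ℕ) [Fact p.Prime] (hL : Cfsg.pCore p G ≠ ⊥) (M : Subgroup G) (hM : IsCoatom M) (hcore : M.normalCore = ⊥) : Cfsg.IsElementaryAbelian p (Cfsg.pCore p G) ∧ Subgroup.IsComplement' (Cfsg.pCore p G) M ∧ (∀ K : Subgroup G, K.Normal → K ≤ Cfsg.pCore p G → K = ⊥ ∨ K = Cfsg.pCore p G) ∧ Subgroup.centralizer ((Cfsg.pCore p G : Subgroup G) : Set G) = Cfsg.pCore p G ∧ ∀ (q : ℕ) [Fact q.Prime], Cfsg.pCore q ↥M ≠ ⊥ → Nat.card (Cfsg.pCore p G) % q = 1 % q ∧ q ≠ p := by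
  classical
  have hLn : (Cfsg.pCore p G).Normal := pCore_normal p G
  have hLp : IsPGroup p (Cfsg.pCore p G) := pCore_isPGroup p G
  have hc := pCore_comm p hL hM hcore
  have hCL : centralizer ((Cfsg.pCore p G : Subgroup G) : Set G) = Cfsg.pCore p G :=
    centralizer_eq_self hM hcore _ hL hc
  have hLM : Cfsg.pCore p G ⊓ M = ⊥ := by
    have h1 := centralizer_inf_eq_bot_of_corefree hM hcore (Cfsg.pCore p G) hL
    rw [hCL] at h1; exact h1
  have hmin : ∀ K : Subgroup G, K.Normal → K ≤ Cfsg.pCore p G → K = ⊥ ∨ K = Cfsg.pCore p G := by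
    intro K hKn hKL
    by_cases hK : K = ⊥
    · exact Or.inl hK
    · right
      have hCK := centralizer_eq_self hM hcore K hK (fun a ha b hb => hc a (hKL ha) b (hKL hb))
      apply le_antisymm hKL
      rw [← hCK]
      intro l hl
      rw [mem_centralizer_iff]
      intro k hk
      exact hc k (hKL hk) l hl
  have hpd : p ∣ Nat.card (Cfsg.pCore p G) := by
    obtain ⟨k, hk⟩ := IsPGroup.iff_card.mp hLp
    rw [hk]
    cases k with
    | zero => exfalso; rw [pow_zero] at hk; exact hL (Subgroup.card_eq_one.mp hk)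
    | succ k => exact dvd_pow_self p (Nat.succ_ne_zero k)
  have hexp : ∀ a ∈ Cfsg.pCore p G, a ^ p = 1 := by
    let K : Subgroup G :=
      { carrier := {x | x ∈ Cfsg.pCore p G ∧ x ^ p = 1}
        mul_mem' := by
          rintro a b ⟨ha, ha'⟩ ⟨hb, hb'⟩
          refine ⟨(Cfsg.pCore p G).mul_mem ha hb, ?_⟩
          rw [(show Commute a b from hc a ha b hb).mul_pow, ha', hb', one_mul]
        one_mem' := ⟨(Cfsg.pCore p G).one_mem, one_pow p⟩
        inv_mem' := by
          rintro a ⟨ha, ha'⟩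
          exact ⟨(Cfsg.pCore p G).inv_mem ha, by rw [inv_pow, ha', inv_one]⟩ }
    have hKn : K.Normal := by
      constructor
      rintro x ⟨hx, hx'⟩ g
      exact ⟨hLn.conj_mem x hx g, by rw [conj_pow, hx']; group⟩
    have hKL : K ≤ Cfsg.pCore p G := fun x hx => hx.1
    have hKne : K ≠ ⊥ := by
      obtain ⟨x, hx⟩ := exists_prime_orderOf_dvd_card' p hpd
      intro hbot
      have hxp : x ^ p = 1 := by
        have h1 := pow_orderOf_eq_one x
        rw [hx] at h1; exact h1
      have hxK : (x : G) ∈ K :=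
        ⟨x.2, by rw [← Subgroup.coe_pow, hxp]; rfl⟩
      rw [hbot, mem_bot] at hxK
      have hx1 : x = 1 := Subtype.ext hxK
      rw [hx1, orderOf_one] at hx
      exact (Fact.out : p.Prime).one_lt.ne hx
    rcases hmin K hKn hKL with h | h
    · exact absurd h hKne
    · intro a ha
      have h1 : a ∈ K := by rw [h]; exact ha
      exact h1.2
  refine ⟨⟨⟨⟨fun a b => Subtype.ext (hc a a.2 b b.2)⟩⟩, hexp⟩, ?_, hmin, hCL, ?_⟩
  · apply isComplement'_of_disjoint_and_mul_eq_univ (disjoint_iff.mpr hLM)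
    rw [← normal_mul, sup_eq_top_of_corefree hM hcore hLn hL, coe_top]
  · intro q hq hQ
    have hmod := card_pCore_mod p hL hM hcore hc hmin q hQ
    refine ⟨hmod, ?_⟩
    rintro rfl
    have h0 : Nat.card (Cfsg.pCore q G) % q = 0 := Nat.mod_eq_zero_of_dvd hpd
    rw [h0, Nat.mod_eq_of_lt (Fact.out : q.Prime).one_lt] at hmod
    exact zero_ne_one hmod

end Cfsg.Agent.S0587
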