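import Cfsg.Statements.S0551
import Mathlib
import Cfsg.Agent.S0587
import Cfsg.Agent.Lib.Helper9.MinNormal
import Cfsg.Agent.Lib.Helper9.PrimSolv
import Cfsg.Agent.Lib.Helper9.ConjLemmas
import Cfsg.Agent.Lib.Helper7.Hall

set_option autoImplicit false
open Pointwise
open Cfsg

namespace Cfsg.Agent.S0551


open Subgroup
open scoped Pointwise
open Cfsg.Agent.Lib.Helper9 Cfsg.Agent.Lib.Helper7

section
variable {G : Type*} [Group G]

theorem normalizer_inf_eq {M W : Subgroup G} (hMn : M.Normal) (hW : IsCoatom W)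
    (hWc : W.normalCore = ⊥) (hne : M ⊓ W ≠ ⊥) : normalizer ((M ⊓ W : Subgroup G) : Set G) = W := by
  have hle : W ≤ normalizer ((M ⊓ W : Subgroup G) : Set G) := by
    intro w hw
    rw [mem_normalizer_iff]
    intro y
    have h1 : w * y * w⁻¹ ∈ M ↔ y ∈ M := by
      constructor
      · intro h; have := hMn.conj_mem _ h w⁻¹; simpa [mul_assoc] using this
      · intro h; exact hMn.conj_mem _ h w
    have h2 : w * y * w⁻¹ ∈ W ↔ y ∈ W := by
      rw [W.mul_mem_cancel_right (W.inv_mem hw), W.mul_mem_cancel_left hw]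
    rw [mem_inf, mem_inf, h1, h2]
  rcases hW.le_iff.mp hle with h | h
  · exfalso
    have hn : (M ⊓ W).Normal := normalizer_eq_top_iff.mp h
    have := (normal_le_normalCore (hN := hn)).mpr inf_le_right
    rw [hWc] at this
    exact hne (le_bot_iff.mp this)
  · exact h

theorem conj_of_normalizer {A B U V : Subgroup G} (g : G) (hAB : MulAut.conj g • A = B)
    (hU : normalizer (A : Set G) = U) (hV : normalizer (B : Set G) = V) :
    MulAut.conj g • U = V := by
  ext x
  rw [Cfsg.Agent.Lib.Helper9.mem_conj_smul_iff, ← hU, ← hV, ← conj_smul_eq_self_iff_mem_normalizer,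
    ← conj_smul_eq_self_iff_mem_normalizer, conj_smul_smul, conj_smul_smul, ← hAB]
  constructor
  · intro h
    have h2 := congrArg (fun S => MulAut.conj g • S) h
    rw [conj_smul_smul_inv] at h2
    exact h2
  · intro h
    rw [h, conj_smul_inv_smul]

end


/-- In a finite solvable group all core-free maximal subgroups are conjugate. -/
theorem result {G : Type*} [Group G] [Finite G] [Group.IsSolvable G] (U V : Subgroup G) (hU : IsCoatom U) (hV : IsCoatom V) (hUc : U.normalCore = ⊥) (hVc : V.normalCore = ⊥) : ∃ g : G, MulAut.conj g • U = V := by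
  classical
  have hGnt : Nontrivial G := Subgroup.nontrivial_iff.mp (nontrivial_of_ne U ⊤ hU.1)
  obtain ⟨N, hNn, hN, hmin⟩ := exists_minimal_normal G
  have hcomm := minimal_normal_comm N hN hmin
  obtain ⟨p, d, hp, hd, hNcard⟩ := minimal_normal_card N hN hmin
  have hCN : centralizer (N : Set G) = N := Cfsg.Agent.S0587.centralizer_eq_self hU hUc N hN hcomm
  have hNU : N ⊓ U = ⊥ := by
    have := centralizer_inf_eq_bot_of_corefree hU hUc N hN
    rwa [hCN] at this
  have hNV : N ⊓ V = ⊥ := by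
    have := centralizer_inf_eq_bot_of_corefree hV hVc N hN
    rwa [hCN] at this
  by_cases hNtop : N = ⊤
  · rw [hNtop, top_inf_eq] at hNU hNV
    refine ⟨1, ?_⟩
    rw [hNU, hNV]
    simp
  have hQnt : Nontrivial (G ⧸ N) :=
    not_subsingleton_iff_nontrivial.mp (fun h => hNtop (QuotientGroup.subsingleton_iff.mp h))
  obtain ⟨Q, q, hQn, hQne, hq, hQq⟩ := exists_normal_pgroup (G ⧸ N)
  have hMn : (Q.comap (QuotientGroup.mk' N)).Normal := hQn.comap _
  have hNM : N ≤ Q.comap (QuotientGroup.mk' N) := by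
    intro n hn
    rw [mem_comap]
    have : (QuotientGroup.mk' N) n = 1 := (QuotientGroup.eq_one_iff n).mpr hn
    rw [this]; exact Q.one_mem
  have hMneN : Q.comap (QuotientGroup.mk' N) ≠ N := by
    intro h
    apply hQne
    rw [← Subgroup.map_comap_eq_self_of_surjective (QuotientGroup.mk'_surjective N) Q, h]
    rw [eq_bot_iff]
    rintro _ ⟨n, hn, rfl⟩
    rw [mem_bot]
    exact (QuotientGroup.eq_one_iff n).mpr hn
  have hMpow : ∀ m ∈ Q.comap (QuotientGroup.mk' N), ∃ k, m ^ (q ^ k) ∈ N := by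
    intro m hm
    obtain ⟨k, hk⟩ := hQq ⟨(QuotientGroup.mk' N) m, hm⟩
    refine ⟨k, ?_⟩
    have h1 : ((QuotientGroup.mk' N) m) ^ (q ^ k) = 1 := by
      have := congrArg Subtype.val hk
      simpa using this
    rw [← map_pow] at h1
    exact (QuotientGroup.eq_one_iff _).mp h1
  have hNpow : ∀ n ∈ N, n ^ (p ^ d) = 1 := by
    intro n hn
    have h1 : (⟨n, hn⟩ : N) ^ Nat.card N = 1 := pow_card_eq_one'
    rw [hNcard] at h1
    have := congrArg Subtype.val h1
    simpa using this
  generalize Q.comap (QuotientGroup.mk' N) = M at hMn hNM hMneN hMpow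
  have hqp : q ≠ p := by
    intro hqp
    subst hqp
    have : Fact q.Prime := ⟨hq⟩
    have hMp : IsPGroup q M := by
      intro m
      obtain ⟨k, hk⟩ := hMpow m m.2
      refine ⟨k + d, ?_⟩
      apply Subtype.ext
      have h1 := hNpow _ hk
      rw [← pow_mul, ← pow_add] at h1
      simpa using h1
    have hML : M ≤ Cfsg.pCore q G := le_pCore hMn hMp
    have hL : Cfsg.pCore q G ≠ ⊥ := by
      intro h
      rw [h] at hML
      exact hN (le_bot_iff.mp (hNM.trans hML))
    have hLc := Cfsg.Agent.S0587.pCore_comm q hL hU hUc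
    apply hMneN
    apply le_antisymm _ hNM
    intro m hm
    rw [← hCN]
    refine mem_centralizer_iff.mpr ?_
    intro n hn
    exact hLc n (hML (hNM hn)) m (hML hm)
  have hcop : Nat.Coprime q p := (Nat.coprime_primes hq hp).mpr hqp
  -- facts about a core-free maximal subgroup W
  have key : ∀ W : Subgroup G, IsCoatom W → W.normalCore = ⊥ → N ⊓ W = ⊥ →
      IsPGroup q (M ⊓ W : Subgroup G) ∧ M ⊓ W ≠ ⊥ ∧
      ∀ R : Subgroup G, IsPGroup q R → M ⊓ W ≤ R → R ≤ M → R = M ⊓ W := by
    intro W hW hWc hNW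
    refine ⟨?_, ?_, ?_⟩
    · intro x
      obtain ⟨k, hk⟩ := hMpow x x.2.1
      refine ⟨k, ?_⟩
      apply Subtype.ext
      have h1 : (x : G) ^ (q ^ k) ∈ N ⊓ W := ⟨hk, W.pow_mem x.2.2 _⟩
      rw [hNW, mem_bot] at h1
      simpa using h1
    · intro h
      apply hMneN
      apply le_antisymm _ hNM
      intro m hm
      obtain ⟨n, hn, w, hw, rfl⟩ := exists_mul_of_corefree hW hWc hNn hN m
      have hw' : w ∈ M ⊓ W := by
        refine ⟨?_, hw⟩
        have : w = n⁻¹ * (n * w) := by group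
        rw [this]
        exact M.mul_mem (M.inv_mem (hNM hn)) hm
      rw [h, mem_bot] at hw'
      rw [hw', mul_one]; exact hn
    · intro R hR hle hRM
      apply le_antisymm _ hle
      intro r hr
      obtain ⟨n, hn, w, hw, rfl⟩ := exists_mul_of_corefree hW hWc hNn hN r
      have hw' : w ∈ M ⊓ W := by
        refine ⟨?_, hw⟩
        have : w = n⁻¹ * (n * w) := by group
        rw [this]
        exact M.mul_mem (M.inv_mem (hNM hn)) (hRM hr)
      have hnR : n ∈ R := by
        have : n = (n * w) * w⁻¹ := by group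
        rw [this]
        exact R.mul_mem hr (R.inv_mem (hle hw'))
      obtain ⟨k, hk⟩ := hR ⟨n, hnR⟩
      have h1 : n ^ (q ^ k) = 1 := by
        have := congrArg Subtype.val hk
        simpa using this
      have h2 := hNpow n hn
      have h3 : orderOf n ∣ Nat.gcd (q ^ k) (p ^ d) :=
        Nat.dvd_gcd (orderOf_dvd_of_pow_eq_one h1) (orderOf_dvd_of_pow_eq_one h2)
      have h4 : Nat.gcd (q ^ k) (p ^ d) = 1 := Nat.Coprime.pow k d hcop
      rw [h4, Nat.dvd_one, orderOf_eq_one_iff] at h3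
      rw [h3, one_mul]; exact hw'
  obtain ⟨hUq, hUne, hUmax⟩ := key U hU hUc hNU
  obtain ⟨hVq, hVne, hVmax⟩ := key V hV hVc hNV
  have : Fact q.Prime := ⟨hq⟩
  obtain ⟨Q₁, hQ₁⟩ := hUq.exists_le_sylow
  obtain ⟨Q₂, hQ₂⟩ := hVq.exists_le_sylow
  have e1 : (Q₁ : Subgroup G) ⊓ M = M ⊓ U :=
    hUmax _ (Q₁.isPGroup'.to_le inf_le_left) (le_inf hQ₁ inf_le_left) inf_le_right
  have e2 : (Q₂ : Subgroup G) ⊓ M = M ⊓ V :=
    hVmax _ (Q₂.isPGroup'.to_le inf_le_left) (le_inf hQ₂ inf_le_left) inf_le_right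
  obtain ⟨g, hg⟩ := MulAction.exists_smul_eq G Q₁ Q₂
  have hg' : MulAut.conj g • (Q₁ : Subgroup G) = Q₂ := by
    rw [← hg, Sylow.smul_def, Sylow.pointwise_smul_def]
  refine ⟨g, conj_of_normalizer g ?_ (normalizer_inf_eq hMn hU hUc hUne)
    (normalizer_inf_eq hMn hV hVc hVne)⟩
  rw [← e1, ← e2, ← hg']
  ext x
  rw [Cfsg.Agent.Lib.Helper9.mem_conj_smul_iff, mem_inf, mem_inf, Cfsg.Agent.Lib.Helper9.mem_conj_smul_iff]
  have h1 : g⁻¹ * x * g ∈ M ↔ x ∈ M := by
    constructor
    · intro h; have := hMn.conj_mem _ h g; simpa [mul_assoc] using this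
    · intro h; have := hMn.conj_mem _ h g⁻¹; simpa [mul_assoc] using this
  rw [h1]

end Cfsg.Agent.S0551
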