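import Cfsg.Statements.S0552
import Mathlib
import Cfsg.Agent.S0044

set_option autoImplicit false
open Cfsg

namespace Cfsg.Agent.S0552

/-- Let σ be an automorphism of a finite solvable group G fixing every element of the Fitting subgroup. If σ is not the identity then the order of σ and the order of G have a common prime factor. -/
theorem result {G : Type*} [Group G] [Finite G] [Group.IsSolvable G] (σ : G ≃* G) (hσ : ∀ x ∈ Cfsg.fittingSubgroup G, σ x = x) (hne : σ ≠ MulEquiv.refl G) : ¬ (orderOf σ).Coprime (Nat.card G) := by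
  intro hcop
  apply hne
  ext g
  show σ g = g
  have hFn : (Cfsg.fittingSubgroup G).Normal := Cfsg.Agent.Lib.Helper7.fitting_normal G
  have hz : g⁻¹ * σ g ∈ Subgroup.centralizer (Cfsg.fittingSubgroup G : Set G) := by
    rw [Subgroup.mem_centralizer_iff]
    intro x hx
    have h1 : g * x * g⁻¹ ∈ Cfsg.fittingSubgroup G := hFn.conj_mem x hx g
    have h2 := hσ _ h1
    rw [map_mul, map_mul, map_inv, hσ x hx] at h2
    have h3 : x * (g⁻¹ * σ g) = g⁻¹ * (g * x * g⁻¹) * σ g := by group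
    rw [h3, ← h2]; group
  have hzF : g⁻¹ * σ g ∈ Cfsg.fittingSubgroup G := Cfsg.Agent.S0044.result hz
  have hσz : σ (g⁻¹ * σ g) = g⁻¹ * σ g := hσ _ hzF
  have hpow : ∀ k : ℕ, (σ ^ k) g = g * (g⁻¹ * σ g) ^ k := by
    intro k
    induction k with
    | zero => simp
    | succ k ih =>
      rw [pow_succ', MulAut.mul_apply, ih, map_mul, map_pow, hσz, pow_succ' (g⁻¹ * σ g) k]
      simp [mul_assoc]
  have h1 := hpow (orderOf σ)
  rw [pow_orderOf_eq_one, MulAut.one_apply] at h1
  have hz1 : (g⁻¹ * σ g) ^ orderOf σ = 1 :=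
    mul_left_cancel (h1.symm.trans (mul_one g).symm)
  have hz2 : (g⁻¹ * σ g) ^ Nat.card G = 1 := pow_card_eq_one'
  have hz3 : g⁻¹ * σ g = 1 := by
    have h4 : orderOf (g⁻¹ * σ g) ∣ Nat.gcd (orderOf σ) (Nat.card G) :=
      Nat.dvd_gcd (orderOf_dvd_of_pow_eq_one hz1) (orderOf_dvd_of_pow_eq_one hz2)
    have h5 : Nat.gcd (orderOf σ) (Nat.card G) = 1 := hcop
    rw [h5, Nat.dvd_one, orderOf_eq_one_iff] at h4
    exact h4
  exact (inv_mul_eq_one.mp hz3).symm

end Cfsg.Agent.S0552
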