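import Cfsg.Statements.S0553
import Mathlib
import Cfsg.Agent.Lib.Helper9.MinNormal
import Cfsg.Agent.Lib.Helper9.PrimSolv
import Cfsg.Agent.Lib.Helper9.SSOrder

set_option autoImplicit false
open Cfsg

namespace Cfsg.Agent.S0553


open Subgroup
open scoped Pointwise
open Cfsg.Agent.Lib.Helper9

universe u

theorem exists_normal_sylow_aux : ∀ (n : ℕ) (G : Type u) [Group G] [Finite G]
    [Group.IsSolvable G] [Nontrivial G],
    Nat.card G = n → (∀ M : Subgroup G, IsCoatom M → (Nat.card M).Coprime M.index) →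
    ∃ p : ℕ, p.Prime ∧ p ∣ Nat.card G ∧
      ∃ P : Subgroup G, P.Normal ∧ IsPGroup p P ∧ ¬ p ∣ P.index := by
  intro n
  induction n using Nat.strong_induction_on with
  | _ n ih =>
    intro G _ _ _ _ hn h
    obtain ⟨N, hNn, hNne, hNmin⟩ := exists_minimal_normal G
    have hNc := minimal_normal_comm N hNne hNmin
    obtain ⟨p, d, hp, hd, hNcard⟩ := minimal_normal_card N hNne hNmin
    have : Fact p.Prime := ⟨hp⟩
    have hNp : IsPGroup p N := IsPGroup.of_card hNcard
    have hpN : p ∣ Nat.card N := by rw [hNcard]; exact dvd_pow_self p hd.ne'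
    have hpG : p ∣ Nat.card G := hpN.trans (Subgroup.card_subgroup_dvd_card N)
    by_cases hNtop : N = ⊤
    · refine ⟨p, hp, hpG, N, hNn, hNp, ?_⟩
      rw [hNtop, Subgroup.index_top]
      exact fun h1 => hp.one_lt.ne' (Nat.dvd_one.mp h1)
    have hπ : Function.Surjective (QuotientGroup.mk' N) := QuotientGroup.mk'_surjective N
    have hker : (QuotientGroup.mk' N).ker = N := QuotientGroup.ker_mk' N
    have hnt : Nontrivial (G ⧸ N) := by
      rw [← Finite.one_lt_card_iff_nontrivial]
      have h1 : Nat.card (G ⧸ N) ≠ 1 := by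
        rw [← Subgroup.index_eq_card]; exact fun h1 => hNtop (Subgroup.index_eq_one.mp h1)
      have h2 : 0 < Nat.card (G ⧸ N) := Nat.card_pos
      omega
    have hlt : Nat.card (G ⧸ N) < n := by
      rw [← hn, Subgroup.card_eq_card_quotient_mul_card_subgroup N]
      have h1 : 0 < Nat.card (G ⧸ N) := Nat.card_pos
      have h2 : 1 < Nat.card N := by rw [hNcard]; exact Nat.one_lt_pow hd.ne' hp.one_lt
      nlinarith
    have hquot : ∀ M : Subgroup (G ⧸ N), IsCoatom M → (Nat.card M).Coprime M.index := by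
      intro M hM
      have h1 := h (M.comap (QuotientGroup.mk' N)) (isCoatom_comap_of_surjective _ hπ hM)
      rw [Subgroup.index_comap_of_surjective _ hπ, card_comap_of_surjective' _ hπ] at h1
      exact Nat.Coprime.coprime_dvd_left (dvd_mul_left _ _) h1
    obtain ⟨r, hr, hrdvd, Rb, hRbn, hRbp, hRbi⟩ := ih _ hlt (G ⧸ N) rfl hquot
    have : Fact r.Prime := ⟨hr⟩
    have hrG : r ∣ Nat.card G := hrdvd.trans (Subgroup.card_quotient_dvd_card N)
    have hRn : (Rb.comap (QuotientGroup.mk' N)).Normal := hRbn.comap _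
    have hRidx : (Rb.comap (QuotientGroup.mk' N)).index = Rb.index :=
      Subgroup.index_comap_of_surjective _ hπ
    have hRcard : Nat.card (Rb.comap (QuotientGroup.mk' N)) = Nat.card N * Nat.card Rb := by
      rw [card_comap_of_surjective' _ hπ, hker]
    obtain ⟨b, hb⟩ := IsPGroup.iff_card.mp hRbp
    by_cases hrp : r = p
    · subst hrp
      refine ⟨r, hr, hrG, _, hRn, IsPGroup.of_card (n := d + b) ?_, ?_⟩
      · rw [hRcard, hNcard, hb, pow_add]
      · rw [hRidx]; exact hRbi
    have hNrel : N.relIndex (Rb.comap (QuotientGroup.mk' N)) = r ^ b := by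
      have h4' : (QuotientGroup.mk' N).ker.relIndex (Rb.comap (QuotientGroup.mk' N))
          = Nat.card ((Rb.comap (QuotientGroup.mk' N)).map (QuotientGroup.mk' N)) :=
        relIndex_ker _ _
      rw [hker] at h4'
      rw [h4', map_comap_eq_self_of_surjective hπ, hb]
    generalize Rb.comap (QuotientGroup.mk' N) = R at hRn hRidx hRcard hNrel
    let R₀ : Sylow r R := default
    have hFr : normalizer (((R₀ : Subgroup R).map R.subtype : Subgroup G) : Set G) ⊔ R = ⊤ :=
      Sylow.normalizer_sup_eq_top R₀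
    have hR₀p : IsPGroup r ((R₀ : Subgroup R).map R.subtype) := R₀.isPGroup'.map R.subtype
    have hR₀i : ¬ r ∣ ((R₀ : Subgroup R).map R.subtype).index := by
      rw [Subgroup.index_map_subtype, hRidx]
      exact Nat.Prime.not_dvd_mul hr R₀.not_dvd_index hRbi
    have hRle : R ≤ (R₀ : Subgroup R).map R.subtype ⊔ N := by
      rw [← relIndex_eq_one]
      have h1 : ((R₀ : Subgroup R).map R.subtype ⊔ N).relIndex R
          ∣ ((R₀ : Subgroup R).map R.subtype).relIndex R := relIndex_dvd_of_le_left R le_sup_left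
      have h2 : ((R₀ : Subgroup R).map R.subtype ⊔ N).relIndex R ∣ N.relIndex R :=
        relIndex_dvd_of_le_left R le_sup_right
      have h3 : ((R₀ : Subgroup R).map R.subtype).relIndex R = (R₀ : Subgroup R).index := by
        rw [relIndex]
        show (((R₀ : Subgroup R).map R.subtype).comap R.subtype).index = _
        rw [comap_map_eq_self_of_injective (subtype_injective _)]
      rw [h3] at h1; rw [hNrel] at h2
      obtain ⟨j, -, hj⟩ := (Nat.dvd_prime_pow hr).mp h2
      rw [hj] at h1 ⊢
      cases j with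
      | zero => simp
      | succ j => exact absurd ((dvd_pow_self r (Nat.succ_ne_zero j)).trans h1) R₀.not_dvd_index
    generalize (R₀ : Subgroup R).map R.subtype = R₀' at hFr hR₀p hR₀i hRle
    have hsup : normalizer (R₀' : Set G) ⊔ N = ⊤ := by
      rw [eq_top_iff, ← hFr]
      exact sup_le le_sup_left
        (hRle.trans (sup_le (le_normalizer.trans le_sup_left) le_sup_right))
    by_cases hnorm : normalizer (R₀' : Set G) = ⊤
    · exact ⟨r, hr, hrG, R₀', normalizer_eq_top_iff.mp hnorm, hR₀p, hR₀i⟩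
    obtain ⟨M, hM, hle⟩ := (eq_top_or_exists_le_coatom _).resolve_left hnorm
    have hMN : M ⊔ N = ⊤ := by
      rw [eq_top_iff, ← hsup]; exact sup_le_sup_right hle N
    have hmulu : (N : Set G) * (M : Set G) = Set.univ := by
      rw [← normal_mul, sup_comm, hMN, coe_top]
    have hinfn : (M ⊓ N).Normal := by
      constructor
      intro x hx g
      have hg : g ∈ (N : Set G) * (M : Set G) := by rw [hmulu]; trivial
      obtain ⟨a, ha, m, hm, rfl⟩ := hg
      have h1 : m * x * m⁻¹ ∈ M ⊓ N :=
        ⟨M.mul_mem (M.mul_mem hm hx.1) (M.inv_mem hm), hNn.conj_mem x hx.2 m⟩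
      have h2 := hNc a ha (m * x * m⁻¹) h1.2
      have h3 : a * m * x * (a * m)⁻¹ = m * x * m⁻¹ := by
        calc a * m * x * (a * m)⁻¹ = a * (m * x * m⁻¹) * a⁻¹ := by group
          _ = m * x * m⁻¹ := by rw [h2]; group
      rw [h3]; exact h1
    have hinf : M ⊓ N = ⊥ := by
      rcases hNmin _ hinfn inf_le_right with h1 | h1
      · exact h1
      · exfalso
        have h2 : N ≤ M := by rw [← h1]; exact inf_le_left
        exact hM.1 (by rw [← hMN, sup_eq_left.mpr h2])
    have hcompl : IsComplement' N M :=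
      isComplement'_of_disjoint_and_mul_eq_univ (disjoint_iff.mpr (by rw [inf_comm]; exact hinf)) hmulu
    have hMidx : M.index = p ^ d := by rw [hcompl.index_eq_card, hNcard]
    have hMhall := h M hM
    rw [hMidx] at hMhall
    refine ⟨p, hp, hpG, N, hNn, hNp, ?_⟩
    rw [hcompl.symm.index_eq_card]
    intro hpM
    have h1 : p ∣ Nat.gcd (Nat.card M) (p ^ d) := Nat.dvd_gcd hpM (dvd_pow_self p hd.ne')
    have h2 : Nat.gcd (Nat.card M) (p ^ d) = 1 := hMhall
    rw [h2] at h1
    exact hp.one_lt.ne' (Nat.dvd_one.mp h1)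


/-- Let G be a nontrivial finite solvable group in which every maximal subgroup has order coprime to its index. Then for some prime p dividing the order of G the Sylow p-subgroups of G are normal. -/
theorem result {G : Type*} [Group G] [Finite G] [Group.IsSolvable G] [Nontrivial G] (h : ∀ M : Subgroup G, IsCoatom M → (Nat.card M).Coprime M.index) : ∃ p : ℕ, p.Prime ∧ p ∣ Nat.card G ∧ ∀ P : Sylow p G, (P : Subgroup G).Normal := by
  obtain ⟨p, hp, hpG, P, hPn, hPp, hPi⟩ := exists_normal_sylow_aux _ G rfl h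
  refine ⟨p, hp, hpG, ?_⟩
  have : Fact p.Prime := ⟨hp⟩
  intro P'
  have hRn : ((hPp.toSylow hPi : Sylow p G) : Subgroup G).Normal := by
    rw [IsPGroup.toSylow_coe]; exact hPn
  have := Sylow.unique_of_normal (hPp.toSylow hPi) hRn
  rw [Subsingleton.elim P' (hPp.toSylow hPi)]; exact hRn

end Cfsg.Agent.S0553
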