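import Cfsg.Statements.S0554
import Mathlib
import Cfsg.Agent.Lib.Helper7.Hall

set_option autoImplicit false
open Cfsg

namespace Cfsg.Agent.S0554


theorem insert_normal {G : Type*} [Group G] (N : Subgroup G) [hN : N.Normal] :
    ∀ (t : ℕ) (s : Fin t → G) (j : Fin t) (n : G), n ∈ N →
      ∃ n' ∈ N, (List.ofFn s).prod * n = (List.ofFn (Function.update s j (s j * n'))).prod := by
  intro t
  induction t with
  | zero => intro s j; exact j.elim0
  | succ t ih =>
    intro s j n hn
    cases j using Fin.cases with
    | zero =>
      refine ⟨(List.ofFn fun i => s i.succ).prod * n * (List.ofFn fun i => s i.succ).prod⁻¹,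
        hN.conj_mem n hn _, ?_⟩
      rw [List.ofFn_succ, List.prod_cons, List.ofFn_succ, List.prod_cons, Function.update_self]
      have h1 : (fun i : Fin t => Function.update s 0
          (s 0 * ((List.ofFn fun i => s i.succ).prod * n * (List.ofFn fun i => s i.succ).prod⁻¹))
            i.succ) = fun i => s i.succ := by
        funext i; rw [Function.update_of_ne (Fin.succ_ne_zero i)]
      rw [h1]; group
    | succ j' =>
      obtain ⟨n', hn', h⟩ := ih (fun i => s i.succ) j' n hn
      refine ⟨n', hn', ?_⟩
      rw [List.ofFn_succ, List.prod_cons, List.ofFn_succ, List.prod_cons,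
        Function.update_of_ne (Fin.succ_ne_zero j').symm, mul_assoc, h]
      congr 3
      funext i
      by_cases hi : i = j'
      · subst hi; simp
      · rw [Function.update_of_ne hi, Function.update_of_ne (fun h => hi (Fin.succ_injective _ h))]

universe u in
theorem prod_sylow (t : ℕ) (p : Fin t → ℕ) (hp : ∀ i, (p i).Prime) :
    ∀ (n : ℕ) (G : Type u) [Group G] [Finite G] [Group.IsSolvable G], Nat.card G = n →
    (∀ q : ℕ, q.Prime → q ∣ Nat.card G → ∃ i, p i = q) →
    ∀ (S : (i : Fin t) → Sylow (p i) G) (g : G),
    ∃ s : (i : Fin t) → G, (∀ i, s i ∈ (S i : Subgroup G)) ∧ g = (List.ofFn s).prod := by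
  intro n
  induction n using Nat.strong_induction_on with
  | _ n ih =>
    intro G _ _ _ hcard hall S g
    by_cases htriv : Subsingleton G
    · exact ⟨fun _ => 1, fun i => one_mem _, Subsingleton.elim _ _⟩
    rw [not_subsingleton_iff_nontrivial] at htriv
    obtain ⟨N, q, hNn, hNne, hq, hNq⟩ := Cfsg.Agent.Lib.Helper7.exists_normal_pgroup G
    have hqN : q ∣ Nat.card N := by
      have : Fact q.Prime := ⟨hq⟩
      obtain ⟨k, hk⟩ := IsPGroup.iff_card.mp hNq
      rw [hk]
      cases k with
      | zero =>
        exfalso
        rw [pow_zero] at hk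
        exact hNne (Subgroup.card_eq_one.mp hk)
      | succ k => exact dvd_pow_self q (Nat.succ_ne_zero k)
    obtain ⟨j, hj⟩ := hall q hq (hqN.trans (Subgroup.card_subgroup_dvd_card N))
    subst hj
    have hNS : N ≤ (S j : Subgroup G) := hNq.le_sylow_of_normal (S j)
    have hπ : Function.Surjective (QuotientGroup.mk' N) := QuotientGroup.mk'_surjective N
    have hlt : Nat.card (G ⧸ N) < n := by
      rw [← hcard, Subgroup.card_eq_card_quotient_mul_card_subgroup N]
      have h1 : 0 < Nat.card (G ⧸ N) := Nat.card_pos
      have h2 : 1 < Nat.card N := by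
        have := (hp j).two_le
        have := Nat.le_of_dvd Nat.card_pos hqN
        omega
      nlinarith
    have hall' : ∀ q' : ℕ, q'.Prime → q' ∣ Nat.card (G ⧸ N) → ∃ i, p i = q' :=
      fun q' hq' hd => hall q' hq' (hd.trans (Subgroup.card_quotient_dvd_card N))
    obtain ⟨s', hs', hprod⟩ := ih _ hlt (G ⧸ N) rfl hall'
      (fun i => haveI : Fact (p i).Prime := ⟨hp i⟩; (S i).mapSurjective hπ) (QuotientGroup.mk' N g)
    have hlift : ∀ i, ∃ x ∈ (S i : Subgroup G), QuotientGroup.mk' N x = s' i := by
      intro i
      have := hs' i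
      exact this
    choose s hs hsπ using hlift
    have hπprod : QuotientGroup.mk' N (List.ofFn s).prod = QuotientGroup.mk' N g := by
      rw [map_list_prod, List.map_ofFn, hprod]
      congr 2
      funext i; exact hsπ i
    have hnN : (List.ofFn s).prod⁻¹ * g ∈ N := by
      rw [← QuotientGroup.eq]; exact hπprod
    obtain ⟨n', hn', hins⟩ := insert_normal N t s j _ hnN
    refine ⟨Function.update s j (s j * n'), ?_, ?_⟩
    · intro i
      by_cases hi : i = j
      · subst hi
        rw [Function.update_self]
        exact (S i : Subgroup G).mul_mem (hs i) (hNS hn')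
      · rw [Function.update_of_ne hi]; exact hs i
    · rw [← hins]; group


/-- Let G be a finite solvable group and let S assign to each of t distinct primes, including every prime divisor of the order of G, a Sylow subgroup of G. Then every element of G is a product s_0 s_1 ⋯ s_(t-1) with s_i in S i, the factors taken in the given order. -/
theorem result {G : Type*} [Group G] [Finite G] [Group.IsSolvable G] (t : ℕ) (p : Fin t → ℕ) (hp : ∀ i, (p i).Prime) (hinj : Function.Injective p) (hall : ∀ q : ℕ, q.Prime → q ∣ Nat.card G → ∃ i, p i = q) (S : (i : Fin t) → Sylow (p i) G) : ∀ g : G, ∃ s : (i : Fin t) → G, (∀ i, s i ∈ (S i : Subgroup G)) ∧ g = (List.ofFn s).prod := by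
  exact prod_sylow t p hp _ G rfl hall S

end Cfsg.Agent.S0554
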