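import Cfsg.Statements.S0555
import Mathlib
import Cfsg.Agent.Lib.Helper9.CyclicNormal

set_option autoImplicit false
open Cfsg

namespace Cfsg.Agent.S0555

open Subgroup in
theorem exists_gen_of_isCyclic_quotient {G : Type*} [Group G] (A B : Subgroup G) [B.Normal]
    (h : IsCyclic (↥A ⧸ B.subgroupOf A)) :
    ∃ c ∈ A, ∀ x ∈ A, ∃ k : ℤ, (c ^ k)⁻¹ * x ∈ B := by
  obtain ⟨q, hq⟩ := IsCyclic.exists_generator (α := ↥A ⧸ B.subgroupOf A)
  obtain ⟨c, rfl⟩ := QuotientGroup.mk_surjective q
  refine ⟨c, c.2, fun x hx => ?_⟩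
  obtain ⟨k, hk⟩ := mem_zpowers_iff.mp (hq (QuotientGroup.mk ⟨x, hx⟩))
  refine ⟨k, ?_⟩
  rw [← QuotientGroup.mk_zpow, QuotientGroup.eq, mem_subgroupOf] at hk
  simpa using hk

open Subgroup Cfsg.Agent.Lib.Helper9 in
open scoped commutatorElement in
theorem key {G : Type*} [Group G] (A B N : Subgroup G) [A.Normal] [B.Normal] [N.Normal]
    (hA : A ≤ commutator G) (hB : B = ⁅A, A⁆)
    (h₁ : ∃ d ∈ A, ∀ x ∈ A, ∃ k : ℤ, (d ^ k)⁻¹ * x ∈ B)
    (h₂ : ∃ c ∈ B, ∀ x ∈ B, ∃ k : ℤ, (c ^ k)⁻¹ * x ∈ N) : B ≤ N := by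
  obtain ⟨d, hd, hdgen⟩ := h₁
  obtain ⟨c, hc, hcgen⟩ := h₂
  set π := QuotientGroup.mk' N with hπ
  have hker : ∀ x : G, π x = 1 ↔ x ∈ N := fun x => by
    rw [hπ, QuotientGroup.mk'_apply, QuotientGroup.eq_one_iff]
  have hBmap : B.map π = zpowers (π c) := by
    apply le_antisymm
    · rintro _ ⟨x, hx, rfl⟩
      obtain ⟨k, hk⟩ := hcgen x hx
      rw [← hker, map_mul, map_inv, map_zpow, inv_mul_eq_one] at hk
      rw [← hk]
      exact zpow_mem (mem_zpowers _) k
    · rw [zpowers_le]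
      exact mem_map_of_mem π hc
  have hnorm : (zpowers (π c)).Normal := by
    rw [← hBmap]
    exact Subgroup.Normal.map inferInstance π (QuotientGroup.mk'_surjective N)
  have hcent := commutator_le_centralizer_zpowers (π c) hnorm
  have hmap : (commutator G).map π ≤ commutator (G ⧸ N) := by
    rw [commutator_def, Subgroup.map_commutator]
    exact Subgroup.commutator_mono le_top le_top
  have hdc : ∀ u ∈ zpowers (π c), Commute u (π d) := by
    intro u hu
    have := hcent (hmap (mem_map_of_mem π (hA hd)))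
    rw [mem_centralizer_iff] at this
    exact this u hu
  have hdecomp : ∀ x ∈ A, ∃ (a : ℤ) (u : G ⧸ N), u ∈ zpowers (π c) ∧ π x = (π d) ^ a * u := by
    intro x hx
    obtain ⟨a, ha⟩ := hdgen x hx
    refine ⟨a, π ((d ^ a)⁻¹ * x), ?_, ?_⟩
    · rw [← hBmap]; exact mem_map_of_mem π ha
    · rw [map_mul, map_inv, map_zpow, mul_inv_cancel_left]
  rw [hB, Subgroup.commutator_le]
  intro x hx y hy
  obtain ⟨a, u, hu, hxu⟩ := hdecomp x hx
  obtain ⟨b, v, hv, hyv⟩ := hdecomp y hy
  rw [← hker, map_commutatorElement, commutatorElement_eq_one_iff_commute, hxu, hyv]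
  have huv : Commute u v := by
    obtain ⟨m, rfl⟩ := mem_zpowers_iff.mp hu
    obtain ⟨n, rfl⟩ := mem_zpowers_iff.mp hv
    exact Commute.zpow_zpow_self _ m n
  have h1 : Commute ((π d) ^ a) ((π d) ^ b * v) :=
    (Commute.zpow_zpow_self _ a b).mul_right ((hdc v hv).zpow_right a).symm
  have h2 : Commute u ((π d) ^ b * v) := ((hdc u hu).zpow_right b).mul_right huv
  exact h1.mul_left h2


/-- Let i ≥ 1. If in the derived series of a group the quotient of the i-th term by the (i+1)-st and the quotient of the (i+1)-st by the (i+2)-nd are both cyclic, then the (i+1)-st and (i+2)-nd terms coincide. -/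
theorem result {G : Type*} [Group G] (i : ℕ) (hi : 1 ≤ i) (h₁ : IsCyclic (↥(derivedSeries G i) ⧸ (derivedSeries G (i + 1)).subgroupOf (derivedSeries G i))) (h₂ : IsCyclic (↥(derivedSeries G (i + 1)) ⧸ (derivedSeries G (i + 2)).subgroupOf (derivedSeries G (i + 1)))) : derivedSeries G (i + 1) = derivedSeries G (i + 2) := by
  apply le_antisymm
  · have hA : derivedSeries G i ≤ commutator G := by
      rw [← derivedSeries_one]
      exact derivedSeries_antitone G hi
    exact key (derivedSeries G i) (derivedSeries G (i + 1)) (derivedSeries G (i + 2)) hA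
      (derivedSeries_succ G i) (exists_gen_of_isCyclic_quotient _ _ h₁)
      (exists_gen_of_isCyclic_quotient _ _ h₂)
  · exact derivedSeries_antitone G (by omega)

end Cfsg.Agent.S0555
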