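import Cfsg.Statements.S0567
import Mathlib
import Cfsg.Agent.Lib.Helper9.ConjLemmas

set_option autoImplicit false
open Cfsg

namespace Cfsg.Agent.S0567

open Subgroup Cfsg.Agent.Lib.Helper9 in
open scoped Pointwise in
theorem le_normalizer_of_conj_smul_le {G : Type*} [Group G] (T S : Subgroup G)
    (h : ∀ k ∈ T, MulAut.conj k • S ≤ S) : T ≤ normalizer (S : Set G) := by
  intro k hk
  rw [← conj_smul_eq_self_iff_mem_normalizer]
  apply le_antisymm (h k hk)
  have h2 := h k⁻¹ (T.inv_mem hk)
  have h3 : MulAut.conj k • MulAut.conj k⁻¹ • S ≤ MulAut.conj k • S :=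
    pointwise_smul_le_pointwise_smul_iff.mpr h2
  rwa [conj_smul_smul_inv] at h3

open Subgroup in
theorem forward {G : Type*} [Group G] {K : Subgroup G} (hK : K.IsSubnormal) :
    ∃ m : ℕ, ∀ L : Subgroup G, L ≤ K → (fun X : Subgroup G => ⁅X, L⁆)^[m] ⊤ ≤ K := by
  induction hK with
  | top => exact ⟨0, fun L _ => le_top⟩
  | step H K h_le hSubn hN ih =>
    obtain ⟨m, hm⟩ := ih
    refine ⟨m + 1, fun L hL => ?_⟩
    rw [Function.iterate_succ_apply']
    have h1 : K ≤ normalizer (H : Set G) := (normal_subgroupOf_iff_le_normalizer h_le).mp hN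
    exact (commutator_mono (hm L (hL.trans h_le)) hL).trans
      (le_normalizer_iff_commutator_le_right.mp h1)

open Subgroup Cfsg.Agent.Lib.Helper9 in
open scoped Pointwise commutatorElement in
theorem backward {G : Type*} [Group G] (H : Subgroup G) (m : ℕ)
    (hm : (fun K : Subgroup G => ⁅K, H⁆)^[m] ⊤ ≤ H) : H.IsSubnormal := by
  set γ : ℕ → Subgroup G := fun j => (fun K : Subgroup G => ⁅K, H⁆)^[j] ⊤ with hγ
  have hγs : ∀ j, γ (j + 1) = ⁅γ j, H⁆ := fun j => Function.iterate_succ_apply' _ _ _
  have key : ∀ j, (H ⊔ γ j).IsSubnormal := by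
    intro j
    induction j with
    | zero =>
      have : H ⊔ γ 0 = ⊤ := by simp [hγ]
      rw [this]; exact IsSubnormal.top
    | succ j ih =>
      have hcs : ⁅γ j, H⁆ ≤ H ⊔ γ j := by
        rw [commutator_le]
        intro a ha b hb
        exact mul_mem (mul_mem (mul_mem (mem_sup_right ha) (mem_sup_left hb))
          (inv_mem (mem_sup_right ha))) (inv_mem (mem_sup_left hb))
      have hle : H ⊔ γ (j + 1) ≤ H ⊔ γ j := by
        refine sup_le le_sup_left ?_
        rw [hγs]; exact hcs
      have hnorm : H ⊔ γ j ≤ normalizer ((H ⊔ γ (j + 1) : Subgroup G) : Set G) := by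
        apply sup_le
        · refine le_trans ?_ (normalizer_inf_normalizer_le_normalizer_sup H (γ (j + 1)))
          refine le_inf le_normalizer ?_
          rw [hγs]; exact normalizer_commutator_ge_right (γ j) H
        · apply le_normalizer_of_conj_smul_le
          intro k hk
          rw [smul_sup]
          apply sup_le
          · intro x hx
            rw [mem_conj_smul_iff] at hx
            have : x = ⁅k, k⁻¹ * x * k⁆ * (k⁻¹ * x * k) := by
              rw [commutatorElement_def]; group
            rw [this]
            refine mul_mem (mem_sup_right ?_) (mem_sup_left hx)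
            rw [hγs]; exact commutator_mem_commutator hk hx
          · have hk' : k ∈ normalizer ((γ (j + 1) : Subgroup G) : Set G) := by
              rw [hγs]; exact normalizer_commutator_ge_left (γ j) H hk
            rw [conj_smul_eq_self_iff_mem_normalizer.mpr hk']; exact le_sup_right
      exact IsSubnormal.step _ _ hle ih ((normal_subgroupOf_iff_le_normalizer hle).mpr hnorm)
  have := key m
  rwa [sup_eq_left.mpr hm] at this


/-- A subgroup H of a group G is subnormal exactly when, for some m, the subgroup obtained from G by taking the commutator with H m times in succession is contained in H. -/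
theorem result {G : Type*} [Group G] (H : Subgroup G) : H.IsSubnormal ↔ ∃ m : ℕ, (fun K : Subgroup G => ⁅K, H⁆)^[m] ⊤ ≤ H := by
  constructor
  · intro h
    obtain ⟨m, hm⟩ := forward h
    exact ⟨m, hm H le_rfl⟩
  · rintro ⟨m, hm⟩
    exact backward H m hm

end Cfsg.Agent.S0567
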