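import Cfsg.Statements.S0569
import Mathlib
import Cfsg.Agent.Lib.Helper9.CarterSys2

set_option autoImplicit false
open Cfsg

namespace Cfsg.Agent.S0569

open scoped Pointwise

/-- In a finite solvable group: each nilpotent self-normalizing subgroup contains the system normalizer of some Hall complement system, and the system normalizer of any Hall complement system lies in some nilpotent self-normalizing subgroup. -/
theorem result {G : Type*} [Group G] [Finite G] [Group.IsSolvable G] : (∀ C : Subgroup G, Cfsg.IsCarterSubgroup C → ∃ K : Nat.Primes → Subgroup G, Cfsg.IsComplementSystem K ∧ Cfsg.systemNormalizer K ≤ C) ∧ ∀ K : Nat.Primes → Subgroup G, Cfsg.IsComplementSystem K → ∃ C : Subgroup G, Cfsg.IsCarterSubgroup C ∧ Cfsg.systemNormalizer K ≤ C := by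
  constructor
  · intro C hC
    obtain ⟨K, hK, hred⟩ := Cfsg.Agent.Lib.Helper9.exists_reducing_system C
    exact ⟨K, hK, Cfsg.Agent.Lib.Helper9.sysNorm_le_carter C K hC hK hred⟩
  · intro K hK
    obtain ⟨C₀, hC₀⟩ := Cfsg.Agent.Lib.Helper9.carter_exists G
    obtain ⟨K₀, hK₀, hred⟩ := Cfsg.Agent.Lib.Helper9.exists_reducing_system C₀
    have h0 := Cfsg.Agent.Lib.Helper9.sysNorm_le_carter C₀ K₀ hC₀ hK₀ hred
    obtain ⟨g, hg⟩ := Cfsg.Agent.S0543.result K₀ K hK₀ hK
    refine ⟨MulAut.conj g • C₀, Cfsg.Agent.Lib.Helper9.isCarter_conj hC₀ g, ?_⟩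
    have h1 : K = fun p => MulAut.conj g • K₀ p := funext (fun p => (hg p).symm)
    rw [h1, Cfsg.Agent.Lib.Helper9.systemNormalizer_conj]
    intro x hx
    rw [Cfsg.Agent.Lib.Helper9.mem_conj_smul_iff] at hx ⊢
    exact h0 hx

end Cfsg.Agent.S0569
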