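import Cfsg.Statements.S0570
import Mathlib
import Cfsg.Agent.Lib.Helper9.CarterSys

set_option autoImplicit false
open Cfsg

namespace Cfsg.Agent.S0570

open scoped Pointwise

/-- Let G be a finite group with a nilpotent normal subgroup F such that G modulo F is nilpotent (nilpotent length at most two). Then a subgroup of G is a Carter subgroup if and only if it is the system normalizer of some Hall complement system. -/
theorem result {G : Type*} [Group G] [Finite G] (F : Subgroup G) [F.Normal] (hF : Group.IsNilpotent F) (hGF : Group.IsNilpotent (G ⧸ F)) (C : Subgroup G) : Cfsg.IsCarterSubgroup C ↔ ∃ K : Nat.Primes → Subgroup G, Cfsg.IsComplementSystem K ∧ C = Cfsg.systemNormalizer K := by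
  have hsolv : Group.IsSolvable G := by
    have h1 := hF
    have h2 := hGF
    exact Group.isSolvable_of_ker_le_range F.subtype (QuotientGroup.mk' F)
      (by rw [QuotientGroup.ker_mk', Subgroup.range_subtype])
  constructor
  · intro hC
    obtain ⟨K₀, hK₀⟩ := Cfsg.Agent.Lib.Helper9.exists_complementSystem G
    have hD := Cfsg.Agent.Lib.Helper9.sysNorm_isCarter F hF hGF K₀ hK₀
    obtain ⟨g, hg⟩ := Cfsg.Agent.Lib.Helper9.carter_conj hD hC
    refine ⟨fun p => MulAut.conj g • K₀ p,
      Cfsg.Agent.Lib.Helper9.isComplementSystem_conj hK₀ g, ?_⟩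
    rw [Cfsg.Agent.Lib.Helper9.systemNormalizer_conj, hg]
  · rintro ⟨K, hK, rfl⟩
    exact Cfsg.Agent.Lib.Helper9.sysNorm_isCarter F hF hGF K hK

end Cfsg.Agent.S0570
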