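import Cfsg.Statements.S0573
import Mathlib
import Cfsg.Agent.Lib.Helper9.Ito
import Cfsg.Agent.Lib.Helper9.MinNormal

set_option autoImplicit false
open Cfsg

namespace Cfsg.Agent.S0573


open Subgroup
open scoped commutatorElement
open Cfsg.Agent.Lib.Helper9

section
variable {G : Type*} [Group G]

theorem comm_of_isMulCommutative {H : Subgroup G} (hH : IsMulCommutative H) :
    ∀ a ∈ H, ∀ b ∈ H, a * b = b * a :=
  fun a ha b hb => congrArg Subtype.val (mul_comm' (⟨a, ha⟩ : H) ⟨b, hb⟩)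

variable [Finite G]

theorem orb_card_le (X : Subgroup G) (n n' : G)
    (h : ∀ x₁ ∈ X, ∀ x₂ ∈ X, x₁ * n' * x₁⁻¹ = x₂ * n' * x₂⁻¹ → x₁ * n * x₁⁻¹ = x₂ * n * x₂⁻¹) :
    ({y | ∃ x ∈ X, y = x * n * x⁻¹} : Set G).ncard ≤
      ({y | ∃ x ∈ X, y = x * n' * x⁻¹} : Set G).ncard := by
  classical
  let F : G → G := fun y' =>
    if h' : ∃ x ∈ X, y' = x * n' * x⁻¹ then h'.choose * n * h'.choose⁻¹ else 1
  have hsub : ({y | ∃ x ∈ X, y = x * n * x⁻¹} : Set G) ⊆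
      F '' {y | ∃ x ∈ X, y = x * n' * x⁻¹} := by
    rintro y ⟨x, hx, rfl⟩
    have h' : ∃ x' ∈ X, x * n' * x⁻¹ = x' * n' * x'⁻¹ := ⟨x, hx, rfl⟩
    refine ⟨x * n' * x⁻¹, ⟨x, hx, rfl⟩, ?_⟩
    show F (x * n' * x⁻¹) = x * n * x⁻¹
    simp only [F]
    rw [dif_pos h']
    exact h _ h'.choose_spec.1 _ hx h'.choose_spec.2.symm
  exact (Set.ncard_le_ncard hsub (Set.toFinite _)).trans (Set.ncard_image_le (Set.toFinite _))

theorem orb_ineq (A B : Subgroup G) (hA : ∀ x ∈ A, ∀ y ∈ A, x * y = y * x)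
    (hB : ∀ x ∈ B, ∀ y ∈ B, x * y = y * x)
    (hBA : ∀ g : G, ∃ b ∈ B, ∃ a ∈ A, g = b * a) (a b n₀ β : G) (ha : a ∈ A) (hb : b ∈ B)
    (hab : a = n₀ * b) (hβ : β ∈ B) (hβn : β * n₀ * β⁻¹ ≠ n₀) :
    ({y | ∃ α ∈ A, y = α * (β * n₀ * β⁻¹ * n₀⁻¹) * α⁻¹} : Set G).ncard + 1 ≤
      ({y | ∃ β' ∈ B, y = β' * n₀ * β'⁻¹} : Set G).ncard := by
  classical
  have hn₁ : β * n₀ * β⁻¹ * n₀⁻¹ ≠ 1 := by
    intro h; apply hβn
    calc β * n₀ * β⁻¹ = (β * n₀ * β⁻¹ * n₀⁻¹) * n₀ := by group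
      _ = n₀ := by rw [h, one_mul]
  have hb' : b = n₀⁻¹ * a := by rw [hab]; group
  have conjB : ∀ β' ∈ B, β' * a * β'⁻¹ = β' * n₀ * β'⁻¹ * n₀⁻¹ * a := by
    intro β' hβ'
    have h1 : β' * b * β'⁻¹ = b := by rw [hB β' hβ' b hb]; group
    calc β' * a * β'⁻¹ = β' * n₀ * β'⁻¹ * (β' * b * β'⁻¹) := by rw [hab]; group
      _ = β' * n₀ * β'⁻¹ * b := by rw [h1]
      _ = β' * n₀ * β'⁻¹ * (n₀⁻¹ * a) := by rw [← hb']
      _ = β' * n₀ * β'⁻¹ * n₀⁻¹ * a := by group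
  have conjA : ∀ α ∈ A, α * a * α⁻¹ = a := by
    intro α hα; rw [hA α hα a ha]; group
  have key : ∀ α ∈ A, α * (β * n₀ * β⁻¹ * n₀⁻¹) * α⁻¹ * n₀ ∈
      ({y | ∃ β' ∈ B, y = β' * n₀ * β'⁻¹} : Set G) := by
    intro α hα
    obtain ⟨β'', hβ'', α'', hα'', h⟩ := hBA (α * β)
    have e1 : (α * β) * a * (α * β)⁻¹ = α * (β * n₀ * β⁻¹ * n₀⁻¹) * α⁻¹ * a := by
      calc (α * β) * a * (α * β)⁻¹ = α * (β * a * β⁻¹) * α⁻¹ := by group
        _ = α * (β * n₀ * β⁻¹ * n₀⁻¹ * a) * α⁻¹ := by rw [conjB β hβ]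
        _ = α * (β * n₀ * β⁻¹ * n₀⁻¹) * α⁻¹ * (α * a * α⁻¹) := by group
        _ = _ := by rw [conjA α hα]
    have e2 : (β'' * α'') * a * (β'' * α'')⁻¹ = β'' * n₀ * β''⁻¹ * n₀⁻¹ * a := by
      calc (β'' * α'') * a * (β'' * α'')⁻¹ = β'' * (α'' * a * α''⁻¹) * β''⁻¹ := by group
        _ = β'' * a * β''⁻¹ := by rw [conjA α'' hα'']
        _ = _ := conjB β'' hβ''
    rw [h, e2] at e1
    have e3 : β'' * n₀ * β''⁻¹ * n₀⁻¹ = α * (β * n₀ * β⁻¹ * n₀⁻¹) * α⁻¹ := mul_right_cancel e1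
    refine ⟨β'', hβ'', ?_⟩
    rw [← e3]; group
  have hsub : insert n₀ ((fun y => y * n₀) ''
      ({y | ∃ α ∈ A, y = α * (β * n₀ * β⁻¹ * n₀⁻¹) * α⁻¹} : Set G)) ⊆
      ({y | ∃ β' ∈ B, y = β' * n₀ * β'⁻¹} : Set G) := by
    intro y hy
    rcases Set.mem_insert_iff.mp hy with rfl | ⟨y', ⟨α, hα, rfl⟩, rfl⟩
    · exact ⟨1, B.one_mem, by group⟩
    · exact key α hα
  have hnot : n₀ ∉ (fun y => y * n₀) ''
      ({y | ∃ α ∈ A, y = α * (β * n₀ * β⁻¹ * n₀⁻¹) * α⁻¹} : Set G) := by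
    rintro ⟨y', ⟨α, hα, rfl⟩, h⟩
    have h1 : α * (β * n₀ * β⁻¹ * n₀⁻¹) * α⁻¹ = 1 := by
      have : α * (β * n₀ * β⁻¹ * n₀⁻¹) * α⁻¹ * n₀ = 1 * n₀ := by rw [one_mul]; exact h
      exact mul_right_cancel this
    apply hn₁
    calc β * n₀ * β⁻¹ * n₀⁻¹ = α⁻¹ * (α * (β * n₀ * β⁻¹ * n₀⁻¹) * α⁻¹) * α := by group
      _ = 1 := by rw [h1]; group
  have hc := Set.ncard_le_ncard hsub (Set.toFinite _)
  rw [Set.ncard_insert_of_notMem hnot (Set.toFinite _),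
    Set.ncard_image_of_injective _ (mul_left_injective n₀)] at hc
  exact hc

end


/-- If a nontrivial finite group G is the product AB of abelian subgroups A and B, then some nontrivial normal subgroup of G is contained in A or in B. -/
theorem result {G : Type*} [Group G] [Finite G] [Nontrivial G] (A B : Subgroup G) [IsMulCommutative A] [IsMulCommutative B] (hAB : ∀ g : G, ∃ a ∈ A, ∃ b ∈ B, g = a * b) : ∃ N : Subgroup G, N.Normal ∧ N ≠ ⊥ ∧ (N ≤ A ∨ N ≤ B) := by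
  classical
  by_contra hcon
  have hno : ∀ N : Subgroup G, N.Normal → N ≠ ⊥ → ¬ N ≤ A ∧ ¬ N ≤ B := by
    intro N hN hNb
    exact ⟨fun h => hcon ⟨N, hN, hNb, Or.inl h⟩, fun h => hcon ⟨N, hN, hNb, Or.inr h⟩⟩
  have hA := comm_of_isMulCommutative (H := A) inferInstance
  have hB := comm_of_isMulCommutative (H := B) inferInstance
  have hBA : ∀ g : G, ∃ b ∈ B, ∃ a ∈ A, g = b * a := by
    intro g
    obtain ⟨a, ha, b, hb, h⟩ := hAB g⁻¹
    exact ⟨b⁻¹, B.inv_mem hb, a⁻¹, A.inv_mem ha, by rw [← mul_inv_rev, ← h, inv_inv]⟩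
  have hcen_of : ∀ z : G, (∀ a ∈ A, a * z = z * a) → (∀ b ∈ B, b * z = z * b) →
      ∀ g : G, g * z = z * g := by
    intro z hzA hzB g
    obtain ⟨a, ha, b, hb, rfl⟩ := hAB g
    calc a * b * z = a * (b * z) := by group
      _ = a * (z * b) := by rw [hzB b hb]
      _ = (a * z) * b := by group
      _ = z * (a * b) := by rw [hzA a ha]; group
  have hzn : ∀ z : G, (∀ g : G, g * z = z * g) → (zpowers z).Normal := by
    intro z hcen
    constructor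
    intro x hx g
    have : g * x * g⁻¹ = x := by
      obtain ⟨k, rfl⟩ := mem_zpowers_iff.mp hx
      have hc : Commute g z := hcen g
      have h2 := (hc.zpow_right k).eq
      rw [h2]; group
    rw [this]; exact hx
  have hZA : ∀ z ∈ A, (∀ g : G, g * z = z * g) → z = 1 := by
    intro z hz hcen
    by_contra hz1
    exact (hno (zpowers z) (hzn z hcen) (by rw [Ne, zpowers_eq_bot]; exact hz1)).1
      ((zpowers_le).mpr hz)
  have hZB : ∀ z ∈ B, (∀ g : G, g * z = z * g) → z = 1 := by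
    intro z hz hcen
    by_contra hz1
    exact (hno (zpowers z) (hzn z hcen) (by rw [Ne, zpowers_eq_bot]; exact hz1)).2
      ((zpowers_le).mpr hz)
  have hZ : ∀ z : G, (∀ g : G, g * z = z * g) → z = 1 := by
    intro z hcen
    obtain ⟨a, ha, b, hb, hzab⟩ := hAB z
    have ha1 : a = 1 := by
      apply hZA a ha
      apply hcen_of
      · intro a' ha'; exact hA a' ha' a ha
      · intro b' hb'
        have h1 := hcen b'
        rw [hzab] at h1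
        have h2 := hB b' hb' b hb
        calc b' * a = b' * (a * b) * b⁻¹ := by group
          _ = a * b * b' * b⁻¹ := by rw [h1]
          _ = a * (b * b') * b⁻¹ := by group
          _ = a * (b' * b) * b⁻¹ := by rw [h2]
          _ = a * b' := by group
    rw [ha1, one_mul] at hzab
    rw [hzab]
    apply hZB b hb
    rw [← hzab]; exact hcen
  have hCA : ∀ x ∈ A, (∀ b ∈ B, b * x = x * b) → x = 1 :=
    fun x hx h => hZ x (hcen_of x (fun a ha => hA a ha x hx) h)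
  have hCB : ∀ y ∈ B, (∀ a ∈ A, a * y = y * a) → y = 1 :=
    fun y hy h => hZ y (hcen_of y h (fun b hb => hB b hb y hy))
  have hd2 : derivedSeries G 2 = ⊥ := Cfsg.Agent.Lib.Helper9.ito_derivedSeries_two hAB
  have hG'comm : ∀ x ∈ commutator G, ∀ y ∈ commutator G, x * y = y * x := by
    have e : derivedSeries G 2 = ⁅commutator G, commutator G⁆ := by
      rw [← derivedSeries_one]; rfl
    rw [e] at hd2
    have h1 := Subgroup.commutator_eq_bot_iff_le_centralizer.mp hd2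
    intro x hx y hy
    exact (mem_centralizer_iff.mp (h1 hx) y hy).symm
  have hG'ne : commutator G ≠ ⊥ := by
    intro h
    obtain ⟨g, hg⟩ := exists_ne (1 : G)
    apply hg
    apply hZ
    intro x
    have h1 : ⁅x, g⁆ ∈ commutator G := by
      rw [_root_.commutator_def]; exact commutator_mem_commutator (mem_top x) (mem_top g)
    rw [h, mem_bot, commutatorElement_eq_one_iff_mul_comm] at h1
    exact h1
  obtain ⟨N, hNG', hNn, hNne, hNmin⟩ :=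
    exists_minimal_normal_le (commutator G) inferInstance hG'ne
  have hcomm_cent : ∀ g h : G, ∀ n ∈ N,
      (g⁻¹ * h⁻¹ * g * h) * n = n * (g⁻¹ * h⁻¹ * g * h) := by
    intro g h n hn
    have h2 : g⁻¹ * h⁻¹ * g * h ∈ commutator G := by
      have h1 : ⁅g⁻¹, h⁻¹⁆ ∈ commutator G := by
        rw [_root_.commutator_def]; exact commutator_mem_commutator (mem_top _) (mem_top _)
      rw [commutatorElement_def] at h1; simpa using h1
    exact hG'comm _ h2 n (hNG' hn)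
  have hfix : ∀ g : G, (∃ n ∈ N, n ≠ 1 ∧ g * n * g⁻¹ = n) → ∀ n ∈ N, g * n * g⁻¹ = n := by
    intro g ⟨n₀, hn₀, hn₀1, hgn₀⟩
    have hKn : (N ⊓ centralizer ({g} : Set G)).Normal := by
      constructor
      intro x hx0 h
      have hx := Subgroup.mem_inf.mp hx0
      refine Subgroup.mem_inf.mpr ⟨hNn.conj_mem x hx.1 h, ?_⟩
      rw [mem_centralizer_iff]
      intro z hz
      rw [Set.mem_singleton_iff] at hz; rw [hz]
      have hxz : g * x = x * g := mem_centralizer_iff.mp hx.2 g (Set.mem_singleton g)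
      have hc := hcomm_cent g h x hx.1
      calc g * (h * x * h⁻¹) = h * g * ((g⁻¹ * h⁻¹ * g * h) * x) * h⁻¹ := by group
        _ = h * g * (x * (g⁻¹ * h⁻¹ * g * h)) * h⁻¹ := by rw [hc]
        _ = h * (g * x) * (g⁻¹ * h⁻¹ * g * h) * h⁻¹ := by group
        _ = h * (x * g) * (g⁻¹ * h⁻¹ * g * h) * h⁻¹ := by rw [hxz]
        _ = h * x * h⁻¹ * g := by group
    have hKne : N ⊓ centralizer ({g} : Set G) ≠ ⊥ := by
      intro hK
      apply hn₀1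
      have h1 : n₀ ∈ N ⊓ centralizer ({g} : Set G) := Subgroup.mem_inf.mpr ⟨hn₀, by
        rw [mem_centralizer_iff]; intro z hz; rw [Set.mem_singleton_iff] at hz; rw [hz]
        calc g * n₀ = (g * n₀ * g⁻¹) * g := by group
          _ = n₀ * g := by rw [hgn₀]⟩
      rw [hK, mem_bot] at h1; exact h1
    have hKN : N ⊓ centralizer ({g} : Set G) = N :=
      (hNmin _ hKn inf_le_left).resolve_left hKne
    intro n hn
    have h1 : n ∈ N ⊓ centralizer ({g} : Set G) := by rw [hKN]; exact hn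
    have h2 := mem_centralizer_iff.mp (Subgroup.mem_inf.mp h1).2 g (Set.mem_singleton g)
    rw [h2]; group
  have hAN : ∃ α ∈ A, ∀ n ∈ N, n ≠ 1 → α * n * α⁻¹ ≠ n := by
    by_contra hcon2
    have hAc : ∀ α ∈ A, ∀ n ∈ N, α * n * α⁻¹ = n := by
      intro α hα
      apply hfix
      by_contra h'
      apply hcon2
      refine ⟨α, hα, ?_⟩
      intro n hn hn1 hfixn
      exact h' ⟨n, hn, hn1, hfixn⟩
    apply (hno N hNn hNne).1
    intro n hn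
    obtain ⟨a', ha', b', hb', hnab⟩ := hAB n
    have hb1 : b' = 1 := by
      apply hCB b' hb'
      intro a'' ha''
      have h1 := hAc a'' ha'' n hn
      rw [hnab] at h1
      have h2 := hA a'' ha'' a' ha'
      calc a'' * b' = a'⁻¹ * (a' * a'') * b' := by group
        _ = a'⁻¹ * (a'' * a') * b' := by rw [h2]
        _ = a'⁻¹ * (a'' * (a' * b') * a''⁻¹) * a'' := by group
        _ = a'⁻¹ * (a' * b') * a'' := by rw [h1]
        _ = b' * a'' := by group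
    rw [hnab, hb1, mul_one]; exact ha'
  have hBN : ∃ β ∈ B, ∀ n ∈ N, n ≠ 1 → β * n * β⁻¹ ≠ n := by
    by_contra hcon2
    have hBc : ∀ β ∈ B, ∀ n ∈ N, β * n * β⁻¹ = n := by
      intro β hβ
      apply hfix
      by_contra h'
      apply hcon2
      refine ⟨β, hβ, ?_⟩
      intro n hn hn1 hfixn
      exact h' ⟨n, hn, hn1, hfixn⟩
    apply (hno N hNn hNne).2
    intro n hn
    obtain ⟨a', ha', b', hb', hnab⟩ := hAB n
    have ha1 : a' = 1 := by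
      apply hCA a' ha'
      intro b'' hb''
      have h1 := hBc b'' hb'' n hn
      rw [hnab] at h1
      have h2 := hB b'' hb'' b' hb'
      calc b'' * a' = (b'' * (a' * b') * b''⁻¹) * b'' * b'⁻¹ := by group
        _ = (a' * b') * b'' * b'⁻¹ := by rw [h1]
        _ = a' * (b' * b'') * b'⁻¹ := by group
        _ = a' * (b'' * b') * b'⁻¹ := by rw [h2]
        _ = a' * b'' := by group
    rw [hnab, ha1, one_mul]; exact hb'
  obtain ⟨α, hα, hαN⟩ := hAN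
  obtain ⟨β, hβ, hβN⟩ := hBN
  obtain ⟨n₀, hn₀, hn₀1⟩ : ∃ n ∈ N, n ≠ 1 := by
    by_contra h'
    apply hNne
    rw [eq_bot_iff]
    intro x hx
    rw [mem_bot]
    by_contra hx1
    exact h' ⟨x, hx, hx1⟩
  obtain ⟨a, ha, b', hb', hn₀ab⟩ := hAB n₀
  have hab : a = n₀ * b'⁻¹ := by rw [hn₀ab]; group
  have hone : ∀ (X : Subgroup G) (n n' : G), n ∈ N → n' ∈ N → n' ≠ 1 →
      ({y | ∃ x ∈ X, y = x * n * x⁻¹} : Set G).ncard ≤
        ({y | ∃ x ∈ X, y = x * n' * x⁻¹} : Set G).ncard := by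
    intro X n n' hn hn' hn'1
    apply orb_card_le
    intro x₁ hx₁ x₂ hx₂ h
    have hg : (x₂⁻¹ * x₁) * n' * (x₂⁻¹ * x₁)⁻¹ = n' := by
      calc (x₂⁻¹ * x₁) * n' * (x₂⁻¹ * x₁)⁻¹ = x₂⁻¹ * (x₁ * n' * x₁⁻¹) * x₂ := by group
        _ = x₂⁻¹ * (x₂ * n' * x₂⁻¹) * x₂ := by rw [h]
        _ = n' := by group
    have h2 := hfix (x₂⁻¹ * x₁) ⟨n', hn', hn'1, hg⟩ n hn
    calc x₁ * n * x₁⁻¹ = x₂ * ((x₂⁻¹ * x₁) * n * (x₂⁻¹ * x₁)⁻¹) * x₂⁻¹ := by group
      _ = x₂ * n * x₂⁻¹ := by rw [h2]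
  have hsemi : ∀ (X : Subgroup G) (n n' : G), n ∈ N → n ≠ 1 → n' ∈ N → n' ≠ 1 →
      ({y | ∃ x ∈ X, y = x * n * x⁻¹} : Set G).ncard =
        ({y | ∃ x ∈ X, y = x * n' * x⁻¹} : Set G).ncard := by
    intro X n n' hn hn1 hn' hn'1
    exact le_antisymm (hone X n n' hn hn' hn'1) (hone X n' n hn' hn hn1)
  have hβn₀ : β * n₀ * β⁻¹ ≠ n₀ := hβN n₀ hn₀ hn₀1
  have I1 := orb_ineq A B hA hB hBA a b'⁻¹ n₀ β ha (B.inv_mem hb') hab hβ hβn₀
  have hba : b'⁻¹ = n₀⁻¹ * a := by rw [hab]; group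
  have hn₀inv : n₀⁻¹ ∈ N := N.inv_mem hn₀
  have hn₀inv1 : n₀⁻¹ ≠ 1 := by simpa using hn₀1
  have hαn₀ : α * n₀⁻¹ * α⁻¹ ≠ n₀⁻¹ := hαN n₀⁻¹ hn₀inv hn₀inv1
  have I2 := orb_ineq B A hB hA hAB b'⁻¹ a n₀⁻¹ α (B.inv_mem hb') ha hba hα hαn₀
  have hn₁N : β * n₀ * β⁻¹ * n₀⁻¹ ∈ N := N.mul_mem (hNn.conj_mem n₀ hn₀ β) hn₀inv
  have hn₁1 : β * n₀ * β⁻¹ * n₀⁻¹ ≠ 1 := by
    intro h; apply hβn₀
    calc β * n₀ * β⁻¹ = (β * n₀ * β⁻¹ * n₀⁻¹) * n₀ := by group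
      _ = n₀ := by rw [h, one_mul]
  have hm₁N : α * n₀⁻¹ * α⁻¹ * n₀⁻¹⁻¹ ∈ N :=
    N.mul_mem (hNn.conj_mem _ hn₀inv α) (N.inv_mem hn₀inv)
  have hm₁1 : α * n₀⁻¹ * α⁻¹ * n₀⁻¹⁻¹ ≠ 1 := by
    intro h; apply hαn₀
    calc α * n₀⁻¹ * α⁻¹ = (α * n₀⁻¹ * α⁻¹ * n₀⁻¹⁻¹) * n₀⁻¹ := by group
      _ = n₀⁻¹ := by rw [h, one_mul]
  rw [hsemi A _ n₀⁻¹ hn₁N hn₁1 hn₀inv hn₀inv1] at I1
  rw [hsemi B _ n₀ hm₁N hm₁1 hn₀ hn₀1] at I2
  omega

end Cfsg.Agent.S0573
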