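import Cfsg.Statements.S0571
import Mathlib
import Cfsg.Agent.Lib.Helper9.Supersolvable
import Cfsg.Agent.S0573

set_option autoImplicit false
open Cfsg

namespace Cfsg.Agent.S0571


open Subgroup
open Cfsg.Agent.Lib.Helper9

universe u

theorem isMulCommutative_of_isCyclic (H : Type*) [Group H] [IsCyclic H] : IsMulCommutative H := by
  refine isMulCommutative_iff.mpr ?_
  intro a b
  obtain ⟨g, hg⟩ := IsCyclic.exists_generator (α := H)
  obtain ⟨i, rfl⟩ := Subgroup.mem_zpowers_iff.mp (hg a)
  obtain ⟨j, rfl⟩ := Subgroup.mem_zpowers_iff.mp (hg b)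
  exact ((Commute.refl g).zpow_zpow i j).eq

theorem aux : ∀ (n : ℕ) (G : Type u) [Group G] [Finite G] (A B : Subgroup G), IsCyclic A →
    IsCyclic B → (∀ g : G, ∃ a ∈ A, ∃ b ∈ B, g = a * b) → Nat.card G = n →
    Cfsg.IsSupersolvable G := by
  intro n
  induction n using Nat.strong_induction_on with
  | _ n ih =>
    intro G _ _ A B hA hB hAB hn
    by_cases hG : Subsingleton G
    · exact isSupersolvable_of_subsingleton
    · have hnt : Nontrivial G := not_subsingleton_iff_nontrivial.mp hG
      have hAc : IsMulCommutative A := isMulCommutative_of_isCyclic A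
      have hBc : IsMulCommutative B := isMulCommutative_of_isCyclic B
      obtain ⟨N, hNn, hNne, hNAB⟩ := Cfsg.Agent.S0573.result A B hAB
      have hNcyc : IsCyclic N := by
        rcases hNAB with h | h
        · exact isCyclic_of_surjective (Subgroup.subgroupOfEquivOfLe h).toMonoidHom
            (Subgroup.subgroupOfEquivOfLe h).surjective
        · exact isCyclic_of_surjective (Subgroup.subgroupOfEquivOfLe h).toMonoidHom
            (Subgroup.subgroupOfEquivOfLe h).surjective
      have hlt : Nat.card (G ⧸ N) < n := by
        rw [← hn, Subgroup.card_eq_card_quotient_mul_card_subgroup N]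
        have h1 : 1 < Nat.card N := (Subgroup.one_lt_card_iff_ne_bot N).mpr hNne
        have h2 : 0 < Nat.card (G ⧸ N) := Nat.card_pos
        nlinarith
      have hquot : Cfsg.IsSupersolvable (G ⧸ N) := by
        refine ih (Nat.card (G ⧸ N)) hlt (G ⧸ N) (A.map (QuotientGroup.mk' N))
          (B.map (QuotientGroup.mk' N)) ?_ ?_ ?_ rfl
        · exact isCyclic_of_surjective ((QuotientGroup.mk' N).subgroupMap A)
            ((QuotientGroup.mk' N).subgroupMap_surjective A)
        · exact isCyclic_of_surjective ((QuotientGroup.mk' N).subgroupMap B)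
            ((QuotientGroup.mk' N).subgroupMap_surjective B)
        · intro q
          obtain ⟨g, rfl⟩ := QuotientGroup.mk_surjective q
          obtain ⟨a, ha, b, hb, rfl⟩ := hAB g
          exact ⟨QuotientGroup.mk' N a, Subgroup.mem_map_of_mem _ ha, QuotientGroup.mk' N b,
            Subgroup.mem_map_of_mem _ hb, rfl⟩
      exact isSupersolvable_of_ssc_of_quotient N (SSC.of_isCyclic N) hquot


/-- If a finite group G is the product AB of two cyclic subgroups (every element is a product ab), then G is supersolvable. -/
theorem result {G : Type*} [Group G] [Finite G] (A B : Subgroup G) [IsCyclic A] [IsCyclic B] (hAB : ∀ g : G, ∃ a ∈ A, ∃ b ∈ B, g = a * b) : Cfsg.IsSupersolvable G := by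
  exact aux (Nat.card G) G A B inferInstance inferInstance hAB rfl

end Cfsg.Agent.S0571
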