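import Cfsg.Statements.S0575
import Mathlib

set_option autoImplicit false
open Cfsg

namespace Cfsg.Agent.S0575

open scoped Pointwise

/-- If H is a normal subgroup of a finite group G, then the Frattini subgroup of H, viewed in G, lies in the Frattini subgroup of G. -/
theorem result {G : Type*} [Group G] [Finite G] (H : Subgroup G) [H.Normal] : (frattini ↥H).map H.subtype ≤ frattini G := by
  have hF : ((frattini ↥H).map H.subtype).Normal := inferInstance
  have hFH : (frattini ↥H).map H.subtype ≤ H := by
    rintro _ ⟨x, _, rfl⟩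
    exact x.2
  unfold frattini Order.radical
  simp only [le_iInf_iff]
  intro M hM
  by_contra hFM
  have hsup : (frattini ↥H).map H.subtype ⊔ M = ⊤ := by
    apply hM.2
    refine lt_of_le_of_ne le_sup_right (fun h => hFM ?_)
    rw [h]; exact le_sup_left
  have hgen : M.subgroupOf H ⊔ frattini ↥H = ⊤ := by
    rw [eq_top_iff]
    intro h _
    have h1 : (h : G) ∈ (frattini ↥H).map H.subtype ⊔ M := by rw [hsup]; exact Subgroup.mem_top _
    rw [← SetLike.mem_coe, Subgroup.normal_mul] at h1
    obtain ⟨f, hf, m, hm, hfm⟩ := h1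
    obtain ⟨f', hf', rfl⟩ := hf
    have hmH : m ∈ H := by
      have : m = (H.subtype f')⁻¹ * (h : G) := by rw [← hfm]; group
      rw [this]
      exact H.mul_mem (H.inv_mem f'.2) h.2
    have : h = f' * ⟨m, hmH⟩ := Subtype.ext hfm.symm
    rw [this]
    exact Subgroup.mul_mem _ (Subgroup.mem_sup_right hf')
      (Subgroup.mem_sup_left (Subgroup.mem_subgroupOf.mpr hm))
  have htop := frattini_nongenerating hgen
  rw [Subgroup.subgroupOf_eq_top] at htop
  exact hFM (hFH.trans htop)

end Cfsg.Agent.S0575
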