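import Cfsg.Statements.S0576
import Mathlib

set_option autoImplicit false
open Cfsg

namespace Cfsg.Agent.S0576


open scoped Pointwise

theorem inn_normal (H : Type*) [Group H] : (MulAut.conj : H →* MulAut H).range.Normal := by
  constructor
  rintro _ ⟨h, rfl⟩ φ
  refine ⟨φ h, ?_⟩
  ext x
  simp [MulAut.conj_apply]


/-- Let H be a normal subgroup of a finite group G with H contained in the Frattini subgroup of G. Then the group of inner automorphisms of H is contained in the Frattini subgroup of the automorphism group of H. -/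
theorem result {G : Type*} [Group G] [Finite G] (H : Subgroup G) [H.Normal] (hH : H ≤ frattini G) : (MulAut.conj : ↥H →* MulAut ↥H).range ≤ frattini (MulAut ↥H) := by
  classical
  unfold frattini Order.radical
  refine le_iInf₂ ?_
  intro M hM
  by_contra hle
  have hsup : (MulAut.conj : ↥H →* MulAut ↥H).range ⊔ M = ⊤ := by
    by_contra hne
    have h1 : M < (MulAut.conj : ↥H →* MulAut ↥H).range ⊔ M :=
      lt_of_le_of_ne le_sup_right (fun heq => hle (heq ▸ le_sup_left))
    exact hne (hM.2 _ h1)
  have hInn : (MulAut.conj : ↥H →* MulAut ↥H).range.Normal := inn_normal H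
  have hL : M.comap (MulAut.conjNormal : G →* MulAut ↥H) ⊔ frattini G = ⊤ := by
    rw [eq_top_iff]
    intro g _
    have h1 : (MulAut.conjNormal g : MulAut ↥H) ∈
        (((MulAut.conj : ↥H →* MulAut ↥H).range ⊔ M : Subgroup (MulAut ↥H)) : Set (MulAut ↥H)) := by
      rw [hsup]; trivial
    rw [Subgroup.normal_mul] at h1
    obtain ⟨_, ⟨h, rfl⟩, m, hm, hprod⟩ := h1
    have h2 : (h : G)⁻¹ * g ∈ M.comap (MulAut.conjNormal : G →* MulAut ↥H) := by
      rw [Subgroup.mem_comap, map_mul, map_inv, MulAut.conjNormal_val]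
      have h3 : (MulAut.conj h)⁻¹ * (MulAut.conjNormal g : MulAut ↥H) = m := by
        rw [← hprod]; group
      rw [h3]; exact hm
    have h5 : g = ((h : G)⁻¹ * g) * ((((h : G)⁻¹ * g)⁻¹ * (h : G) * ((h : G)⁻¹ * g))) := by group
    rw [h5]
    refine Subgroup.mul_mem_sup h2 (hH ?_)
    exact ‹H.Normal›.conj_mem' _ h.2 _
  have hLtop : M.comap (MulAut.conjNormal : G →* MulAut ↥H) = ⊤ := frattini_nongenerating hL
  apply hle
  rintro _ ⟨h, rfl⟩
  have h1 : (h : G) ∈ M.comap (MulAut.conjNormal : G →* MulAut ↥H) := by rw [hLtop]; trivial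
  rw [Subgroup.mem_comap, MulAut.conjNormal_val] at h1
  exact h1

end Cfsg.Agent.S0576
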