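import Cfsg.Statements.S0577
import Mathlib
import Cfsg.Agent.Lib.Helper9.Schmidt
import Cfsg.Agent.Lib.Helper9.FrattiniNilp
import Cfsg.Agent.Lib.Helper7.Coprime2
import Cfsg.Agent.S0581

set_option autoImplicit false
open Cfsg

namespace Cfsg.Agent.S0577


open Subgroup
open scoped Pointwise commutatorElement
open Cfsg.Agent.Lib.Helper9

section
variable {G : Type*} [Group G] [Finite G]

theorem comm_of_isCyclic {H : Subgroup G} (hH : IsCyclic H) :
    ∀ a ∈ H, ∀ b ∈ H, a * b = b * a := by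
  intro a ha b hb
  obtain ⟨g, hg⟩ := IsCyclic.exists_generator (α := H)
  obtain ⟨i, hi⟩ := Subgroup.mem_zpowers_iff.mp (hg ⟨a, ha⟩)
  obtain ⟨j, hj⟩ := Subgroup.mem_zpowers_iff.mp (hg ⟨b, hb⟩)
  have hc : Commute (⟨a, ha⟩ : H) ⟨b, hb⟩ := by
    rw [← hi, ← hj]; exact (Commute.refl g).zpow_zpow i j
  exact congrArg Subtype.val hc.eq

theorem isNilpotent_of_commute_sup {p q : ℕ} [Fact p.Prime] [Fact q.Prime] (A B : Subgroup G)
    (hA : IsPGroup p A) (hB : IsPGroup q B) (hAB : A ⊔ B = ⊤)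
    (hc : ∀ a ∈ A, ∀ b ∈ B, a * b = b * a) : Group.IsNilpotent G := by
  have hAn : Group.IsNilpotent A := hA.isNilpotent
  have hBn : Group.IsNilpotent B := hB.isNilpotent
  have hcc : ∀ (a : A) (b : B), Commute (A.subtype a) (B.subtype b) := fun a b => hc a a.2 b b.2
  have hf : Function.Surjective (MonoidHom.noncommCoprod A.subtype B.subtype hcc) := by
    rw [← MonoidHom.range_eq_top, MonoidHom.noncommCoprod_range, Subgroup.range_subtype,
      Subgroup.range_subtype]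
    exact hAB
  exact Group.nilpotent_of_surjective _ hf

end


/-- Let G be a finite minimal non-nilpotent group and Q a normal Sylow q-subgroup of G, and let D be the commutator subgroup of Q regarded in G (a normal subgroup). Then G modulo D is non-abelian and all its proper subgroups are abelian. -/
theorem result {G : Type*} [Group G] [Finite G] (hG : Cfsg.IsMinimalNonNilpotent G) (q : ℕ) [Fact q.Prime] (hq : q ∣ Nat.card G) (Q : Sylow q G) (hQ : (Q : Subgroup G).Normal) (D : Subgroup G) [D.Normal] (hD : D = (commutator ↥(Q : Subgroup G)).map (Q : Subgroup G).subtype) : ¬ IsMulCommutative (G ⧸ D) ∧ ∀ K : Subgroup (G ⧸ D), K ≠ ⊤ → IsMulCommutative K := by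
  classical
  obtain ⟨hnn, hprop⟩ := hG
  obtain ⟨p, q', hp, hq', hpq, P, Q', hcyc, hQ'n, hPQ⟩ := schmidt_structure hnn hprop
  have hpF : Fact p.Prime := ⟨hp⟩
  have hq'F : Fact q'.Prime := ⟨hq'⟩
  have hqp : (Fact.out : q.Prime) = (Fact.out : q.Prime) := rfl
  have hqprime : q.Prime := Fact.out
  obtain ⟨m, hm⟩ := IsPGroup.iff_card.mp P.isPGroup'
  have hqq : q = q' := by
    by_contra hne
    obtain ⟨n', hn'⟩ := IsPGroup.iff_card.mp Q'.isPGroup'
    have hcop0 : (Nat.card (P : Subgroup G)).Coprime (Nat.card (Q' : Subgroup G)) := by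
      rw [hm, hn']; exact Nat.Coprime.pow _ _ ((Nat.coprime_primes hp hq').mpr hpq)
    have hcard : Nat.card G = Nat.card (Q' : Subgroup G) * Nat.card (P : Subgroup G) := by
      have h1 := Cfsg.Agent.Lib.Helper7.card_sup_of_coprime (A := (P : Subgroup G))
        (N := (Q' : Subgroup G)) (by rw [Subgroup.normalizer_eq_top]; exact le_top) hcop0
      rw [hPQ, Subgroup.card_top] at h1
      exact h1
    have hqp' : q = p := by
      rw [hcard, hm, hn'] at hq
      rcases (Nat.Prime.dvd_mul hqprime).mp hq with h1 | h1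
      · exact absurd ((Nat.prime_dvd_prime_iff_eq hqprime hq').mp
          (Nat.Prime.dvd_of_dvd_pow hqprime h1)) hne
      · exact (Nat.prime_dvd_prime_iff_eq hqprime hp).mp (Nat.Prime.dvd_of_dvd_pow hqprime h1)
    subst hqp'
    have hPn : (P : Subgroup G).Normal := by
      obtain ⟨g, hg⟩ := MulAction.exists_smul_eq G Q P
      rw [← hg, Sylow.smul_eq_of_normal]; exact hQ
    apply hnn
    have hdisj0 : Disjoint (P : Subgroup G) (Q' : Subgroup G) :=
      IsPGroup.disjoint_of_ne q q' hpq _ _ P.isPGroup' Q'.isPGroup'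
    exact isNilpotent_of_commute_sup (P : Subgroup G) (Q' : Subgroup G) P.isPGroup' Q'.isPGroup' hPQ
      (fun a ha b hb => (Subgroup.commute_of_normal_of_disjoint _ _ hPn hQ'n hdisj0 a b ha hb).eq)
  subst hqq
  have hQQ : Q' = Q := by
    obtain ⟨g, hg⟩ := MulAction.exists_smul_eq G Q Q'
    rw [← hg, Sylow.smul_eq_of_normal]
  subst hQQ
  obtain ⟨n, hn⟩ := IsPGroup.iff_card.mp Q'.isPGroup'
  have hcop : (Nat.card (P : Subgroup G)).Coprime (Nat.card (Q' : Subgroup G)) := by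
    rw [hm, hn]; exact Nat.Coprime.pow _ _ ((Nat.coprime_primes hp hq').mpr hpq)
  have hDQ : D ≤ (Q' : Subgroup G) := by rw [hD]; exact Subgroup.map_subtype_le _
  have hDn : D.Normal := inferInstance
  constructor
  · intro hcomm
    apply hnn
    have hc : ∀ a b : G, a * b * a⁻¹ * b⁻¹ ∈ D := by
      intro a b
      have h1 : ((a * b * a⁻¹ * b⁻¹ : G) : G ⧸ D) = 1 := by
        have h2 := mul_comm' (a : G ⧸ D) (b : G ⧸ D)
        rw [QuotientGroup.mk_mul, QuotientGroup.mk_mul, QuotientGroup.mk_mul, h2,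
          QuotientGroup.mk_inv, QuotientGroup.mk_inv]
        group
      exact (QuotientGroup.eq_one_iff _).mp h1
    have hcomm_le : ⁅(Q' : Subgroup G), (P : Subgroup G)⁆ ≤ D := by
      rw [Subgroup.commutator_le]
      intro x _ a _
      rw [commutatorElement_def]; exact hc x a
    have hQnil : Group.IsNilpotent (Q' : Subgroup G) := Q'.isPGroup'.isNilpotent
    have hsup := Cfsg.Agent.Lib.Helper7.commutator_sup_centralizer (P : Subgroup G) (Q' : Subgroup G)
      (by rw [Subgroup.normalizer_eq_top]; exact le_top) hcop (Or.inr inferInstance)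
    have hsup' : D ⊔ ((Q' : Subgroup G) ⊓ centralizer ((P : Subgroup G) : Set G)) = Q' :=
      le_antisymm (sup_le hDQ inf_le_left) (hsup.ge.trans (sup_le_sup_right hcomm_le _))
    have htop : ((Q' : Subgroup G) ⊓ centralizer ((P : Subgroup G) : Set G)).subgroupOf Q' ⊔
        commutator (Q' : Subgroup G) = ⊤ := by
      apply Subgroup.map_injective (Q' : Subgroup G).subtype_injective
      rw [Subgroup.map_sup, Subgroup.subgroupOf_map_subtype, ← hD, ← MonoidHom.range_eq_map,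
        Subgroup.range_subtype, inf_eq_left.mpr inf_le_left, sup_comm]
      exact hsup'
    have htop2 : ((Q' : Subgroup G) ⊓ centralizer ((P : Subgroup G) : Set G)).subgroupOf Q' = ⊤ := by
      apply frattini_nongenerating
      apply top_le_iff.mp
      rw [← htop]
      exact sup_le_sup_left (commutator_le_frattini_of_isNilpotent _) _
    have hQC : (Q' : Subgroup G) ≤ centralizer ((P : Subgroup G) : Set G) :=
      (Subgroup.subgroupOf_eq_top.mp htop2).trans inf_le_right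
    exact isNilpotent_of_commute_sup (P : Subgroup G) (Q' : Subgroup G) P.isPGroup' Q'.isPGroup' hPQ
      (fun a ha b hb => (mem_centralizer_iff.mp (hQC hb) a ha))
  · intro Kb hKb
    have hKtop : Kb.comap (QuotientGroup.mk' D) ≠ ⊤ := by
      intro h
      apply hKb
      rw [eq_top_iff]
      intro x _
      obtain ⟨g, rfl⟩ := QuotientGroup.mk_surjective x
      have : g ∈ Kb.comap (QuotientGroup.mk' D) := h ▸ Subgroup.mem_top g
      exact this
    have hKnil := hprop _ hKtop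
    have hpowQ : ∀ x : G, x ^ (p ^ m) ∈ (Q' : Subgroup G) := by
      intro x
      have hx : x ∈ (((Q' : Subgroup G) ⊔ (P : Subgroup G) : Subgroup G) : Set G) := by
        rw [sup_comm, hPQ]; exact mem_top x
      rw [Subgroup.normal_mul] at hx
      obtain ⟨b, hb, a, ha, hba⟩ := hx
      have hba' : b * a = x := hba
      have hapow : a ^ (p ^ m) = 1 := by
        have h1 : (⟨a, ha⟩ : (P : Subgroup G)) ^ Nat.card (P : Subgroup G) = 1 := pow_card_eq_one'
        rw [hm] at h1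
        have := congrArg Subtype.val h1
        simpa using this
      have h1 : ((x ^ (p ^ m) : G) : G ⧸ (Q' : Subgroup G)) = 1 := by
        rw [QuotientGroup.mk_pow, ← hba', QuotientGroup.mk_mul, (QuotientGroup.eq_one_iff b).mpr hb,
          one_mul, ← QuotientGroup.mk_pow, hapow, QuotientGroup.mk_one]
      exact (QuotientGroup.eq_one_iff _).mp h1
    have hcop' : Nat.Coprime (p ^ m) (q ^ n) :=
      Nat.Coprime.pow _ _ ((Nat.coprime_primes hp hq').mpr hpq)
    have hdec : ∀ x ∈ Kb.comap (QuotientGroup.mk' D),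
        ∃ b ∈ Kb.comap (QuotientGroup.mk' D) ⊓ (Q' : Subgroup G),
        ∃ a ∈ Kb.comap (QuotientGroup.mk' D), a ^ (p ^ m) = 1 ∧ x = b * a := by
      intro x hx
      have hbez := Nat.gcd_eq_gcd_ab (p ^ m) (q ^ n)
      rw [hcop'.gcd_eq_one] at hbez
      refine ⟨(x ^ (p ^ m)) ^ (Nat.gcdA (p ^ m) (q ^ n)),
        ⟨Subgroup.zpow_mem _ (Subgroup.pow_mem _ hx _) _, Subgroup.zpow_mem _ (hpowQ x) _⟩,
        (x ^ (q ^ n)) ^ (Nat.gcdB (p ^ m) (q ^ n)),
        Subgroup.zpow_mem _ (Subgroup.pow_mem _ hx _) _, ?_, ?_⟩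
      · have h1 : (x ^ (p ^ m)) ^ (q ^ n) = 1 := by
          have h2 : (⟨x ^ (p ^ m), hpowQ x⟩ : (Q' : Subgroup G)) ^ Nat.card (Q' : Subgroup G) = 1 :=
            pow_card_eq_one'
          rw [hn] at h2
          have := congrArg Subtype.val h2
          simpa using this
        have e1 : ((x ^ (q ^ n)) ^ (Nat.gcdB (p ^ m) (q ^ n))) ^ (p ^ m) =
            ((x ^ (q ^ n)) ^ (p ^ m)) ^ (Nat.gcdB (p ^ m) (q ^ n)) := by
          rw [← zpow_natCast ((x ^ (q ^ n)) ^ (Nat.gcdB (p ^ m) (q ^ n))), ← zpow_mul, mul_comm,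
            zpow_mul, zpow_natCast]
        rw [e1, pow_right_comm, h1, one_zpow]
      · have h3 : x = x ^ (((p ^ m : ℕ) : ℤ) * Nat.gcdA (p ^ m) (q ^ n) +
            ((q ^ n : ℕ) : ℤ) * Nat.gcdB (p ^ m) (q ^ n)) := by
          rw [← hbez]; simp
        rw [zpow_add, zpow_mul, zpow_mul, zpow_natCast, zpow_natCast] at h3
        exact h3
    have hall : ∀ (r : ℕ) [Fact r.Prime] (S : Sylow r (Kb.comap (QuotientGroup.mk' D))),
        (S : Subgroup (Kb.comap (QuotientGroup.mk' D))).Normal :=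
      ((Group.isNilpotent_of_finite_tfae (G := Kb.comap (QuotientGroup.mk' D))).out 0 3).mp hKnil
    obtain ⟨S⟩ : Nonempty (Sylow p (Kb.comap (QuotientGroup.mk' D))) := inferInstance
    have hSn := hall p S
    have hmemS : ∀ a (ha : a ∈ Kb.comap (QuotientGroup.mk' D)), a ^ (p ^ m) = 1 →
        (⟨a, ha⟩ : Kb.comap (QuotientGroup.mk' D)) ∈ (S : Subgroup (Kb.comap (QuotientGroup.mk' D))) := by
      intro a ha hap
      have hz : IsPGroup p (zpowers (⟨a, ha⟩ : Kb.comap (QuotientGroup.mk' D))) := by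
        have h1 : orderOf (⟨a, ha⟩ : Kb.comap (QuotientGroup.mk' D)) ∣ p ^ m :=
          orderOf_dvd_of_pow_eq_one (Subtype.ext (by simpa using hap))
        obtain ⟨j, -, hj⟩ := (Nat.dvd_prime_pow hp).mp h1
        exact IsPGroup.of_card (n := j) (by rw [Nat.card_zpowers, hj])
      obtain ⟨T, hT⟩ := hz.exists_le_sylow
      obtain ⟨g, hg⟩ := MulAction.exists_smul_eq (Kb.comap (QuotientGroup.mk' D)) S T
      rw [Sylow.smul_eq_of_normal] at hg
      subst hg
      exact hT (mem_zpowers _)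
    obtain ⟨l, -, hl⟩ := Cfsg.Agent.S0581.exists_conj_sylow_in p P ⊤
      ((S : Subgroup (Kb.comap (QuotientGroup.mk' D))).map (Kb.comap (QuotientGroup.mk' D)).subtype)
      le_top le_top (S.isPGroup'.map _)
    have hPcomm := comm_of_isCyclic hcyc
    have hpc : ∀ a₁ (_ : a₁ ∈ Kb.comap (QuotientGroup.mk' D)) a₂
        (_ : a₂ ∈ Kb.comap (QuotientGroup.mk' D)),
        a₁ ^ (p ^ m) = 1 → a₂ ^ (p ^ m) = 1 → a₁ * a₂ = a₂ * a₁ := by
      intro a₁ h₁ a₂ h₂ hp₁ hp₂
      have m₁ : a₁ ∈ MulAut.conj l • (P : Subgroup G) := hl ⟨⟨a₁, h₁⟩, hmemS a₁ h₁ hp₁, rfl⟩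
      have m₂ : a₂ ∈ MulAut.conj l • (P : Subgroup G) := hl ⟨⟨a₂, h₂⟩, hmemS a₂ h₂ hp₂, rfl⟩
      rw [mem_conj_smul_iff] at m₁ m₂
      have h3 := hPcomm _ m₁ _ m₂
      calc a₁ * a₂ = l * ((l⁻¹ * a₁ * l) * (l⁻¹ * a₂ * l)) * l⁻¹ := by group
        _ = l * ((l⁻¹ * a₂ * l) * (l⁻¹ * a₁ * l)) * l⁻¹ := by rw [h3]
        _ = a₂ * a₁ := by group
    have hpq' : ∀ a ∈ Kb.comap (QuotientGroup.mk' D), a ^ (p ^ m) = 1 →
        ∀ b ∈ Kb.comap (QuotientGroup.mk' D) ⊓ (Q' : Subgroup G), a * b = b * a := by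
      intro a ha hap b hb
      have hz : IsPGroup p (zpowers a) := by
        have h1 : orderOf a ∣ p ^ m := orderOf_dvd_of_pow_eq_one hap
        obtain ⟨j, -, hj⟩ := (Nat.dvd_prime_pow hp).mp h1
        exact IsPGroup.of_card (n := j) (by rw [Nat.card_zpowers, hj])
      exact Cfsg.Agent.S0581.commute_of_nilpotent (Kb.comap (QuotientGroup.mk' D)) hKnil p q hpq
        (zpowers a) (Kb.comap (QuotientGroup.mk' D) ⊓ (Q' : Subgroup G))
        ((Subgroup.zpowers_le).mpr ha) inf_le_left hz (Q'.isPGroup'.to_le inf_le_right)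
        a (mem_zpowers a) b hb
    refine isMulCommutative_iff.mpr ?_
    rintro ⟨x', hx'⟩ ⟨y', hy'⟩
    obtain ⟨x, rfl⟩ := QuotientGroup.mk_surjective x'
    obtain ⟨y, rfl⟩ := QuotientGroup.mk_surjective y'
    apply Subtype.ext
    show (x : G ⧸ D) * (y : G ⧸ D) = (y : G ⧸ D) * (x : G ⧸ D)
    obtain ⟨b₁, hb₁, a₁, ha₁, ha₁p, rfl⟩ := hdec x hx'
    obtain ⟨b₂, hb₂, a₂, ha₂, ha₂p, rfl⟩ := hdec y hy'
    rw [← QuotientGroup.mk_mul, ← QuotientGroup.mk_mul, QuotientGroup.eq]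
    have h1 : a₁ * b₂ = b₂ * a₁ := hpq' a₁ ha₁ ha₁p b₂ hb₂
    have h2 : a₂ * b₁ = b₁ * a₂ := hpq' a₂ ha₂ ha₂p b₁ hb₁
    have h3 : a₁ * a₂ = a₂ * a₁ := hpc a₁ ha₁ a₂ ha₂ ha₁p ha₂p
    have hx : b₁ * a₁ * (b₂ * a₂) = b₁ * b₂ * (a₁ * a₂) := by
      calc b₁ * a₁ * (b₂ * a₂) = b₁ * (a₁ * b₂) * a₂ := by group
        _ = b₁ * (b₂ * a₁) * a₂ := by rw [h1]
        _ = _ := by group
    have hy : b₂ * a₂ * (b₁ * a₁) = b₂ * b₁ * (a₁ * a₂) := by
      calc b₂ * a₂ * (b₁ * a₁) = b₂ * (a₂ * b₁) * a₁ := by group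
        _ = b₂ * (b₁ * a₂) * a₁ := by rw [h2]
        _ = b₂ * b₁ * (a₂ * a₁) := by group
        _ = _ := by rw [h3]
    have e : (b₁ * a₁ * (b₂ * a₂))⁻¹ * (b₂ * a₂ * (b₁ * a₁)) =
        (a₁ * a₂)⁻¹ * (b₂⁻¹ * b₁⁻¹ * b₂⁻¹⁻¹ * b₁⁻¹⁻¹) * (a₁ * a₂)⁻¹⁻¹ := by
      rw [hx, hy]; group
    rw [e]
    apply hDn.conj_mem
    rw [hD]
    refine ⟨⁅(⟨b₂⁻¹, Subgroup.inv_mem _ hb₂.2⟩ : (Q' : Subgroup G)),
      (⟨b₁⁻¹, Subgroup.inv_mem _ hb₁.2⟩ : (Q' : Subgroup G))⁆, ?_, rfl⟩
    rw [SetLike.mem_coe, _root_.commutator_def]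
    exact Subgroup.commutator_mem_commutator (Subgroup.mem_top _) (Subgroup.mem_top _)

end Cfsg.Agent.S0577
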