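import Cfsg.Statements.S0578
import Mathlib

set_option autoImplicit false
open Cfsg

namespace Cfsg.Agent.S0578


open scoped commutatorElement
theorem sylow_isMulCommutative {G : Type*} [Group G] [Finite G]
    (h : ∀ A : Subgroup G, IsMulCommutative A →
      Subgroup.normalizer (A : Set G) = Subgroup.centralizer (A : Set G))
    (p : ℕ) [Fact p.Prime] (P : Sylow p G) : IsMulCommutative (P : Subgroup G) := by
  classical
  have hne : {A : Subgroup G | A ≤ P ∧ IsMulCommutative A}.Nonempty :=
    ⟨⊥, bot_le, inferInstance⟩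
  obtain ⟨A, ⟨hAP, hAc⟩, hmax⟩ :=
    (wellFounded_gt : WellFounded ((· > ·) : Subgroup G → Subgroup G → Prop)).has_min _ hne
  by_cases hAeq : A = P
  · rw [← hAeq]; exact hAc
  exfalso
  have hlt : A.subgroupOf P < ⊤ := by
    rw [lt_top_iff_ne_top]; intro htop
    apply hAeq; exact le_antisymm hAP (Subgroup.subgroupOf_eq_top.mp htop)
  have hnil : Group.IsNilpotent (P : Subgroup G) := P.isPGroup'.isNilpotent
  have hnc := Group.normalizerCondition_of_isNilpotent (G := (P : Subgroup G)) _ hlt
  obtain ⟨x, hxN, hxA⟩ := SetLike.exists_of_lt hnc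
  have hxN' : (x : G) ∈ Subgroup.normalizer (A : Set G) := by
    rw [← Subgroup.subgroupOf_normalizer_eq hAP] at hxN
    exact hxN
  rw [h A hAc] at hxN'
  have hBc : IsMulCommutative (Subgroup.closure ((A : Set G) ∪ {(x : G)})) := by
    apply Subgroup.isMulCommutative_closure
    rintro a (ha | ha) b (hb | hb)
    · exact setLike_mul_comm (s := A) ha hb
    · rw [Set.mem_singleton_iff.mp hb]; exact (hxN' a ha)
    · rw [Set.mem_singleton_iff.mp ha]; exact (hxN' b hb).symm
    · rw [Set.mem_singleton_iff.mp ha, Set.mem_singleton_iff.mp hb]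
  have hBP : Subgroup.closure ((A : Set G) ∪ {(x : G)}) ≤ P := by
    rw [Subgroup.closure_le]
    rintro a (ha | ha)
    · exact hAP ha
    · rw [Set.mem_singleton_iff.mp ha]; exact x.2
  have hAB : A < Subgroup.closure ((A : Set G) ∪ {(x : G)}) := by
    refine lt_of_le_of_ne ?_ ?_
    · intro a ha; exact Subgroup.subset_closure (Or.inl ha)
    · intro heq
      apply hxA
      show (x : G) ∈ A
      rw [heq]; exact Subgroup.subset_closure (Or.inr rfl)
  exact hmax _ ⟨hBP, hBc⟩ hAB


/-- If in a finite group the normalizer of each abelian subgroup coincides with its centralizer, then the group is abelian. -/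
theorem result {G : Type*} [Group G] [Finite G] (h : ∀ A : Subgroup G, IsMulCommutative A → Subgroup.normalizer (A : Set G) = Subgroup.centralizer (A : Set G)) : IsMulCommutative G := by
  classical
  refine ⟨⟨fun a b => ?_⟩⟩
  rw [← commutatorElement_eq_one_iff_mul_comm, ← orderOf_eq_one_iff,
    Nat.eq_one_iff_not_exists_prime_dvd]
  intro p hp hdvd
  have : Fact p.Prime := ⟨hp⟩
  let P : Sylow p G := default
  have hPc := sylow_isMulCommutative h p P
  have hP : Subgroup.normalizer ((P : Subgroup G) : Set G)
      ≤ Subgroup.centralizer ((P : Subgroup G) : Set G) := (h P hPc).le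
  have hker : ⁅a, b⁆ ∈ (MonoidHom.transferSylow P hP).ker := by
    rw [MonoidHom.mem_ker, commutatorElement_def, map_mul, map_mul, map_mul, map_inv, map_inv]
    have hc : ∀ x y : (P : Subgroup G), x * y = y * x :=
      fun x y => Subtype.ext (setLike_mul_comm (s := (P : Subgroup G)) x.2 y.2)
    rw [hc ((MonoidHom.transferSylow P hP) a) ((MonoidHom.transferSylow P hP) b)]; group
  have h1 : orderOf ⁅a, b⁆ ∣ Nat.card (MonoidHom.transferSylow P hP).ker :=
    Subgroup.orderOf_dvd_natCard _ hker
  exact MonoidHom.not_dvd_card_ker_transferSylow P hP (hdvd.trans h1)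

end Cfsg.Agent.S0578
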