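import Cfsg.Statements.S0582
import Mathlib
import Cfsg.Agent.Lib.Helper9.SSSylow
import Cfsg.Agent.Lib.Helper9.PrimeIndex
import Cfsg.Agent.Lib.Helper9.ConjLemmas

set_option autoImplicit false
open Pointwise
open Cfsg

namespace Cfsg.Agent.S0582


open Subgroup
open scoped Pointwise
open Cfsg.Agent.Lib.Helper9

universe u

theorem conj_of_ss_hall : ∀ (n : ℕ) (G : Type u) [Group G] [Finite G] (H K : Subgroup G),
    Nat.card H = n → Cfsg.IsSupersolvable H → Cfsg.IsSupersolvable K → Nat.card H = Nat.card K →
    (Nat.card H).Coprime H.index → ∃ x : G, MulAut.conj x • H = K := by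
  intro n
  induction n using Nat.strong_induction_on with
  | _ n ih =>
    intro G _ _ H K hn hH hK hcard hHall
    by_cases h1 : n = 1
    · have hHb : H = ⊥ := Subgroup.card_eq_one.mp (hn.trans h1)
      have hKb : K = ⊥ := Subgroup.card_eq_one.mp (hcard.symm.trans (hn.trans h1))
      refine ⟨1, ?_⟩
      rw [hHb, hKb]; simp
    have hnpos : 0 < n := hn ▸ Nat.card_pos
    have hn1 : 1 < n := by omega
    obtain ⟨p, hp, hpn, hmax⟩ := exists_largest_prime hn1
    have : Fact p.Prime := ⟨hp⟩
    have hnK : Nat.card K = n := hcard.symm.trans hn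
    let PH : Sylow p H := default
    let PK : Sylow p K := default
    have hPHn : (PH : Subgroup H).Normal :=
      ss_sylow_normal hH p (hn.symm ▸ hpn) (fun q hq hd => hmax q hq (hn ▸ hd)) PH
    have hPKn : (PK : Subgroup K).Normal :=
      ss_sylow_normal hK p (hnK.symm ▸ hpn) (fun q hq hd => hmax q hq (hnK ▸ hd)) PK
    have hcPH : Nat.card (PH : Subgroup H) = p ^ n.factorization p := by
      rw [← hn]; exact Sylow.card_eq_multiplicity PH
    have hcPK : Nat.card (PK : Subgroup K) = p ^ n.factorization p := by
      rw [← hnK]; exact Sylow.card_eq_multiplicity PK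
    have hapos : 0 < n.factorization p := hp.factorization_pos_of_dvd hnpos.ne' hpn
    have hcopH : (Nat.card (PH : Subgroup H)).Coprime (PH : Subgroup H).index := by
      rw [hcPH]
      exact Nat.Coprime.pow_left _ ((Nat.Prime.coprime_iff_not_dvd hp).mpr PH.not_dvd_index)
    have hcopK : (Nat.card (PK : Subgroup K)).Coprime (PK : Subgroup K).index := by
      rw [hcPK]
      exact Nat.Coprime.pow_left _ ((Nat.Prime.coprime_iff_not_dvd hp).mpr PK.not_dvd_index)
    obtain ⟨H₀', hH₀'⟩ := Subgroup.exists_right_complement'_of_coprime hcopH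
    obtain ⟨K₀', hK₀'⟩ := Subgroup.exists_right_complement'_of_coprime hcopK
    -- cardinalities
    have hm1 : p ^ n.factorization p * Nat.card H₀' = n := by
      rw [← hcPH, ← hn]; exact hH₀'.card_mul_card
    have hm2 : p ^ n.factorization p * Nat.card K₀' = n := by
      rw [← hcPK, ← hnK]; exact hK₀'.card_mul_card
    have hppos : 0 < p ^ n.factorization p := pow_pos hp.pos _
    have hmK : Nat.card K₀' = Nat.card H₀' :=
      Nat.eq_of_mul_eq_mul_left hppos (hm2.trans hm1.symm)
    have hpm : ¬ p ∣ Nat.card H₀' := by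
      rw [← hH₀'.symm.index_eq_card]; exact PH.not_dvd_index
    have hmn : Nat.card H₀' < n := by
      have h2 : 2 ≤ p ^ n.factorization p :=
        le_trans hp.two_le (Nat.le_self_pow hapos.ne' p)
      have h3 : 0 < Nat.card H₀' := Nat.card_pos
      nlinarith
    -- subgroups of G
    have hPsup : (PH : Subgroup H).map H.subtype ⊔ H₀'.map H.subtype = H := by
      rw [← Subgroup.map_sup, hH₀'.sup_eq_top, ← MonoidHom.range_eq_map, Subgroup.range_subtype]
    have hPsup' : (PK : Subgroup K).map K.subtype ⊔ K₀'.map K.subtype = K := by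
      rw [← Subgroup.map_sup, hK₀'.sup_eq_top, ← MonoidHom.range_eq_map, Subgroup.range_subtype]
    have hHnorm : H ≤ normalizer (((PH : Subgroup H).map H.subtype : Subgroup G) : Set G) := by
      rw [← Subgroup.normal_subgroupOf_iff_le_normalizer (map_subtype_le _)]
      have h2 : ((PH : Subgroup H).map H.subtype).subgroupOf H = PH :=
        comap_map_eq_self_of_injective H.subtype_injective _
      rw [h2]; exact hPHn
    have hKnorm : K ≤ normalizer (((PK : Subgroup K).map K.subtype : Subgroup G) : Set G) := by
      rw [← Subgroup.normal_subgroupOf_iff_le_normalizer (map_subtype_le _)]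
      have h2 : ((PK : Subgroup K).map K.subtype).subgroupOf K = PK :=
        comap_map_eq_self_of_injective K.subtype_injective _
      rw [h2]; exact hPKn
    -- Sylow in G
    have hpidx : ¬ p ∣ H.index := by
      intro hd
      have h2 : p ∣ Nat.gcd (Nat.card H) H.index := Nat.dvd_gcd (hn.symm ▸ hpn) hd
      rw [hHall] at h2
      exact hp.one_lt.ne' (Nat.dvd_one.mp h2)
    have hfac : (Nat.card G).factorization p = n.factorization p := by
      rw [← H.card_mul_index, Nat.factorization_mul Nat.card_pos.ne' Subgroup.index_ne_zero_of_finite,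
        Finsupp.add_apply, Nat.factorization_eq_zero_of_not_dvd hpidx, add_zero, hn]
    have hcP : Nat.card ((PH : Subgroup H).map H.subtype) = p ^ (Nat.card G).factorization p := by
      rw [Subgroup.card_map_of_injective H.subtype_injective, hfac, hcPH]
    have hcP' : Nat.card ((PK : Subgroup K).map K.subtype) = p ^ (Nat.card G).factorization p := by
      rw [Subgroup.card_map_of_injective K.subtype_injective, hfac, hcPK]
    obtain ⟨g, hg⟩ := MulAction.exists_smul_eq G (Sylow.ofCard _ hcP) (Sylow.ofCard _ hcP')
    have hgP : MulAut.conj g • (PH : Subgroup H).map H.subtype = (PK : Subgroup K).map K.subtype := by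
      have h2 := congrArg (fun S : Sylow p G => (S : Subgroup G)) hg
      simpa [Sylow.coe_subgroup_smul] using h2
    generalize (PH : Subgroup H).map H.subtype = P at hPsup hHnorm hgP
    generalize (PK : Subgroup K).map K.subtype = P' at hPsup' hKnorm hgP
    have hcH₀ : Nat.card (H₀'.map H.subtype) = Nat.card H₀' :=
      Subgroup.card_map_of_injective H.subtype_injective
    have hcK₀ : Nat.card (K₀'.map K.subtype) = Nat.card H₀' := by
      rw [Subgroup.card_map_of_injective K.subtype_injective, hmK]
    have hssH₀ : Cfsg.IsSupersolvable (H₀'.map H.subtype) :=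
      ss_mulEquiv (H₀'.equivMapOfInjective H.subtype H.subtype_injective)
        (isSupersolvable_subgroup H₀' hH)
    have hssK₀ : Cfsg.IsSupersolvable (K₀'.map K.subtype) :=
      ss_mulEquiv (K₀'.equivMapOfInjective K.subtype K.subtype_injective)
        (isSupersolvable_subgroup K₀' hK)
    have hH₀H : H₀'.map H.subtype ≤ H := map_subtype_le _
    have hK₀K : K₀'.map K.subtype ≤ K := map_subtype_le _
    generalize H₀'.map H.subtype = H₀ at hPsup hcH₀ hssH₀ hH₀H
    generalize K₀'.map K.subtype = K₀ at hPsup' hcK₀ hssK₀ hK₀K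
    -- conjugate
    have hH₁ : MulAut.conj g • H = P' ⊔ MulAut.conj g • H₀ := by
      rw [← hPsup, Subgroup.smul_sup, hgP]
    have hH₀₁N : MulAut.conj g • H₀ ≤ normalizer (P' : Set G) := by
      intro x hx
      rw [mem_conj_smul_iff] at hx
      have h2 := hHnorm (hH₀H hx)
      rw [← conj_smul_eq_self_iff_mem_normalizer] at h2 ⊢
      rw [← hgP, ← conj_smul_smul]
      have h3 : x * g = g * (g⁻¹ * x * g) := by group
      rw [h3, conj_smul_smul, h2]
    have hK₀N : K₀ ≤ normalizer (P' : Set G) := hK₀K.trans hKnorm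
    have hcH₀₁ : Nat.card (MulAut.conj g • H₀ : Subgroup G) = Nat.card H₀' := by
      rw [card_conj_smul, hcH₀]
    have hssH₀₁ : Cfsg.IsSupersolvable (MulAut.conj g • H₀ : Subgroup G) :=
      ss_mulEquiv (Subgroup.equivSMul (MulAut.conj g) H₀) hssH₀
    generalize MulAut.conj g • H₀ = H₀₁ at hH₁ hH₀₁N hcH₀₁ hssH₀₁
    -- work in N
    have hcA : Nat.card (H₀₁.subgroupOf (normalizer (P' : Set G))) = Nat.card H₀' := by
      rw [Nat.card_congr (Subgroup.subgroupOfEquivOfLe hH₀₁N).toEquiv, hcH₀₁]
    have hcB : Nat.card (K₀.subgroupOf (normalizer (P' : Set G))) = Nat.card H₀' := by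
      rw [Nat.card_congr (Subgroup.subgroupOfEquivOfLe hK₀N).toEquiv, hcK₀]
    have hssA : Cfsg.IsSupersolvable (H₀₁.subgroupOf (normalizer (P' : Set G))) :=
      ss_mulEquiv (Subgroup.subgroupOfEquivOfLe hH₀₁N).symm hssH₀₁
    have hssB : Cfsg.IsSupersolvable (K₀.subgroupOf (normalizer (P' : Set G))) :=
      ss_mulEquiv (Subgroup.subgroupOfEquivOfLe hK₀N).symm hssK₀
    have hHallA : (Nat.card (H₀₁.subgroupOf (normalizer (P' : Set G)))).Coprime
        (H₀₁.subgroupOf (normalizer (P' : Set G))).index := by
      rw [hcA]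
      have h2 : (H₀₁.subgroupOf (normalizer (P' : Set G))).index ∣ H₀₁.index :=
        Subgroup.relIndex_dvd_index_of_le hH₀₁N
      apply Nat.Coprime.coprime_dvd_right h2
      have h3 : Nat.card H₀' * H₀₁.index = Nat.card H₀' * (p ^ n.factorization p * H.index) := by
        have e1 : Nat.card H₀' * H₀₁.index = Nat.card G := by
          rw [← hcH₀₁]; exact H₀₁.card_mul_index
        have e2 : n * H.index = Nat.card G := by rw [← hn]; exact H.card_mul_index
        have e3 : n * H.index = (p ^ n.factorization p * Nat.card H₀') * H.index := by rw [hm1]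
        rw [e1, ← e2, e3]; ring
      rw [Nat.eq_of_mul_eq_mul_left Nat.card_pos h3]
      apply Nat.Coprime.mul_right
      · exact Nat.Coprime.pow_right _ ((Nat.Prime.coprime_iff_not_dvd hp).mpr hpm).symm
      · apply Nat.Coprime.coprime_dvd_left _ hHall
        rw [hn, ← hm1]; exact dvd_mul_left _ _
    obtain ⟨y, hy⟩ := ih _ hmn (normalizer (P' : Set G)) _ _ hcA hssA hssB (hcA.trans hcB.symm) hHallA
    have hyP : MulAut.conj (y : G) • P' = P' := conj_smul_eq_self_iff_mem_normalizer.mpr y.2
    have hyH : MulAut.conj (y : G) • H₀₁ = K₀ := by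
      ext x
      rw [mem_conj_smul_iff]
      constructor
      · intro hx
        have hxN : x ∈ normalizer (P' : Set G) := by
          have h2 : x = (y : G) * ((y : G)⁻¹ * x * y) * (y : G)⁻¹ := by group
          rw [h2]
          exact Subgroup.mul_mem _ (Subgroup.mul_mem _ y.2 (hH₀₁N hx)) (Subgroup.inv_mem _ y.2)
        have h3 : (⟨x, hxN⟩ : normalizer (P' : Set G)) ∈
            MulAut.conj y • H₀₁.subgroupOf (normalizer (P' : Set G)) := by
          rw [mem_conj_smul_iff, mem_subgroupOf]
          exact hx
        rw [hy, mem_subgroupOf] at h3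
        exact h3
      · intro hx
        have hxN : x ∈ normalizer (P' : Set G) := hK₀N hx
        have h3 : (⟨x, hxN⟩ : normalizer (P' : Set G)) ∈
            K₀.subgroupOf (normalizer (P' : Set G)) := by
          rw [mem_subgroupOf]; exact hx
        rw [← hy, mem_conj_smul_iff, mem_subgroupOf] at h3
        exact h3
    refine ⟨(y : G) * g, ?_⟩
    rw [conj_smul_smul, hH₁, Subgroup.smul_sup, hyP, hyH, hPsup']


/-- Let H and K be supersolvable subgroups of a finite group G of the same order, that order being coprime to their index. Then H and K are conjugate in G. -/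
theorem result {G : Type*} [Group G] [Finite G] (H K : Subgroup G) (hH : Cfsg.IsSupersolvable H) (hK : Cfsg.IsSupersolvable K) (hcard : Nat.card H = Nat.card K) (hHall : (Nat.card H).Coprime H.index) : ∃ x : G, MulAut.conj x • H = K := by
  exact conj_of_ss_hall _ G H K rfl hH hK hcard hHall

end Cfsg.Agent.S0582
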