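import Cfsg.Statements.S0584
import Mathlib

set_option autoImplicit false
open Cfsg

namespace Cfsg.Agent.S0584


open Subgroup in
theorem exists_normal_pSylow {G : Type*} [Group G] [Finite G] (A B : Subgroup G) [A.Normal] [B.Normal]
    (hBA : B ≤ A) (hB : B ≤ frattini G) (h : Group.IsNilpotent (↥A ⧸ B.subgroupOf A))
    (p : ℕ) [Fact p.Prime] :
    ∃ P' : Subgroup G, P'.Normal ∧ P' ≤ A ∧ IsPGroup p P' ∧ ¬ p ∣ P'.relIndex A := by
  classical
  set π := QuotientGroup.mk' B with hπ
  have hπs : Function.Surjective π := QuotientGroup.mk'_surjective B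
  have hker : π.ker = B := QuotientGroup.ker_mk' B
  set Ā := A.map π with hĀ
  have hĀn : Ā.Normal := Subgroup.Normal.map inferInstance π hπs
  have hnil : Group.IsNilpotent Ā := by
    let φ : A →* Ā := π.subgroupMap A
    have hφs : Function.Surjective φ := π.subgroupMap_surjective A
    have hφk : ∀ x ∈ B.subgroupOf A, φ x = 1 := by
      intro x hx
      apply Subtype.ext
      show π x = 1
      rw [← MonoidHom.mem_ker, hker]; exact hx
    let ψ : A ⧸ B.subgroupOf A →* Ā := QuotientGroup.lift (B.subgroupOf A) φ hφk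
    have hψs : Function.Surjective ψ := by
      intro y
      obtain ⟨x, rfl⟩ := hφs y
      exact ⟨QuotientGroup.mk x, rfl⟩
    exact Group.nilpotent_of_surjective ψ hψs
  let Q : Sylow p Ā := default
  have hQn : (Q : Subgroup Ā).Normal :=
    Sylow.normal_of_normalizerCondition Group.normalizerCondition_of_isNilpotent Q
  have hQc : (Q : Subgroup Ā).Characteristic := Sylow.characteristic_of_normal Q hQn
  set Q' := (Q : Subgroup Ā).map Ā.subtype with hQ'
  have hQ'n : Q'.Normal := ConjAct.normal_of_characteristic_of_normal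
  set N := Q'.comap π with hN
  have hNn : N.Normal := hQ'n.comap π
  have hBN : B ≤ N := by rw [← hker]; exact ker_le_comap π Q'
  have hAcomap : A = Ā.comap π := by
    rw [hĀ, comap_map_eq_self (by rw [hker]; exact hBA)]
  have hNA : N ≤ A := by
    rw [hAcomap]; exact comap_mono (map_subtype_le _)
  let P : Sylow p N := default
  set P' := (P : Subgroup N).map N.subtype with hP'
  have hfr : normalizer (P' : Set G) ⊔ N = ⊤ := Sylow.normalizer_sup_eq_top P
  have hP'N : P' ≤ N := map_subtype_le _
  have h3 : P'.relIndex N = (P : Subgroup N).index := by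
    rw [relIndex, hP']
    show (((P : Subgroup N).map N.subtype).comap N.subtype).index = _
    rw [comap_map_eq_self_of_injective (subtype_injective _)]
  have hNPB : N ≤ P' ⊔ B := by
    rw [← relIndex_eq_one]
    have h1 : (P' ⊔ B).relIndex N ∣ P'.relIndex N := relIndex_dvd_of_le_left N le_sup_left
    have h2 : (P' ⊔ B).relIndex N ∣ B.relIndex N := relIndex_dvd_of_le_left N le_sup_right
    have h4 : B.relIndex N = Nat.card Q := by
      have h4' : π.ker.relIndex N = Nat.card (N.map π) := relIndex_ker N π
      rw [hker] at h4'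
      rw [h4', hN, map_comap_eq_self_of_surjective hπs, hQ',
        card_map_of_injective (subtype_injective _)]
    obtain ⟨k, hk⟩ := IsPGroup.iff_card.mp Q.isPGroup'
    rw [h3] at h1; rw [h4, hk] at h2
    obtain ⟨j, -, hj⟩ := (Nat.dvd_prime_pow Fact.out).mp h2
    rw [hj] at h1 ⊢
    cases j with
    | zero => simp
    | succ j => exact absurd ((dvd_pow_self p (Nat.succ_ne_zero j)).trans h1) P.not_dvd_index
  have hnorm : normalizer (P' : Set G) = ⊤ := by
    apply frattini_nongenerating
    rw [eq_top_iff, ← hfr]
    apply sup_le le_sup_left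
    exact hNPB.trans (sup_le (le_normalizer.trans le_sup_left) (hB.trans le_sup_right))
  have hP'n : P'.Normal := normalizer_eq_top_iff.mp hnorm
  refine ⟨P', hP'n, hP'N.trans hNA, ?_, ?_⟩
  · exact P.isPGroup'.map N.subtype
  · have h5 := relIndex_mul_relIndex P' N A hP'N hNA
    rw [← h5]
    have h6 : N.relIndex A = (Q : Subgroup Ā).index := by
      rw [hN, relIndex_comap, ← hĀ, hQ', relIndex]
      show (((Q : Subgroup Ā).map Ā.subtype).comap Ā.subtype).index = _
      rw [comap_map_eq_self_of_injective (subtype_injective _)]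
    rw [h3, h6]
    intro hdvd
    rcases (Nat.Prime.dvd_mul Fact.out).mp hdvd with h | h
    · exact P.not_dvd_index h
    · exact Q.not_dvd_index h


/-- Let B ≤ A be normal subgroups of a finite group G with B contained in the Frattini subgroup of G. If A modulo B is nilpotent then A is nilpotent. -/
theorem result {G : Type*} [Group G] [Finite G] (A B : Subgroup G) [A.Normal] [B.Normal] (hBA : B ≤ A) (hB : B ≤ frattini G) (h : Group.IsNilpotent (↥A ⧸ B.subgroupOf A)) : Group.IsNilpotent A := by
  refine ((Group.isNilpotent_of_finite_tfae (G := A)).out 0 3).mpr ?_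
  intro p hp P
  obtain ⟨P', hP'n, hP'A, hP'p, hP'i⟩ := exists_normal_pSylow A B hBA hB h p
  have h1 : IsPGroup p (P'.subgroupOf A) := hP'p.comap_subtype
  have h2 : ¬ p ∣ (P'.subgroupOf A).index := hP'i
  have hRn : ((h1.toSylow h2 : Sylow p A) : Subgroup A).Normal := by
    rw [IsPGroup.toSylow_coe]; exact Subgroup.normal_subgroupOf
  have := Sylow.unique_of_normal (h1.toSylow h2) hRn
  rw [Subsingleton.elim P (h1.toSylow h2)]; exact hRn

end Cfsg.Agent.S0584
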