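import Cfsg.Statements.S0585
import Mathlib

set_option autoImplicit false
open Cfsg

namespace Cfsg.Agent.S0585


open scoped Pointwise in
open Subgroup in
theorem exists_complement_of_frattini_bot {G : Type*} [Group G] [Finite G] (hΦ : frattini G = ⊥)
    (A : Subgroup G) [A.Normal] [IsMulCommutative A] : ∃ H : Subgroup G, Subgroup.IsComplement' A H := by
  classical
  have hne : {H : Subgroup G | A ⊔ H = ⊤}.Nonempty := ⟨⊤, sup_top_eq A⟩
  obtain ⟨H, hH, hmin⟩ := (wellFounded_lt : WellFounded ((· < ·) : Subgroup G → Subgroup G → Prop)).has_min _ hne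
  have hH' : A ⊔ H = ⊤ := hH
  have hmul : (A : Set G) * (H : Set G) = Set.univ := by
    rw [← normal_mul, hH', coe_top]
  refine ⟨H, isComplement'_of_disjoint_and_mul_eq_univ ?_ hmul⟩
  rw [disjoint_iff]
  by_contra hD
  -- A ⊓ H normal
  have hDn : (A ⊓ H).Normal := by
    constructor
    intro x hx g
    have hg : g ∈ (A : Set G) * (H : Set G) := by rw [hmul]; trivial
    obtain ⟨a, ha, h, hh, rfl⟩ := hg
    have h1 : h * x * h⁻¹ ∈ A ⊓ H :=
      ⟨‹A.Normal›.conj_mem x hx.1 h, H.mul_mem (H.mul_mem hh hx.2) (H.inv_mem hh)⟩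
    have h2 : a * (h * x * h⁻¹) = (h * x * h⁻¹) * a := by
      exact setLike_mul_comm (s := A) ha h1.1
    have h3 : a * h * x * (a * h)⁻¹ = h * x * h⁻¹ := by
      rw [mul_inv_rev]
      calc a * h * x * (h⁻¹ * a⁻¹) = a * (h * x * h⁻¹) * a⁻¹ := by group
        _ = h * x * h⁻¹ := by rw [h2]; group
    rw [h3]; exact h1
  -- coatom not containing A ⊓ H
  have hex : ∃ M : Subgroup G, IsCoatom M ∧ ¬ (A ⊓ H ≤ M) := by
    by_contra hno
    apply hD
    rw [eq_bot_iff, ← hΦ]
    unfold frattini Order.radical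
    refine le_iInf₂ ?_
    intro M hM
    by_contra hle
    exact hno ⟨M, hM, hle⟩
  obtain ⟨M, hM, hnle⟩ := hex
  have hMD : M ⊔ (A ⊓ H) = ⊤ := by
    by_contra hne'
    have h1 : M < M ⊔ (A ⊓ H) := lt_of_le_of_ne le_sup_left (fun heq => hnle (heq ▸ le_sup_right))
    exact hne' (hM.2 _ h1)
  have hMDmul : (M : Set G) * ((A ⊓ H : Subgroup G) : Set G) = Set.univ := by
    rw [← mul_normal, hMD, coe_top]
  have hHle : H ≤ (H ⊓ M) ⊔ (A ⊓ H) := by
    intro h hh
    have hg : h ∈ (M : Set G) * ((A ⊓ H : Subgroup G) : Set G) := by rw [hMDmul]; trivial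
    obtain ⟨m, hm, d, hd, rfl⟩ := hg
    have hmH : m ∈ H := by
      have : m = m * d * d⁻¹ := by group
      rw [this]; exact H.mul_mem hh (H.inv_mem hd.2)
    exact Subgroup.mul_mem_sup ⟨hmH, hm⟩ hd
  have hnew : A ⊔ (H ⊓ M) = ⊤ := by
    rw [eq_top_iff, ← hH']
    apply sup_le le_sup_left
    refine hHle.trans (sup_le le_sup_right (inf_le_left.trans le_sup_left))
  have hlt : H ⊓ M < H := by
    refine lt_of_le_of_ne inf_le_left ?_
    intro heq
    exact hnle (inf_le_right.trans (inf_eq_left.mp heq))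
  exact hmin (H ⊓ M) hnew hlt


/-- If the Frattini subgroup of a finite group G is trivial, then every abelian normal subgroup of G has a complement in G. -/
theorem result {G : Type*} [Group G] [Finite G] (hΦ : frattini G = ⊥) (A : Subgroup G) [A.Normal] [IsMulCommutative A] : ∃ H : Subgroup G, Subgroup.IsComplement' A H := by
  exact exists_complement_of_frattini_bot hΦ A

end Cfsg.Agent.S0585
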