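import Cfsg.Statements.S0586
import Mathlib
import Cfsg.Agent.Lib.Helper9.FrattiniNilp
import Cfsg.Agent.Lib.Helper9.MinNormal
import Cfsg.Agent.Lib.Helper7.PCore
import Cfsg.Agent.S0575
import Cfsg.Agent.S0585

set_option autoImplicit false
open Cfsg

namespace Cfsg.Agent.S0586


open Subgroup
open scoped Pointwise
open Cfsg.Agent.Lib.Helper9 Cfsg.Agent.Lib.Helper7

theorem fitting_comm {G : Type*} [Group G] [Finite G] (hΦ : frattini G = ⊥) :
    ∀ a ∈ Cfsg.fittingSubgroup G, ∀ b ∈ Cfsg.fittingSubgroup G, a * b = b * a := by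
  have hFn : (Cfsg.fittingSubgroup G).Normal := fitting_normal G
  have hnil : Group.IsNilpotent (Cfsg.fittingSubgroup G) := fitting_isNilpotent G
  have h1 : (frattini ↥(Cfsg.fittingSubgroup G)).map (Cfsg.fittingSubgroup G).subtype ≤ frattini G :=
    Cfsg.Agent.S0575.result (Cfsg.fittingSubgroup G)
  rw [hΦ, le_bot_iff, Subgroup.map_eq_bot_iff_of_injective _ (Subgroup.subtype_injective _)] at h1
  intro a ha b hb
  have h2 := comm_of_isNilpotent_of_frattini_eq_bot _ h1 ⟨a, ha⟩ ⟨b, hb⟩
  exact congrArg Subtype.val h2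


/-- If the Frattini subgroup of a finite group G is trivial, then the Fitting subgroup of G equals the join of all abelian minimal normal subgroups of G. -/
theorem result {G : Type*} [Group G] [Finite G] (hΦ : frattini G = ⊥) : Cfsg.fittingSubgroup G = sSup {N : Subgroup G | N.Normal ∧ N ≠ ⊥ ∧ IsMulCommutative N ∧ ∀ K : Subgroup G, K.Normal → K ≤ N → K = ⊥ ∨ K = N} := by
  classical
  have hFn : (Cfsg.fittingSubgroup G).Normal := fitting_normal G
  have hFc := fitting_comm hΦ
  apply le_antisymm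
  · -- F ≤ S
    set S := sSup {N : Subgroup G | N.Normal ∧ N ≠ ⊥ ∧ IsMulCommutative N ∧
      ∀ K : Subgroup G, K.Normal → K ≤ N → K = ⊥ ∨ K = N} with hS
    have hSF : S ≤ Cfsg.fittingSubgroup G := by
      apply sSup_le
      rintro N ⟨hNn, -, hNc, -⟩
      have hnil : Group.IsNilpotent N := by
        open scoped IsMulCommutative in infer_instance
      exact le_fitting hNn hnil
    have hSn : S.Normal := Subgroup.sSup_normal _ (fun _ hH => hH.1)
    have hSc : IsMulCommutative S :=
      ⟨⟨fun a b => Subtype.ext (hFc a (hSF a.2) b (hSF b.2))⟩⟩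
    obtain ⟨H, hH⟩ := Cfsg.Agent.S0585.result hΦ S
    have hmul : (S : Set G) * (H : Set G) = Set.univ := by
      rw [← normal_mul, hH.sup_eq_top, coe_top]
    have hTn : (Cfsg.fittingSubgroup G ⊓ H).Normal := by
      constructor
      intro x hx g
      have hg : g ∈ (S : Set G) * (H : Set G) := by rw [hmul]; trivial
      obtain ⟨s, hs, h, hh, rfl⟩ := hg
      have h1 : h * x * h⁻¹ ∈ Cfsg.fittingSubgroup G ⊓ H :=
        ⟨hFn.conj_mem x hx.1 h, H.mul_mem (H.mul_mem hh hx.2) (H.inv_mem hh)⟩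
      have h2 := hFc s (hSF hs) (h * x * h⁻¹) h1.1
      have h3 : s * h * x * (s * h)⁻¹ = h * x * h⁻¹ := by
        calc s * h * x * (s * h)⁻¹ = s * (h * x * h⁻¹) * s⁻¹ := by group
          _ = h * x * h⁻¹ := by rw [h2]; group
      rw [h3]; exact h1
    have hT : Cfsg.fittingSubgroup G ⊓ H = ⊥ := by
      by_contra hne
      obtain ⟨N, hNT, hNn, hNne, hNmin⟩ := exists_minimal_normal_le _ hTn hne
      have hNF : N ≤ Cfsg.fittingSubgroup G := hNT.trans inf_le_left
      have hNc : IsMulCommutative N :=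
        ⟨⟨fun a b => Subtype.ext (hFc a (hNF a.2) b (hNF b.2))⟩⟩
      have hNS : N ≤ S := le_sSup ⟨hNn, hNne, hNc, hNmin⟩
      have hNbot : N ≤ S ⊓ H := le_inf hNS (hNT.trans inf_le_right)
      rw [hH.disjoint.eq_bot, le_bot_iff] at hNbot
      exact hNne hNbot
    intro f hf
    have hg : f ∈ (S : Set G) * (H : Set G) := by rw [hmul]; trivial
    obtain ⟨s, hs, h, hh, rfl⟩ := hg
    replace hf : s * h ∈ Cfsg.fittingSubgroup G := hf
    have h1 : h ∈ Cfsg.fittingSubgroup G ⊓ H := by
      refine ⟨?_, hh⟩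
      have h2 : h = s⁻¹ * (s * h) := by group
      rw [h2]
      exact Subgroup.mul_mem _ (Subgroup.inv_mem _ (hSF hs)) hf
    rw [hT, mem_bot] at h1
    show s * h ∈ S
    rw [h1, mul_one]; exact hs
  · apply sSup_le
    rintro N ⟨hNn, -, hNc, -⟩
    have hnil : Group.IsNilpotent N := by
      open scoped IsMulCommutative in infer_instance
    exact le_fitting hNn hnil

end Cfsg.Agent.S0586
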