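import Cfsg.Statements.S0589
import Mathlib
import Cfsg.Agent.Lib.Helper9.ConjLemmas

set_option autoImplicit false
open Pointwise
open Cfsg

namespace Cfsg.Agent.S0589


open scoped Pointwise
open Cfsg.Agent.Lib.Helper9

theorem arith_aux {ι : Type*} [Fintype ι] (d : ι → ℕ) (n m : ℕ)
    (h1 : ∀ i, d i = n ∨ 2 * d i ≤ n) (h2 : ∀ i, 2 ≤ d i) (h3 : ∑ i, d i = m * n + 1)
    (h4 : Fintype.card ι ≤ m + 1) : False := by
  classical
  have hne : Nonempty ι := by
    by_contra hemp
    rw [not_nonempty_iff] at hemp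
    simp at h3
  obtain ⟨j⟩ := hne
  have hn2 : 2 ≤ n := by
    have := h2 j
    rcases h1 j with h | h <;> omega
  have hdle : ∀ i, d i ≤ n := fun i => by rcases h1 i with h | h <;> omega
  by_cases hall : ∀ i, d i = n
  · have h5 : ∑ i, d i = Fintype.card ι * n := by
      rw [Finset.sum_congr rfl (fun i _ => hall i), Finset.sum_const, Finset.card_univ,
        smul_eq_mul]
    rw [h5] at h3
    have h6 : n ∣ 1 := by
      have h7 : n ∣ Fintype.card ι * n := dvd_mul_left _ _
      rw [h3] at h7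
      exact (Nat.dvd_add_right (dvd_mul_left _ _)).mp h7
    have := Nat.le_of_dvd one_pos h6
    omega
  · obtain ⟨i₀, hi₀⟩ := not_forall.mp hall
    have hi₀' : 2 * d i₀ ≤ n := (h1 i₀).resolve_left hi₀
    have hsum : ∑ i, (n - d i) + ∑ i, d i = Fintype.card ι * n := by
      rw [← Finset.sum_add_distrib, Finset.sum_congr rfl (fun i _ => Nat.sub_add_cancel (hdle i)),
        Finset.sum_const, Finset.card_univ, smul_eq_mul]
    have hbound : ∑ i, (n - d i) + 1 ≤ n := by
      have h5 : Fintype.card ι * n ≤ (m + 1) * n := Nat.mul_le_mul_right n h4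
      rw [h3] at hsum
      nlinarith
    have hothers : ∀ i, i ≠ i₀ → d i = n := by
      intro i hi
      rcases h1 i with h | h
      · exact h
      · exfalso
        have h5 : (n - d i₀) + (n - d i) ≤ ∑ i, (n - d i) := by
          rw [← Finset.add_sum_erase Finset.univ _ (Finset.mem_univ i₀)]
          apply Nat.add_le_add_left
          exact Finset.single_le_sum (f := fun i => n - d i) (fun _ _ => Nat.zero_le _)
            (Finset.mem_erase.mpr ⟨hi, Finset.mem_univ i⟩)
        omega
    have hsum2 : ∑ i, d i = d i₀ + (Fintype.card ι - 1) * n := by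
      rw [← Finset.add_sum_erase Finset.univ _ (Finset.mem_univ i₀)]
      congr 1
      rw [Finset.sum_congr rfl (fun i hi => hothers i (Finset.ne_of_mem_erase hi)),
        Finset.sum_const, Finset.card_erase_of_mem (Finset.mem_univ _), Finset.card_univ,
        smul_eq_mul]
    rw [hsum2] at h3
    have h6 := h2 i₀
    have hc : Fintype.card ι - 1 ≤ m := by omega
    obtain ⟨k, hk⟩ := Nat.exists_eq_add_of_le hc
    rw [hk, add_mul] at h3
    have h7 : d i₀ = k * n + 1 := by omega
    rcases Nat.eq_zero_or_pos k with hk0 | hk0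
    · subst hk0; omega
    · have : n ≤ k * n := Nat.le_mul_of_pos_left n hk0
      omega

theorem conj_mem_of_smul_eq {G : Type*} [Group G] (H : Subgroup G) (l x : G)
    (hx : l • (x : G ⧸ H) = x) : x⁻¹ * l * x ∈ H := by
  rw [MulAction.Quotient.smul_coe, QuotientGroup.eq, smul_eq_mul] at hx
  have h1 := H.inv_mem hx
  have h2 : ((l * x)⁻¹ * x)⁻¹ = x⁻¹ * l * x := by group
  rw [h2] at h1; exact h1

theorem eq_one_of_fix_two {G : Type*} [Group G] (H : Subgroup G)
    (hH : Cfsg.IsFrobeniusComplement H) (l x y : G)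
    (hx : l • (x : G ⧸ H) = x) (hy : l • (y : G ⧸ H) = y) (hxy : (x : G ⧸ H) ≠ y) : l = 1 := by
  have h1 := conj_mem_of_smul_eq H l x hx
  have h2 := conj_mem_of_smul_eq H l y hy
  have hg : x⁻¹ * y ∉ H := fun h => hxy (QuotientGroup.eq.mpr h)
  have h3 := hH.2.2 (x⁻¹ * y) hg
  have h4 : x⁻¹ * l * x ∈ MulAut.conj (x⁻¹ * y) • H := by
    rw [mem_conj_smul_iff]
    have : (x⁻¹ * y)⁻¹ * (x⁻¹ * l * x) * (x⁻¹ * y) = y⁻¹ * l * y := by group
    rw [this]; exact h2
  have h5 : x⁻¹ * l * x ∈ H ⊓ MulAut.conj (x⁻¹ * y) • H := ⟨h1, h4⟩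
  rw [h3, Subgroup.mem_bot] at h5
  have : l = x * (x⁻¹ * l * x) * x⁻¹ := by group
  rw [this, h5]; group

theorem card_fixedBy_le_one {G : Type*} [Group G] [Finite G] (H : Subgroup G)
    (hH : Cfsg.IsFrobeniusComplement H) (M : Subgroup G) (l : M) (hl : l ≠ 1) :
    Nat.card (MulAction.fixedBy (G ⧸ H) l) ≤ 1 := by
  rw [Finite.card_le_one_iff_subsingleton]
  constructor
  rintro ⟨ω₁, h₁⟩ ⟨ω₂, h₂⟩
  apply Subtype.ext
  show ω₁ = ω₂
  by_contra hne
  obtain ⟨x, rfl⟩ := QuotientGroup.mk_surjective ω₁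
  obtain ⟨y, rfl⟩ := QuotientGroup.mk_surjective ω₂
  have := eq_one_of_fix_two H hH (l : G) x y h₁ h₂ hne
  exact hl (Subtype.ext this)

theorem burnside_le {G : Type*} [Group G] [Finite G] (H : Subgroup G)
    (hH : Cfsg.IsFrobeniusComplement H) (M : Subgroup G) :
    Nat.card (Quotient (MulAction.orbitRel M (G ⧸ H))) * Nat.card M + 1
      ≤ Nat.card (G ⧸ H) + Nat.card M := by
  classical
  have := Fintype.ofFinite G
  have := Fintype.ofFinite M
  have := Fintype.ofFinite (G ⧸ H)
  have hB := MulAction.sum_card_fixedBy_eq_card_orbits_mul_card_group M (G ⧸ H)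
  simp only [Fintype.card_eq_nat_card] at hB
  rw [← hB, ← Finset.add_sum_erase Finset.univ _ (Finset.mem_univ (1 : M))]
  have h1 : Nat.card (MulAction.fixedBy (G ⧸ H) (1 : M)) = Nat.card (G ⧸ H) :=
    Nat.card_congr (Equiv.subtypeUnivEquiv (fun x => one_smul M x))
  have h2 : ∑ l ∈ Finset.univ.erase (1 : M), Nat.card (MulAction.fixedBy (G ⧸ H) l)
      ≤ (Finset.univ.erase (1 : M)).card • 1 := by
    apply Finset.sum_le_card_nsmul
    intro l hl
    exact card_fixedBy_le_one H hH M l (Finset.ne_of_mem_erase hl)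
  rw [Finset.card_erase_of_mem (Finset.mem_univ _), Finset.card_univ, smul_eq_mul, mul_one,
    Fintype.card_eq_nat_card] at h2
  have h3 : 0 < Nat.card M := Nat.card_pos
  rw [h1]; omega

theorem burnside_eq {G : Type*} [Group G] [Finite G] (H : Subgroup G)
    (hH : Cfsg.IsFrobeniusComplement H) :
    Nat.card (Quotient (MulAction.orbitRel H (G ⧸ H))) * Nat.card H + 1
      = Nat.card (G ⧸ H) + Nat.card H := by
  classical
  have := Fintype.ofFinite G
  have := Fintype.ofFinite H
  have := Fintype.ofFinite (G ⧸ H)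
  have hB := MulAction.sum_card_fixedBy_eq_card_orbits_mul_card_group H (G ⧸ H)
  simp only [Fintype.card_eq_nat_card] at hB
  rw [← hB, ← Finset.add_sum_erase Finset.univ _ (Finset.mem_univ (1 : H))]
  have h1 : Nat.card (MulAction.fixedBy (G ⧸ H) (1 : H)) = Nat.card (G ⧸ H) :=
    Nat.card_congr (Equiv.subtypeUnivEquiv (fun x => one_smul H x))
  have h2 : ∑ l ∈ Finset.univ.erase (1 : H), Nat.card (MulAction.fixedBy (G ⧸ H) l)
      = (Finset.univ.erase (1 : H)).card • 1 := by
    rw [← Finset.sum_const]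
    apply Finset.sum_congr rfl
    intro l hl
    apply le_antisymm (card_fixedBy_le_one H hH H l (Finset.ne_of_mem_erase hl))
    rw [Nat.succ_le_iff, Nat.card_pos_iff]
    refine ⟨⟨⟨((1 : G) : G ⧸ H), ?_⟩⟩, inferInstance⟩
    show (l : G) • ((1 : G) : G ⧸ H) = ((1 : G) : G ⧸ H)
    rw [MulAction.Quotient.smul_coe, QuotientGroup.eq, smul_eq_mul]
    simp
  rw [Finset.card_erase_of_mem (Finset.mem_univ _), Finset.card_univ, smul_eq_mul, mul_one,
    Fintype.card_eq_nat_card] at h2
  have h3 : 0 < Nat.card H := Nat.card_pos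
  rw [h1, h2]; omega


/-- Let H be a Frobenius complement in a finite group G and L a subgroup of G whose order divides the order of H. Then L is contained in some conjugate of H. -/
theorem result {G : Type*} [Group G] [Finite G] (H : Subgroup G) (hH : Cfsg.IsFrobeniusComplement H) (L : Subgroup G) (hL : Nat.card L ∣ Nat.card H) : ∃ x : G, L ≤ MulAut.conj x • H := by
  classical
  by_contra hno
  have hno' : ∀ x : G, ¬ L ≤ MulAut.conj x • H := fun x hx => hno ⟨x, hx⟩
  have := Fintype.ofFinite G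
  have := Fintype.ofFinite L
  have := Fintype.ofFinite (G ⧸ H)
  have hBH := burnside_eq H hH
  have hBL := burnside_le H hH L
  have hclass := MulAction.card_eq_sum_card_group_div_card_stabilizer L (G ⧸ H)
  simp only [Fintype.card_eq_nat_card] at hclass
  have hn : 0 < Nat.card L := Nat.card_pos
  have hNpos : 0 < Nat.card (G ⧸ H) := Nat.card_pos
  have hapos : 0 < Nat.card H := Nat.card_pos
  obtain ⟨e, he⟩ := hL
  -- N = m * n + 1
  have hc0 : Nat.card (Quotient (MulAction.orbitRel H (G ⧸ H))) ≠ 0 := by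
    intro h0
    rw [h0] at hBH
    omega
  obtain ⟨c', hc'⟩ := Nat.exists_eq_succ_of_ne_zero hc0
  have hN : Nat.card (G ⧸ H) = (c' * e) * Nat.card L + 1 := by
    rw [hc', Nat.succ_mul] at hBH
    have : c' * Nat.card H = c' * e * Nat.card L := by rw [he]; ring
    omega
  have hcard : Fintype.card (Quotient (MulAction.orbitRel L (G ⧸ H))) ≤ c' * e + 1 := by
    rw [Fintype.card_eq_nat_card]
    rw [hN] at hBL
    have h1 : Nat.card (Quotient (MulAction.orbitRel L (G ⧸ H))) * Nat.card L
        ≤ (c' * e + 1) * Nat.card L := by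
      rw [add_mul, one_mul]; omega
    exact Nat.le_of_mul_le_mul_right h1 hn
  have hsdvd : ∀ ω : Quotient (MulAction.orbitRel L (G ⧸ H)),
      Nat.card (MulAction.stabilizer L ω.out) ∣ Nat.card L :=
    fun ω => Subgroup.card_subgroup_dvd_card _
  have hsne : ∀ ω : Quotient (MulAction.orbitRel L (G ⧸ H)),
      Nat.card (MulAction.stabilizer L ω.out) ≠ Nat.card L := by
    intro ω hω
    have htop : MulAction.stabilizer L ω.out = ⊤ := Subgroup.eq_top_of_card_eq _ hω
    obtain ⟨x, hx⟩ := QuotientGroup.mk_surjective ω.out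
    apply hno' x
    intro l hl
    have h1 : (⟨l, hl⟩ : L) ∈ MulAction.stabilizer L ω.out := by rw [htop]; trivial
    rw [MulAction.mem_stabilizer_iff, ← hx] at h1
    have h2 := conj_mem_of_smul_eq H l x h1
    rw [mem_conj_smul_iff]; exact h2
  refine arith_aux (fun ω : Quotient (MulAction.orbitRel L (G ⧸ H)) =>
    Nat.card L / Nat.card (MulAction.stabilizer L ω.out)) (Nat.card L) (c' * e) ?_ ?_ ?_ hcard
  · intro ω
    obtain ⟨d, hd⟩ := hsdvd ω
    have hspos : 0 < Nat.card (MulAction.stabilizer L ω.out) := Nat.card_pos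
    have hdiv : Nat.card L / Nat.card (MulAction.stabilizer L ω.out) = d := by
      rw [hd]; exact Nat.mul_div_cancel_left d hspos
    simp only [hdiv]
    by_cases hs1 : Nat.card (MulAction.stabilizer L ω.out) = 1
    · left; rw [hd, hs1, one_mul]
    · right
      have : 2 ≤ Nat.card (MulAction.stabilizer L ω.out) := by omega
      rw [hd]; exact Nat.mul_le_mul_right d this
  · intro ω
    obtain ⟨d, hd⟩ := hsdvd ω
    have hspos : 0 < Nat.card (MulAction.stabilizer L ω.out) := Nat.card_pos
    have hdiv : Nat.card L / Nat.card (MulAction.stabilizer L ω.out) = d := by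
      rw [hd]; exact Nat.mul_div_cancel_left d hspos
    simp only [hdiv]
    by_contra hlt
    have hd01 : d = 0 ∨ d = 1 := by omega
    rcases hd01 with h0 | h1
    · rw [h0, mul_zero] at hd; omega
    · rw [h1, mul_one] at hd; exact hsne ω hd.symm
  · rw [← hN]; exact hclass.symm

end Cfsg.Agent.S0589
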