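import Cfsg.Statements.S0590
-- import your own Cfsg.Agent.* helpers here

set_option autoImplicit false
open Cfsg
open scoped commutatorElement

namespace Cfsg.Agent.S0590

/-- Quadratic action on an elementary abelian p-group forces the acting group modulo the kernel of the action to be elementary abelian. -/
theorem result {G : Type*} [Group G] [Finite G] {p : ℕ} [Fact p.Prime] (V H : Subgroup G) (hV : Cfsg.IsElementaryAbelian p V) (hHV : H ≤ Subgroup.normalizer (V : Set G)) (hq : ⁅⁅V, H⁆, H⁆ = ⊥) : ⁅H, H⁆ ≤ Subgroup.centralizer (V : Set G) ∧ ∀ a ∈ H, a ^ p ∈ Subgroup.centralizer (V : Set G) := by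
  constructor
  · have h1 : ⁅⁅H, V⁆, H⁆ = ⊥ := by rw [Subgroup.commutator_comm H V]; exact hq
    have h2 : ⁅⁅H, H⁆, V⁆ = ⊥ := Subgroup.commutator_commutator_eq_bot_of_rotate h1 hq
    exact Subgroup.commutator_eq_bot_iff_le_centralizer.mp h2
  · intro a ha
    rw [Subgroup.mem_centralizer_iff]
    intro v hv
    have hc1 : ⁅v, a⁆ ∈ ⁅V, H⁆ := Subgroup.commutator_mem_commutator hv ha
    have hc2 : ⁅V, H⁆ ≤ Subgroup.centralizer (H : Set G) :=
      Subgroup.commutator_eq_bot_iff_le_centralizer.mp hq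
    have hca : a * ⁅v, a⁆ = ⁅v, a⁆ * a := (Subgroup.mem_centralizer_iff.mp (hc2 hc1)) a ha
    have hcV : ⁅v, a⁆ ∈ V := by
      have : a * v⁻¹ * a⁻¹ ∈ V := ((Subgroup.mem_normalizer_iff.mp (hHV ha)) v⁻¹).mp (V.inv_mem hv)
      have h3 : ⁅v, a⁆ = v * (a * v⁻¹ * a⁻¹) := by simp [commutatorElement_def, mul_assoc]
      rw [h3]; exact V.mul_mem hv this
    have hcp : ⁅v, a⁆ ^ p = 1 := hV.2 _ hcV
    have key : ∀ k : ℕ, v * a ^ k = ⁅v, a⁆ ^ k * a ^ k * v := by
      intro k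
      induction k with
      | zero => simp
      | succ k ih =>
        have hva : v * a = ⁅v, a⁆ * a * v := by simp [commutatorElement_def, mul_assoc]
        have hcomm : Commute a (⁅v, a⁆) := hca
        calc v * a ^ (k + 1) = (v * a ^ k) * a := by rw [pow_succ, mul_assoc]
          _ = ⁅v, a⁆ ^ k * a ^ k * (v * a) := by rw [ih]; simp [mul_assoc]
          _ = ⁅v, a⁆ ^ k * a ^ k * (⁅v, a⁆ * a * v) := by rw [hva]
          _ = ⁅v, a⁆ ^ k * (a ^ k * ⁅v, a⁆) * a * v := by simp [mul_assoc]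
          _ = ⁅v, a⁆ ^ k * (⁅v, a⁆ * a ^ k) * a * v := by rw [(hcomm.pow_left k).eq]
          _ = ⁅v, a⁆ ^ (k + 1) * a ^ (k + 1) * v := by simp [pow_succ, mul_assoc]
    rw [key p, hcp, one_mul]

end Cfsg.Agent.S0590
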