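import Cfsg.Statements.S0591
-- import your own Cfsg.Agent.* helpers here

set_option autoImplicit false
open Cfsg
open scoped commutatorElement

namespace Cfsg.Agent.S0591

/-- For a quadratically acting element a on an elementary abelian p-group V, the fixed points C_V(a) have order at least the square root of the order of V. -/
theorem result {G : Type*} [Group G] [Finite G] {p : ℕ} [Fact p.Prime] (V : Subgroup G) (hV : Cfsg.IsElementaryAbelian p V) (a : G) (ha : a ∈ Subgroup.normalizer (V : Set G)) (hq : ⁅⁅V, Subgroup.zpowers a⁆, Subgroup.zpowers a⁆ = ⊥) : Nat.card V ≤ Nat.card ↥(V ⊓ Subgroup.centralizer (Subgroup.zpowers a : Set G)) ^ 2 := by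
  classical
  obtain ⟨hVc, hVp⟩ := hV
  have hcent : ⁅V, Subgroup.zpowers a⁆ ≤ Subgroup.centralizer (Subgroup.zpowers a : Set G) :=
    Subgroup.commutator_eq_bot_iff_le_centralizer.mp hq
  have hmemV : ∀ v ∈ V, v * a * v⁻¹ * a⁻¹ ∈ V := by
    intro v hv
    have : a * v⁻¹ * a⁻¹ ∈ V := ((Subgroup.mem_normalizer_iff.mp ha) v⁻¹).mp (V.inv_mem hv)
    have h3 : v * a * v⁻¹ * a⁻¹ = v * (a * v⁻¹ * a⁻¹) := by simp [mul_assoc]
    rw [h3]; exact V.mul_mem hv this
  have hcomm : ∀ x ∈ V, ∀ y ∈ V, x * y = y * x := by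
    intro x hx y hy
    have := hVc.is_comm.comm (⟨x, hx⟩ : V) ⟨y, hy⟩
    exact congrArg Subtype.val this
  let f : V →* V :=
    { toFun := fun v => ⟨(v : G) * a * (v : G)⁻¹ * a⁻¹, hmemV v v.2⟩
      map_one' := by ext; simp
      map_mul' := by
        intro v w
        ext
        have h1 := hcomm _ (hmemV w w.2) _ (V.inv_mem v.2)
        have h2 := hcomm _ (hmemV w w.2) _ (hmemV v v.2)
        simp only [Subgroup.coe_mul, mul_inv_rev]
        calc (v : G) * w * a * ((w : G)⁻¹ * (v : G)⁻¹) * a⁻¹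
            = (v : G) * ((w : G) * a * (w : G)⁻¹ * a⁻¹ * (v : G)⁻¹) * (v * a * (v : G)⁻¹ * a⁻¹) := by
              simp [mul_assoc]
          _ = (v : G) * ((v : G)⁻¹ * ((w : G) * a * (w : G)⁻¹ * a⁻¹)) * (v * a * (v : G)⁻¹ * a⁻¹) := by
              rw [h1]
          _ = ((w : G) * a * (w : G)⁻¹ * a⁻¹) * (v * a * (v : G)⁻¹ * a⁻¹) := by simp [mul_assoc]
          _ = (v * a * (v : G)⁻¹ * a⁻¹) * ((w : G) * a * (w : G)⁻¹ * a⁻¹) := h2 }
  have hcard : Nat.card f.ker * Nat.card f.range = Nat.card V := by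
    rw [← Subgroup.index_ker, Subgroup.card_mul_index]
  have hzp : ∀ x : G, x * a = a * x → x ∈ Subgroup.centralizer (Subgroup.zpowers a : Set G) := by
    intro x hx
    rw [Subgroup.mem_centralizer_iff]
    intro y hy
    obtain ⟨k, rfl⟩ := Subgroup.mem_zpowers_iff.mp hy
    have : Commute x a := hx
    exact (this.zpow_right k).eq.symm
  have hker : Nat.card f.ker ≤ Nat.card ↥(V ⊓ Subgroup.centralizer (Subgroup.zpowers a : Set G)) := by
    refine Nat.card_le_card_of_injective
      (fun v => ⟨((v : V) : G), ⟨(v : V).2, ?_⟩⟩) ?_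
    · apply hzp
      have hv : f (v : V) = 1 := v.2
      have hv' : ((v : V) : G) * a * ((v : V) : G)⁻¹ * a⁻¹ = 1 := congrArg Subtype.val hv
      have : ((v : V) : G) * a * ((v : V) : G)⁻¹ = a := by
        have := mul_inv_eq_one.mp hv'
        exact this
      calc ((v : V) : G) * a = ((v : V) : G) * a * ((v : V) : G)⁻¹ * ((v : V) : G) := by simp
        _ = a * ((v : V) : G) := by rw [this]
    · intro v w h
      have : ((v : V) : G) = ((w : V) : G) := by simpa using congrArg Subtype.val h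
      exact Subtype.ext (Subtype.ext this)
  have hrange : Nat.card f.range ≤ Nat.card ↥(V ⊓ Subgroup.centralizer (Subgroup.zpowers a : Set G)) := by
    refine Nat.card_le_card_of_injective
      (fun v => ⟨((v : V) : G), ⟨(v : V).2, ?_⟩⟩) ?_
    · obtain ⟨w, hw⟩ := v.2
      apply hcent
      have : ((v : V) : G) = ⁅(w : G), a⁆ := by
        rw [← hw]; rfl
      rw [this]
      exact Subgroup.commutator_mem_commutator w.2 (Subgroup.mem_zpowers a)
    · intro v w h
      have : ((v : V) : G) = ((w : V) : G) := by simpa using congrArg Subtype.val h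
      exact Subtype.ext (Subtype.ext this)
  calc Nat.card V = Nat.card f.ker * Nat.card f.range := hcard.symm
    _ ≤ Nat.card ↥(V ⊓ Subgroup.centralizer (Subgroup.zpowers a : Set G)) *
        Nat.card ↥(V ⊓ Subgroup.centralizer (Subgroup.zpowers a : Set G)) := Nat.mul_le_mul hker hrange
    _ = _ := by rw [sq]

end Cfsg.Agent.S0591
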