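import Cfsg.Statements.S0599
import Cfsg.Agent.Lib.Helper3.Nilp

set_option autoImplicit false
open Cfsg
open Cfsg.Agent.Lib.Helper3
open scoped commutatorElement

namespace Cfsg.Agent.S0599

/-- The Timmesfeld replacement Theorem: replacing a best offender A by C_A([U, A]) gives a best offender with fixed points [U, A]C_V(A), still nontrivial on V if A was. -/
theorem result {G : Type*} [Group G] [Finite G] {p : ℕ} [Fact p.Prime] (V A : Subgroup G) (hV : Cfsg.IsElementaryAbelian p V) (hAV : A ≤ Subgroup.normalizer (V : Set G)) (hA : Cfsg.IsBestOffenderOn p V A) (U : Subgroup G) (hU : U ≤ V) : Cfsg.IsBestOffenderOn p V (A ⊓ Subgroup.centralizer ((⁅U, A⁆ : Subgroup G) : Set G)) ∧ V ⊓ Subgroup.centralizer ((A ⊓ Subgroup.centralizer ((⁅U, A⁆ : Subgroup G) : Set G) : Subgroup G) : Set G) = ⁅U, A⁆ ⊔ (V ⊓ Subgroup.centralizer (A : Set G)) ∧ (⁅V, A⁆ ≠ ⊥ → ⁅V, A ⊓ Subgroup.centralizer ((⁅U, A⁆ : Subgroup G) : Set G)⁆ ≠ ⊥) := by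
  obtain ⟨hbest, hab, hp⟩ := hA
  obtain ⟨h1, h2⟩ := timmesfeld_core hV hAV hab hbest U hU
  have hVc := (isEA_iff.mp hV).1
  refine ⟨⟨?_, ?_, ?_⟩, h2, ?_⟩
  · intro B hB
    have h3 : offM V B ≤ offM V A := hbest B (hB.trans inf_le_left)
    exact h3.trans h1.ge
  · exact (Subgroup.commutator_mono inf_le_left inf_le_left).trans hab
  · exact fun a ha => hp a ha.1
  · intro hVA hVB
    apply hVA
    have hVC : V ≤ Subgroup.centralizer
        ((A ⊓ Subgroup.centralizer ((⁅U, A⁆ : Subgroup G) : Set G) : Subgroup G) : Set G) :=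
      Subgroup.commutator_eq_bot_iff_le_centralizer.mp hVB
    have hVle : V ≤ ⁅U, A⁆ ⊔ (V ⊓ Subgroup.centralizer (A : Set G)) := by
      rw [← h2]; exact le_inf le_rfl hVC
    have hWV : ⁅V, A⁆ ≤ V := (Subgroup.le_normalizer_iff_commutator_le_left).mp hAV
    have hUAV : ⁅U, A⁆ ≤ V := (Subgroup.commutator_mono hU le_rfl).trans hWV
    have hAW : A ≤ Subgroup.normalizer ((⁅V, A⁆ : Subgroup G) : Set G) :=
      Subgroup.normalizer_commutator_ge_right _ _
    have hW : ⁅V, A⁆ ≤ ⁅⁅V, A⁆, A⁆ := by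
      rw [Subgroup.commutator_le]
      intro v hv a ha
      have hn : ⁅U, A⁆ ≤ Subgroup.normalizer
          ((V ⊓ Subgroup.centralizer (A : Set G) : Subgroup G) : Set G) := by
        refine le_trans ?_ (Subgroup.centralizer_le_normalizer _)
        intro x hx
        refine Subgroup.mem_centralizer_iff.mpr ?_
        intro y hy
        exact hVc y hy.1 x (hUAV hx)
      have hv' : v ∈ ((⁅U, A⁆ ⊔ (V ⊓ Subgroup.centralizer (A : Set G)) : Subgroup G) : Set G) :=
        hVle hv
      rw [Subgroup.coe_mul_of_left_le_normalizer_right _ _ hn] at hv'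
      obtain ⟨x, hx, c, hc, rfl⟩ := hv'
      rw [commutatorElement_mul_left_eq_conj_mul]
      have hca : ⁅c, a⁆ = 1 := by
        rw [commutatorElement_eq_one_iff_mul_comm]
        exact (Subgroup.mem_centralizer_iff.mp hc.2 a ha).symm
      rw [hca, mul_one, mul_inv_cancel, one_mul]
      exact Subgroup.commutator_mem_commutator (Subgroup.commutator_mono hU le_rfl hx) ha
    exact eq_bot_of_le_commutator hV hAV hab hp _ _ rfl hWV hAW hW

end Cfsg.Agent.S0599
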