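import Cfsg.Statements.S0600

set_option autoImplicit false
open Cfsg

namespace Cfsg.Agent.S0600

/-- A normal elementary abelian p-subgroup generated by the fixed points of the Sylow p-subgroups admits no nontrivial normal p-subgroup of G modulo its centralizer. -/
theorem result {G : Type*} [Group G] [Finite G] {p : ℕ} [Fact p.Prime] (V : Subgroup G) [V.Normal] (hV : Cfsg.IsElementaryAbelian p V) (hgen : V = ⨆ S : Sylow p G, V ⊓ Subgroup.centralizer ((S : Subgroup G) : Set G)) : Cfsg.pCore p (G ⧸ Subgroup.centralizer (V : Set G)) = ⊥ := by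
  unfold pCore
  rw [sSup_eq_bot]
  rintro N ⟨hNn, hNp⟩
  haveI := hNn
  rw [eq_bot_iff]
  intro x hx
  obtain ⟨g, rfl⟩ := QuotientGroup.mk_surjective x
  rw [Subgroup.mem_bot, QuotientGroup.eq_one_iff]
  have key : V ≤ Subgroup.centralizer ({g} : Set G) := by
    rw [hgen]
    apply iSup_le
    intro S v hv
    have h1 : (QuotientGroup.mk g : G ⧸ Subgroup.centralizer (V : Set G)) ∈
        ((S.mapSurjective (QuotientGroup.mk'_surjective (Subgroup.centralizer (V : Set G))) :
          Sylow p (G ⧸ Subgroup.centralizer (V : Set G))) :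
          Subgroup (G ⧸ Subgroup.centralizer (V : Set G))) :=
      hNp.le_sylow_of_normal _ hx
    rw [Sylow.coe_mapSurjective] at h1
    obtain ⟨s, hs, hsg⟩ := h1
    have h2 : s⁻¹ * g ∈ Subgroup.centralizer (V : Set G) := QuotientGroup.eq.mp hsg
    rw [Subgroup.mem_centralizer_iff]
    intro y hy
    rw [Set.mem_singleton_iff] at hy
    subst hy
    have hvs : s * v = v * s := (Subgroup.mem_centralizer_iff.mp hv.2) s hs
    have hvc : v * (s⁻¹ * y) = (s⁻¹ * y) * v := (Subgroup.mem_centralizer_iff.mp h2) v hv.1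
    calc y * v = s * ((s⁻¹ * y) * v) := by group
      _ = s * (v * (s⁻¹ * y)) := by rw [hvc]
      _ = (s * v) * (s⁻¹ * y) := by group
      _ = v * s * (s⁻¹ * y) := by rw [hvs]
      _ = v * y := by group
  rw [Subgroup.mem_centralizer_iff]
  intro v hv
  exact ((Subgroup.mem_centralizer_iff.mp (key hv)) g rfl).symm

end Cfsg.Agent.S0600
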