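import Cfsg.Statements.S0601
import Cfsg.Agent.Lib.Helper3.EA

set_option autoImplicit false
open Cfsg
open Cfsg.Agent.Lib.Helper3

namespace Cfsg.Agent.S0601

/-- When O_p(G) contains its centralizer, the normal closure of Ω₁(Z(S)) is elementary abelian and G has no nontrivial normal p-subgroup modulo its centralizer. -/
theorem result {G : Type*} [Group G] [Finite G] {p : ℕ} [Fact p.Prime] (hc : Subgroup.centralizer (Cfsg.pCore p G : Set G) ≤ Cfsg.pCore p G) : (⨆ S : Sylow p G, Cfsg.omegaOne p (((S : Subgroup G)) ⊓ Subgroup.centralizer ((S : Subgroup G) : Set G))).Normal ∧ Cfsg.IsElementaryAbelian p (⨆ S : Sylow p G, Cfsg.omegaOne p (((S : Subgroup G)) ⊓ Subgroup.centralizer ((S : Subgroup G) : Set G))) ∧ ∀ D : Subgroup G, D.Normal → Subgroup.centralizer ((⨆ S : Sylow p G, Cfsg.omegaOne p (((S : Subgroup G)) ⊓ Subgroup.centralizer ((S : Subgroup G) : Set G)) : Subgroup G) : Set G) ≤ D → (∃ k : ℕ, (Subgroup.centralizer ((⨆ S : Sylow p G, Cfsg.omegaOne p (((S : Subgroup G)) ⊓ Subgroup.centralizer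 ((S : Subgroup G) : Set G)) : Subgroup G) : Set G)).relIndex D = p ^ k) → D = Subgroup.centralizer ((⨆ S : Sylow p G, Cfsg.omegaOne p (((S : Subgroup G)) ⊓ Subgroup.centralizer ((S : Subgroup G) : Set G)) : Subgroup G) : Set G) := by
  set W := ⨆ S : Sylow p G, Cfsg.omegaOne p (((S : Subgroup G)) ⊓ Subgroup.centralizer ((S : Subgroup G) : Set G)) with hW
  have hOp : IsPGroup p (pCore p G) := Sylow.sSup_of_normal _ (fun H hH => hH.2) (fun H hH => hH.1)
  have hOle : ∀ S : Sylow p G, pCore p G ≤ S := fun S => hOp.le_sylow_of_normal S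
  let T : Set G := {x | x ∈ pCore p G ∧ x ∈ Subgroup.centralizer (pCore p G : Set G) ∧ x ^ p = 1}
  have hTcomm : ∀ x ∈ T, ∀ y ∈ T, x * y = y * x :=
    fun x hx y hy => (Subgroup.mem_centralizer_iff.mp hy.2.1 x hx.1)
  have hE : IsElementaryAbelian p (Subgroup.closure T) := by
    have hcm := Subgroup.isMulCommutative_closure hTcomm
    refine ⟨hcm, ?_⟩
    intro g hg
    induction hg using Subgroup.closure_induction with
    | mem x hx => exact hx.2.2
    | one => exact one_pow p
    | mul x y hx hy ihx ihy =>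
      have : Commute x y := setLike_mul_comm hx hy
      rw [this.mul_pow, ihx, ihy, one_mul]
    | inv x hx ihx => rw [inv_pow, ihx, inv_one]
  have hle : ∀ S : Sylow p G, omegaOne p ((S : Subgroup G) ⊓ Subgroup.centralizer ((S : Subgroup G) : Set G)) ≤
      Subgroup.closure T := by
    intro S
    unfold omegaOne
    apply Subgroup.closure_mono
    rintro x ⟨⟨hxS, hxC⟩, hxp⟩
    have h1 : x ∈ Subgroup.centralizer (pCore p G : Set G) := Subgroup.centralizer_le (hOle S) hxC
    exact ⟨hc h1, h1, hxp⟩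
  have hWE : W ≤ Subgroup.closure T := iSup_le hle
  have hWEA : IsElementaryAbelian p W := isEA_of_le hWE hE
  have hWn : W.Normal := by
    constructor
    intro n hn g
    have h1 : W.map (MulAut.conj g).toMonoidHom ≤ W := by
      rw [hW, Subgroup.map_iSup]
      apply iSup_le
      intro S
      refine le_trans ?_ (le_iSup _ (g • S))
      unfold omegaOne
      rw [MonoidHom.map_closure]
      apply Subgroup.closure_mono
      rintro _ ⟨x, ⟨⟨hxS, hxC⟩, hxp⟩, rfl⟩
      refine ⟨⟨?_, ?_⟩, ?_⟩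
      · rw [Sylow.smul_def, Sylow.pointwise_smul_def]
        exact Subgroup.smul_mem_pointwise_smul _ _ _ hxS
      · refine Subgroup.mem_centralizer_iff.mpr ?_
        intro y hy
        rw [SetLike.mem_coe, Sylow.smul_def, Sylow.pointwise_smul_def,
          Subgroup.mem_pointwise_smul_iff_inv_smul_mem] at hy
        have h2 := (Subgroup.mem_centralizer_iff.mp hxC) _ hy
        have h3 : (MulAut.conj g)⁻¹ • y = g⁻¹ * y * g := by
          simp [MulAut.smul_def]
        rw [h3] at h2
        have h4 : y * (g * x * g⁻¹) = g * ((g⁻¹ * y * g) * x) * g⁻¹ := by group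
        have h5 : (g * x * g⁻¹) * y = g * (x * (g⁻¹ * y * g)) * g⁻¹ := by group
        show y * (g * x * g⁻¹) = (g * x * g⁻¹) * y
        rw [h4, h5, h2]
      · show (g * x * g⁻¹) ^ p = 1
        rw [conj_pow, hxp]; group
    exact h1 ⟨n, hn, rfl⟩
  refine ⟨hWn, hWEA, ?_⟩
  intro D hDn hCD hidx
  haveI := hWn
  apply le_antisymm _ hCD
  obtain ⟨k, hk⟩ := hidx
  intro d hd
  have hDbar : IsPGroup p (D.map (QuotientGroup.mk' (Subgroup.centralizer (W : Set G)))) := by
    apply IsPGroup.of_card (n := k)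
    rw [← hk, ← Subgroup.relIndex_ker, QuotientGroup.ker_mk']
  haveI : (D.map (QuotientGroup.mk' (Subgroup.centralizer (W : Set G)))).Normal :=
    Subgroup.Normal.map hDn _ (QuotientGroup.mk'_surjective _)
  have key : W ≤ Subgroup.centralizer ({d} : Set G) := by
    apply iSup_le
    intro S
    have h1 : (QuotientGroup.mk' (Subgroup.centralizer (W : Set G))) d ∈
        ((S.mapSurjective (QuotientGroup.mk'_surjective (Subgroup.centralizer (W : Set G))) :
          Sylow p (G ⧸ Subgroup.centralizer (W : Set G))) :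
          Subgroup (G ⧸ Subgroup.centralizer (W : Set G))) :=
      hDbar.le_sylow_of_normal _ (Subgroup.mem_map_of_mem _ hd)
    rw [Sylow.coe_mapSurjective] at h1
    obtain ⟨s, hs, hsg⟩ := h1
    have h2 : s⁻¹ * d ∈ Subgroup.centralizer (W : Set G) := QuotientGroup.eq.mp hsg
    unfold omegaOne
    rw [Subgroup.closure_le]
    rintro v ⟨⟨hvS, hvC⟩, hvp⟩
    have hvW : v ∈ W := (le_iSup (fun S : Sylow p G =>
      omegaOne p ((S : Subgroup G) ⊓ Subgroup.centralizer ((S : Subgroup G) : Set G))) S)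
        (Subgroup.subset_closure ⟨⟨hvS, hvC⟩, hvp⟩)
    rw [SetLike.mem_coe, Subgroup.mem_centralizer_iff]
    intro y hy
    rw [Set.mem_singleton_iff] at hy
    subst hy
    have hvs : s * v = v * s := (Subgroup.mem_centralizer_iff.mp hvC) s hs
    have hvc : v * (s⁻¹ * y) = (s⁻¹ * y) * v := (Subgroup.mem_centralizer_iff.mp h2) v hvW
    calc y * v = s * ((s⁻¹ * y) * v) := by group
      _ = s * (v * (s⁻¹ * y)) := by rw [hvc]
      _ = (s * v) * (s⁻¹ * y) := by group
      _ = v * s * (s⁻¹ * y) := by rw [hvs]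
      _ = v * y := by group
  rw [Subgroup.mem_centralizer_iff]
  intro v hv
  exact ((Subgroup.mem_centralizer_iff.mp (key hv)) d rfl).symm

end Cfsg.Agent.S0601
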