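import Cfsg.Statements.S0602
import Cfsg.Agent.Lib.Helper3.EA

set_option autoImplicit false
open Cfsg
open Cfsg.Agent.Lib.Helper3

namespace Cfsg.Agent.S0602

/-- The Thompson subgroup is characteristic, and nontrivial as soon as p divides the group order. -/
theorem result {G : Type*} [Group G] [Finite G] {p : ℕ} [Fact p.Prime] : (Cfsg.thompsonSubgroup p G).Characteristic ∧ (p ∣ Nat.card G → Cfsg.thompsonSubgroup p G ≠ ⊥) := by
  constructor
  · rw [Subgroup.characteristic_iff_map_le]
    intro ϕ
    unfold thompsonSubgroup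
    refine Subgroup.map_le_iff_le_comap.mpr (sSup_le fun A hA => ?_)
    exact Subgroup.map_le_iff_le_comap.mp (le_sSup (maxEA_map_equiv ϕ hA))
  · intro hp hbot
    obtain ⟨x, hx⟩ := exists_prime_orderOf_dvd_card' p hp
    obtain ⟨A, hA⟩ := exists_maxEA (G := G) p
    have hAle := maxEA_le_thompson hA
    rw [hbot, le_bot_iff] at hAle
    have h1 : Nat.card (Subgroup.zpowers x) ≤ Nat.card A :=
      hA.2 _ (isEA_zpowers (by rw [← hx]; exact pow_orderOf_eq_one x))
    rw [Nat.card_zpowers, hx, hAle, Subgroup.card_bot] at h1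
    have := (Fact.out : p.Prime).two_le
    omega

end Cfsg.Agent.S0602
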