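import Cfsg.Statements.S0603
import Cfsg.Agent.Lib.Helper3.EA

set_option autoImplicit false
open Cfsg
open Cfsg.Agent.Lib.Helper3

namespace Cfsg.Agent.S0603

/-- The Thompson subgroup of any subgroup containing J(G) is J(G) itself. -/
theorem result {G : Type*} [Group G] [Finite G] {p : ℕ} [Fact p.Prime] (U : Subgroup G) (hU : Cfsg.thompsonSubgroup p G ≤ U) : Cfsg.thompsonSubgroupOf p U = Cfsg.thompsonSubgroup p G := by
  obtain ⟨A₀, hA₀⟩ := exists_maxEA (G := G) p
  have hA₀U : A₀ ≤ U := (maxEA_le_thompson hA₀).trans hU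
  unfold thompsonSubgroupOf thompsonSubgroup
  apply le_antisymm
  · refine Subgroup.map_le_iff_le_comap.mpr (sSup_le fun A hA => ?_)
    refine Subgroup.map_le_iff_le_comap.mp (le_sSup ?_)
    refine ⟨isEA_map _ hA.1, fun B hB => ?_⟩
    rw [card_map_subtype]
    calc Nat.card B ≤ Nat.card A₀ := hA₀.2 B hB
      _ = Nat.card (A₀.subgroupOf U) := (card_subgroupOf_of_le hA₀U).symm
      _ ≤ Nat.card A := hA.2 _ (isEA_subgroupOf U hA₀.1)
  · refine sSup_le fun A hA => ?_
    have hAU : A ≤ U := (maxEA_le_thompson hA).trans hU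
    have h1 : A.subgroupOf U ∈ maxElementaryAbelianSubgroups p U := by
      refine ⟨isEA_subgroupOf U hA.1, fun B hB => ?_⟩
      rw [card_subgroupOf_of_le hAU, ← card_map_subtype B]
      exact hA.2 _ (isEA_map _ hB)
    have h2 : (A.subgroupOf U).map U.subtype = A := Subgroup.map_subgroupOf_eq_of_le hAU
    rw [← h2]
    exact Subgroup.map_mono (le_sSup h1)

end Cfsg.Agent.S0603
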