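import Cfsg.Statements.S0604
import Cfsg.Agent.Lib.Helper3.EA

set_option autoImplicit false
open Cfsg
open Cfsg.Agent.Lib.Helper3

namespace Cfsg.Agent.S0604

/-- The Thompson subgroup of G is the join of the Thompson subgroups of its Sylow p-subgroups. -/
theorem result {G : Type*} [Group G] [Finite G] {p : ℕ} [Fact p.Prime] : Cfsg.thompsonSubgroup p G = ⨆ S : Sylow p G, Cfsg.thompsonSubgroupOf p (S : Subgroup G) := by
  unfold thompsonSubgroupOf thompsonSubgroup
  apply le_antisymm
  · refine sSup_le fun A hA => ?_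
    obtain ⟨S, hS⟩ := (isPGroup_of_isEA hA.1).exists_le_sylow
    have h1 : A.subgroupOf S ∈ maxElementaryAbelianSubgroups p (S : Subgroup G) := by
      refine ⟨isEA_subgroupOf _ hA.1, fun B hB => ?_⟩
      rw [card_subgroupOf_of_le hS, ← card_map_subtype B]
      exact hA.2 _ (isEA_map _ hB)
    have h2 : (A.subgroupOf S).map (S : Subgroup G).subtype = A :=
      Subgroup.map_subgroupOf_eq_of_le hS
    rw [← h2]
    exact le_trans (Subgroup.map_mono (le_sSup h1))
      (le_iSup (fun S : Sylow p G =>
        (sSup (maxElementaryAbelianSubgroups p ↥(S : Subgroup G))).map (S : Subgroup G).subtype) S)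
  · refine iSup_le fun S => ?_
    refine Subgroup.map_le_iff_le_comap.mpr (sSup_le fun A hA => ?_)
    refine Subgroup.map_le_iff_le_comap.mp (le_sSup ?_)
    refine ⟨isEA_map _ hA.1, fun B hB => ?_⟩
    rw [card_map_subtype]
    obtain ⟨S', hS'⟩ := (isPGroup_of_isEA hB).exists_le_sylow
    obtain ⟨g, rfl⟩ := MulAction.exists_smul_eq G S S'
    have hB' : B.map (MulAut.conj g⁻¹).toMonoidHom ≤ S := by
      rintro _ ⟨b, hb, rfl⟩
      have h3 := hS' hb
      rw [Sylow.smul_def, Sylow.pointwise_smul_def, Subgroup.mem_pointwise_smul_iff_inv_smul_mem] at h3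
      simpa [MulAut.smul_def] using h3
    calc Nat.card B = Nat.card (B.map (MulAut.conj g⁻¹).toMonoidHom) :=
          (Subgroup.card_map_of_injective (MulAut.conj g⁻¹).injective).symm
      _ = Nat.card ((B.map (MulAut.conj g⁻¹).toMonoidHom).subgroupOf S) :=
          (card_subgroupOf_of_le hB').symm
      _ ≤ Nat.card A := hA.2 _ (isEA_subgroupOf _ (isEA_map _ hB))

end Cfsg.Agent.S0604
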