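import Cfsg.Statements.S0605
import Cfsg.Agent.Lib.Helper3.EA

set_option autoImplicit false
open Cfsg
open Cfsg.Agent.Lib.Helper3

namespace Cfsg.Agent.S0605

/-- Elements of order p in the centralizer of the Thompson subgroup belong to the Thompson subgroup (so to its centre). -/
theorem result {G : Type*} [Group G] [Finite G] {p : ℕ} [Fact p.Prime] (x : G) (hx : x ∈ Subgroup.centralizer (Cfsg.thompsonSubgroup p G : Set G)) (ho : orderOf x = p) : x ∈ Cfsg.thompsonSubgroup p G := by
  obtain ⟨A, hA⟩ := exists_maxEA (G := G) p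
  have hAle := maxEA_le_thompson hA
  have hxp : x ^ p = 1 := by rw [← ho]; exact pow_orderOf_eq_one x
  have hcomm : ∀ a ∈ A, ∀ c ∈ Subgroup.zpowers x, a * c = c * a := by
    intro a ha c hc
    obtain ⟨k, rfl⟩ := Subgroup.mem_zpowers_iff.mp hc
    have h1 : a * x = x * a := (Subgroup.mem_centralizer_iff.mp hx) a (hAle ha)
    have h2 : Commute a x := h1
    exact (h2.zpow_right k).eq
  have hEA := isEA_sup hA.1 (isEA_zpowers hxp) hcomm
  have heq := eq_of_le_of_maxEA hA hEA le_sup_left
  have : x ∈ A ⊔ Subgroup.zpowers x := (le_sup_right : Subgroup.zpowers x ≤ _) (Subgroup.mem_zpowers x)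
  rw [heq] at this
  exact hAle this

end Cfsg.Agent.S0605
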