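import Cfsg.Statements.S0606
import Cfsg.Agent.Lib.Helper3.EA

set_option autoImplicit false
open Cfsg
open Cfsg.Agent.Lib.Helper3

namespace Cfsg.Agent.S0606

/-- Elementary abelian p-subgroups of maximal order are best offenders on any normal elementary abelian p-subgroup. -/
theorem result {G : Type*} [Group G] [Finite G] {p : ℕ} [Fact p.Prime] (V : Subgroup G) [V.Normal] (hV : Cfsg.IsElementaryAbelian p V) (A : Subgroup G) (hA : A ∈ Cfsg.maxElementaryAbelianSubgroups p G) : Cfsg.IsBestOffenderOn p V A := by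
  obtain ⟨hAEA, hAmax⟩ := hA
  have hA' := isEA_iff.mp hAEA
  refine ⟨fun B hBA => ?_, ?_, ?_⟩
  · have hBEA : IsElementaryAbelian p B := isEA_of_le hBA hAEA
    have hCEA : IsElementaryAbelian p (V ⊓ Subgroup.centralizer (B : Set G)) :=
      isEA_of_le inf_le_left hV
    have hcomm : ∀ b ∈ B, ∀ c ∈ V ⊓ Subgroup.centralizer (B : Set G), b * c = c * b :=
      fun b hb c hc => (Subgroup.mem_centralizer_iff.mp hc.2 b hb)
    have hsup := isEA_sup hBEA hCEA hcomm
    have h1 : Nat.card ↥(B ⊔ (V ⊓ Subgroup.centralizer (B : Set G))) ≤ Nat.card A := hAmax _ hsup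
    have hnorm : B ≤ Subgroup.normalizer ((V ⊓ Subgroup.centralizer (B : Set G) : Subgroup G) : Set G) :=
      (Subgroup.le_centralizer_iff.mp inf_le_right).trans (Subgroup.centralizer_le_normalizer _)
    have h2 := card_sup_mul_card_inf B (V ⊓ Subgroup.centralizer (B : Set G)) hnorm
    have h3 : Nat.card ↥(B ⊓ (V ⊓ Subgroup.centralizer (B : Set G))) ≤
        Nat.card ↥(V ⊓ Subgroup.centralizer (A : Set G)) := by
      apply Subgroup.card_le_of_le
      intro x hx
      refine ⟨hx.2.1, ?_⟩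
      exact Subgroup.mem_centralizer_iff.mpr (fun a ha => hA'.1 a ha x (hBA hx.1))
    calc Nat.card B * Nat.card ↥(V ⊓ Subgroup.centralizer (B : Set G))
        = Nat.card ↥(B ⊔ (V ⊓ Subgroup.centralizer (B : Set G))) *
          Nat.card ↥(B ⊓ (V ⊓ Subgroup.centralizer (B : Set G))) := h2.symm
      _ ≤ Nat.card A * Nat.card ↥(V ⊓ Subgroup.centralizer (A : Set G)) := Nat.mul_le_mul h1 h3
  · have : ⁅A, A⁆ = ⊥ := by
      rw [Subgroup.commutator_eq_bot_iff_le_centralizer]
      exact Subgroup.le_centralizer_iff_isMulCommutative.mpr hAEA.1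
    rw [this]; exact bot_le
  · intro a ha
    rw [hA'.2 a ha]; exact Subgroup.one_mem _

end Cfsg.Agent.S0606
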