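import Cfsg.Statements.S0608
import Cfsg.Agent.Lib.Helper3.Thompson
import Cfsg.Agent.S0604

set_option autoImplicit false
open Cfsg
open Cfsg.Agent.Lib.Helper3

namespace Cfsg.Agent.S0608

/-- With trivial p'-core, Thompson factorizability is equivalent to J(G) centralizing the subgroup generated by all Ω₁(Z(S)), S Sylow. -/
theorem result {G : Type*} [Group G] [Finite G] {p : ℕ} [Fact p.Prime] (hO : Cfsg.pPrimeCore p G = ⊥) : Cfsg.IsThompsonFactorizable p G ↔ Cfsg.thompsonSubgroup p G ≤ Subgroup.centralizer ((⨆ S : Sylow p G, Cfsg.omegaOne p (((S : Subgroup G)) ⊓ Subgroup.centralizer ((S : Subgroup G) : Set G)) : Subgroup G) : Set G) := by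
  change IsThompsonFactorizable p G ↔ thompsonSubgroup p G ≤
    Subgroup.centralizer ((⨆ S : Sylow p G, omegaZ p (S : Subgroup G) : Subgroup G) : Set G)
  haveI hWn : (⨆ S : Sylow p G, omegaZ p (S : Subgroup G)).Normal := iSup_omegaZ_normal p
  have hJ : thompsonSubgroup p G = ⨆ S : Sylow p G, thompsonSubgroupOf p (S : Subgroup G) :=
    Cfsg.Agent.S0604.result
  constructor
  · intro hF
    rw [hJ]
    apply iSup_le
    intro S
    rw [Subgroup.le_centralizer_iff]
    apply iSup_le
    intro T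
    obtain ⟨h, rfl⟩ := MulAction.exists_smul_eq G T S
    obtain ⟨x, hx, c, hc, n, hn, hh⟩ := hF T h
    rw [hO, Subgroup.mem_bot] at hx
    rw [hx, one_mul] at hh
    have hJS : thompsonSubgroupOf p ((h • T : Sylow p G) : Subgroup G) =
        (thompsonSubgroupOf p (T : Subgroup G)).map (MulAut.conj c).toMonoidHom := by
      rw [sylow_smul_coe, ← thompsonSubgroupOf_map_equiv, hh]
      have h1 : (MulAut.conj (c * n)).toMonoidHom =
          (MulAut.conj c).toMonoidHom.comp (MulAut.conj n).toMonoidHom := by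
        ext y; simp [mul_assoc]
      rw [h1, ← Subgroup.map_map]
      have h2 : (thompsonSubgroupOf p (T : Subgroup G)).map (MulAut.conj n).toMonoidHom =
          thompsonSubgroupOf p (T : Subgroup G) := Subgroup.mem_normalizer_iff_map_conj_eq.mp hn
      rw [h2]
    rw [hJS]
    intro z hz
    refine Subgroup.mem_centralizer_iff.mpr ?_
    rintro _ ⟨j, hj, rfl⟩
    have hzj : j * z = z * j :=
      Subgroup.mem_centralizer_iff.mp (omegaZ_le_centralizer p _ hz) j (thompsonSubgroupOf_le p _ hj)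
    have hzc : z * c = c * z := Subgroup.mem_centralizer_iff.mp hc z hz
    show c * j * c⁻¹ * z = z * (c * j * c⁻¹)
    have hzc' : c⁻¹ * z = z * c⁻¹ := by
      have : c⁻¹ * (z * c) * c⁻¹ = c⁻¹ * (c * z) * c⁻¹ := by rw [hzc]
      simpa [mul_assoc] using this
    calc c * j * c⁻¹ * z = c * j * (c⁻¹ * z) := by simp [mul_assoc]
      _ = c * (j * z) * c⁻¹ := by rw [hzc']; simp [mul_assoc]
      _ = (c * z) * j * c⁻¹ := by rw [hzj]; simp [mul_assoc]
      _ = z * (c * j * c⁻¹) := by rw [← hzc]; simp [mul_assoc]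
  · intro hJC S g
    obtain ⟨Q, hQ⟩ := Sylow.exists_comap_subtype_eq
      (default : Sylow p ↥(Subgroup.centralizer
        ((⨆ S : Sylow p G, omegaZ p (S : Subgroup G) : Subgroup G) : Set G)))
    have hfr := Sylow.normalizer_sup_eq_top
      (default : Sylow p ↥(Subgroup.centralizer
        ((⨆ S : Sylow p G, omegaZ p (S : Subgroup G) : Subgroup G) : Set G)))
    have hT : ((default : Sylow p ↥(Subgroup.centralizer
        ((⨆ S : Sylow p G, omegaZ p (S : Subgroup G) : Subgroup G) : Set G))) : Subgroup _).map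
        (Subgroup.centralizer
          ((⨆ S : Sylow p G, omegaZ p (S : Subgroup G) : Subgroup G) : Set G)).subtype =
        (Q : Subgroup G) ⊓ Subgroup.centralizer
          ((⨆ S : Sylow p G, omegaZ p (S : Subgroup G) : Subgroup G) : Set G) := by
      rw [← hQ]
      exact Subgroup.subgroupOf_map_subtype _ _
    rw [hT] at hfr
    have hJQ : thompsonSubgroupOf p (Q : Subgroup G) ≤ (Q : Subgroup G) ⊓ Subgroup.centralizer
          ((⨆ S : Sylow p G, omegaZ p (S : Subgroup G) : Subgroup G) : Set G) := by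
      apply le_inf (thompsonSubgroupOf_le p _)
      refine le_trans ?_ hJC
      rw [hJ]
      exact le_iSup (fun S : Sylow p G => thompsonSubgroupOf p (S : Subgroup G)) Q
    have hJT := thompsonSubgroupOf_eq_of_le hJQ inf_le_left
    have hNT := normalizer_le_normalizer_thompsonOf p ((Q : Subgroup G) ⊓ Subgroup.centralizer
          ((⨆ S : Sylow p G, omegaZ p (S : Subgroup G) : Subgroup G) : Set G))
    rw [hJT] at hNT
    obtain ⟨h, rfl⟩ := MulAction.exists_smul_eq G Q S
    have hmem : h⁻¹ * g * h ∈ Subgroup.normalizer (((Q : Subgroup G) ⊓ Subgroup.centralizer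
          ((⨆ S : Sylow p G, omegaZ p (S : Subgroup G) : Subgroup G) : Set G) : Subgroup G) : Set G) ⊔
        Subgroup.centralizer
          ((⨆ S : Sylow p G, omegaZ p (S : Subgroup G) : Subgroup G) : Set G) := by
      rw [hfr]; exact Subgroup.mem_top _
    rw [Subgroup.mem_sup_of_normal_right] at hmem
    obtain ⟨n₀, hn₀, c₀, hc₀, hnc⟩ := hmem
    have hn₁ := map_conj_mem_normalizer h (hNT hn₀)
    rw [thompsonSubgroupOf_map_equiv, ← sylow_smul_coe] at hn₁
    refine ⟨1, Subgroup.one_mem _, (h * n₀ * h⁻¹) * (h * c₀ * h⁻¹) * (h * n₀ * h⁻¹)⁻¹, ?_,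
      h * n₀ * h⁻¹, hn₁, ?_⟩
    · have hc₁ : (h * n₀ * h⁻¹) * (h * c₀ * h⁻¹) * (h * n₀ * h⁻¹)⁻¹ ∈ Subgroup.centralizer
          ((⨆ S : Sylow p G, omegaZ p (S : Subgroup G) : Subgroup G) : Set G) := by
        have hnorm : (Subgroup.centralizer
          ((⨆ S : Sylow p G, omegaZ p (S : Subgroup G) : Subgroup G) : Set G)).Normal := inferInstance
        exact hnorm.conj_mem _ (hnorm.conj_mem _ hc₀ h) _
      have hle : omegaZ p ((h • Q : Sylow p G) : Subgroup G) ≤
          ⨆ S : Sylow p G, omegaZ p (S : Subgroup G) :=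
        le_iSup (fun S : Sylow p G => omegaZ p (S : Subgroup G)) (h • Q)
      exact Subgroup.centralizer_le (SetLike.coe_subset_coe.mpr hle) hc₁
    · have : g = h * (n₀ * c₀) * h⁻¹ := by rw [hnc]; group
      rw [this]; group

end Cfsg.Agent.S0608
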