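import Cfsg.Statements.S0629
import Cfsg.Agent.Lib.Helper1.PSolv

set_option autoImplicit false
open Cfsg

open Cfsg.Agent.Lib.Helper1 Cfsg.Agent.Lib.Helper7

namespace Cfsg.Agent.S0629

/-- A group in which the centralizer of a Sylow p-subgroup of O_{p',p}(G) is p-solvable is p-constrained. -/
theorem result {G : Type*} [Group G] [Finite G] {p : ℕ} [Fact p.Prime] (P : Sylow p ↥(Cfsg.pPrimePCore p G)) (hsol : Cfsg.IsPSolvable p ↥(Subgroup.centralizer (((P : Subgroup ↥(Cfsg.pPrimePCore p G)).map (Cfsg.pPrimePCore p G).subtype : Subgroup G) : Set G))) : Cfsg.IsPConstrained p G := by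
  rw [isPConstrained_iff_centralizer_le, ← genFitting_eq_pCore_iff_centralizer_le,
    genFitting_eq_pCore_iff]
  refine ⟨?_, pPrimeCore_quotient_eq_bot p G⟩
  have hUn : (Cfsg.pCore p (G ⧸ Cfsg.pPrimeCore p G)).Normal := pCore_normal p _
  have hP'p : IsPGroup p ↥((P : Subgroup ↥(Cfsg.pPrimePCore p G)).map
      (Cfsg.pPrimePCore p G).subtype) := P.isPGroup'.map _
  have hUle := le_map_sylow_pPrimePCore p G P
  have hPU : ((P : Subgroup ↥(Cfsg.pPrimePCore p G)).map (Cfsg.pPrimePCore p G).subtype).map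
      (QuotientGroup.mk' (Cfsg.pPrimeCore p G)) ≤ Cfsg.pCore p (G ⧸ Cfsg.pPrimeCore p G) := by
    rw [Subgroup.map_le_iff_le_comap]
    exact Subgroup.map_subtype_le _
  have hOc : (Nat.card ↥((P : Subgroup ↥(Cfsg.pPrimePCore p G)).map
      (Cfsg.pPrimePCore p G).subtype)).Coprime (Nat.card ↥(Cfsg.pPrimeCore p G)) :=
    (coprime_card_of_isPGroup (pPrimeCore_coprime p G) hP'p).symm
  have h1 : Subgroup.centralizer (Cfsg.pCore p (G ⧸ Cfsg.pPrimeCore p G) : Set (G ⧸ Cfsg.pPrimeCore p G))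
      ≤ (Subgroup.centralizer (((P : Subgroup ↥(Cfsg.pPrimePCore p G)).map
        (Cfsg.pPrimePCore p G).subtype : Subgroup G) : Set G)).map
        (QuotientGroup.mk' (Cfsg.pPrimeCore p G)) :=
    (Subgroup.centralizer_le (SetLike.coe_subset_coe.mpr hPU)).trans
      (centralizer_map_mk_le _ _ hOc (isSolvable_of_isPGroup hP'p))
  have h2 : (Subgroup.centralizer (((P : Subgroup ↥(Cfsg.pPrimePCore p G)).map
        (Cfsg.pPrimePCore p G).subtype : Subgroup G) : Set G)).map
        (QuotientGroup.mk' (Cfsg.pPrimeCore p G))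
      ≤ Subgroup.centralizer (Cfsg.pCore p (G ⧸ Cfsg.pPrimeCore p G) : Set (G ⧸ Cfsg.pPrimeCore p G)) := by
    refine le_trans ?_ (Subgroup.centralizer_le (SetLike.coe_subset_coe.mpr hUle))
    rintro _ ⟨c, hc, rfl⟩
    rw [Subgroup.mem_centralizer_iff]
    rintro _ ⟨a, ha, rfl⟩
    rw [← map_mul, ← map_mul, Subgroup.mem_centralizer_iff.mp hc a ha]
  have hDeq := le_antisymm h1 h2
  have hDn : ((Subgroup.centralizer (((P : Subgroup ↥(Cfsg.pPrimePCore p G)).map
        (Cfsg.pPrimePCore p G).subtype : Subgroup G) : Set G)).map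
        (QuotientGroup.mk' (Cfsg.pPrimeCore p G))).Normal := by
    rw [← hDeq]; exact Subgroup.normal_centralizer
  have hCs := isPSolvable_of_surjective p
    ((QuotientGroup.mk' (Cfsg.pPrimeCore p G)).subgroupMap _)
    ((QuotientGroup.mk' (Cfsg.pPrimeCore p G)).subgroupMap_surjective _) hsol
  have hDO : Cfsg.pPrimeCore p ↥((Subgroup.centralizer (((P : Subgroup ↥(Cfsg.pPrimePCore p G)).map
        (Cfsg.pPrimePCore p G).subtype : Subgroup G) : Set G)).map
        (QuotientGroup.mk' (Cfsg.pPrimeCore p G))) = ⊥ := by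
    have h3 := pPrimeCore_map_subtype_le_of_subnormal p hDn.isSubnormal
    rw [pPrimeCore_quotient_eq_bot p G] at h3
    apply Subgroup.map_injective (Subgroup.subtype_injective _)
    rw [Subgroup.map_bot]; exact le_bot_iff.mp h3
  have hDE := layer_eq_bot_of_isPSolvable p _ hCs hDO
  unfold Cfsg.layer
  rw [sSup_eq_bot]
  intro L hL
  exfalso
  have h3 : ⁅L, Cfsg.pCore p (G ⧸ Cfsg.pPrimeCore p G)⁆ = ⊥ :=
    IsComponent.commutator_eq_bot_of_solvable hL hUn.isSubnormal
      (isSolvable_of_isPGroup (pCore_isPGroup p _))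
  have hLD := (Subgroup.commutator_eq_bot_iff_le_centralizer.mp h3).trans h1
  have h4 := IsComponent.le_layer (IsComponent.subgroupOf hL hLD)
  rw [hDE] at h4
  exact IsComponent.ne_bot (IsComponent.subgroupOf hL hLD) (le_bot_iff.mp h4)

end Cfsg.Agent.S0629
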