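import Cfsg.Statements.S0634
import Cfsg.Agent.Lib.Helper1.UpperP

set_option autoImplicit false
open Cfsg

open Cfsg.Agent.Lib.Helper1 Cfsg.Agent.Lib.Helper7

namespace Cfsg.Agent.S0634

/-- In a p-soluble group each p-factor of the upper p-series contains its own centralizer in the corresponding quotient. -/
theorem result {G : Type*} [Group G] [Finite G] {p : ℕ} [Fact p.Prime] (hsol : Cfsg.IsPSolvable p G) (k : ℕ) : Subgroup.centralizer ((((Cfsg.upperPSeries p G (2 * k + 2)).1.map (QuotientGroup.mk' (Cfsg.upperPSeries p G (2 * k + 1)).1)) : Subgroup (G ⧸ (Cfsg.upperPSeries p G (2 * k + 1)).1)) : Set (G ⧸ (Cfsg.upperPSeries p G (2 * k + 1)).1)) ≤ (Cfsg.upperPSeries p G (2 * k + 2)).1.map (QuotientGroup.mk' (Cfsg.upperPSeries p G (2 * k + 1)).1) := by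
  have hodd : ¬ Even (2 * k + 1) := by
    rw [Nat.not_even_iff_odd]; exact ⟨k, rfl⟩
  have heven : Even (2 * k) := ⟨k, two_mul k⟩
  have h1 : (Cfsg.upperPSeries p G (2 * k + 1)).1 =
      (Cfsg.pPrimeCore p (G ⧸ (Cfsg.upperPSeries p G (2 * k)).1)).comap (QuotientGroup.mk' _) :=
    upperPSeries_succ_even p G (2 * k) heven
  have h2 : (Cfsg.upperPSeries p G (2 * k + 2)).1 =
      (Cfsg.pCore p (G ⧸ (Cfsg.upperPSeries p G (2 * k + 1)).1)).comap (QuotientGroup.mk' _) :=
    upperPSeries_succ_odd p G (2 * k + 1) hodd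
  rw [h2, Subgroup.map_comap_eq_self_of_surjective (QuotientGroup.mk'_surjective _)]
  exact centralizer_pCore_le_of_isPSolvable p _
    (isPSolvable_of_surjective p _ (QuotientGroup.mk'_surjective _) hsol)
    (pPrimeCore_quotient_eq_bot_of_eq_comap p _ _ h1)

end Cfsg.Agent.S0634
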