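import Cfsg.Statements.S0635
import Mathlib
import Cfsg.Agent.Lib.Helper1.UpperP
import Cfsg.Agent.Lib.Helper9.ConjLemmas

set_option autoImplicit false
open Cfsg

namespace Cfsg.Agent.S0635

open Cfsg.Agent.Lib.Helper1 Cfsg.Agent.Lib.Helper7 Cfsg.Agent.Lib.Helper9

theorem normal_pgroup_le_sylow {G : Type*} [Group G] [Finite G] {p : ℕ} [Fact p.Prime]
    (N : Subgroup G) (hNn : N.Normal) (hN : IsPGroup p N) (P : Sylow p G) :
    N ≤ (P : Subgroup G) := by
  obtain ⟨Q, hQ⟩ := hN.exists_le_sylow
  obtain ⟨g, rfl⟩ := MulAction.exists_smul_eq G Q P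
  intro x hx
  rw [Sylow.coe_subgroup_smul, Cfsg.Agent.Lib.Helper9.mem_conj_smul_iff]
  apply hQ
  have := hNn.conj_mem x hx g⁻¹
  simpa using this

theorem upper_mono (p : ℕ) (G : Type*) [Group G] (n : ℕ) :
    (upperPSeries p G n).1 ≤ (upperPSeries p G (n + 1)).1 := by
  by_cases h : Even n
  · rw [upperPSeries_succ_even p G n h]
    intro x hx
    rw [Subgroup.mem_comap]
    have : QuotientGroup.mk' _ x = 1 := (QuotientGroup.eq_one_iff x).mpr hx
    rw [this]; exact Subgroup.one_mem _
  · rw [upperPSeries_succ_odd p G n h]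
    intro x hx
    rw [Subgroup.mem_comap]
    have : QuotientGroup.mk' _ x = 1 := (QuotientGroup.eq_one_iff x).mpr hx
    rw [this]; exact Subgroup.one_mem _

/-- The p-length of a p-soluble group is at most the nilpotency class of its Sylow p-subgroups. -/
theorem result {G : Type*} [Group G] [Finite G] {p : ℕ} [Fact p.Prime] (hsol : Cfsg.IsPSolvable p G) (S : Sylow p G) : Cfsg.PLengthLE p (Group.nilpotencyClass ↥(S : Subgroup G)) G := by
  have hnil : Group.IsNilpotent ↥(S : Subgroup G) := S.2.isNilpotent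
  have key : ∀ k : ℕ, ∀ z : ↥(S : Subgroup G), z ∈ Subgroup.upperCentralSeries ↥(S : Subgroup G) k →
      (z : G) ∈ (upperPSeries p G (2 * k)).1 := by
    intro k
    induction k with
    | zero =>
      intro z hz
      rw [Subgroup.upperCentralSeries_zero, Subgroup.mem_bot] at hz
      rw [hz]; exact Subgroup.one_mem _
    | succ k ih =>
      intro z hz
      have hodd : ¬ Even (2 * k + 1) := by rw [Nat.not_even_iff_odd]; exact ⟨k, rfl⟩
      have heven : Even (2 * k) := ⟨k, two_mul k⟩
      have h1 : (upperPSeries p G (2 * k + 1)).1 =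
          (pPrimeCore p (G ⧸ (upperPSeries p G (2 * k)).1)).comap (QuotientGroup.mk' _) :=
        upperPSeries_succ_even p G (2 * k) heven
      have h2 : (upperPSeries p G (2 * k + 2)).1 =
          (pCore p (G ⧸ (upperPSeries p G (2 * k + 1)).1)).comap (QuotientGroup.mk' _) :=
        upperPSeries_succ_odd p G (2 * k + 1) hodd
      show (z : G) ∈ (upperPSeries p G (2 * k + 2)).1
      rw [h2, Subgroup.mem_comap]
      apply centralizer_pCore_le_of_isPSolvable p _
        (isPSolvable_of_surjective p _ (QuotientGroup.mk'_surjective _) hsol)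
        (pPrimeCore_quotient_eq_bot_of_eq_comap p _ _ h1)
      rw [Subgroup.mem_centralizer_iff]
      intro y hy
      have hy' : y ∈ ((S.mapSurjective (QuotientGroup.mk'_surjective
          (upperPSeries p G (2 * k + 1)).1) : Sylow p _) : Subgroup _) :=
        normal_pgroup_le_sylow _ (pCore_normal p _) (pCore_isPGroup p _) _ hy
      rw [Sylow.coe_mapSurjective] at hy'
      obtain ⟨s, hs, rfl⟩ := hy'
      have hz' := (Subgroup.mem_upperCentralSeries_succ_iff).mp hz ⟨s, hs⟩
      rw [commutatorElement_def] at hz'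
      have h3 := upper_mono p G (2 * k) (ih _ hz')
      have h4 : QuotientGroup.mk' (upperPSeries p G (2 * k + 1)).1 (z * s * (z : G)⁻¹ * s⁻¹) = 1 :=
        (QuotientGroup.eq_one_iff _).mpr h3
      rw [map_mul, map_mul, map_mul, map_inv, map_inv] at h4
      have h5 := mul_inv_eq_one.mp h4
      have h6 := mul_inv_eq_iff_eq_mul.mp h5
      exact h6.symm
  show (upperPSeries p G (2 * Group.nilpotencyClass ↥(S : Subgroup G) + 1)).1 = ⊤
  have heven : Even (2 * Group.nilpotencyClass ↥(S : Subgroup G)) := ⟨_, two_mul _⟩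
  rw [upperPSeries_succ_even p G _ heven]
  have hS : (S : Subgroup G) ≤ (upperPSeries p G (2 * Group.nilpotencyClass ↥(S : Subgroup G))).1 := by
    intro z hz
    exact key _ ⟨z, hz⟩ (by rw [Subgroup.upperCentralSeries_nilpotencyClass]; exact Subgroup.mem_top _)
  have hcop : (Nat.card (G ⧸ (upperPSeries p G (2 * Group.nilpotencyClass ↥(S : Subgroup G))).1)).Coprime p := by
    rw [← Subgroup.index_eq_card]
    have hdvd := Subgroup.index_dvd_of_le hS
    have hnd : ¬ p ∣ (S : Subgroup G).index := S.not_dvd_index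
    exact (Nat.Coprime.symm ((Nat.Prime.coprime_iff_not_dvd Fact.out).mpr
      (fun h => hnd (h.trans hdvd))))
  have h1 : pPrimeCore p (G ⧸ (upperPSeries p G (2 * Group.nilpotencyClass ↥(S : Subgroup G))).1) = ⊤ := by
    rw [eq_top_iff]
    apply le_pPrimeCore inferInstance
    rw [Subgroup.card_top]; exact hcop
  rw [h1, Subgroup.comap_top]

end Cfsg.Agent.S0635
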