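import Cfsg.Statements.S0641

set_option autoImplicit false
open Cfsg

namespace Cfsg.Agent.S0641

/-- Regularity of a p-group passes to quotient groups. -/
theorem result {G : Type*} [Group G] {p : ℕ} [Fact p.Prime] (hG : Cfsg.IsRegularPGroup p G) (N : Subgroup G) [N.Normal] : Cfsg.IsRegularPGroup p (G ⧸ N) := by
  obtain ⟨hP, hR⟩ := hG
  refine ⟨hP.to_quotient N, ?_⟩
  intro a' b' n
  obtain ⟨a, rfl⟩ := QuotientGroup.mk_surjective a'
  obtain ⟨b, rfl⟩ := QuotientGroup.mk_surjective b'
  obtain ⟨c, hc, hceq⟩ := hR a b n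
  refine ⟨(QuotientGroup.mk' N) c, ?_, ?_⟩
  · have h1 : (powerClosure p n ⁅Subgroup.closure ({a, b} : Set G), Subgroup.closure ({a, b} : Set G)⁆).map
        (QuotientGroup.mk' N) ≤
        powerClosure p n ⁅Subgroup.closure ({(QuotientGroup.mk a : G ⧸ N), (QuotientGroup.mk b : G ⧸ N)} : Set (G ⧸ N)),
          Subgroup.closure ({(QuotientGroup.mk a : G ⧸ N), (QuotientGroup.mk b : G ⧸ N)} : Set (G ⧸ N))⁆ := by
      unfold powerClosure
      rw [MonoidHom.map_closure]
      apply Subgroup.closure_mono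
      rintro _ ⟨y, ⟨x, hx, rfl⟩, rfl⟩
      refine ⟨(QuotientGroup.mk' N) x, ?_, by rw [map_pow]⟩
      have h2 : (QuotientGroup.mk' N) x ∈ (⁅Subgroup.closure ({a, b} : Set G), Subgroup.closure ({a, b} : Set G)⁆).map
          (QuotientGroup.mk' N) := Subgroup.mem_map_of_mem _ hx
      rw [Subgroup.map_commutator, MonoidHom.map_closure] at h2
      have h3 : (QuotientGroup.mk' N) '' ({a, b} : Set G) =
          ({(QuotientGroup.mk a : G ⧸ N), (QuotientGroup.mk b : G ⧸ N)} : Set (G ⧸ N)) := by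
        rw [Set.image_pair]; rfl
      rw [h3] at h2
      exact h2
    exact h1 (Subgroup.mem_map_of_mem _ hc)
  · have := congrArg (QuotientGroup.mk' N) hceq
    simpa using this

end Cfsg.Agent.S0641
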