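import Cfsg.Statements.S0642
import Cfsg.Agent.Lib.Helper3.Comm

set_option autoImplicit false
open Cfsg
open Cfsg.Agent.Lib.Helper3
open scoped commutatorElement

namespace Cfsg.Agent.S0642

/-- Among finite 2-groups the regular ones are exactly the abelian ones. -/
theorem result {G : Type*} [Group G] [Finite G] (hG : IsPGroup 2 G) : Cfsg.IsRegularPGroup 2 G ↔ ∀ a b : G, a * b = b * a := by
  haveI : Fact (Nat.Prime 2) := ⟨Nat.prime_two⟩
  constructor
  · rintro ⟨-, hR⟩ a b
    obtain ⟨c, hc, hceq⟩ := hR a b 1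
    set H := Subgroup.closure ({a, b} : Set G) with hH
    have haH : a ∈ H := Subgroup.subset_closure (by simp)
    have hbH : b ∈ H := Subgroup.subset_closure (by simp)
    have hN1 : H ≤ Subgroup.normalizer ((⁅H, H⁆ : Subgroup G) : Set G) :=
      Subgroup.normalizer_commutator_ge_left _ _
    have hN2 : H ≤ Subgroup.normalizer ((powerClosure 2 1 ⁅H, H⁆ : Subgroup G) : Set G) :=
      hN1.trans (normalizer_le_normalizer_powerClosure 2 1 _)
    have conj : ∀ g ∈ H, ∀ m ∈ powerClosure 2 1 ⁅H, H⁆, g * m * g⁻¹ ∈ powerClosure 2 1 ⁅H, H⁆ :=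
      fun g hg m hm => (Subgroup.mem_normalizer_iff.mp (hN2 hg) m).mp hm
    have h1 : b⁻¹ * a⁻¹ * b * a = b * c * b⁻¹ := by
      have h0 : a * b * (a * b) = a * a * (b * b) * c := by
        have := hceq
        simp only [pow_one, pow_two] at this
        exact this
      have h2 : b * a * b = a * b * b * c := by
        have : a * (b * a * b) = a * (a * b * b * c) := by
          simpa [mul_assoc] using h0
        exact mul_left_cancel this
      have h3 : b * a = a * b * (b * c * b⁻¹) := by
        have : b * a * b = a * b * (b * c * b⁻¹) * b := by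
          rw [h2]; simp [mul_assoc]
        exact mul_right_cancel this
      calc b⁻¹ * a⁻¹ * b * a = (a * b)⁻¹ * (b * a) := by simp [mul_assoc]
        _ = (a * b)⁻¹ * (a * b * (b * c * b⁻¹)) := by rw [h3]
        _ = b * c * b⁻¹ := by simp [mul_assoc]
    have h4 : b⁻¹ * a⁻¹ * b * a ∈ powerClosure 2 1 ⁅H, H⁆ := by
      rw [h1]; exact conj b hbH c hc
    have h5 : ⁅b, a⁆ ∈ powerClosure 2 1 ⁅H, H⁆ := by
      have := conj (b * a) (H.mul_mem hbH haH) _ h4
      have h6 : b * a * (b⁻¹ * a⁻¹ * b * a) * (b * a)⁻¹ = ⁅b, a⁆ := by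
        simp [commutatorElement_def, mul_assoc]
      rwa [h6] at this
    have h7 : ⁅a, b⁆ ∈ powerClosure 2 1 ⁅H, H⁆ := by
      rw [← commutatorElement_inv]; exact Subgroup.inv_mem _ h5
    have hsub : ({a, b} : Set G) ⊆ Subgroup.normalizer ((powerClosure 2 1 ⁅H, H⁆ : Subgroup G) : Set G) := by
      intro x hx
      rcases hx with rfl | rfl
      · exact hN2 haH
      · exact hN2 hbH
    have h8 : ⁅H, H⁆ ≤ powerClosure 2 1 ⁅H, H⁆ := by
      apply commutator_closure_le _ _ _ hsub hsub
      intro x hx y hy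
      rcases hx with rfl | rfl <;> rcases hy with rfl | rfl
      · rw [commutatorElement_self]; exact Subgroup.one_mem _
      · exact h7
      · exact h5
      · rw [commutatorElement_self]; exact Subgroup.one_mem _
    have h9 : ⁅H, H⁆ = ⊥ := eq_bot_of_le_powerClosure_one (p := 2) _ (hG.to_subgroup _) h8
    have h10 : ⁅a, b⁆ ∈ ⁅H, H⁆ := Subgroup.commutator_mem_commutator haH hbH
    rw [h9, Subgroup.mem_bot] at h10
    exact commutatorElement_eq_one_iff_mul_comm.mp h10
  · intro hab
    refine ⟨hG, ?_⟩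
    intro a b n
    refine ⟨1, Subgroup.one_mem _, ?_⟩
    have : Commute a b := hab a b
    rw [this.mul_pow, mul_one]

end Cfsg.Agent.S0642
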