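import Mathlib
import Cfsg.Statements.S0643
import Cfsg.Agent.S0644

namespace Cfsg.Agent.S0643

open Cfsg

/-- Kemhadze's criterion: a finite p-group is regular exactly when (ab)^p = a^p b^p c^p always holds for some c in the derived subgroup of the subgroup generated by a and b. -/
theorem result {G : Type*} [Group G] [Finite G] {p : ℕ} [Fact p.Prime] (hG : IsPGroup p G) : Cfsg.IsRegularPGroup p G ↔ ∀ a b : G, ∃ c ∈ ⁅Subgroup.closure ({a, b} : Set G), Subgroup.closure ({a, b} : Set G)⁆, (a * b) ^ p = a ^ p * b ^ p * c ^ p := by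
  constructor
  · intro hreg a b
    have hW : Cfsg.Agent.S0644.Wk p G := fun a b => by
      obtain ⟨c, hc, h⟩ := hreg.2 a b 1
      exact ⟨c, hc, by simpa using h⟩
    obtain ⟨c, hc, h⟩ := hW a b
    obtain ⟨d, hd, rfl⟩ := Cfsg.Agent.S0644.E hG hW 1 _ c hc
    exact ⟨d, hd, by simpa using h⟩
  · intro hK
    have hW : Cfsg.Agent.S0644.Wk p G := fun a b => by
      obtain ⟨c, hc, h⟩ := hK a b
      exact ⟨c ^ p, by simpa using Cfsg.Agent.S0644.pow_mem_pc p 1 hc, h⟩
    exact ⟨hG, fun a b n => Cfsg.Agent.S0644.D hG hW n a b⟩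

end Cfsg.Agent.S0643
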