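import Cfsg.Statements.S0645
import Cfsg.Agent.Lib.Helper8.UniqueSub

set_option autoImplicit false
open Cfsg

namespace Cfsg.Agent.S0645

theorem nt_aux {p : ℕ} [Fact p.Prime] (hp : p ≠ 2) {m r : ℕ} (hm : 2 ≤ m) (hr : 2 ≤ r)
    (h1 : r ^ p ≡ 1 [MOD p ^ m]) (h2 : ¬ r ≡ 1 [MOD p ^ m]) :
    ∃ k, ¬ p ∣ k ∧ r = 1 + k * p ^ (m - 1) := by
  have hpp : p.Prime := Fact.out
  have hodd : Odd p := hpp.odd_of_ne_two hp
  have hrp1 : 1 ≤ r ^ p := Nat.one_le_pow _ _ (by omega)
  have h3 : p ^ m ∣ r ^ p - 1 := (Nat.modEq_iff_dvd' hrp1).mp h1.symm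
  have h_a : r ^ p ≡ 1 [MOD p] := Nat.ModEq.of_dvd (dvd_pow_self p (by omega)) h1
  have h5 : (r : ZMod p) = 1 := by
    have h := (ZMod.natCast_eq_natCast_iff _ _ _).mpr h_a
    push_cast at h
    rw [ZMod.pow_card] at h
    exact h
  have hr1 : p ∣ r - 1 := by
    have h : (1 : ℕ) ≡ r [MOD p] := by
      apply (ZMod.natCast_eq_natCast_iff _ _ _).mp
      push_cast
      exact h5.symm
    exact (Nat.modEq_iff_dvd' (by omega)).mp h
  have hpr : ¬ p ∣ r := by
    intro h
    have h0 : (r : ZMod p) = 0 := (ZMod.natCast_eq_zero_iff r p).mpr h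
    rw [h5] at h0
    exact one_ne_zero h0
  have hlte := padicValNat.pow_sub_pow hodd (by omega : 1 < r) (by simpa using hr1) hpr (n := p)
    hpp.ne_zero
  rw [one_pow, padicValNat_self] at hlte
  have hne : r ^ p - 1 ≠ 0 := by
    have : 2 ≤ r ^ p := le_trans hr (Nat.le_self_pow hpp.ne_zero r)
    omega
  have h6 : m ≤ padicValNat p (r ^ p - 1) := (padicValNat_dvd_iff_le hne).mp h3
  have h7 : ¬ m ≤ padicValNat p (r - 1) := by
    intro h
    apply h2
    have hd : p ^ m ∣ r - 1 := (padicValNat_dvd_iff_le (by omega)).mpr h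
    exact ((Nat.modEq_iff_dvd' (by omega)).mpr hd).symm
  have h9 : p ^ (m - 1) ∣ r - 1 := (padicValNat_dvd_iff_le (by omega)).mpr (by omega)
  obtain ⟨k, hk⟩ := h9
  refine ⟨k, ?_, by rw [mul_comm]; omega⟩
  intro hpk
  apply h7
  apply (padicValNat_dvd_iff_le (by omega)).mp
  rw [hk]
  obtain ⟨k', rfl⟩ := hpk
  refine ⟨k', ?_⟩
  have : p ^ m = p ^ (m - 1) * p := by rw [← pow_succ]; congr 1; omega
  rw [this]; ring

theorem binom_aux (t j : ℕ) : ∃ c, (1 + t) ^ j = 1 + j * t + t ^ 2 * c := by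
  induction j with
  | zero => exact ⟨0, by simp⟩
  | succ j ih =>
    obtain ⟨c, hc⟩ := ih
    refine ⟨j + c + c * t, ?_⟩
    rw [pow_succ, hc]; ring


/-- Classification of p-groups with a cyclic maximal subgroup, odd p: a non-abelian one of order p^n has generators a of order p^(n-1) and b of order p, b outside the cyclic subgroup generated by a, with b a b⁻¹ = a^(1 + p^(n-2)). -/
theorem result {G : Type*} [Group G] [Finite G] {p : ℕ} [Fact p.Prime] (hp : p ≠ 2) (n : ℕ) (hn : 3 ≤ n) (hG : Nat.card G = p ^ n) (C : Subgroup G) (hC : IsCyclic C) (hCi : C.index = p) (hna : ∃ x y : G, x * y ≠ y * x) : ∃ a b : G, orderOf a = p ^ (n - 1) ∧ orderOf b = p ∧ b ∉ Subgroup.zpowers a ∧ b * a * b⁻¹ = a ^ (1 + p ^ (n - 2)) := by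
  classical
  have hpp : p.Prime := Fact.out
  have hcardC : Nat.card C = p ^ (n - 1) := by
    have h := C.card_mul_index
    rw [hCi, hG] at h
    have : p ^ n = p ^ (n - 1) * p := by rw [← pow_succ]; congr 1; omega
    rw [this] at h
    exact Nat.eq_of_mul_eq_mul_right hpp.pos h
  obtain ⟨g, hg⟩ := hC.exists_generator
  have hCz : C = Subgroup.zpowers (g : G) := by
    ext x
    constructor
    · intro hx
      obtain ⟨k, hk⟩ := Subgroup.mem_zpowers_iff.mp (hg ⟨x, hx⟩)
      exact Subgroup.mem_zpowers_iff.mpr ⟨k, by have := congrArg Subtype.val hk; simpa using this⟩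
    · intro hx
      obtain ⟨k, rfl⟩ := Subgroup.mem_zpowers_iff.mp hx
      exact C.zpow_mem g.2 k
  have hord : orderOf (g : G) = p ^ (n - 1) := by
    rw [Subgroup.orderOf_coe, orderOf_eq_card_of_forall_mem_zpowers hg, hcardC]
  have hN : C.Normal := by
    apply Subgroup.normal_of_index_eq_minFac_card
    rw [hCi, hG, Nat.pow_minFac (by omega), hpp.minFac_eq]
  have hnc : ∀ b : G, b ∉ C → b * (g : G) * b⁻¹ ≠ (g : G) := by
    intro b hb hcomm
    have hcomm' : b * (g : G) = (g : G) * b := by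
      calc b * (g : G) = b * (g : G) * b⁻¹ * b := by group
        _ = (g : G) * b := by rw [hcomm]
    have htop : C ⊔ Subgroup.zpowers b = ⊤ := by
      rw [← Subgroup.index_eq_one]
      have h1 : (C ⊔ Subgroup.zpowers b).index ∣ p := by
        rw [← hCi]; exact Subgroup.index_dvd_of_le le_sup_left
      rcases (Nat.dvd_prime hpp).mp h1 with h | h
      · exact h
      · exfalso
        have hc1 := (C ⊔ Subgroup.zpowers b).card_mul_index
        rw [h, hG] at hc1
        have hc2 : Nat.card ↥(C ⊔ Subgroup.zpowers b) = p ^ (n - 1) := by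
          have : p ^ n = p ^ (n - 1) * p := by rw [← pow_succ]; congr 1; omega
          rw [this] at hc1
          exact Nat.eq_of_mul_eq_mul_right hpp.pos hc1
        have : C = C ⊔ Subgroup.zpowers b :=
          Subgroup.eq_of_le_of_card_ge le_sup_left (by rw [hc2, hcardC])
        apply hb; rw [this]; exact Subgroup.mem_sup_right (Subgroup.mem_zpowers b)
    have hcen : ∀ x : G, x ∈ Subgroup.centralizer ({(g : G), b} : Set G) := by
      intro x
      have hle : C ⊔ Subgroup.zpowers b ≤ Subgroup.centralizer ({(g : G), b} : Set G) := by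
        apply sup_le
        · refine le_trans hCz.le ?_
          apply (Subgroup.zpowers_le).mpr
          rw [Subgroup.mem_centralizer_iff]; intro y hy
          rcases hy with rfl | rfl
          · rfl
          · exact hcomm'
        · apply (Subgroup.zpowers_le).mpr
          rw [Subgroup.mem_centralizer_iff]; intro y hy
          rcases hy with rfl | rfl
          · exact hcomm'.symm
          · rfl
      exact hle (htop ▸ Subgroup.mem_top x)
    have ha_c : (g : G) ∈ Subgroup.center G := Subgroup.mem_center_iff.mpr (fun y =>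
      ((Subgroup.mem_centralizer_iff.mp (hcen y)) (g : G) (by simp)).symm)
    have hb_c : b ∈ Subgroup.center G := Subgroup.mem_center_iff.mpr (fun y =>
      ((Subgroup.mem_centralizer_iff.mp (hcen y)) b (by simp)).symm)
    have hle2 : C ⊔ Subgroup.zpowers b ≤ Subgroup.center G := by
      apply sup_le
      · exact le_trans hCz.le ((Subgroup.zpowers_le).mpr ha_c)
      · exact (Subgroup.zpowers_le).mpr hb_c
    obtain ⟨x, y, hxy⟩ := hna
    apply hxy
    have hx : x ∈ Subgroup.center G := hle2 (htop ▸ Subgroup.mem_top x)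
    exact (Subgroup.mem_center_iff.mp hx y).symm
  have hncyc : ¬ IsCyclic G := by
    intro hcyc
    obtain ⟨x, y, hxy⟩ := hna
    obtain ⟨z, hz⟩ := hcyc.exists_generator
    obtain ⟨i, rfl⟩ := Subgroup.mem_zpowers_iff.mp (hz x)
    obtain ⟨j, rfl⟩ := Subgroup.mem_zpowers_iff.mp (hz y)
    exact hxy (by rw [← zpow_add, ← zpow_add, add_comm])
  have hex : ∃ H K : Subgroup G, Nat.card H = p ∧ Nat.card K = p ∧ H ≠ K := by
    by_contra hcon
    push_neg at hcon
    exact hncyc (Cfsg.Agent.Lib.Helper8.h8_cyclic_of_unique_subgroup p n 1 hpp hG le_rfl (by omega)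
      (Or.inl hp) (fun H K hH hK => hcon H K (by simpa using hH) (by simpa using hK)))
  have hZ : ∀ H : Subgroup G, Nat.card H = p → H ≤ C →
      H = Subgroup.zpowers ((g : G) ^ p ^ (n - 2)) := by
    intro H hH hHC
    have hcardZ : Nat.card (Subgroup.zpowers ((g : G) ^ p ^ (n - 2))) = p := by
      rw [Nat.card_zpowers, orderOf_pow_of_dvd (pow_ne_zero _ hpp.ne_zero), hord, Nat.pow_div (by omega) hpp.pos]
      · have : n - 1 - (n - 2) = 1 := by omega
        rw [this, pow_one]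
      · rw [hord]; exact pow_dvd_pow p (by omega)
    apply Subgroup.eq_of_le_of_card_ge
    · intro h hh
      have hhC : h ∈ Subgroup.zpowers (g : G) := hCz.le (hHC hh)
      obtain ⟨i, rfl⟩ := (mem_powers_iff_mem_zpowers.mpr hhC)
      have hp1 : ((g : G) ^ i) ^ p = 1 := by
        have h1 := orderOf_dvd_natCard (⟨(g : G) ^ i, hh⟩ : H)
        rw [hH] at h1
        have h2 : orderOf ((g : G) ^ i) ∣ p := by
          rw [← Subgroup.orderOf_coe] at h1
          exact h1
        exact orderOf_dvd_iff_pow_eq_one.mp h2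
      rw [← pow_mul] at hp1
      have h3 : p ^ (n - 1) ∣ i * p := by rw [← hord]; exact orderOf_dvd_of_pow_eq_one hp1
      have h4 : p ^ (n - 2) ∣ i := by
        have : p ^ (n - 1) = p ^ (n - 2) * p := by rw [← pow_succ]; congr 1; omega
        rw [this] at h3
        exact Nat.dvd_of_mul_dvd_mul_right hpp.pos h3
      obtain ⟨c, rfl⟩ := h4
      show (g : G) ^ (p ^ (n - 2) * c) ∈ _
      rw [pow_mul]
      exact Subgroup.pow_mem _ (Subgroup.mem_zpowers _) c
    · rw [hcardZ, hH]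
  obtain ⟨H, K, hH, hK, hHK⟩ := hex
  have hb₀ : ∃ b₀ : G, orderOf b₀ = p ∧ b₀ ∉ C := by
    have key : ∀ H : Subgroup G, Nat.card H = p → ¬ H ≤ C → ∃ b₀ : G, orderOf b₀ = p ∧ b₀ ∉ C := by
      intro H hH hHC
      obtain ⟨b₀, hb₀H, hb₀C⟩ := SetLike.not_le_iff_exists.mp hHC
      refine ⟨b₀, ?_, hb₀C⟩
      have h1 : orderOf b₀ ∣ p := by
        have h := orderOf_dvd_natCard (⟨b₀, hb₀H⟩ : H)
        rw [hH, ← Subgroup.orderOf_coe] at h
        exact h
      rcases (Nat.dvd_prime hpp).mp h1 with h | h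
      · exfalso; apply hb₀C; rw [orderOf_eq_one_iff.mp h]; exact one_mem C
      · exact h
    by_cases h1 : H ≤ C
    · by_cases h2 : K ≤ C
      · exact absurd ((hZ H hH h1).trans (hZ K hK h2).symm) hHK
      · exact key K hK h2
    · exact key H hH h1
  obtain ⟨b₀, hb₀o, hb₀C⟩ := hb₀
  have hconjC : b₀ * (g : G) * b₀⁻¹ ∈ Subgroup.zpowers (g : G) :=
    hCz.le (hN.conj_mem (g : G) g.2 b₀)
  obtain ⟨r, hr⟩ := mem_powers_iff_mem_zpowers.mpr hconjC
  have hr' : (g : G) ^ r = b₀ * (g : G) * b₀⁻¹ := hr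
  have hconj : ∀ i : ℕ, b₀ ^ i * (g : G) * (b₀ ^ i)⁻¹ = (g : G) ^ (r ^ i) := by
    intro i
    induction i with
    | zero => simp
    | succ i ih =>
      have e : b₀ ^ (i + 1) * (g : G) * (b₀ ^ (i + 1))⁻¹ =
          b₀ * (b₀ ^ i * (g : G) * (b₀ ^ i)⁻¹) * b₀⁻¹ := by
        rw [pow_succ']; group
      rw [e, ih]
      have e2 : b₀ * (g : G) ^ (r ^ i) * b₀⁻¹ = (b₀ * (g : G) * b₀⁻¹) ^ (r ^ i) := by
        rw [conj_pow]
      rw [e2, ← hr', ← pow_mul, pow_succ']
  have hm : 2 ≤ n - 1 := by omega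
  have hr2 : 2 ≤ r := by
    by_contra hcon
    have : r = 0 ∨ r = 1 := by omega
    rcases this with rfl | rfl
    · rw [pow_zero] at hr'
      have h1 : (g : G) = 1 := by
        have := congrArg (fun t => b₀⁻¹ * t * b₀) hr'
        simp only [mul_one, inv_mul_cancel] at this
        rw [this]; group
      rw [h1, orderOf_one] at hord
      have : 1 < p ^ (n - 1) := Nat.one_lt_pow (by omega) hpp.one_lt
      omega
    · rw [pow_one] at hr'
      exact hnc b₀ hb₀C hr'.symm
  have hbp : b₀ ^ p = 1 := by rw [← hb₀o]; exact pow_orderOf_eq_one b₀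
  have h1 : r ^ p ≡ 1 [MOD p ^ (n - 1)] := by
    have h := hconj p
    rw [hbp, one_mul, inv_one, mul_one] at h
    have h' : (g : G) ^ (r ^ p) = (g : G) ^ 1 := by rw [pow_one]; exact h.symm
    rw [pow_eq_pow_iff_modEq, hord] at h'
    exact h'
  have h2 : ¬ r ≡ 1 [MOD p ^ (n - 1)] := by
    intro h
    apply hnc b₀ hb₀C
    rw [← hr']
    have : (g : G) ^ r = (g : G) ^ 1 := by rw [pow_eq_pow_iff_modEq, hord]; exact h
    rw [this, pow_one]
  obtain ⟨k, hpk, hrk⟩ := nt_aux hp hm hr2 h1 h2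
  obtain ⟨j, hj0, hjk⟩ : ∃ j : ℕ, ¬ p ∣ j ∧ j * k ≡ 1 [MOD p] := by
    have hk0 : (k : ZMod p) ≠ 0 := by
      intro h
      exact hpk ((ZMod.natCast_eq_zero_iff k p).mp h)
    refine ⟨((k : ZMod p)⁻¹).val, ?_, ?_⟩
    · intro hdvd
      have h : (((k : ZMod p)⁻¹).val : ZMod p) = 0 := (ZMod.natCast_eq_zero_iff _ _).mpr hdvd
      rw [ZMod.natCast_zmod_val] at h
      exact inv_ne_zero hk0 h
    · apply (ZMod.natCast_eq_natCast_iff _ _ _).mp
      push_cast
      rw [ZMod.natCast_zmod_val]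
      exact inv_mul_cancel₀ hk0
  have hmod : r ^ j ≡ 1 + p ^ (n - 2) [MOD p ^ (n - 1)] := by
    obtain ⟨c, hc⟩ := binom_aux (k * p ^ (n - 2)) j
    have hrk' : r = 1 + k * p ^ (n - 2) := by
      rw [hrk]
      have : n - 1 - 1 = n - 2 := by omega
      rw [this]
    rw [hrk', hc]
    have e1 : (k * p ^ (n - 2)) ^ 2 * c ≡ 0 [MOD p ^ (n - 1)] := by
      apply (Nat.modEq_zero_iff_dvd).mpr
      have : p ^ (n - 1) ∣ (p ^ (n - 2)) ^ 2 := by rw [← pow_mul]; exact pow_dvd_pow p (by omega)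
      rw [mul_pow]
      exact Dvd.dvd.mul_right (Dvd.dvd.mul_left this _) _
    have e2 : j * (k * p ^ (n - 2)) ≡ p ^ (n - 2) [MOD p ^ (n - 1)] := by
      have h := Nat.ModEq.mul_right' (p ^ (n - 2)) hjk
      rw [one_mul] at h
      have e : p * p ^ (n - 2) = p ^ (n - 1) := by rw [← pow_succ']; congr 1; omega
      rw [e, mul_assoc] at h
      exact h
    have e3 := Nat.ModEq.add (Nat.ModEq.add_left 1 e2) e1
    rw [add_zero] at e3
    exact e3
  have hco : (orderOf b₀).Coprime j := by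
    rw [hb₀o]; exact (Nat.Prime.coprime_iff_not_dvd hpp).mpr hj0
  refine ⟨(g : G), b₀ ^ j, hord, ?_, ?_, ?_⟩
  · rw [Nat.Coprime.orderOf_pow hco, hb₀o]
  · intro hmem0
    have hmem : b₀ ^ j ∈ C := hCz.ge hmem0
    apply hb₀C
    have hle : Subgroup.zpowers (b₀ ^ j) ≤ C := (Subgroup.zpowers_le).mpr hmem
    have heq : Subgroup.zpowers (b₀ ^ j) = Subgroup.zpowers b₀ := by
      apply Subgroup.eq_of_le_of_card_ge
      · exact (Subgroup.zpowers_le).mpr (Subgroup.pow_mem _ (Subgroup.mem_zpowers b₀) j)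
      · rw [Nat.card_zpowers, Nat.card_zpowers, Nat.Coprime.orderOf_pow hco]
    exact hle (heq ▸ Subgroup.mem_zpowers b₀)
  · rw [hconj j, pow_eq_pow_iff_modEq, hord]
    exact hmod

end Cfsg.Agent.S0645
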