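import Cfsg.Statements.S0646
import Mathlib
import Cfsg.Agent.Lib.Helper1.CycMax

set_option autoImplicit false
open Cfsg

namespace Cfsg.Agent.S0646


universe u

/-- the modular case: `c ^ 2 ^ (M - 2)` central in a nonabelian group -/
theorem cyc_max_mod {G : Type u} [Group G] [Finite G] (M : ℕ) (hM : 2 ≤ M)
    (hG : Nat.card G = 2 ^ (M + 1)) (c : G) (hc : orderOf c = 2 ^ M)
    (hZ : ∀ g : G, g * c ^ 2 ^ (M - 2) = c ^ 2 ^ (M - 2) * g)
    (hna : ∃ x y : G, x * y ≠ y * x) :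
    3 ≤ M ∧ ∃ b : G, b ∉ Subgroup.zpowers c ∧ b ^ 2 = 1 ∧
      b * c * b⁻¹ = c ^ (1 + 2 ^ (M - 1)) := by
  classical
  have hcM : c ^ 2 ^ M = 1 := by rw [← hc]; exact pow_orderOf_eq_one c
  have hAcard : Nat.card (Subgroup.zpowers c) = 2 ^ M := by rw [Nat.card_zpowers, hc]
  have hAidx : (Subgroup.zpowers c).index = 2 := by
    have := (Subgroup.zpowers c).card_mul_index
    rw [hAcard, hG, pow_succ] at this
    exact Nat.eq_of_mul_eq_mul_left (by positivity) this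
  have hAn : (Subgroup.zpowers c).Normal := Subgroup.normal_of_index_eq_two hAidx
  obtain ⟨s, hs⟩ : ∃ s : G, s ∉ Subgroup.zpowers c := by
    by_contra h
    have htop : Subgroup.zpowers c = ⊤ := by
      rw [eq_top_iff]; intro g _
      by_contra hg
      exact h ⟨g, hg⟩
    rw [htop, Subgroup.index_top] at hAidx
    omega
  have hsinv : s⁻¹ ∉ Subgroup.zpowers c := fun h => hs (by simpa using Subgroup.inv_mem _ h)
  obtain ⟨r, hr⟩ : ∃ r : ℕ, s * c * s⁻¹ = c ^ r := by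
    have h1 : s * c * s⁻¹ ∈ Subgroup.zpowers c := hAn.conj_mem c (Subgroup.mem_zpowers c) s
    rw [← mem_powers_iff_mem_zpowers, Submonoid.mem_powers_iff] at h1
    obtain ⟨r, hr⟩ := h1
    exact ⟨r, hr.symm⟩
  have hconj : ∀ j : ℕ, s * c ^ j * s⁻¹ = c ^ (r * j) := by
    intro j
    rw [← conj_pow, hr, ← pow_mul]
  obtain ⟨e, he⟩ : ∃ e : ℕ, s ^ 2 = c ^ e := by
    have h1 : s * s ∈ Subgroup.zpowers c :=
      (Subgroup.mul_mem_iff_of_index_two hAidx).mpr (iff_of_false hs hs)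
    rw [← mem_powers_iff_mem_zpowers, Submonoid.mem_powers_iff] at h1
    obtain ⟨e, he⟩ := h1
    exact ⟨e, by rw [pow_two]; exact he.symm⟩
  have hrr : r * r ≡ 1 [MOD 2 ^ M] := by
    have h1 : s * (s * c * s⁻¹) * s⁻¹ = c := by
      calc s * (s * c * s⁻¹) * s⁻¹ = s ^ 2 * c * (s ^ 2)⁻¹ := by rw [pow_two]; group
        _ = c := by rw [he, ← pow_succ, pow_succ', mul_assoc, mul_inv_cancel, mul_one]
    have h2 : s * (s * c * s⁻¹) * s⁻¹ = c ^ (r * r) := by rw [hr, hconj]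
    have h3 : c ^ (r * r) = c ^ 1 := by rw [pow_one, ← h2, h1]
    rw [← hc]; exact pow_eq_pow_iff_modEq.mp h3
  have hsc : s * c * s⁻¹ ≠ c := by
    intro h
    obtain ⟨x, y, hxy⟩ := hna
    apply hxy
    have hsc' : Commute s c := by
      show s * c = c * s
      calc s * c = (s * c * s⁻¹) * s := by group
        _ = c * s := by rw [h]
    have key : ∀ g : G, ∃ j : ℤ, g = c ^ j ∨ g = s * c ^ j := by
      intro g
      by_cases hg : g ∈ Subgroup.zpowers c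
      · obtain ⟨j, rfl⟩ := Subgroup.mem_zpowers_iff.mp hg
        exact ⟨j, Or.inl rfl⟩
      · have h8 : s⁻¹ * g ∈ Subgroup.zpowers c :=
          (Subgroup.mul_mem_iff_of_index_two hAidx).mpr (iff_of_false hsinv hg)
        obtain ⟨j, hj⟩ := Subgroup.mem_zpowers_iff.mp h8
        exact ⟨j, Or.inr (by rw [hj]; group)⟩
    have hcs : ∀ j : ℤ, Commute s (c ^ j) := fun j => Commute.zpow_right hsc' j
    have hcc : ∀ i j : ℤ, Commute (c ^ i) (c ^ j) :=
      fun i j => Commute.zpow_zpow (Commute.refl c) i j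
    obtain ⟨i, hi | hi⟩ := key x <;> obtain ⟨j, hj | hj⟩ := key y
    · rw [hi, hj]; exact (hcc i j).eq
    · rw [hi, hj]; exact (Commute.mul_right (hcs i).symm (hcc i j)).eq
    · rw [hi, hj]; exact (Commute.mul_left (hcs j) (hcc i j)).eq
    · rw [hi, hj]
      exact (Commute.mul_left (Commute.mul_right (Commute.refl s) (hcs j))
        (Commute.mul_right (hcs i).symm (hcc i j))).eq
  obtain ⟨q, t, ht, rfl⟩ : ∃ q t, t < 4 ∧ r = 4 * q + t :=
    ⟨r / 4, r % 4, Nat.mod_lt _ (by norm_num), by omega⟩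
  have e4 : 2 ^ M = 4 * 2 ^ (M - 2) := by
    rw [show (4 : ℕ) = 2 ^ 2 from rfl, ← pow_add]; congr 1; omega
  have ht1 : t = 1 := by
    have hd : s * c ^ 2 ^ (M - 2) * s⁻¹ = c ^ 2 ^ (M - 2) := by
      rw [hZ s]; group
    rw [hconj] at hd
    have h6 := pow_eq_pow_iff_modEq.mp hd
    rw [hc] at h6
    have h7 : (4 * q + t) * 2 ^ (M - 2) ≡ 1 * 2 ^ (M - 2) [MOD 4 * 2 ^ (M - 2)] := by
      rw [one_mul, ← e4]; exact h6
    have h8 := Nat.ModEq.mul_right_cancel' (by positivity : 2 ^ (M - 2) ≠ 0) h7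
    have h9 : (4 * q + t) % 4 = 1 % 4 := h8
    omega
  subst ht1
  have h5 : 2 ^ M ∣ (4 * q + 1) * (4 * q + 1) - 1 :=
    (Nat.modEq_iff_dvd' (by nlinarith)).mp hrr.symm
  have e1 : (4 * q + 1) * (4 * q + 1) - 1 = 8 * (q * (2 * q + 1)) := by
    have : (4 * q + 1) * (4 * q + 1) = 8 * (q * (2 * q + 1)) + 1 := by ring
    omega
  rw [e1] at h5
  have hM3 : 3 ≤ M := by
    by_contra h
    have hM' : M = 2 := by omega
    subst hM'
    apply hsc
    rw [hr, show 4 * q + 1 = 2 ^ 2 * q + 1 from by norm_num, pow_add, pow_mul, hcM, one_pow,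
      one_mul, pow_one]
  have e8 : 2 ^ M = 8 * 2 ^ (M - 3) := by
    rw [show (8 : ℕ) = 2 ^ 3 from rfl, ← pow_add]; congr 1; omega
  rw [e8] at h5
  have h6 : 2 ^ (M - 3) ∣ q * (2 * q + 1) := Nat.dvd_of_mul_dvd_mul_left (by norm_num) h5
  have hcop : Nat.Coprime (2 ^ (M - 3)) (2 * q + 1) :=
    Nat.Coprime.pow_left _ ((Nat.Prime.coprime_iff_not_dvd Nat.prime_two).mpr (by omega))
  obtain ⟨q', rfl⟩ := hcop.dvd_of_dvd_mul_right h6
  have e2 : 2 ^ (M - 1) = 4 * 2 ^ (M - 3) := by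
    rw [show (4 : ℕ) = 2 ^ 2 from rfl, ← pow_add]; congr 1; omega
  have e2' : 2 ^ M = 2 ^ (M - 1) * 2 := by rw [← pow_succ]; congr 1; omega
  have hr1 : c ^ (4 * (2 ^ (M - 3) * q') + 1) = c ^ (1 + 2 ^ (M - 1)) := by
    rcases Nat.even_or_odd' q' with ⟨k, rfl | rfl⟩
    · exfalso
      apply hsc
      rw [hr, show 4 * (2 ^ (M - 3) * (2 * k)) + 1 = 2 ^ M * k + 1 from by rw [e8]; ring,
        pow_add, pow_mul, hcM, one_pow, one_mul, pow_one]
    · rw [show 4 * (2 ^ (M - 3) * (2 * k + 1)) + 1 = 2 ^ M * k + (1 + 2 ^ (M - 1)) from by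
        rw [e8, e2]; ring, pow_add, pow_mul, hcM, one_pow, one_mul]
  rw [hr1] at hr
  have hconj' : ∀ j : ℕ, s * c ^ j * s⁻¹ = c ^ ((1 + 2 ^ (M - 1)) * j) := by
    intro j; rw [← conj_pow, hr, ← pow_mul]
  have he2 : 2 ∣ e := by
    have h7 : s * s ^ 2 * s⁻¹ = s ^ 2 := by rw [pow_two]; group
    rw [he, hconj'] at h7
    have h8 := pow_eq_pow_iff_modEq.mp h7
    rw [hc] at h8
    have h9 : 2 ^ M ∣ (1 + 2 ^ (M - 1)) * e - e :=
      (Nat.modEq_iff_dvd' (by nlinarith)).mp h8.symm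
    have e3 : (1 + 2 ^ (M - 1)) * e - e = 2 ^ (M - 1) * e := by
      have : (1 + 2 ^ (M - 1)) * e = 2 ^ (M - 1) * e + e := by ring
      omega
    rw [e3, e2'] at h9
    exact Nat.dvd_of_mul_dvd_mul_left (by positivity) h9
  obtain ⟨i, rfl⟩ := he2
  have eA : 2 ^ (M - 1) = 2 * 2 ^ (M - 2) := by rw [← pow_succ']; congr 1; omega
  have hu : Nat.Coprime (1 + 2 ^ (M - 2)) (2 ^ (M - 1)) := by
    apply Nat.Coprime.pow_right
    rw [Nat.coprime_comm, Nat.Prime.coprime_iff_not_dvd Nat.prime_two]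
    have h2 : 2 ∣ 2 ^ (M - 2) := dvd_pow_self 2 (by omega)
    omega
  obtain ⟨m, -, hm⟩ := Nat.exists_mul_mod_eq_one_of_coprime hu (Nat.one_lt_two_pow (by omega))
  obtain ⟨P, hP⟩ : ∃ P, 2 ^ (M - 1) = P + 1 :=
    ⟨2 ^ (M - 1) - 1, by have := Nat.one_le_two_pow (n := M - 1); omega⟩
  obtain ⟨k, hmk⟩ : ∃ k, (1 + 2 ^ (M - 2)) * m = 2 ^ (M - 1) * k + 1 := by
    refine ⟨(1 + 2 ^ (M - 2)) * m / 2 ^ (M - 1), ?_⟩
    have h1 := Nat.div_add_mod ((1 + 2 ^ (M - 2)) * m) (2 ^ (M - 1))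
    rw [hm] at h1
    exact h1.symm
  refine ⟨hM3, s * c ^ (m * i * P), ?_, ?_, ?_⟩
  · intro h
    apply hs
    have h1 : s = (s * c ^ (m * i * P)) * (c ^ (m * i * P))⁻¹ := by group
    rw [h1]
    exact Subgroup.mul_mem _ h
      (Subgroup.inv_mem _ (Subgroup.pow_mem _ (Subgroup.mem_zpowers c) _))
  · have h7 : (s * c ^ (m * i * P)) ^ 2 =
        (s * c ^ (m * i * P) * s⁻¹) * s ^ 2 * c ^ (m * i * P) := by
      rw [pow_two, pow_two]; group
    rw [h7, hconj', he, ← pow_add, ← pow_add]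
    have e5 : (1 + 2 ^ (M - 1)) * (m * i * P) + 2 * i + m * i * P =
        2 ^ M * (i * (k * P + 1)) := by
      rw [eA] at hmk hP ⊢
      rw [e4]
      generalize 2 ^ (M - 2) = A at hmk hP ⊢
      calc (1 + 2 * A) * (m * i * P) + 2 * i + m * i * P
          = 2 * ((1 + A) * m) * (i * P) + 2 * i := by ring
        _ = 2 * (2 * A * k + 1) * (i * P) + 2 * i := by rw [hmk]
        _ = 4 * A * (i * k * P) + 2 * i * (P + 1) := by ring
        _ = 4 * A * (i * k * P) + 2 * i * (2 * A) := by rw [hP]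
        _ = 4 * A * (i * (k * P + 1)) := by ring
    rw [e5, pow_mul, hcM, one_pow]
  · have h1 : s * c ^ (m * i * P) * c * (s * c ^ (m * i * P))⁻¹ = s * c * s⁻¹ := by group
    rw [h1, hr]


/-- Classification of non-abelian 2-groups with a cyclic maximal subgroup: dihedral, generalized quaternion, and for order at least 16 the modular group and the semidihedral group, each given by generators a (of index 2) and b with the stated relations. -/
theorem result {G : Type*} [Group G] [Finite G] (n : ℕ) (hn : 3 ≤ n) (hG : Nat.card G = 2 ^ n) (C : Subgroup G) (hC : IsCyclic C) (hCi : C.index = 2) (hna : ∃ x y : G, x * y ≠ y * x) : ∃ a b : G, orderOf a = 2 ^ (n - 1) ∧ b ∉ Subgroup.zpowers a ∧ ((b ^ 2 = 1 ∧ b * a * b⁻¹ = a⁻¹) ∨ (b ^ 2 = a ^ (2 ^ (n - 2)) ∧ b * a * b⁻¹ = a⁻¹) ∨ (4 ≤ n ∧ b ^ 2 = 1 ∧ b * a * b⁻¹ = a ^ (1 + 2 ^ (n - 2))) ∨ (4 ≤ n ∧ b ^ 2 = 1 ∧ b * a * b⁻¹ = a ^ (2 ^ (n - 2) - 1))) := by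
  obtain ⟨M, rfl⟩ : ∃ M, n = M + 1 := ⟨n - 1, by omega⟩
  have hM : 2 ≤ M := by omega
  obtain ⟨g, hg⟩ := hC.exists_generator
  have hcardC : Nat.card C = 2 ^ M := by
    have h1 := Subgroup.card_mul_index C
    rw [hCi, hG, pow_succ] at h1
    exact Nat.eq_of_mul_eq_mul_right (by norm_num) h1
  have hc : orderOf (g : G) = 2 ^ M := by
    rw [Subgroup.orderOf_coe, orderOf_eq_card_of_forall_mem_zpowers hg, hcardC]
  have e1 : M + 1 - 1 = M := by omega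
  have e2 : M + 1 - 2 = M - 1 := by omega
  rw [e1, e2]
  by_cases hZ : ∀ x : G, x * (g : G) ^ 2 ^ (M - 2) = (g : G) ^ 2 ^ (M - 2) * x
  · obtain ⟨hM3, b, hb, hb2, hbc⟩ := cyc_max_mod M hM hG (g : G) hc hZ hna
    exact ⟨g, b, hc, hb, Or.inr (Or.inr (Or.inl ⟨by omega, hb2, hbc⟩))⟩
  · obtain ⟨s, hs, hs2, hrel⟩ := Cfsg.Agent.Lib.Helper1.cyc_max_rel M hM hG (g : G) hc hZ
    refine ⟨g, s, hc, hs, ?_⟩
    rcases hrel with hinv | ⟨hM3, hs1, hsd⟩
    · rcases hs2 with h | h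
      · exact Or.inl ⟨h, hinv⟩
      · exact Or.inr (Or.inl ⟨h, hinv⟩)
    · exact Or.inr (Or.inr (Or.inr ⟨by omega, hs1, hsd⟩))

end Cfsg.Agent.S0646
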