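import Cfsg.Statements.S0663
import Mathlib
import Cfsg.Agent.Lib.Helper7.Coprime2
import Cfsg.Agent.Lib.Helper7.PCore

set_option autoImplicit false
open Cfsg

namespace Cfsg.Agent.S0663

open Subgroup
open scoped commutatorElement

variable {L : Type*} [Group L]

theorem inv_comm (H G : Subgroup L) : G ≤ normalizer ((⁅H, G⁆ : Subgroup L) : Set L) := by
  rw [Subgroup.commutator_comm]
  exact Cfsg.Agent.Lib.Helper7.le_normalizer_commutator_left G H

theorem comm_le_of_inv {H G : Subgroup L} (h : G ≤ normalizer (H : Set L)) : ⁅H, G⁆ ≤ H := by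
  rw [Subgroup.commutator_le]
  intro x hx g hg
  rw [commutatorElement_def]
  have h1 : g * x⁻¹ * g⁻¹ ∈ H := (Subgroup.mem_normalizer_iff.mp (h hg) x⁻¹).mp (H.inv_mem hx)
  have e : x * g * x⁻¹ * g⁻¹ = x * (g * x⁻¹ * g⁻¹) := by group
  rw [e]; exact H.mul_mem hx h1

theorem ic_inv (N G : Subgroup L) (hGN : G ≤ normalizer (N : Set L)) (i : ℕ) :
    G ≤ normalizer (Cfsg.iterCommutator N G i : Set L) := by
  cases i with
  | zero => exact hGN
  | succ i => exact inv_comm _ G

theorem ic_anti (N G : Subgroup L) (hGN : G ≤ normalizer (N : Set L)) (i : ℕ) :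
    Cfsg.iterCommutator N G (i + 1) ≤ Cfsg.iterCommutator N G i :=
  comm_le_of_inv (ic_inv N G hGN i)

theorem ic_le (N G : Subgroup L) (hGN : G ≤ normalizer (N : Set L)) (i : ℕ) :
    Cfsg.iterCommutator N G i ≤ N := by
  induction i with
  | zero => exact le_rfl
  | succ i ih => exact (ic_anti N G hGN i).trans ih

theorem ic_anti' (N G : Subgroup L) (hGN : G ≤ normalizer (N : Set L)) {i j : ℕ} (h : i ≤ j) :
    Cfsg.iterCommutator N G j ≤ Cfsg.iterCommutator N G i := by
  induction h with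
  | refl => exact le_rfl
  | step _ ih => exact (ic_anti N G hGN _).trans ih

theorem nil_comm_eq {Γ M X : Subgroup L} (hΓ : Group.IsNilpotent Γ) (hM : M ≤ Γ) (hX : X ≤ Γ)
    (h : ⁅M, X⁆ = M) : M = ⊥ := by
  obtain ⟨c, hc⟩ := (Subgroup.isNilpotent_iff_lowerCentralSeries Γ).mp hΓ
  have key : ∀ k, M ≤ Γ.lowerCentralSeries k := by
    intro k
    induction k with
    | zero => exact hM
    | succ k ih =>
      rw [Subgroup.lowerCentralSeries_succ]
      calc M = ⁅M, X⁆ := h.symm
        _ ≤ _ := Subgroup.commutator_mono ih hX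
  exact le_bot_iff.mp (hc ▸ key c)

theorem pow_sandwich {p : ℕ} (hp : p.Prime) {a m : ℕ} (h1 : p ^ m ∣ a) (h2 : a ∣ p ^ (m + 1)) :
    a = p ^ m ∨ a = p ^ (m + 1) := by
  obtain ⟨b, hb, rfl⟩ := (Nat.dvd_prime_pow hp).mp h2
  have h3 : m ≤ b := (Nat.pow_dvd_pow_iff_le_right hp.one_lt).mp h1
  rcases Nat.lt_or_ge b (m + 1) with h | h
  · left; congr 1; omega
  · right; congr 1; omega

theorem between [Finite L] {p : ℕ} (hp : p.Prime) {K X H : Subgroup L} {m : ℕ} (hKX : K ≤ X)
    (hXH : X ≤ H) (hK : Nat.card K = p ^ m) (hH : Nat.card H = p ^ (m + 1)) : X = K ∨ X = H := by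
  have h1 : p ^ m ∣ Nat.card X := hK ▸ Subgroup.card_dvd_of_le hKX
  have h2 : Nat.card X ∣ p ^ (m + 1) := hH ▸ Subgroup.card_dvd_of_le hXH
  rcases pow_sandwich hp h1 h2 with h | h
  · left; exact (Subgroup.eq_of_le_of_card_ge hKX (by rw [h, hK])).symm
  · right; exact Subgroup.eq_of_le_of_card_ge hXH (by rw [h, hH])

theorem nilp_sup [Finite L] {p : ℕ} [Fact p.Prime] (N G : Subgroup L) (hN : IsPGroup p N)
    (hG : IsPGroup p G) (hGN : G ≤ normalizer (N : Set L)) : Group.IsNilpotent ↥(N ⊔ G) :=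
  (IsPGroup.to_sup_of_normal_left' hN hG hGN).isNilpotent

theorem chain_of_uni [Finite L] {p : ℕ} [Fact p.Prime] (N G : Subgroup L)
    (hGN : G ≤ normalizer (N : Set L)) (n : ℕ) (hn : Nat.card N = p ^ n)
    (huni : ∀ H : Subgroup L, H ≤ N → G ≤ Subgroup.normalizer (H : Set L) → H ≠ ⊥ →
      (⁅H, G⁆).relIndex H = p) :
    ∀ i ≤ n, Nat.card (Cfsg.iterCommutator N G i) = p ^ (n - i) := by
  have hp : p.Prime := Fact.out
  intro i
  induction i with
  | zero => intro _; exact hn
  | succ i ih =>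
    intro hi
    have h1 := ih (by omega)
    have hne : Cfsg.iterCommutator N G i ≠ ⊥ := by
      intro h
      rw [h, Subgroup.card_bot] at h1
      have : 1 < p ^ (n - i) := Nat.one_lt_pow (by omega) hp.one_lt
      omega
    have h2 := huni _ (ic_le N G hGN i) (ic_inv N G hGN i) hne
    have h3 : Nat.card ↥(⁅Cfsg.iterCommutator N G i, G⁆) *
        (⁅Cfsg.iterCommutator N G i, G⁆).relIndex (Cfsg.iterCommutator N G i) =
        Nat.card (Cfsg.iterCommutator N G i) :=
      Cfsg.Agent.Lib.Helper7.card_mul_relIndex_of_le (ic_anti N G hGN i)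
    rw [h2, h1] at h3
    have e : n - i = (n - (i + 1)) + 1 := by omega
    rw [e, pow_succ] at h3
    exact Nat.eq_of_mul_eq_mul_right hp.pos h3

theorem chain_of_hyp [Finite L] {p : ℕ} [Fact p.Prime] (N G : Subgroup L) (hN : IsPGroup p N)
    (hG : IsPGroup p G) (hGN : G ≤ normalizer (N : Set L)) (n : ℕ) (hn : Nat.card N = p ^ n)
    (h : Cfsg.iterCommutator N G (n - 1) ≠ ⊥ ∨ n = 0) :
    ∀ i ≤ n, Nat.card (Cfsg.iterCommutator N G i) = p ^ (n - i) := by
  have hp : p.Prime := Fact.out
  have hΓ := nilp_sup N G hN hG hGN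
  have hpg : ∀ i, ∃ b, Nat.card (Cfsg.iterCommutator N G i) = p ^ b := fun i =>
    IsPGroup.iff_card.mp (hN.to_le (ic_le N G hGN i))
  have strict : ∀ i < n, ∃ a b, a < b ∧ Nat.card (Cfsg.iterCommutator N G (i + 1)) = p ^ a ∧
      Nat.card (Cfsg.iterCommutator N G i) = p ^ b := by
    intro i hi
    have hn0 : n ≠ 0 := by omega
    have hnb : Cfsg.iterCommutator N G (n - 1) ≠ ⊥ := h.resolve_right hn0
    have hib : Cfsg.iterCommutator N G i ≠ ⊥ := by
      intro hb
      apply hnb
      have := ic_anti' N G hGN (show i ≤ n - 1 by omega)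
      rw [hb] at this
      exact le_bot_iff.mp this
    obtain ⟨a, ha⟩ := hpg (i + 1)
    obtain ⟨b, hb⟩ := hpg i
    refine ⟨a, b, ?_, ha, hb⟩
    have hdvd : Nat.card (Cfsg.iterCommutator N G (i + 1)) ∣ Nat.card (Cfsg.iterCommutator N G i) :=
      Subgroup.card_dvd_of_le (ic_anti N G hGN i)
    rw [ha, hb] at hdvd
    have hab : a ≤ b := (Nat.pow_dvd_pow_iff_le_right hp.one_lt).mp hdvd
    rcases Nat.lt_or_ge a b with h1 | h1
    · exact h1
    · exfalso
      have hab' : a = b := le_antisymm hab h1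
      have heq : Cfsg.iterCommutator N G (i + 1) = Cfsg.iterCommutator N G i :=
        Subgroup.eq_of_le_of_card_ge (ic_anti N G hGN i) (by rw [ha, hb, hab'])
      exact hib (nil_comm_eq hΓ ((ic_le N G hGN i).trans le_sup_left) le_sup_right heq)
  have up : ∀ i ≤ n, ∃ b ≤ n - i, Nat.card (Cfsg.iterCommutator N G i) = p ^ b := by
    intro i
    induction i with
    | zero => intro _; exact ⟨n, le_rfl, hn⟩
    | succ i ih =>
      intro hi
      obtain ⟨b, hb, hcb⟩ := ih (by omega)
      obtain ⟨a', b', hlt, ha', hb'⟩ := strict i (by omega)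
      have : b' = b := Nat.pow_right_injective hp.two_le (hb'.symm.trans hcb)
      exact ⟨a', by omega, ha'⟩
  have down : ∀ d ≤ n, ∃ b, d ≤ b ∧ Nat.card (Cfsg.iterCommutator N G (n - d)) = p ^ b := by
    intro d
    induction d with
    | zero => intro _; obtain ⟨b, hb⟩ := hpg (n - 0); exact ⟨b, Nat.zero_le _, hb⟩
    | succ d ih =>
      intro hd
      obtain ⟨a, ha, hca⟩ := ih (by omega)
      obtain ⟨a', b', hlt, ha', hb'⟩ := strict (n - (d + 1)) (by omega)
      have e : n - (d + 1) + 1 = n - d := by omega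
      rw [e] at ha'
      have : a' = a := Nat.pow_right_injective hp.two_le (ha'.symm.trans hca)
      exact ⟨b', by omega, hb'⟩
  intro i hi
  obtain ⟨b, hb, hcb⟩ := up i hi
  obtain ⟨b', hb', hcb'⟩ := down (n - i) (by omega)
  have e : n - (n - i) = i := by omega
  rw [e] at hcb'
  have : b' = b := Nat.pow_right_injective hp.two_le (hcb'.symm.trans hcb)
  rw [hcb]; congr 1; omega

theorem chain_normal [Finite L] {p : ℕ} [Fact p.Prime] (N G : Subgroup L) (hN : IsPGroup p N)
    (hG : IsPGroup p G) (hGN : G ≤ normalizer (N : Set L)) (n : ℕ)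
    (hch : ∀ i ≤ n, Nat.card (Cfsg.iterCommutator N G i) = p ^ (n - i)) :
    ∀ i ≤ n, (N ⊔ G ≤ normalizer (Cfsg.iterCommutator N G i : Set L)) ∧
      (i < n → ⁅Cfsg.iterCommutator N G i, N ⊔ G⁆ = Cfsg.iterCommutator N G (i + 1)) := by
  have hp : p.Prime := Fact.out
  have hΓ := nilp_sup N G hN hG hGN
  have second : ∀ i < n, (N ⊔ G ≤ normalizer (Cfsg.iterCommutator N G i : Set L)) →
      ⁅Cfsg.iterCommutator N G i, N ⊔ G⁆ = Cfsg.iterCommutator N G (i + 1) := by
    intro i hi hnorm
    have h1 : ⁅Cfsg.iterCommutator N G i, N ⊔ G⁆ ≤ Cfsg.iterCommutator N G i :=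
      comm_le_of_inv hnorm
    have h2 : Cfsg.iterCommutator N G (i + 1) ≤ ⁅Cfsg.iterCommutator N G i, N ⊔ G⁆ :=
      Subgroup.commutator_mono le_rfl le_sup_right
    have c1 := hch (i + 1) (by omega)
    have c2 := hch i (by omega)
    have e : n - i = (n - (i + 1)) + 1 := by omega
    rw [e] at c2
    rcases between hp h2 h1 c1 c2 with h3 | h3
    · exact h3
    · exfalso
      have := nil_comm_eq hΓ ((ic_le N G hGN i).trans le_sup_left) le_rfl h3
      rw [this, Subgroup.card_bot] at c2
      have : 1 < p ^ (n - (i + 1) + 1) := Nat.one_lt_pow (by omega) hp.one_lt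
      omega
  have first : ∀ i ≤ n, (N ⊔ G ≤ normalizer (Cfsg.iterCommutator N G i : Set L)) := by
    intro i
    induction i with
    | zero => intro _; exact sup_le Subgroup.le_normalizer hGN
    | succ i ih =>
      intro hi
      have h1 := second i (by omega) (ih (by omega))
      rw [← h1]
      exact inv_comm _ _
  intro i hi
  exact ⟨first i hi, fun h => second i h (first i hi)⟩

theorem nak [Finite L] {p : ℕ} [Fact p.Prime] (N G : Subgroup L) (hN : IsPGroup p N)
    (hG : IsPGroup p G) (hGN : G ≤ normalizer (N : Set L)) (n : ℕ)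
    (hch : ∀ i ≤ n, Nat.card (Cfsg.iterCommutator N G i) = p ^ (n - i))
    (H : Subgroup L) (hHN : H ≤ N) (hHinv : G ≤ normalizer (H : Set L)) (k : ℕ) (hk : k < n)
    (hHk : H ≤ Cfsg.iterCommutator N G k) (hHk' : ¬ H ≤ Cfsg.iterCommutator N G (k + 1)) :
    H = Cfsg.iterCommutator N G k := by
  have hp : p.Prime := Fact.out
  have hcn := chain_normal N G hN hG hGN n hch
  have hHC : ∀ j, Cfsg.iterCommutator H G j ≤ H := ic_le H G hHinv
  -- (b)
  have hb : ∀ j, k + j < n → Cfsg.iterCommutator N G (k + j) ≤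
      Cfsg.iterCommutator H G j ⊔ Cfsg.iterCommutator N G (k + j + 1) := by
    intro j
    induction j with
    | zero =>
      intro _
      have c1 := hch (k + 1) (by omega)
      have c2 := hch k (by omega)
      have e : n - k = (n - (k + 1)) + 1 := by omega
      rw [e] at c2
      have h1 : Cfsg.iterCommutator N G (k + 1) ≤ H ⊔ Cfsg.iterCommutator N G (k + 1) := le_sup_right
      have h2 : H ⊔ Cfsg.iterCommutator N G (k + 1) ≤ Cfsg.iterCommutator N G k :=
        sup_le hHk (ic_anti N G hGN k)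
      rcases between hp h1 h2 c1 c2 with h3 | h3
      · exfalso; apply hHk'; rw [← h3]; exact le_sup_left
      · show Cfsg.iterCommutator N G k ≤ H ⊔ Cfsg.iterCommutator N G (k + 1)
        rw [h3]
    | succ j ih =>
      intro hj
      have ih' := ih (by omega)
      show ⁅Cfsg.iterCommutator N G (k + j), G⁆ ≤ _
      refine (Subgroup.commutator_mono ih' le_rfl).trans ?_
      rw [Subgroup.commutator_le]
      intro z hz g hg
      have hnorm : Cfsg.iterCommutator H G j ≤
          normalizer (Cfsg.iterCommutator N G (k + j + 1) : Set L) :=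
        ((hHC j).trans (hHN.trans le_sup_left)).trans (hcn (k + j + 1) (by omega)).1
      rw [sup_comm] at hz
      obtain ⟨y, hy, x, hx, rfl⟩ := Cfsg.Agent.Lib.Helper7.exists_mul_of_mem_sup hnorm hz
      have e : ⁅y * x, g⁆ = ⁅y, ⁅x, g⁆⁆ * ⁅x, g⁆ * ⁅y, g⁆ := by
        simp only [commutatorElement_def]; group
      rw [e]
      have hxg : ⁅x, g⁆ ∈ Cfsg.iterCommutator H G (j + 1) :=
        Subgroup.commutator_mem_commutator hx hg
      have hxgΓ : ⁅x, g⁆ ∈ N ⊔ G := (le_sup_left : N ≤ N ⊔ G) (hHN (hHC (j + 1) hxg))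
      have m1 : ⁅y, ⁅x, g⁆⁆ ∈ Cfsg.iterCommutator N G (k + j + 1 + 1) := by
        rw [← (hcn (k + j + 1) (by omega)).2 (by omega)]
        exact Subgroup.commutator_mem_commutator hy hxgΓ
      have m3 : ⁅y, g⁆ ∈ Cfsg.iterCommutator N G (k + j + 1 + 1) :=
        Subgroup.commutator_mem_commutator hy hg
      exact Subgroup.mul_mem _ (Subgroup.mul_mem _ (Subgroup.mem_sup_right m1)
        (Subgroup.mem_sup_left hxg)) (Subgroup.mem_sup_right m3)
  -- (c)
  have hc : ∀ d j, k + j + d = n → Cfsg.iterCommutator N G (k + j) ≤ H := by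
    intro d
    induction d with
    | zero =>
      intro j hj
      have c := hch (k + j) (by omega)
      have e : n - (k + j) = 0 := by omega
      rw [e, pow_zero] at c
      rw [Subgroup.card_eq_one.mp c]; exact bot_le
    | succ d ih =>
      intro j hj
      have h1 := ih (j + 1) (by omega)
      exact (hb j (by omega)).trans (sup_le (hHC j) h1)
  exact le_antisymm hHk (hc (n - k) 0 (by omega))

theorem classify [Finite L] {p : ℕ} [Fact p.Prime] (N G : Subgroup L) (hN : IsPGroup p N)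
    (hG : IsPGroup p G) (hGN : G ≤ normalizer (N : Set L)) (n : ℕ)
    (hch : ∀ i ≤ n, Nat.card (Cfsg.iterCommutator N G i) = p ^ (n - i))
    (H : Subgroup L) (hHN : H ≤ N) (hHinv : G ≤ normalizer (H : Set L)) :
    ∃ i ≤ n, H = Cfsg.iterCommutator N G i := by
  have key : ∀ d k, k + d = n → H ≤ Cfsg.iterCommutator N G k →
      ∃ i ≤ n, H = Cfsg.iterCommutator N G i := by
    intro d
    induction d with
    | zero =>
      intro k hk hHk
      have c := hch k (by omega)
      have e : n - k = 0 := by omega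
      rw [e, pow_zero] at c
      rw [Subgroup.card_eq_one.mp c] at hHk
      refine ⟨k, by omega, ?_⟩
      rw [Subgroup.card_eq_one.mp c]
      exact le_bot_iff.mp hHk
    | succ d ih =>
      intro k hk hHk
      by_cases h : H ≤ Cfsg.iterCommutator N G (k + 1)
      · exact ih (k + 1) (by omega) h
      · exact ⟨k, by omega, nak N G hN hG hGN n hch H hHN hHinv k (by omega) hHk h⟩
  exact key n 0 (by omega) hHN

/-- A p-group acts uniserially on a p-group N of order p^n exactly when the iterated commutator chain from N has length n; in that case the chain terms are all the invariant subgroups of N and they are normal in N. -/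
theorem result {L : Type*} [Group L] [Finite L] {p : ℕ} [Fact p.Prime] (N G : Subgroup L) (hN : IsPGroup p N) (hG : IsPGroup p G) (hGN : G ≤ Subgroup.normalizer (N : Set L)) (n : ℕ) (hn : Nat.card N = p ^ n) : ((∀ H : Subgroup L, H ≤ N → G ≤ Subgroup.normalizer (H : Set L) → H ≠ ⊥ → (⁅H, G⁆).relIndex H = p) ↔ Cfsg.iterCommutator N G (n - 1) ≠ ⊥ ∨ n = 0) ∧ ((∀ H : Subgroup L, H ≤ N → G ≤ Subgroup.normalizer (H : Set L) → H ≠ ⊥ → (⁅H, G⁆).relIndex H = p) → ∀ H : Subgroup L, H ≤ N → G ≤ Subgroup.normalizer (H : Set L) → (∃ i ≤ n, H = Cfsg.iterCommutator N G i) ∧ N ≤ Subgroup.normalizer (H : Set L)) := by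
  have hp : p.Prime := Fact.out
  refine ⟨⟨?_, ?_⟩, ?_⟩
  · intro huni
    by_cases h0 : n = 0
    · exact Or.inr h0
    · left
      have c := chain_of_uni N G hGN n hn huni (n - 1) (by omega)
      intro hb
      rw [hb, Subgroup.card_bot] at c
      have : 1 < p ^ (n - (n - 1)) := Nat.one_lt_pow (by omega) hp.one_lt
      omega
  · intro h H hHN hHinv hne
    have hch := chain_of_hyp N G hN hG hGN n hn h
    obtain ⟨i, hi, rfl⟩ := classify N G hN hG hGN n hch H hHN hHinv
    have hin : i < n := by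
      rcases Nat.lt_or_ge i n with h1 | h1
      · exact h1
      · exfalso
        have c := hch i hi
        have e : n - i = 0 := by omega
        rw [e, pow_zero] at c
        exact hne (Subgroup.card_eq_one.mp c)
    have h3 : Nat.card ↥(⁅Cfsg.iterCommutator N G i, G⁆) *
        (⁅Cfsg.iterCommutator N G i, G⁆).relIndex (Cfsg.iterCommutator N G i) =
        Nat.card (Cfsg.iterCommutator N G i) :=
      Cfsg.Agent.Lib.Helper7.card_mul_relIndex_of_le (ic_anti N G hGN i)
    have c1 : Nat.card ↥(⁅Cfsg.iterCommutator N G i, G⁆) = p ^ (n - (i + 1)) := hch (i + 1) (by omega)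
    have c2 := hch i hi
    have e : n - i = (n - (i + 1)) + 1 := by omega
    rw [c1, c2, e, pow_succ] at h3
    exact Nat.eq_of_mul_eq_mul_left (Nat.pow_pos hp.pos) h3
  · intro huni H hHN hHinv
    have hch := chain_of_uni N G hGN n hn huni
    obtain ⟨i, hi, rfl⟩ := classify N G hN hG hGN n hch H hHN hHinv
    exact ⟨⟨i, hi, rfl⟩, le_sup_left.trans (chain_normal N G hN hG hGN n hch i hi).1⟩

end Cfsg.Agent.S0663
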