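import Cfsg.Statements.S0668
-- import your own Cfsg.Agent.* helpers here

set_option autoImplicit false
open Cfsg

namespace Cfsg.Agent.S0668

/-- The equivariant linear maps between the permutation modules of two finite `G`-sets form a space whose dimension is the number of `G`-orbits on the product of the two sets. -/
theorem result {G : Type*} [Group G] {K : Type*} [Field K] {Ω₁ Ω₂ : Type*} [Fintype Ω₁] [Fintype Ω₂] [MulAction G Ω₁] [MulAction G Ω₂] : Module.finrank K ((Cfsg.permRep K G Ω₁).linHom (Cfsg.permRep K G Ω₂)).invariants = Nat.card (MulAction.orbitRel.Quotient G (Ω₁ × Ω₂)) := by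
  classical
  haveI : Finite (MulAction.orbitRel.Quotient G (Ω₁ × Ω₂)) := Quotient.finite _
  haveI := Fintype.ofFinite (MulAction.orbitRel.Quotient G (Ω₁ × Ω₂))
  let mk : Ω₁ × Ω₂ → MulAction.orbitRel.Quotient G (Ω₁ × Ω₂) :=
    Quotient.mk (MulAction.orbitRel G (Ω₁ × Ω₂))
  have hmk : ∀ (g : G) (x : Ω₁) (y : Ω₂), mk (g • x, g • y) = mk (x, y) := by
    intro g x y
    exact Quotient.sound (MulAction.mem_orbit (x, y) g)
  let Ψ : (MulAction.orbitRel.Quotient G (Ω₁ × Ω₂) → K) →ₗ[K] Matrix Ω₂ Ω₁ K :=
    { toFun := fun φ => Matrix.of fun y x => φ (mk (x, y))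
      map_add' := fun _ _ => rfl
      map_smul' := fun _ _ => rfl }
  let Φ : (MulAction.orbitRel.Quotient G (Ω₁ × Ω₂) → K) →ₗ[K] ((Ω₁ → K) →ₗ[K] (Ω₂ → K)) :=
    (Matrix.toLin' : Matrix Ω₂ Ω₁ K ≃ₗ[K] _).toLinearMap.comp Ψ
  have hΦ : ∀ φ f y, Φ φ f y = ∑ x, φ (mk (x, y)) * f x := by
    intro φ f y
    rfl
  have hinj : Function.Injective Φ := by
    rw [← LinearMap.ker_eq_bot, LinearMap.ker_eq_bot']
    intro φ hφ
    funext q
    induction q using Quotient.inductionOn with
    | _ pr =>
      obtain ⟨x, y⟩ := pr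
      have h := hΦ φ (Pi.single x 1) y
      rw [hφ] at h
      simp only [LinearMap.zero_apply, Pi.zero_apply, Pi.single_apply, mul_ite, mul_one, mul_zero,
        Finset.sum_ite_eq', Finset.mem_univ, if_true] at h
      exact h.symm
  have hrange : LinearMap.range Φ
      = ((Cfsg.permRep K G Ω₁).linHom (Cfsg.permRep K G Ω₂)).invariants := by
    ext F
    rw [Representation.mem_invariants]
    constructor
    · rintro ⟨φ, rfl⟩ g
      refine LinearMap.ext fun f => funext fun y => ?_
      rw [Representation.linHom_apply]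
      change (Φ φ (fun x => f ((g⁻¹)⁻¹ • x))) (g⁻¹ • y) = Φ φ f y
      rw [hΦ, hΦ, inv_inv]
      apply Fintype.sum_equiv (MulAction.toPerm g)
      intro x
      simp only [MulAction.toPerm_apply]
      rw [← hmk g x (g⁻¹ • y), smul_inv_smul]
    · intro hF
      have hM : ∀ (g : G) (x : Ω₁) (y : Ω₂),
          F (Pi.single (g • x) 1) (g • y) = F (Pi.single x 1) y := by
        intro g x y
        have h := congrArg (fun L : (Ω₁ → K) →ₗ[K] (Ω₂ → K) => L (Pi.single (g • x) 1) (g • y))
          (hF g)
        simp only [Representation.linHom_apply] at h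
        change F (fun x' => (Pi.single (g • x) (1 : K) : Ω₁ → K) ((g⁻¹)⁻¹ • x')) (g⁻¹ • g • y) = _
          at h
        rw [inv_smul_smul, inv_inv] at h
        have e : (fun x' => (Pi.single (g • x) (1 : K) : Ω₁ → K) (g • x')) = Pi.single x 1 := by
          ext x'
          simp [Pi.single_apply]
        rw [e] at h
        exact h.symm
      let φ : MulAction.orbitRel.Quotient G (Ω₁ × Ω₂) → K :=
        Quotient.lift (fun pr : Ω₁ × Ω₂ => F (Pi.single pr.1 1) pr.2) (by
          intro a b hab
          obtain ⟨g, hg⟩ := MulAction.orbitRel_apply.mp hab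
          simp only at hg
          rw [← hg]
          exact hM g b.1 b.2)
      refine ⟨φ, ?_⟩
      refine LinearMap.ext fun f => funext fun y => ?_
      rw [hΦ]
      have hf : f = ∑ x, f x • (Pi.single x (1 : K) : Ω₁ → K) := by
        ext x'
        simp [Finset.sum_apply, Pi.single_apply]
      conv_rhs => rw [hf]
      rw [map_sum, Finset.sum_apply]
      refine Finset.sum_congr rfl fun x _ => ?_
      rw [map_smul]
      change F (Pi.single x 1) y * f x = f x * F (Pi.single x 1) y
      ring
  rw [← hrange, LinearMap.finrank_range_of_inj hinj, Module.finrank_fintype_fun_eq_card,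
    Nat.card_eq_fintype_card]

end Cfsg.Agent.S0668
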