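import Cfsg.Statements.S0670
import Cfsg.Agent.Lib.Helper2.PFix
-- import your own Cfsg.Agent.* helpers here

set_option autoImplicit false
open Cfsg

namespace Cfsg.Agent.S0670

/-- In characteristic `p`, the permutation module of a transitive action of degree `p ^ f` has the line of constant functions as its only irreducible submodule: every non-zero subrepresentation contains it. -/
theorem result {G : Type*} [Group G] [Finite G] {K : Type*} [Field K] {p f : ℕ} [Fact p.Prime] [CharP K p] {Ω : Type*} [Fintype Ω] [MulAction G Ω] [MulAction.IsPretransitive G Ω] (hf : 1 ≤ f) (hcard : Fintype.card Ω = p ^ f) (W : Subrepresentation (Cfsg.permRep K G Ω)) (hW : W.toSubmodule ≠ ⊥) : (Cfsg.permConstants K G Ω).toSubmodule ≤ W.toSubmodule := by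
  classical
  have hp : p.Prime := Fact.out
  obtain ⟨P⟩ : Nonempty (Sylow p G) := inferInstance
  have htrans := Cfsg.Agent.Lib.Helper2.PFix.sylow_transitive (G := G) (Ω := Ω) (f := f)
    (by rw [Nat.card_eq_fintype_card, hcard]) P
  obtain ⟨v, hvW, hv0, hfix⟩ := Cfsg.Agent.Lib.Helper2.PFix.exists_fixed (p := p) P.isPGroup'
    ((Cfsg.permRep K G Ω).comp (P : Subgroup G).subtype) W.toSubmodule
    (fun g v hv => W.apply_mem_toSubmodule g.1 hv) hW
  have hconst : ∀ x y : Ω, v x = v y := by
    intro x y
    obtain ⟨g, hg, hgxy⟩ := htrans x y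
    have := congrFun (hfix ⟨g, hg⟩) y
    change v (g⁻¹ • y) = v y at this
    rw [← hgxy, inv_smul_smul] at this
    rw [← hgxy]
    exact this
  obtain ⟨x₀, hx₀⟩ : ∃ x, v x ≠ 0 := by
    by_contra h
    push Not at h
    exact hv0 (funext h)
  change Submodule.span K {fun _ => 1} ≤ W.toSubmodule
  rw [Submodule.span_le, Set.singleton_subset_iff]
  have e : (fun _ : Ω => (1 : K)) = (v x₀)⁻¹ • v := by
    ext y
    simp [hconst y x₀, hx₀]
  rw [e]
  exact W.toSubmodule.smul_mem _ hvW

end Cfsg.Agent.S0670
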