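import Cfsg.Statements.S0671
import Mathlib
import Cfsg.Agent.Lib.Helper2.PrimeDeg3
import Cfsg.Agent.S0670
-- import your own Cfsg.Agent.* helpers here

set_option autoImplicit false
open Cfsg

namespace Cfsg.Agent.S0671

theorem le_sumZero {G : Type*} [Group G] [Finite G] {K : Type*} [Field K] {p f : ℕ}
    [Fact p.Prime] [CharP K p] {Ω : Type*} [Fintype Ω] [MulAction G Ω]
    [MulAction.IsPretransitive G Ω] (hf : 1 ≤ f) (hcard : Fintype.card Ω = p ^ f)
    (W : Subrepresentation (Cfsg.permRep K G Ω)) (hW : W.toSubmodule ≠ ⊤) :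
    W.toSubmodule ≤ (Cfsg.permSumZero K G Ω).toSubmodule := by
  classical
  obtain ⟨φ, hφ0, hφ⟩ := Submodule.exists_le_ker_of_lt_top W.toSubmodule
    (lt_top_iff_ne_top.mpr hW)
  have hφsum : ∀ v : Ω → K, φ v = ∑ i, v i * φ (fun j => if i = j then 1 else 0) := by
    intro v
    rw [LinearMap.pi_apply_eq_sum_univ φ v]
    rfl
  let Wp : Subrepresentation (Cfsg.permRep K G Ω) :=
    { toSubmodule := Cfsg.Agent.Lib.Helper2.PrimeDeg.perp W.toSubmodule
      apply_mem_toSubmodule := by
        intro g h hh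
        rw [Cfsg.Agent.Lib.Helper2.PrimeDeg.mem_perp] at hh ⊢
        intro v hv
        have h1 := hh _ (W.apply_mem_toSubmodule g⁻¹ hv)
        rw [← h1]
        rw [← Equiv.sum_comp (MulAction.toPerm g) (fun i => v i * (Cfsg.permRep K G Ω g h) i)]
        refine Finset.sum_congr rfl fun j _ => ?_
        simp [Cfsg.permRep] }
  have hWp : Wp.toSubmodule ≠ ⊥ := by
    intro hbot
    apply hφ0
    have hmem : (fun i => φ (fun j => if i = j then 1 else 0)) ∈ Wp.toSubmodule := by
      show _ ∈ Cfsg.Agent.Lib.Helper2.PrimeDeg.perp W.toSubmodule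
      rw [Cfsg.Agent.Lib.Helper2.PrimeDeg.mem_perp]
      intro v hv
      rw [← hφsum v]
      exact LinearMap.mem_ker.mp (hφ hv)
    rw [hbot, Submodule.mem_bot] at hmem
    apply LinearMap.ext
    intro v
    rw [hφsum v]
    have h0 : ∀ i, φ (fun j => if i = j then 1 else 0) = 0 := fun i => congrFun hmem i
    simp [h0]
  have hc := Cfsg.Agent.S0670.result hf hcard Wp hWp
  have h1 : (fun _ : Ω => (1 : K)) ∈ Wp.toSubmodule :=
    hc (Submodule.subset_span (Set.mem_singleton _))
  intro v hv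
  have := (Cfsg.Agent.Lib.Helper2.PrimeDeg.mem_perp.mp h1) v hv
  simp only [mul_one] at this
  exact this

/-- If the heart of the permutation module in characteristic `p` of a transitive action of degree `p ^ f` has no trivial composition factor, the action is doubly transitive. The hypothesis is phrased without composition series: no invariant subspaces `W < W'` between the constants and the sum-zero functions with trivial action on the quotient. -/
theorem result {G : Type*} [Group G] [Finite G] {K : Type*} [Field K] {p f : ℕ} [Fact p.Prime] [CharP K p] {Ω : Type*} [Fintype Ω] [MulAction G Ω] [MulAction.IsPretransitive G Ω] (hf : 1 ≤ f) (hcard : Fintype.card Ω = p ^ f) (h : ∀ W W' : Subrepresentation (Cfsg.permRep K G Ω), (Cfsg.permConstants K G Ω).toSubmodule ≤ W.toSubmodule → W.toSubmodule < W'.toSubmodule → W'.toSubmodule ≤ (Cfsg.permSumZero K G Ω).toSubmodule → ∃ g : G, ∃ v ∈ W'.toSubmodule, Cfsg.permRep K G Ω g v - v ∉ W.toSubmodule) : MulAction.IsMultiplyPretransitive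 G Ω 2 := by
  classical
  rw [MulAction.is_two_pretransitive_iff]
  intro a b c d hab hcd
  by_contra hno
  have hno' : ∀ g : G, ¬ (g • a = c ∧ g • b = d) := fun g hg => hno ⟨g, hg⟩
  obtain ⟨Δ, hΔdef⟩ : ∃ Δ : Ω → Ω → Prop, ∀ x y, Δ x y ↔ ∃ g : G, g • a = x ∧ g • b = y :=
    ⟨_, fun _ _ => Iff.rfl⟩
  have hΔinv : ∀ (g : G) x y, Δ x y ↔ Δ (g • x) (g • y) := by
    intro g x y
    rw [hΔdef, hΔdef]
    constructor
    · rintro ⟨h, rfl, rfl⟩; exact ⟨g * h, mul_smul _ _ _, mul_smul _ _ _⟩
    · rintro ⟨h, h1, h2⟩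
      refine ⟨g⁻¹ * h, ?_, ?_⟩
      · rw [mul_smul, h1, inv_smul_smul]
      · rw [mul_smul, h2, inv_smul_smul]
  obtain ⟨T, hTdef⟩ : ∃ T, T = Cfsg.Agent.Lib.Helper2.PrimeDeg.adj K Δ := ⟨_, rfl⟩
  have hTeq : ∀ (g : G) (f : Ω → K), T (fun x => f (g • x)) = fun x => T f (g • x) := by
    intro g f; rw [hTdef]
    exact Cfsg.Agent.Lib.Helper2.PrimeDeg.adj_equivariant K Δ (MulAction.toPerm g) (hΔinv g) f
  obtain ⟨k, hk⟩ : ∃ k, k = T (fun _ => 1) a := ⟨_, rfl⟩
  have hT1 : T (fun _ => 1) = fun _ => k := by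
    funext x
    obtain ⟨g, hg⟩ := MulAction.exists_smul_eq G a x
    have := congrFun (hTeq g (fun _ => 1)) a
    rw [hk, ← hg]; exact this.symm
  obtain ⟨T', hT'def⟩ : ∃ T' : (Ω → K) →ₗ[K] (Ω → K), T' = T - k • LinearMap.id := ⟨_, rfl⟩
  have hT'app : ∀ f x, T' f x = T f x - k * f x := by intro f x; rw [hT'def]; simp
  have hT'eq : ∀ (g : G) (f : Ω → K), T' (fun x => f (g • x)) = fun x => T' f (g • x) := by
    intro g f; funext x; rw [hT'app, hT'app, hTeq g]
  have hT'rep : ∀ (g : G) (f : Ω → K),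
      T' (Cfsg.permRep K G Ω g f) = Cfsg.permRep K G Ω g (T' f) := by
    intro g f
    exact hT'eq g⁻¹ f
  have hT'1 : T' (fun _ => 1) = 0 := by funext x; rw [hT'app, hT1]; simp
  obtain ⟨g₁, hg₁⟩ := MulAction.exists_smul_eq G d b
  have hx₁b : g₁ • c ≠ b := by rw [← hg₁]; exact fun h => hcd (MulAction.injective g₁ h)
  have hΔab : Δ a b := by rw [hΔdef]; exact ⟨1, one_smul _ _, one_smul _ _⟩
  have hΔx₁ : ¬ Δ (g₁ • c) b := by
    rw [← hg₁, ← hΔinv g₁ c d, hΔdef]
    rintro ⟨g, h1, h2⟩; exact hno' g ⟨h1, h2⟩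
  have hva : T' (Pi.single b 1) a = 1 := by
    rw [hT'app, hTdef, Cfsg.Agent.Lib.Helper2.PrimeDeg.adj_single, if_pos hΔab,
      Pi.single_eq_of_ne hab]; simp
  have hvx : T' (Pi.single b 1) (g₁ • c) = 0 := by
    rw [hT'app, hTdef, Cfsg.Agent.Lib.Helper2.PrimeDeg.adj_single, if_neg hΔx₁,
      Pi.single_eq_of_ne hx₁b]; simp
  let W₀ : Subrepresentation (Cfsg.permRep K G Ω) :=
    { toSubmodule := LinearMap.ker T'
      apply_mem_toSubmodule := by
        intro g v hv
        rw [LinearMap.mem_ker] at hv ⊢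
        rw [hT'rep, hv, map_zero] }
  let U : Subrepresentation (Cfsg.permRep K G Ω) :=
    { toSubmodule := (Cfsg.permConstants K G Ω).toSubmodule.comap T'
      apply_mem_toSubmodule := by
        intro g v hv
        rw [Submodule.mem_comap] at hv ⊢
        rw [hT'rep]
        exact (Cfsg.permConstants K G Ω).apply_mem_toSubmodule g hv }
  let Rg : Subrepresentation (Cfsg.permRep K G Ω) :=
    { toSubmodule := LinearMap.range T'
      apply_mem_toSubmodule := by
        rintro g _ ⟨v, rfl⟩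
        exact ⟨Cfsg.permRep K G Ω g v, hT'rep g v⟩ }
  have h1 : (Cfsg.permConstants K G Ω).toSubmodule ≤ W₀.toSubmodule := by
    show Submodule.span K {fun _ => (1 : K)} ≤ LinearMap.ker T'
    rw [Submodule.span_le]
    rintro _ rfl
    exact LinearMap.mem_ker.mpr hT'1
  have hconst_val : ∀ v ∈ (Cfsg.permConstants K G Ω).toSubmodule, ∀ x y : Ω, v x = v y := by
    intro v hv x y
    have hv' : v ∈ Submodule.span K {fun _ : Ω => (1 : K)} := hv
    rw [Submodule.mem_span_singleton] at hv'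
    obtain ⟨c', rfl⟩ := hv'
    rfl
  have hUtop : U.toSubmodule ≠ ⊤ := by
    intro htop
    have hmem : (Pi.single b (1 : K) : Ω → K) ∈ U.toSubmodule := by
      rw [htop]; exact Submodule.mem_top
    have := hconst_val _ (Submodule.mem_comap.mp hmem) a (g₁ • c)
    rw [hva, hvx] at this
    exact one_ne_zero this
  have h3 : U.toSubmodule ≤ (Cfsg.permSumZero K G Ω).toSubmodule :=
    Cfsg.Agent.S0671.le_sumZero hf hcard U hUtop
  have hRg : Rg.toSubmodule ≠ ⊥ := by
    intro hbot
    have hmem : T' (Pi.single b 1) ∈ Rg.toSubmodule := LinearMap.mem_range_self T' _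
    rw [hbot, Submodule.mem_bot] at hmem
    have := congrFun hmem a
    rw [hva] at this
    exact one_ne_zero this
  have hcR := Cfsg.Agent.S0670.result hf hcard Rg hRg
  obtain ⟨f₀, hf₀⟩ : ∃ f₀, T' f₀ = fun _ => 1 :=
    hcR (Submodule.subset_span (Set.mem_singleton _))
  have h2 : W₀.toSubmodule < U.toSubmodule := by
    refine lt_of_le_of_ne ?_ ?_
    · intro v hv
      have hv' : T' v = 0 := LinearMap.mem_ker.mp hv
      show T' v ∈ (Cfsg.permConstants K G Ω).toSubmodule
      rw [hv']; exact Submodule.zero_mem _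
    · intro heq
      have hmem : f₀ ∈ U.toSubmodule := by
        show T' f₀ ∈ (Cfsg.permConstants K G Ω).toSubmodule
        rw [hf₀]; exact Submodule.subset_span (Set.mem_singleton _)
      rw [← heq] at hmem
      have : T' f₀ = 0 := LinearMap.mem_ker.mp hmem
      rw [hf₀] at this
      have := congrFun this a
      exact one_ne_zero this
  obtain ⟨g, v, hv, hgv⟩ := h W₀ U h1 h2 h3
  apply hgv
  show Cfsg.permRep K G Ω g v - v ∈ LinearMap.ker T'
  rw [LinearMap.mem_ker, map_sub, hT'rep]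
  have hv' : T' v ∈ Submodule.span K {fun _ : Ω => (1 : K)} := hv
  rw [Submodule.mem_span_singleton] at hv'
  obtain ⟨c', hc'⟩ := hv'
  rw [← hc']
  funext x
  simp [Cfsg.permRep]

end Cfsg.Agent.S0671
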