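import Cfsg.Statements.S0672
import Mathlib
-- import your own Cfsg.Agent.* helpers here

set_option autoImplicit false
open Cfsg

namespace Cfsg.Agent.S0672

open Classical in
/-- adjacency operator of a relation between two types. -/
noncomputable def adjB {α β : Type*} [Fintype α] (K : Type*) [Field K] (R : α → β → Prop) :
    (α → K) →ₗ[K] (β → K) where
  toFun := fun f s => ∑ x, if R x s then f x else 0
  map_add' := by
    intro f₁ f₂; funext s
    simp only [Pi.add_apply]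
    rw [← Finset.sum_add_distrib]
    refine Finset.sum_congr rfl fun y _ => ?_
    split_ifs <;> simp
  map_smul' := by
    intro c f; funext s
    simp only [Pi.smul_apply, smul_eq_mul, RingHom.id_apply]
    rw [Finset.mul_sum]
    refine Finset.sum_congr rfl fun y _ => ?_
    split_ifs <;> simp

open Classical in
theorem adjB_apply {α β : Type*} [Fintype α] (K : Type*) [Field K] (R : α → β → Prop)
    (f : α → K) (s : β) : adjB K R f s = ∑ x, if R x s then f x else 0 := rfl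

open Classical in
theorem adjB_single {α β : Type*} [Fintype α] [DecidableEq α] (K : Type*) [Field K]
    (R : α → β → Prop) (x : α) (s : β) :
    adjB K R (Pi.single x 1) s = if R x s then 1 else 0 := by
  rw [adjB_apply, Finset.sum_eq_single x]
  · simp
  · intro z _ hz; simp [Pi.single_eq_of_ne hz]
  · intro h; exact absurd (Finset.mem_univ x) h

open Classical in
theorem adjB_equivariant {α β : Type*} [Fintype α] (K : Type*) [Field K] (R : α → β → Prop)
    {G : Type*} [Group G] [MulAction G α] [MulAction G β] (g : G)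
    (hg : ∀ x s, R x s ↔ R (g • x) (g • s)) (f : α → K) (s : β) :
    adjB K R (fun x => f (g • x)) s = adjB K R f (g • s) := by
  rw [adjB_apply, adjB_apply,
    ← Equiv.sum_comp (MulAction.toPerm g) (fun x => if R x (g • s) then f x else 0)]
  refine Finset.sum_congr rfl fun x _ => ?_
  exact if_congr (hg x s) rfl rfl

theorem final {G : Type*} [Group G] {K : Type*} [Field K] {Ω : Type*} [Fintype Ω]
    [DecidableEq Ω] [MulAction G Ω]
    (h : ∀ f : Representation.IntertwiningMap (Cfsg.permSumZero K G Ω).toRepresentation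
        (Cfsg.permRep K G (Set.powersetCard Ω 2)),
      (∀ v : (Cfsg.permSumZero K G Ω).toSubmodule,
        (v : Ω → K) ∈ (Cfsg.permConstants K G Ω).toSubmodule → f v = 0) → f = 0)
    (ψ : (Ω → K) →ₗ[K] (Set.powersetCard Ω 2 → K))
    (heq : ∀ (g : G) (v : Ω → K) (s : Set.powersetCard Ω 2),
      ψ (fun x => v (g • x)) s = ψ v (g • s))
    (hone : ψ (fun _ => 1) = 0)
    (x x' : Ω) (s : Set.powersetCard Ω 2)
    (hne : ψ (Pi.single x 1 - Pi.single x' 1) s ≠ 0) : False := by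
  classical
  have hrep : ∀ (g : G) (v : Ω → K),
      ψ (Cfsg.permRep K G Ω g v) = Cfsg.permRep K G (Set.powersetCard Ω 2) g (ψ v) := by
    intro g v
    funext s
    exact heq g⁻¹ v s
  let f : Representation.IntertwiningMap (Cfsg.permSumZero K G Ω).toRepresentation
      (Cfsg.permRep K G (Set.powersetCard Ω 2)) :=
    ⟨ψ ∘ₗ (Cfsg.permSumZero K G Ω).toSubmodule.subtype, fun g => by
      refine LinearMap.ext fun v => ?_
      exact hrep g (v : Ω → K)⟩
  have hf0 := h f (by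
    intro v hv
    have hv' : (v : Ω → K) ∈ Submodule.span K {fun _ : Ω => (1 : K)} := hv
    rw [Submodule.mem_span_singleton] at hv'
    obtain ⟨c, hc⟩ := hv'
    show ψ (v : Ω → K) = 0
    rw [← hc, map_smul, hone, smul_zero])
  have hmem : (Pi.single x 1 - Pi.single x' 1 : Ω → K)
      ∈ (Cfsg.permSumZero K G Ω).toSubmodule := by
    show ∑ y, (Pi.single x (1 : K) - Pi.single x' (1 : K) : Ω → K) y = 0
    simp [Finset.sum_sub_distrib]
  have h1 : f ⟨_, hmem⟩ = 0 := by rw [hf0]; rfl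
  exact hne (congrFun h1 s)

/-- Let a finite group act faithfully and doubly transitively with point stabilisers of even order, and let `K` have characteristic `p` dividing the degree. If the heart of the permutation module admits no non-zero equivariant map to the permutation module on unordered pairs (phrased: every intertwining map from the sum-zero functions vanishing on the constants is zero), the action is triply transitive. -/
theorem result {G : Type*} [Group G] [Finite G] {K : Type*} [Field K] {p : ℕ} [Fact p.Prime] [CharP K p] {Ω : Type*} [Fintype Ω] [DecidableEq Ω] [MulAction G Ω] [FaithfulSMul G Ω] (h2 : MulAction.IsMultiplyPretransitive G Ω 2) (hp : p ∣ Fintype.card Ω) (heven : ∀ a : Ω, Even (Nat.card (MulAction.stabilizer G a))) (h : ∀ f : Representation.IntertwiningMap (Cfsg.permSumZero K G Ω).toRepresentation (Cfsg.permRep K G (Set.powersetCard Ω 2)), (∀ v : (Cfsg.permSumZero K G Ω).toSubmodule, (v : Ω → K) ∈ (Cfsg.permConstants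 K G Ω).toSubmodule → f v = 0) → f = 0) : MulAction.IsMultiplyPretransitive G Ω 3 := by
  classical
  rw [MulAction.is_two_pretransitive_iff] at h2
  by_contra h3
  have h3' : ¬ ∀ x y : Fin 3 ↪ Ω, ∃ g : G, g • x = y := fun hh => h3 ⟨hh⟩
  push Not at h3'
  obtain ⟨X, Y, hXY⟩ := h3'
  obtain ⟨x₀, hx₀⟩ : ∃ x₀, x₀ = X 0 := ⟨_, rfl⟩
  obtain ⟨τ₀, hτ₀⟩ := exists_prime_orderOf_dvd_card' (G := MulAction.stabilizer G x₀) 2
    (heven x₀).two_dvd
  obtain ⟨τ, hτx, hτord⟩ : ∃ τ : G, τ • x₀ = x₀ ∧ orderOf τ = 2 :=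
    ⟨(τ₀ : G), τ₀.2, by rw [Subgroup.orderOf_coe]; exact hτ₀⟩
  have hτ2 : τ * τ = 1 := by rw [← pow_two, ← hτord]; exact pow_orderOf_eq_one τ
  have hτ1 : τ ≠ 1 := by intro h1; rw [h1, orderOf_one] at hτord; omega
  obtain ⟨y₀, hy₀⟩ : ∃ y₀, τ • y₀ ≠ y₀ := by
    by_contra hcon
    push Not at hcon
    exact hτ1 (FaithfulSMul.eq_of_smul_eq_smul (α := Ω) (fun a => by rw [hcon a, one_smul]))
  obtain ⟨z₀, hz₀⟩ : ∃ z₀, z₀ = τ • y₀ := ⟨_, rfl⟩
  have hτz : τ • z₀ = y₀ := by rw [hz₀, smul_smul, hτ2, one_smul]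
  have hyz : y₀ ≠ z₀ := by rw [hz₀]; exact fun h => hy₀ h.symm
  have hxy : x₀ ≠ y₀ := by rintro rfl; exact hy₀ hτx
  have hxz : x₀ ≠ z₀ := by
    intro h
    apply hyz
    rw [← hτz, ← h]; exact hτx
  obtain ⟨s₀, hs₀⟩ : ∃ s₀ : Set.powersetCard Ω 2, (s₀ : Finset Ω) = {y₀, z₀} :=
    ⟨⟨{y₀, z₀}, Finset.card_pair hyz⟩, rfl⟩
  have hpair : ∀ s : Set.powersetCard Ω 2, ∃ g : G, g • s₀ = s := by
    intro s
    have hcard : (s : Finset Ω).card = 2 := s.2
    obtain ⟨y', z', hne, hs⟩ := Finset.card_eq_two.mp hcard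
    obtain ⟨g, h1, h2'⟩ := h2 hyz hne
    refine ⟨g, ?_⟩
    apply Subtype.ext
    rw [Set.powersetCard.coe_smul, hs₀, hs, Finset.smul_finset_insert,
      Finset.smul_finset_singleton, h1, h2']
  obtain ⟨O₁, hO₁⟩ : ∃ O₁ : Ω → Set.powersetCard Ω 2 → Prop,
      ∀ x s, O₁ x s ↔ ∃ g : G, g • x₀ = x ∧ g • s₀ = s := ⟨_, fun _ _ => Iff.rfl⟩
  have hex : ∃ (x₂ : Ω) (s₂ : Set.powersetCard Ω 2), x₂ ∉ (s₂ : Finset Ω) ∧ ¬ O₁ x₂ s₂ := by
    by_contra hcon
    push Not at hcon
    have htri : ∀ x' y' z' : Ω, x' ≠ y' → x' ≠ z' → y' ≠ z' →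
        ∃ g : G, g • x₀ = x' ∧ g • y₀ = y' ∧ g • z₀ = z' := by
      intro x' y' z' h1 h2' h3'
      have hmem : x' ∉ (({y', z'} : Finset Ω)) := by simp [h1, h2']
      obtain ⟨g, hg1, hg2⟩ := (hO₁ x' ⟨{y', z'}, Finset.card_pair h3'⟩).mp
        (hcon x' ⟨{y', z'}, Finset.card_pair h3'⟩ hmem)
      have hg3 : ({g • y₀, g • z₀} : Finset Ω) = {y', z'} := by
        have := congrArg Subtype.val hg2
        rw [Set.powersetCard.coe_smul, hs₀, Finset.smul_finset_insert,
          Finset.smul_finset_singleton] at this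
        exact this
      have hgy : g • y₀ = y' ∨ g • y₀ = z' := by
        have : g • y₀ ∈ ({y', z'} : Finset Ω) := by rw [← hg3]; simp
        simpa using this
      have hgz : g • z₀ = y' ∨ g • z₀ = z' := by
        have : g • z₀ ∈ ({y', z'} : Finset Ω) := by rw [← hg3]; simp
        simpa using this
      have hgne : g • y₀ ≠ g • z₀ := fun h => hyz (MulAction.injective g h)
      rcases hgy with hgy | hgy
      · rcases hgz with hgz | hgz
        · exact absurd (hgy.trans hgz.symm) hgne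
        · exact ⟨g, hg1, hgy, hgz⟩
      · rcases hgz with hgz | hgz
        · refine ⟨g * τ, ?_, ?_, ?_⟩
          · rw [mul_smul, hτx, hg1]
          · rw [mul_smul, ← hz₀, hgz]
          · rw [mul_smul, hτz, hgy]
        · exact absurd (hgy.trans hgz.symm) hgne
    obtain ⟨g₁, a1, a2, a3⟩ := htri (X 0) (X 1) (X 2) (X.injective.ne (by decide))
      (X.injective.ne (by decide)) (X.injective.ne (by decide))
    obtain ⟨g₂, b1, b2, b3⟩ := htri (Y 0) (Y 1) (Y 2) (Y.injective.ne (by decide))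
      (Y.injective.ne (by decide)) (Y.injective.ne (by decide))
    apply hXY (g₂ * g₁⁻¹)
    apply Function.Embedding.ext
    intro i
    rw [Function.Embedding.smul_apply, mul_smul]
    fin_cases i
    · show g₂ • g₁⁻¹ • X 0 = Y 0
      rw [← a1, inv_smul_smul, b1]
    · show g₂ • g₁⁻¹ • X 1 = Y 1
      rw [← a2, inv_smul_smul, b2]
    · show g₂ • g₁⁻¹ • X 2 = Y 2
      rw [← a3, inv_smul_smul, b3]
  obtain ⟨x₂, s₂, hx₂, hnO⟩ := hex
  obtain ⟨O₂, hO₂⟩ : ∃ O₂ : Ω → Set.powersetCard Ω 2 → Prop,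
      ∀ x s, O₂ x s ↔ ∃ g : G, g • x₂ = x ∧ g • s₂ = s := ⟨_, fun _ _ => Iff.rfl⟩
  have horb : ∀ (x₁ : Ω) (s₁ : Set.powersetCard Ω 2) (O : Ω → Set.powersetCard Ω 2 → Prop),
      (∀ x s, O x s ↔ ∃ g : G, g • x₁ = x ∧ g • s₁ = s) →
      ∀ (g : G) x s, O x s ↔ O (g • x) (g • s) := by
    intro x₁ s₁ O hO g x s
    rw [hO, hO]
    constructor
    · rintro ⟨h', rfl, rfl⟩; exact ⟨g * h', mul_smul _ _ _, mul_smul _ _ _⟩
    · rintro ⟨h', h1, h2'⟩
      refine ⟨g⁻¹ * h', ?_, ?_⟩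
      · rw [mul_smul, h1, inv_smul_smul]
      · rw [mul_smul, h2', inv_smul_smul]
  have hO₁inv := horb x₀ s₀ O₁ hO₁
  have hO₂inv := horb x₂ s₂ O₂ hO₂
  have hO₁not : ∀ x s, O₁ x s → x ∉ (s : Finset Ω) := by
    intro x s hO
    obtain ⟨g, rfl, rfl⟩ := (hO₁ x s).mp hO
    rw [Set.powersetCard.coe_smul, Finset.smul_mem_smul_finset_iff, hs₀]
    simp [hxy, hxz]
  have hO₂not : ∀ x s, O₂ x s → x ∉ (s : Finset Ω) := by
    intro x s hO
    obtain ⟨g, rfl, rfl⟩ := (hO₂ x s).mp hO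
    rw [Set.powersetCard.coe_smul, Finset.smul_mem_smul_finset_iff]
    exact hx₂
  have hconst : ∀ (O : Ω → Set.powersetCard Ω 2 → Prop),
      (∀ (g : G) x s, O x s ↔ O (g • x) (g • s)) →
      ∀ s, Cfsg.Agent.S0672.adjB K O (fun _ => 1) s
        = Cfsg.Agent.S0672.adjB K O (fun _ => 1) s₀ := by
    intro O hOinv s
    obtain ⟨g, rfl⟩ := hpair s
    exact (Cfsg.Agent.S0672.adjB_equivariant K O g (hOinv g) (fun _ => 1) s₀).symm
  obtain ⟨n₁, hn₁⟩ : ∃ n₁, n₁ = Cfsg.Agent.S0672.adjB K O₁ (fun _ => 1) s₀ := ⟨_, rfl⟩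
  obtain ⟨n₂, hn₂⟩ : ∃ n₂, n₂ = Cfsg.Agent.S0672.adjB K O₂ (fun _ => 1) s₀ := ⟨_, rfl⟩
  have hO₁₀ : O₁ x₀ s₀ := (hO₁ _ _).mpr ⟨1, one_smul _ _, one_smul _ _⟩
  have hO₂₂ : O₂ x₂ s₂ := (hO₂ _ _).mpr ⟨1, one_smul _ _, one_smul _ _⟩
  by_cases hn0 : n₁ = 0
  · apply Cfsg.Agent.S0672.final h (Cfsg.Agent.S0672.adjB K O₁)
      (fun g v s => Cfsg.Agent.S0672.adjB_equivariant K O₁ g (hO₁inv g) v s) ?_ x₀ y₀ s₀ ?_
    · funext s; rw [hconst O₁ hO₁inv s, ← hn₁, hn0]; rfl
    · rw [map_sub, Pi.sub_apply, Cfsg.Agent.S0672.adjB_single, Cfsg.Agent.S0672.adjB_single,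
        if_pos hO₁₀, if_neg (fun hO => hO₁not _ _ hO (by rw [hs₀]; simp))]
      simp
  · obtain ⟨y₂, hy₂⟩ : ∃ y₂, y₂ ∈ (s₂ : Finset Ω) := by
      have hcard : (s₂ : Finset Ω).card = 2 := s₂.2
      exact Finset.card_pos.mp (by omega)
    apply Cfsg.Agent.S0672.final h
      (n₁ • Cfsg.Agent.S0672.adjB K O₂ - n₂ • Cfsg.Agent.S0672.adjB K O₁) ?_ ?_ x₂ y₂ s₂ ?_
    · intro g v s
      simp only [LinearMap.sub_apply, LinearMap.smul_apply, Pi.sub_apply, Pi.smul_apply]
      rw [Cfsg.Agent.S0672.adjB_equivariant K O₂ g (hO₂inv g) v s,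
        Cfsg.Agent.S0672.adjB_equivariant K O₁ g (hO₁inv g) v s]
    · funext s
      simp only [LinearMap.sub_apply, LinearMap.smul_apply, Pi.sub_apply, Pi.smul_apply,
        smul_eq_mul]
      rw [hconst O₂ hO₂inv s, hconst O₁ hO₁inv s, ← hn₁, ← hn₂]
      show n₁ * n₂ - n₂ * n₁ = 0
      ring
    · simp only [LinearMap.sub_apply, LinearMap.smul_apply, Pi.sub_apply, Pi.smul_apply,
        smul_eq_mul, map_sub]
      rw [Cfsg.Agent.S0672.adjB_single, Cfsg.Agent.S0672.adjB_single,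
        Cfsg.Agent.S0672.adjB_single, Cfsg.Agent.S0672.adjB_single, if_pos hO₂₂, if_neg hnO,
        if_neg (fun hO => hO₂not _ _ hO hy₂), if_neg (fun hO => hO₁not _ _ hO hy₂)]
      simpa using hn0

end Cfsg.Agent.S0672
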