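import Cfsg.Statements.S0674
import Mathlib
import Cfsg.Agent.Lib.Helper2.PrimeDeg2
-- import your own Cfsg.Agent.* helpers here

set_option autoImplicit false
open Cfsg

namespace Cfsg.Agent.S0674

/-- Let `G` be a non-solvable transitive permutation group of prime degree `p` and `K` a field of characteristic `p`. Then the heart of the permutation module is irreducible: an invariant subspace containing the constants and contained in the sum-zero functions is one or the other. -/
theorem result {α : Type*} [Fintype α] [DecidableEq α] {p : ℕ} [Fact p.Prime] (hα : Fintype.card α = p) (G : Subgroup (Equiv.Perm α)) [MulAction.IsPretransitive G α] (hG : ¬ Group.IsSolvable G) {K : Type*} [Field K] [CharP K p] (W : Subrepresentation (Cfsg.permRep K G α)) (h₁ : (Cfsg.permConstants K G α).toSubmodule ≤ W.toSubmodule) (h₂ : W.toSubmodule ≤ (Cfsg.permSumZero K G α).toSubmodule) : W = Cfsg.permConstants K G α ∨ W = Cfsg.permSumZero K G α := by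
  classical
  have hp : p.Prime := Fact.out
  have hp2 := hp.two_le
  obtain ⟨t, htG, e, ht⟩ := Cfsg.Agent.Lib.Helper2.PrimeDeg.exists_cycle hα G
  have hs : ∀ a, e (t⁻¹ a) = e a - 1 := by
    intro a
    have := ht (t⁻¹ a)
    rw [show t (t⁻¹ a) = a from t.apply_symm_apply a] at this
    rw [this]; ring
  have hWinv : Cfsg.Agent.Lib.Helper2.PrimeDeg.Inv G W.toSubmodule := by
    intro g hg f hf
    have := W.apply_mem_toSubmodule (⟨g⁻¹, G.inv_mem hg⟩ : G) hf
    convert this using 1
    funext a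
    simp [Cfsg.permRep]
    rfl
  obtain ⟨r₀, hr₀, hWM⟩ := Cfsg.Agent.Lib.Helper2.PrimeDeg.tlemma (K := K) e t⁻¹ hs W.toSubmodule
    (fun f hf => hWinv _ (G.inv_mem htG) f hf)
  have hone : (fun _ => (1 : K)) ∈ W.toSubmodule :=
    h₁ (Submodule.subset_span (Set.mem_singleton _))
  by_cases hr1 : r₀ = 1
  · left
    apply Subrepresentation.toSubmodule_injective
    rw [hWM, hr1, Cfsg.Agent.Lib.Helper2.PrimeDeg.M_one]
    rfl
  by_cases hrp1 : r₀ = p - 1
  · right
    apply Subrepresentation.toSubmodule_injective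
    ext f
    rw [hWM, hrp1, Cfsg.Agent.Lib.Helper2.PrimeDeg.M_pred]
    rfl
  exfalso
  have hr0 : r₀ ≠ 0 := by
    intro h0
    rw [hWM, h0, Cfsg.Agent.Lib.Helper2.PrimeDeg.M_zero, Submodule.mem_bot] at hone
    have := congrFun hone (e.symm 0)
    simp at this
  have hrp : r₀ ≠ p := by
    intro h0
    have h1 : (fun a => Cfsg.Agent.Lib.Helper2.PrimeDeg.iota K e a ^ (p - 1)) ∈ W.toSubmodule := by
      rw [hWM, h0]
      have := Cfsg.Agent.Lib.Helper2.PrimeDeg.pow_mem
        (Cfsg.Agent.Lib.Helper2.PrimeDeg.iota K e) (p - 1)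
      rwa [show p - 1 + 1 = p by omega] at this
    have h2 : ∑ a, Cfsg.Agent.Lib.Helper2.PrimeDeg.iota K e a ^ (p - 1) = 0 := h₂ h1
    rw [Cfsg.Agent.Lib.Helper2.PrimeDeg.ptop e] at h2
    simp at h2
  have hinv2 := Cfsg.Agent.Lib.Helper2.PrimeDeg.inv_two (K := K) e G t⁻¹ (G.inv_mem htG) hs r₀
    (by omega) (by omega) (by rw [← hWM]; exact hWinv)
  exact hG (Cfsg.Agent.Lib.Helper2.PrimeDeg.solvable_of_M2 e G hinv2)

end Cfsg.Agent.S0674
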