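import Cfsg.Statements.S0675
import Mathlib
import Cfsg.Agent.Lib.Helper2.PrimeDeg3
-- import your own Cfsg.Agent.* helpers here

set_option autoImplicit false
open Cfsg

namespace Cfsg.Agent.S0675

/-- Burnside's Theorem on permutation groups of prime degree: a transitive permutation group of prime degree that is not solvable is doubly transitive. -/
theorem result {α : Type*} [Fintype α] [DecidableEq α] (hα : (Fintype.card α).Prime) (G : Subgroup (Equiv.Perm α)) [MulAction.IsPretransitive G α] : Group.IsSolvable G ∨ MulAction.IsMultiplyPretransitive G α 2 := by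
  classical
  by_cases hsol : Group.IsSolvable G
  · exact Or.inl hsol
  right
  rw [MulAction.is_two_pretransitive_iff]
  intro a b c d hab hcd
  by_contra hno
  haveI : Fact (Fintype.card α).Prime := ⟨hα⟩
  obtain ⟨t, htG, e, ht⟩ :=
    Cfsg.Agent.Lib.Helper2.PrimeDeg.exists_cycle (p := Fintype.card α) rfl G
  have hs : ∀ a, e (t⁻¹ a) = e a - 1 := by
    intro a
    have := ht (t⁻¹ a)
    rw [show t (t⁻¹ a) = a from t.apply_symm_apply a] at this
    rw [this]; ring
  apply Cfsg.Agent.Lib.Helper2.PrimeDeg.burnside_main e G t⁻¹ (G.inv_mem htG) hs hsol a b c d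
    hab hcd
  rintro ⟨g, hg, h1, h2⟩
  exact hno ⟨⟨g, hg⟩, h1, h2⟩

end Cfsg.Agent.S0675
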