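import Cfsg.Statements.S0676
import Mathlib
import Cfsg.Agent.Lib.Helper2.PrimeDeg6
-- import your own Cfsg.Agent.* helpers here

set_option autoImplicit false
open Cfsg

namespace Cfsg.Agent.S0676

/-- A non-solvable transitive permutation group of prime degree `p` whose Sylow `p`-normaliser has even order is triply transitive. -/
theorem result {α : Type*} [Fintype α] [DecidableEq α] {p : ℕ} [Fact p.Prime] (hα : Fintype.card α = p) (G : Subgroup (Equiv.Perm α)) [MulAction.IsPretransitive G α] (hG : ¬ Group.IsSolvable G) (P : Sylow p G) (heven : Even (Nat.card (Subgroup.normalizer ((P : Subgroup G) : Set G)))) : MulAction.IsMultiplyPretransitive G α 3 := by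
  classical
  obtain ⟨a, b, c, h⟩ := Cfsg.Agent.Lib.Helper2.PrimeDeg.three_trans hα G hG P heven
  refine ⟨fun x y => ?_⟩
  obtain ⟨g₁, hg₁, h1a, h1b, h1c⟩ := h (x 0) (x 1) (x 2)
    (x.injective.ne (by decide)) (x.injective.ne (by decide)) (x.injective.ne (by decide))
  obtain ⟨g₂, hg₂, h2a, h2b, h2c⟩ := h (y 0) (y 1) (y 2)
    (y.injective.ne (by decide)) (y.injective.ne (by decide)) (y.injective.ne (by decide))
  refine ⟨⟨g₂ * g₁⁻¹, G.mul_mem hg₂ (G.inv_mem hg₁)⟩, ?_⟩
  apply Function.Embedding.ext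
  intro i
  show (g₂ * g₁⁻¹) (x i) = y i
  have key : ∀ w w', g₁ w = w' → g₁⁻¹ w' = w := by
    intro w w' hw
    rw [← hw]; exact g₁.symm_apply_apply w
  fin_cases i
  · show (g₂ * g₁⁻¹) (x 0) = y 0
    rw [Equiv.Perm.mul_apply, key _ _ h1a, h2a]
  · show (g₂ * g₁⁻¹) (x 1) = y 1
    rw [Equiv.Perm.mul_apply, key _ _ h1b, h2b]
  · show (g₂ * g₁⁻¹) (x 2) = y 2
    rw [Equiv.Perm.mul_apply, key _ _ h1c, h2c]

end Cfsg.Agent.S0676
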