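import Cfsg.Statements.S0677
import Mathlib
import Cfsg.Agent.Lib.Helper2.PrimeDeg5
-- import your own Cfsg.Agent.* helpers here

set_option autoImplicit false
open Cfsg

namespace Cfsg.Agent.S0677

/-- In a transitive permutation group of prime degree `p` whose Sylow `p`-normaliser has even order, the point stabilisers are the only subgroups of index `p`. -/
theorem result {α : Type*} [Fintype α] [DecidableEq α] {p : ℕ} [Fact p.Prime] (hα : Fintype.card α = p) (G : Subgroup (Equiv.Perm α)) [MulAction.IsPretransitive G α] (P : Sylow p G) (heven : Even (Nat.card (Subgroup.normalizer ((P : Subgroup G) : Set G)))) (H : Subgroup G) (hH : H.index = p) : ∃ a : α, H = MulAction.stabilizer G a := by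
  classical
  obtain ⟨a, ha⟩ := Cfsg.Agent.Lib.Helper2.PrimeDeg.index_p_fix hα G P heven H hH
  refine ⟨a, ?_⟩
  have hle : H ≤ MulAction.stabilizer G a := by
    intro h hh
    rw [MulAction.mem_stabilizer_iff]
    exact ha h hh
  have hidx : (MulAction.stabilizer G a).index = p := by
    rw [MulAction.index_stabilizer_of_transitive G a, Nat.card_eq_fintype_card, hα]
  have h1 := Subgroup.relIndex_mul_index hle
  rw [hidx, hH] at h1
  have hp : p.Prime := Fact.out
  have h2 : H.relIndex (MulAction.stabilizer G a) = 1 := by
    have := hp.pos
    exact Nat.eq_of_mul_eq_mul_right this (by rw [h1, one_mul])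
  exact le_antisymm hle (Subgroup.relIndex_eq_one.mp h2)

end Cfsg.Agent.S0677
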