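import Mathlib
import Cfsg.Statements.S0695

set_option autoImplicit false
open Cfsg

namespace Cfsg.Agent.S0695

/-- uniqueness for a semiregular subgroup -/
theorem L1 {G X : Type*} [Group G] [MulAction G X] (N : Subgroup G)
    (hreg : ∀ x : X, MulAction.stabilizer N x = ⊥) (x₀ : X) (n m : N) (h : n • x₀ = m • x₀) :
    n = m := by
  have : m⁻¹ * n ∈ MulAction.stabilizer N x₀ := by
    rw [MulAction.mem_stabilizer_iff, mul_smul, h, inv_smul_smul]
  rw [hreg x₀, Subgroup.mem_bot] at this
  exact (inv_mul_eq_one.mp this).symm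

theorem L2 {G X : Type*} [Group G] [MulAction G X] (x₀ : X) (g : G) (hg : g • x₀ = x₀) (n : G) :
    g • (n • x₀) = (g * n * g⁻¹) • x₀ := by
  rw [mul_smul, mul_smul, inv_smul_eq_iff.mpr hg.symm]

theorem L3 {G X : Type*} [Group G] [MulAction G X] (N : Subgroup G) [hNn : N.Normal]
    (hreg : ∀ x : X, MulAction.stabilizer N x = ⊥) (x₀ : X) (g : G) (hg : g • x₀ = x₀)
    (n m : N) (h : g • ((n : G) • x₀) = (m : G) • x₀) : g * (n : G) * g⁻¹ = m := by
  have hc : g * (n : G) * g⁻¹ ∈ N := hNn.conj_mem n.1 n.2 g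
  have : (⟨g * (n : G) * g⁻¹, hc⟩ : N) = m := by
    apply L1 N hreg x₀
    change (g * (n : G) * g⁻¹) • x₀ = (m : G) • x₀
    rw [← L2 x₀ g hg]
    exact h
  exact congrArg Subtype.val this

/-- all non-identity elements of a regular normal subgroup of a 2-transitive group are
conjugate under a point stabiliser -/
theorem hA {G X : Type*} [Group G] [MulAction G X] (N : Subgroup G) [hNn : N.Normal]
    (hreg : ∀ x : X, MulAction.stabilizer N x = ⊥)
    (hG2 : MulAction.IsMultiplyPretransitive G X 2) (x₀ : X) (n m : N) (hn : n ≠ 1)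
    (hm : m ≠ 1) : ∃ g : G, g • x₀ = x₀ ∧ g * (n : G) * g⁻¹ = m := by
  have hn' : (n : G) • x₀ ≠ x₀ := fun h => hn (L1 N hreg x₀ n 1 (by rw [one_smul]; exact h))
  have hm' : (m : G) • x₀ ≠ x₀ := fun h => hm (L1 N hreg x₀ m 1 (by rw [one_smul]; exact h))
  obtain ⟨g, hg1, hg2⟩ :=
    (MulAction.is_two_pretransitive_iff.mp hG2) (Ne.symm hn') (Ne.symm hm')
  exact ⟨g, hg1, L3 N hreg x₀ g hg1 n m hg2⟩

/-- structure of a regular normal subgroup of a 2-transitive group on a finite set -/
theorem elemAb {G X : Type*} [Group G] [Fintype X] [MulAction G X] (hX : 2 ≤ Fintype.card X)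
    (N : Subgroup G) [hNn : N.Normal] (htrans : MulAction.IsPretransitive N X)
    (hreg : ∀ x : X, MulAction.stabilizer N x = ⊥)
    (hG2 : MulAction.IsMultiplyPretransitive G X 2) :
    ∃ p k : ℕ, p.Prime ∧ Fintype.card X = p ^ k ∧ (∀ n ∈ N, n ^ p = 1) ∧
      (∀ a b : N, a * b = b * a) ∧ ∃ n : N, n ≠ 1 := by
  obtain ⟨x₀⟩ : Nonempty X := Fintype.card_pos_iff.mp (by omega)
  have hbij : Function.Bijective (fun n : N => n • x₀) :=
    ⟨fun n m h => L1 N hreg x₀ n m h, fun y => MulAction.exists_smul_eq N x₀ y⟩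
  haveI : Finite N := Finite.of_injective _ hbij.1
  have hcard : Nat.card N = Fintype.card X := by
    rw [← Nat.card_eq_fintype_card]; exact Nat.card_eq_of_bijective _ hbij
  haveI : Nontrivial N := by
    rw [← Finite.one_lt_card_iff_nontrivial, hcard]; omega
  obtain ⟨n₁, hn₁⟩ := exists_ne (1 : N)
  obtain ⟨p, hp, hpd⟩ := Nat.exists_prime_and_dvd (n := Nat.card N) (by rw [hcard]; omega)
  haveI : Fact p.Prime := ⟨hp⟩
  obtain ⟨n₀, hn₀⟩ := exists_prime_orderOf_dvd_card' (G := N) p hpd
  have hn₀1 : n₀ ≠ 1 := by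
    rintro rfl
    rw [orderOf_one] at hn₀
    exact hp.one_lt.ne hn₀
  have hn₀p : (n₀ : G) ^ p = 1 := by
    have := pow_orderOf_eq_one n₀
    rw [hn₀] at this
    exact congrArg Subtype.val this
  have hexp : ∀ n ∈ N, n ^ p = 1 := by
    intro n hn
    by_cases h1 : (⟨n, hn⟩ : N) = 1
    · have : n = 1 := congrArg Subtype.val h1
      rw [this, one_pow]
    · obtain ⟨g, -, hg⟩ := hA N hreg hG2 x₀ n₀ ⟨n, hn⟩ hn₀1 h1
      have hg' : g * (n₀ : G) * g⁻¹ = n := hg
      rw [← hg', conj_pow, hn₀p, mul_one, mul_inv_cancel]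
  have hP : IsPGroup p N := by
    intro n
    refine ⟨1, ?_⟩
    rw [pow_one]
    apply Subtype.ext
    exact hexp n.1 n.2
  obtain ⟨k, hk⟩ := hP.exists_card_eq
  have hcn := hP.center_nontrivial
  obtain ⟨⟨z, hzc⟩, hz⟩ := exists_ne (1 : Subgroup.center N)
  have hz1 : z ≠ 1 := fun h => hz (Subtype.ext h)
  have hzc' : ∀ n : N, n * z = z * n := Subgroup.mem_center_iff.mp hzc
  have hcomm : ∀ a b : N, a * b = b * a := by
    intro a b
    by_cases hb : b = 1
    · rw [hb, mul_one, one_mul]
    · obtain ⟨g, -, hg⟩ := hA N hreg hG2 x₀ z b hz1 hb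
      have hc : g⁻¹ * (a : G) * g ∈ N := by
        have := hNn.conj_mem a.1 a.2 g⁻¹
        rwa [inv_inv] at this
      have h1 := congrArg Subtype.val (hzc' ⟨_, hc⟩)
      have h1' : g⁻¹ * (a : G) * g * (z : G) = (z : G) * (g⁻¹ * (a : G) * g) := h1
      apply Subtype.ext
      change (a : G) * (b : G) = (b : G) * (a : G)
      rw [← hg]
      calc (a : G) * (g * (z : G) * g⁻¹) = g * (g⁻¹ * (a : G) * g * (z : G)) * g⁻¹ := by group
        _ = g * ((z : G) * (g⁻¹ * (a : G) * g)) * g⁻¹ := by rw [h1']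
        _ = g * (z : G) * g⁻¹ * (a : G) := by group
  exact ⟨p, k, hp, by rw [← hcard, hk], hexp, hcomm, n₁, hn₁⟩

/-- A regular normal subgroup of a doubly primitive group of finite degree at least 2 is an elementary abelian 2-group (and the degree is a power of 2), unless the degree is 3. -/
theorem result {G : Type*} [Group G] {X : Type*} [Fintype X] [MulAction G X] (hX : 2 ≤ Fintype.card X) (h2 : MulAction.IsMultiplyPreprimitive G X 2) (N : Subgroup G) [N.Normal] (htrans : MulAction.IsPretransitive N X) (hreg : ∀ x : X, MulAction.stabilizer N x = ⊥) : Fintype.card X = 3 ∨ (IsMulCommutative N ∧ (∀ n ∈ N, n ^ 2 = 1) ∧ ∃ m : ℕ, Fintype.card X = 2 ^ m) := by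
  classical
  have hNn : N.Normal := inferInstance
  have hG2 : MulAction.IsMultiplyPretransitive G X 2 := h2.isMultiplyPretransitive
  have hGt : MulAction.IsPretransitive G X := MulAction.isPretransitive_of_is_two_pretransitive
  obtain ⟨p, k, hp, hcard, hexp, hcomm, n₀, hn₀⟩ := elemAb hX N htrans hreg hG2
  by_cases hp2 : p = 2
  · right
    subst hp2
    exact ⟨isMulCommutative_iff.mpr hcomm, hexp, k, hcard⟩
  · left
    obtain ⟨x₀⟩ : Nonempty X := Fintype.card_pos_iff.mp (by omega)
    have hprim1 : MulAction.IsMultiplyPreprimitive (MulAction.stabilizer G x₀)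
        (SubMulAction.ofStabilizer G x₀) 1 :=
      MulAction.isMultiplyPreprimitive_ofStabilizer (M := G) (α := X) (n := 1)
    have hprim : MulAction.IsPreprimitive (MulAction.stabilizer G x₀)
        (SubMulAction.ofStabilizer G x₀) :=
      (MulAction.is_one_preprimitive_iff _ _).mp hprim1
    have hn₀inv : n₀⁻¹ ≠ n₀ := by
      intro h
      have h2' : n₀ ^ 2 = 1 := by
        rw [pow_two]
        nth_rewrite 1 [← h]
        exact inv_mul_cancel n₀
      have hp' : n₀ ^ p = 1 := Subtype.ext (hexp n₀.1 n₀.2)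
      have d1 := orderOf_dvd_of_pow_eq_one h2'
      have d2 := orderOf_dvd_of_pow_eq_one hp'
      have hcop : Nat.Coprime 2 p := (Nat.coprime_primes Nat.prime_two hp).mpr (Ne.symm hp2)
      have := Nat.eq_one_of_dvd_coprimes hcop d1 d2
      exact hn₀ (orderOf_eq_one_iff.mp this)
    have hy1 : (n₀ : G) • x₀ ≠ x₀ :=
      fun h => hn₀ (L1 N hreg x₀ n₀ 1 (by rw [one_smul]; exact h))
    have hy2 : ((n₀⁻¹ : N) : G) • x₀ ≠ x₀ := fun h =>
      hn₀ (inv_eq_one.mp (L1 N hreg x₀ n₀⁻¹ 1 (by rw [one_smul]; exact h)))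
    have hy12 : (n₀ : G) • x₀ ≠ ((n₀⁻¹ : N) : G) • x₀ :=
      fun h => hn₀inv (L1 N hreg x₀ n₀ n₀⁻¹ h).symm
    let Y₁ : SubMulAction.ofStabilizer G x₀ := ⟨(n₀ : G) • x₀, hy1⟩
    let Y₂ : SubMulAction.ofStabilizer G x₀ := ⟨((n₀⁻¹ : N) : G) • x₀, hy2⟩
    have hY12 : Y₁ ≠ Y₂ := fun h => hy12 (congrArg Subtype.val h)
    have hB : MulAction.IsBlock (MulAction.stabilizer G x₀) ({Y₁, Y₂} : Set _) := by
      rw [MulAction.isBlock_iff_smul_eq_of_mem]
      intro g a ha hga
      have hgx : (g : G) • x₀ = x₀ := g.2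
      have hc : (g : G) * (n₀ : G) * (g : G)⁻¹ ∈ N := hNn.conj_mem n₀.1 n₀.2 g
      have e1 : ((g • Y₁ : SubMulAction.ofStabilizer G x₀) : X) =
          ((g : G) * (n₀ : G) * (g : G)⁻¹) • x₀ := L2 x₀ (g : G) hgx (n₀ : G)
      have e2 : ((g • Y₂ : SubMulAction.ofStabilizer G x₀) : X) =
          ((g : G) * (n₀ : G) * (g : G)⁻¹)⁻¹ • x₀ := by
        have := L2 x₀ (g : G) hgx ((n₀⁻¹ : N) : G)
        change (g : G) • (((n₀⁻¹ : N) : G) • x₀) = _
        rw [this]
        congr 1
        simp only [InvMemClass.coe_inv]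
        group
      have hm : (⟨_, hc⟩ : N) = n₀ ∨ (⟨_, hc⟩ : N) = n₀⁻¹ := by
        rcases ha with rfl | rfl
        · rcases hga with h | h
          · left
            apply L1 N hreg x₀
            have := congrArg Subtype.val h
            rw [e1] at this
            exact this
          · right
            apply L1 N hreg x₀
            have := congrArg Subtype.val h
            rw [e1] at this
            exact this
        · rcases hga with h | h
          · right
            rw [← inv_inj, inv_inv]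
            apply L1 N hreg x₀
            have := congrArg Subtype.val h
            rw [e2] at this
            exact this
          · left
            rw [← inv_inj]
            apply L1 N hreg x₀
            have := congrArg Subtype.val h
            rw [e2] at this
            exact this
      have hg1 : g • Y₁ = Y₁ ∧ g • Y₂ = Y₂ ∨ g • Y₁ = Y₂ ∧ g • Y₂ = Y₁ := by
        rcases hm with h | h
        · left
          have h' : (g : G) * (n₀ : G) * (g : G)⁻¹ = n₀ := congrArg Subtype.val h
          constructor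
          · apply Subtype.ext; rw [e1, h']
          · apply Subtype.ext; rw [e2, h']; rfl
        · right
          have h' : (g : G) * (n₀ : G) * (g : G)⁻¹ = ((n₀⁻¹ : N) : G) := congrArg Subtype.val h
          constructor
          · apply Subtype.ext; rw [e1, h']
          · apply Subtype.ext; rw [e2, h']; simp [Y₁]
      rw [Set.smul_set_insert, Set.smul_set_singleton]
      rcases hg1 with ⟨h1, h2⟩ | ⟨h1, h2⟩
      · rw [h1, h2]
      · rw [h1, h2, Set.pair_comm]
    have huniv : ({Y₁, Y₂} : Set (SubMulAction.ofStabilizer G x₀)) = Set.univ := by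
      rcases hprim.isTrivialBlock_of_isBlock hB with h | h
      · exact absurd (h (by simp) (by simp)) hY12
      · exact h
    have hall : ∀ z : X, z = x₀ ∨ z = (n₀ : G) • x₀ ∨ z = ((n₀⁻¹ : N) : G) • x₀ := by
      intro z
      by_cases hz : z = x₀
      · exact Or.inl hz
      · right
        have : (⟨z, hz⟩ : SubMulAction.ofStabilizer G x₀) ∈ ({Y₁, Y₂} : Set _) := by
          rw [huniv]; trivial
        rcases this with h | h
        · left; exact congrArg Subtype.val h
        · right; exact congrArg Subtype.val h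
    have hfin : (Finset.univ : Finset X) = {x₀, (n₀ : G) • x₀, ((n₀⁻¹ : N) : G) • x₀} := by
      ext z
      simp only [Finset.mem_univ, Finset.mem_insert, Finset.mem_singleton, true_iff]
      exact hall z
    rw [← Finset.card_univ, hfin]
    exact Finset.card_eq_three.mpr ⟨_, _, _, Ne.symm hy1, Ne.symm hy2, hy12, rfl⟩

end Cfsg.Agent.S0695
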