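import Mathlib
import Cfsg.Statements.S0744

set_option autoImplicit false
open Cfsg

namespace Cfsg.Agent.S0744

theorem orbit_mul_stab {K X : Type*} [Group K] [MulAction K X] (x : X) :
    Nat.card (MulAction.orbit K x) * Nat.card (MulAction.stabilizer K x) = Nat.card K := by
  rw [Nat.card_coe_set_eq, ← MulAction.index_stabilizer, Subgroup.index_mul_card]

theorem lemA {K X : Type*} [Group K] [MulAction K X] [Finite X] (d : ℕ)
    (h : ∀ x : X, Nat.card (MulAction.orbit K x) = d) : d ∣ Nat.card X := by
  classical
  haveI : Fintype (MulAction.orbitRel.Quotient K X) := Fintype.ofFinite _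
  rw [Nat.card_congr (MulAction.selfEquivSigmaOrbits K X), Nat.card_sigma]
  apply Finset.dvd_sum
  intro ω _
  rw [h]

theorem lemA' {K X : Type*} [Group K] [MulAction K X] [Finite X] (d : ℕ) (x₀ : X)
    (hfix : ∀ g : K, g • x₀ = x₀)
    (h : ∀ x : X, x ≠ x₀ → Nat.card (MulAction.orbit K x) = d) : d ∣ Nat.card X - 1 := by
  classical
  haveI : Fintype (MulAction.orbitRel.Quotient K X) := Fintype.ofFinite _
  rw [Nat.card_congr (MulAction.selfEquivSigmaOrbits K X), Nat.card_sigma]
  obtain ⟨ω₀, hω₀⟩ : ∃ ω₀ : MulAction.orbitRel.Quotient K X, ω₀ = Quotient.mk'' x₀ := ⟨_, rfl⟩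
  have horb : MulAction.orbit K x₀ = {x₀} := by
    ext y; constructor
    · rintro ⟨g, rfl⟩; exact hfix g
    · rintro rfl; exact MulAction.mem_orbit_self _
  have hout : ω₀.out = x₀ := by
    have h1 : ω₀.out ∈ MulAction.orbit K x₀ := by
      rw [hω₀]
      exact Quotient.mk_out (s := MulAction.orbitRel K X) x₀
    rw [horb] at h1
    exact h1
  rw [← Finset.add_sum_erase Finset.univ _ (Finset.mem_univ ω₀)]
  have h0 : Nat.card (MulAction.orbit K ω₀.out) = 1 := by
    rw [hout, horb]; simp
  rw [h0, Nat.add_sub_cancel_left]
  apply Finset.dvd_sum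
  intro ω hω
  rw [h]
  intro hcon
  apply (Finset.mem_erase.mp hω).1
  rw [hω₀, ← hcon]
  exact (Quotient.out_eq' ω).symm

theorem base {G α : Type*} [Group G] [Finite G] [MulAction G α] [Finite α] (l m : ℕ) (hlm : l ≠ m)
    (h1 : ∀ a : α, Nat.card (MulAction.stabilizer G a) = l)
    (h2 : ∀ a b : α, a ≠ b →
      Nat.card (MulAction.stabilizer (MulAction.stabilizer G a) b) = m) :
    MulAction.IsPretransitive G α := by
  refine ⟨fun a b => ?_⟩
  by_contra hb
  have hbO : b ∉ MulAction.orbit G a := hb
  have hl0 : l ≠ 0 := by rw [← h1 a]; exact Nat.card_pos.ne'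
  have horb : ∀ (c : α) (x : MulAction.orbit G c), (x : α) ≠ a →
      Nat.card (MulAction.orbit (MulAction.stabilizer G a) x) * m = l := by
    intro c x hx
    have e := orbit_mul_stab (K := MulAction.stabilizer G a) x
    have hs : MulAction.stabilizer (MulAction.stabilizer G a) x =
        MulAction.stabilizer (MulAction.stabilizer G a) (x : α) := by
      ext g
      simp only [MulAction.mem_stabilizer_iff]
      rw [Subtype.ext_iff]
      rfl
    rw [hs, h2 a x (Ne.symm hx), h1 a] at e
    exact e
  have hm0 : m ≠ 0 := by
    intro h0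
    have := horb b ⟨b, MulAction.mem_orbit_self b⟩
      (by rintro rfl; exact hbO (MulAction.mem_orbit_self _))
    rw [h0, mul_zero] at this
    exact hl0 this.symm
  have hd : ∀ (c : α) (x : MulAction.orbit G c), (x : α) ≠ a →
      Nat.card (MulAction.orbit (MulAction.stabilizer G a) x) = l / m := by
    intro c x hx
    exact (Nat.div_eq_of_eq_mul_left (Nat.pos_of_ne_zero hm0) (horb c x hx).symm).symm
  have hd1 : l / m ≠ 1 := by
    intro h
    have := horb b ⟨b, MulAction.mem_orbit_self b⟩
      (by rintro rfl; exact hbO (MulAction.mem_orbit_self _))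
    rw [hd b _ (by rintro rfl; exact hbO (MulAction.mem_orbit_self _)), h, one_mul] at this
    exact hlm this.symm
  have hA : l / m ∣ Nat.card (MulAction.orbit G b) := by
    apply lemA (K := MulAction.stabilizer G a)
    intro x
    apply hd b x
    intro hxa
    apply hbO
    have hx := x.2
    rw [hxa] at hx
    exact (MulAction.orbit_eq_iff.mpr hx) ▸ MulAction.mem_orbit_self b
  have hA' : l / m ∣ Nat.card (MulAction.orbit G a) - 1 := by
    apply lemA' (K := MulAction.stabilizer G a) (l / m) ⟨a, MulAction.mem_orbit_self a⟩
    · intro g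
      apply Subtype.ext
      exact g.2
    · intro x hx
      apply hd a x
      intro hxa
      exact hx (Subtype.ext hxa)
  have hcard : Nat.card (MulAction.orbit G a) = Nat.card (MulAction.orbit G b) := by
    have ea := orbit_mul_stab (K := G) a
    have eb := orbit_mul_stab (K := G) b
    rw [h1] at ea eb
    exact Nat.eq_of_mul_eq_mul_right (Nat.pos_of_ne_zero hl0) (ea.trans eb.symm)
  have hpos : 0 < Nat.card (MulAction.orbit G a) :=
    Nat.card_pos_iff.mpr ⟨⟨⟨a, MulAction.mem_orbit_self a⟩⟩, inferInstance⟩
  rw [← hcard] at hA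
  have h1' : l / m ∣ 1 := by
    have := Nat.dvd_sub hA hA'
    rwa [Nat.sub_sub_self hpos] at this
  exact hd1 (Nat.dvd_one.mp h1')

def stabStabEquiv {G α : Type*} [Group G] [MulAction G α] (a b : α) :
    MulAction.stabilizer (MulAction.stabilizer G a) b ≃ fixingSubgroup G ({a, b} : Set α) where
  toFun g := ⟨g.1.1, by
    rw [mem_fixingSubgroup_iff]
    intro y hy
    rcases hy with rfl | rfl
    · exact g.1.2
    · exact g.2⟩
  invFun g := ⟨⟨g.1, (mem_fixingSubgroup_iff G).mp g.2 a (by simp)⟩,
    (mem_fixingSubgroup_iff G).mp g.2 b (by simp)⟩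
  left_inv _ := rfl
  right_inv _ := rfl

theorem main (t : ℕ) : ∀ {G α : Type*} [Group G] [Finite G] [MulAction G α] [Finite α],
    t + 2 ≤ Nat.card α → ∀ l m : ℕ, l ≠ m →
    (∀ s : Set α, s.ncard = t + 1 → Nat.card (fixingSubgroup G s) = l) →
    (∀ s : Set α, s.ncard = t + 2 → Nat.card (fixingSubgroup G s) = m) →
    MulAction.IsMultiplyPretransitive G α (t + 1) := by
  induction t with
  | zero =>
    intro G α _ _ _ _ hn l m hlm h1 h2
    rw [MulAction.is_one_pretransitive_iff]
    apply base l m hlm
    · intro a
      have h := h1 {a} (Set.ncard_singleton a)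
      rw [← h]
      have : fixingSubgroup G ({a} : Set α) = MulAction.stabilizer G a := by
        ext g
        simp [mem_fixingSubgroup_iff]
      rw [this]
    · intro a b hab
      rw [Nat.card_congr (stabStabEquiv a b)]
      exact h2 {a, b} (Set.ncard_pair hab)
  | succ t ih =>
    intro G α _ _ _ _ hn l m hlm h1 h2
    have hstab : ∀ a : α, MulAction.IsMultiplyPretransitive (MulAction.stabilizer G a)
        (SubMulAction.ofStabilizer G a) (t + 1) := by
      intro a
      have hnot : ∀ s' : Set (SubMulAction.ofStabilizer G a), a ∉ Subtype.val '' s' := by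
        rintro s' ⟨x, _, hx⟩
        exact x.2 hx
      apply ih (l := l) (m := m)
      · have := SubMulAction.nat_card_ofStabilizer_add_one_eq G a; omega
      · exact hlm
      · intro s' hs'
        rw [← Nat.card_congr (SubMulAction.fixingSubgroupInsertEquiv a s').toEquiv]
        apply h1
        rw [Set.ncard_insert_of_notMem (hnot s'),
          Set.ncard_image_of_injective _ Subtype.val_injective, hs']
      · intro s' hs'
        rw [← Nat.card_congr (SubMulAction.fixingSubgroupInsertEquiv a s').toEquiv]
        apply h2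
        rw [Set.ncard_insert_of_notMem (hnot s'),
          Set.ncard_image_of_injective _ Subtype.val_injective, hs']
    have htrans : MulAction.IsPretransitive G α := by
      refine ⟨fun x y => ?_⟩
      by_cases hxy : x = y
      · exact ⟨1, by simp [hxy]⟩
      · obtain ⟨z, hzx, hzy⟩ : ∃ z, z ≠ x ∧ z ≠ y := by
          by_contra hcon
          push_neg at hcon
          have hsub : (Set.univ : Set α) ⊆ {x, y} := fun z _ => by
            by_cases hz : z = x
            · simp [hz]
            · simp [hcon z hz]
          have h3 := Set.ncard_le_ncard hsub (Set.toFinite _)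
          rw [Set.ncard_univ, Set.ncard_pair hxy] at h3
          omega
        have h1t : MulAction.IsPretransitive (MulAction.stabilizer G z)
            (SubMulAction.ofStabilizer G z) := by
          rw [← MulAction.is_one_pretransitive_iff]
          haveI := hstab z
          exact MulAction.isMultiplyPretransitive_of_le (n := t + 1) (by omega)
            (by have := SubMulAction.nat_card_ofStabilizer_add_one_eq G z; omega)
        obtain ⟨g, hg⟩ := h1t.exists_smul_eq ⟨x, Ne.symm hzx⟩ ⟨y, Ne.symm hzy⟩
        exact ⟨g.1, congrArg Subtype.val hg⟩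
    obtain ⟨a⟩ : Nonempty α := by
      by_contra hcon
      rw [not_nonempty_iff] at hcon
      simp at hn
    rw [SubMulAction.ofStabilizer.isMultiplyPretransitive (a := a)]
    exact hstab a

/-- If for some `k > 1` the pointwise stabilisers of all `(k-1)`-subsets have the same order `> 1` and those of all `k`-subsets have the same order, then the group is `(k-1)`-transitive. -/
theorem result {α : Type*} [Fintype α] [DecidableEq α] (G : Subgroup (Equiv.Perm α)) {k : ℕ} (hk : 1 < k) (hkn : k ≤ Fintype.card α) (l m : ℕ) (hl : 1 < l) (hkm1 : ∀ s : Finset α, s.card = k - 1 → Nat.card (fixingSubgroup G (s : Set α)) = l) (hkm : ∀ s : Finset α, s.card = k → Nat.card (fixingSubgroup G (s : Set α)) = m) : MulAction.IsMultiplyPretransitive G α (k - 1) := by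
  obtain ⟨t, rfl⟩ : ∃ t, k = t + 2 := ⟨k - 2, by omega⟩
  have hlm : l ≠ m := by
    obtain ⟨s, -, hs⟩ := Finset.exists_subset_card_eq (s := (Finset.univ : Finset α))
      (n := t + 1) (by rw [Finset.card_univ]; omega)
    have hl' := hkm1 s (by simpa using hs)
    have hnt : Nontrivial (fixingSubgroup G (s : Set α)) := by
      rw [← Finite.one_lt_card_iff_nontrivial, hl']; exact hl
    obtain ⟨g, hg⟩ := exists_ne (1 : fixingSubgroup G (s : Set α))
    have hex : ∃ a : α, g.1.1 a ≠ a := by
      by_contra hcon
      push_neg at hcon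
      apply hg; apply Subtype.ext; apply Subtype.ext; ext a; exact hcon a
    obtain ⟨a, ha⟩ := hex
    have has : a ∉ s := fun h => ha ((mem_fixingSubgroup_iff G).mp g.2 a h)
    have hm' := hkm (insert a s) (by rw [Finset.card_insert_of_notMem has, hs])
    have hlt : fixingSubgroup G ((insert a s : Finset α) : Set α) <
        fixingSubgroup G (s : Set α) := by
      rw [lt_iff_le_and_ne]
      constructor
      · apply fixingSubgroup_antitone; simp
      · intro heq
        have : g.1 ∈ fixingSubgroup G ((insert a s : Finset α) : Set α) := by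
          rw [heq]; exact g.2
        exact ha ((mem_fixingSubgroup_iff G).mp this a (by simp))
    have hcardlt : Nat.card (fixingSubgroup G ((insert a s : Finset α) : Set α)) <
        Nat.card (fixingSubgroup G (s : Set α)) := by
      have h := Set.ncard_lt_ncard (SetLike.coe_ssubset_coe.mpr hlt) (Set.toFinite _)
      rw [← Nat.card_coe_set_eq, ← Nat.card_coe_set_eq] at h
      exact h
    rw [hl', hm'] at hcardlt
    omega
  apply main t (by rw [Nat.card_eq_fintype_card]; exact hkn) l m hlm
  · intro s hs
    have := hkm1 (Set.toFinite s).toFinset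
      (by rw [← Set.ncard_eq_toFinset_card s (Set.toFinite s)]; simpa using hs)
    simpa using this
  · intro s hs
    have := hkm (Set.toFinite s).toFinset
      (by rw [← Set.ncard_eq_toFinset_card s (Set.toFinite s)]; exact hs)
    simpa using this

end Cfsg.Agent.S0744
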