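import Mathlib
import Cfsg.Statements.S0680
import Cfsg.Agent.S0695
import Cfsg.Agent.S0744

set_option autoImplicit false
open Cfsg

namespace Cfsg.Agent.S0680

/-- Frobenius kernel of a normal subgroup `N` of a 2-transitive group when two-point
stabilisers of `N` are trivial. -/
theorem FK {G X : Type*} [Group G] [Finite X] [MulAction G X] (hX : 2 ≤ Nat.card X)
    (N : Subgroup G) [hNn : N.Normal]
    (hNt : MulAction.IsPretransitive N X)
    (h2 : MulAction.IsMultiplyPretransitive G X 2)
    (hsr : ∀ a b : X, a ≠ b → ∀ n ∈ N, n • a = a → n • b = b → n = 1) :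
    ∃ K : Subgroup G, K ≤ N ∧ K.Normal ∧
      (∀ g : G, g ∈ K ↔ g ∈ N ∧ (g = 1 ∨ ∀ a : X, g • a ≠ a)) ∧
      MulAction.IsPretransitive K X ∧ (∀ a : X, MulAction.stabilizer K a = ⊥) := by
  classical
  haveI := Fintype.ofFinite X
  have hXc : 2 ≤ Fintype.card X := by rw [← Nat.card_eq_fintype_card]; exact hX
  obtain ⟨a₀, b₀, hab₀⟩ : ∃ a b : X, a ≠ b := by
    have : 1 < Nat.card X := hX
    rw [Finite.one_lt_card_iff_nontrivial] at this
    exact exists_pair_ne X
  haveI : Finite N := by
    apply Finite.of_injective (fun n : N => ((n : G) • a₀, (n : G) • b₀))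
    intro n m h
    simp only [Prod.mk.injEq] at h
    have h1 : (m⁻¹ * n : N) = 1 := by
      apply Subtype.ext
      apply hsr a₀ b₀ hab₀ ((m⁻¹ * n : N) : G) (m⁻¹ * n).2
      · change ((m : G)⁻¹ * (n : G)) • a₀ = a₀
        rw [mul_smul, h.1, inv_smul_smul]
      · change ((m : G)⁻¹ * (n : G)) • b₀ = b₀
        rw [mul_smul, h.2, inv_smul_smul]
    exact (inv_mul_eq_one.mp h1).symm
  haveI := Fintype.ofFinite N
  let F : Finset N := Finset.univ.filter (fun f => ∀ x : X, (f : G) • x ≠ x)
  have hFmem : ∀ f : N, f ∈ F ↔ ∀ x : X, (f : G) • x ≠ x := by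
    intro f; simp [F]
  haveI : ∀ g : N, Fintype (MulAction.fixedBy X g) := fun g => Fintype.ofFinite _
  haveI : Fintype (Quotient (MulAction.orbitRel N X)) := Fintype.ofFinite _
  have hB := MulAction.sum_card_fixedBy_eq_card_orbits_mul_card_group N X
  have horb : Fintype.card (Quotient (MulAction.orbitRel N X)) = 1 := by
    rw [Fintype.card_eq_one_iff]
    refine ⟨Quotient.mk'' a₀, fun q => ?_⟩
    induction q using Quotient.inductionOn' with
    | _ x =>
      apply Quotient.sound'
      exact MulAction.exists_smul_eq N a₀ x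
  have hpt : ∀ g : N, Fintype.card (MulAction.fixedBy X g) + (if g ∈ F then 1 else 0) =
      1 + (if g = 1 then Fintype.card X - 1 else 0) := by
    intro g
    by_cases hg1 : g = 1
    · subst hg1
      have h1F : (1 : N) ∉ F := by
        rw [hFmem]; push_neg; exact ⟨a₀, by simp⟩
      rw [if_neg h1F, if_pos rfl]
      have : Fintype.card (MulAction.fixedBy X (1 : N)) = Fintype.card X := by
        apply Fintype.card_of_subtype Finset.univ
        intro x; simp
      rw [this]; omega
    · rw [if_neg hg1]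
      by_cases hgF : g ∈ F
      · rw [if_pos hgF]
        have : Fintype.card (MulAction.fixedBy X g) = 0 := by
          rw [Fintype.card_eq_zero_iff]
          constructor
          rintro ⟨x, hx⟩
          exact (hFmem g).mp hgF x hx
        rw [this]
      · rw [if_neg hgF]
        have : Fintype.card (MulAction.fixedBy X g) = 1 := by
          rw [Fintype.card_eq_one_iff]
          have : ∃ x : X, (g : G) • x = x := by
            by_contra hcon
            push_neg at hcon
            exact hgF ((hFmem g).mpr hcon)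
          obtain ⟨x, hx⟩ := this
          refine ⟨⟨x, hx⟩, ?_⟩
          rintro ⟨y, hy⟩
          by_contra hne
          have hxy : y ≠ x := fun h => hne (Subtype.ext h)
          exact hg1 (Subtype.ext (hsr y x hxy g g.2 hy hx))
        rw [this]
  have hFcard : F.card = Fintype.card X - 1 := by
    have hsum := Finset.sum_congr (s₁ := (Finset.univ : Finset N)) rfl (fun g _ => hpt g)
    rw [Finset.sum_add_distrib, Finset.sum_add_distrib, hB, horb, one_mul] at hsum
    simp only [Finset.sum_boole, Finset.sum_const, Finset.card_univ, Finset.sum_ite_eq',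
      Finset.mem_univ, if_true, smul_eq_mul, mul_one, Finset.filter_mem_eq_inter,
      Finset.univ_inter] at hsum
    have : (F.card : ℕ) = Fintype.card X - 1 := by
      have h' := hsum
      push_cast at h'
      omega
    exact this
  have hFne : F.Nonempty := by
    rw [← Finset.card_pos, hFcard]; omega
  obtain ⟨f₀, hf₀⟩ := hFne
  have hf₀' : ∀ x : X, (f₀ : G) • x ≠ x := (hFmem f₀).mp hf₀
  have hsurj : ∀ a b : X, a ≠ b → ∃ f ∈ F, (f : G) • a = b := by
    intro a b hab
    have h2' : ∀ a b c d : X, a ≠ b → c ≠ d → ∃ g : G, g • a = c ∧ g • b = d :=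
      fun a b c d h h' => MulAction.is_two_pretransitive_iff.mp h2 h h'
    obtain ⟨g, hga, hgb⟩ := h2' a ((f₀ : G) • a) a b (Ne.symm (hf₀' a)) hab
    refine ⟨⟨g * f₀ * g⁻¹, hNn.conj_mem _ f₀.2 g⟩, ?_, ?_⟩
    · rw [hFmem]
      intro x hx
      apply hf₀' (g⁻¹ • x)
      have : (g * (f₀ : G) * g⁻¹) • x = x := hx
      rw [mul_smul, mul_smul] at this
      exact eq_inv_smul_iff.mpr this
    · change (g * (f₀ : G) * g⁻¹) • a = b
      rw [mul_smul, mul_smul, inv_smul_eq_iff.mpr hga.symm, hgb]
  have hinj : ∀ a : X, ∀ f ∈ F, ∀ f' ∈ F, (f : G) • a = (f' : G) • a → f = f' := by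
    intro a
    let φ : F → ({x : X | x ≠ a} : Set X) := fun f => ⟨(f.1 : G) • a, (hFmem f.1).mp f.2 a⟩
    have hφs : Function.Surjective φ := by
      rintro ⟨y, hy⟩
      obtain ⟨f, hf, hfa⟩ := hsurj a y (Ne.symm hy)
      exact ⟨⟨f, hf⟩, Subtype.ext hfa⟩
    have hcard : Fintype.card F = Fintype.card ({x : X | x ≠ a} : Set X) := by
      rw [Fintype.card_coe, hFcard, Set.card_ne_eq]
    have hφi := ((Fintype.bijective_iff_surjective_and_card φ).mpr ⟨hφs, hcard⟩).1
    intro f hf f' hf' h
    have : (⟨f, hf⟩ : F) = ⟨f', hf'⟩ := hφi (Subtype.ext h)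
    exact congrArg Subtype.val this
  have hFinv : ∀ f ∈ F, f⁻¹ ∈ F := by
    intro f hf
    rw [hFmem] at hf ⊢
    intro x hx
    apply hf x
    have : (f : G)⁻¹ • x = x := hx
    rw [inv_smul_eq_iff] at this
    exact this.symm
  have hFmul : ∀ f ∈ F, ∀ f' ∈ F, f * f' = 1 ∨ f * f' ∈ F := by
    intro f hf f' hf'
    by_cases h1 : f * f' = 1
    · left; exact h1
    · right
      rw [hFmem]
      intro x hx
      apply h1
      have hx' : (f : G) • ((f' : G) • x) = x := by rw [← mul_smul]; exact hx
      have : f⁻¹ = f' := hinj x f⁻¹ (hFinv f hf) f' hf' (by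
        change (f : G)⁻¹ • x = (f' : G) • x
        rw [inv_smul_eq_iff]; exact hx'.symm)
      rw [← this, mul_inv_cancel]
  let K' : Subgroup N :=
    { carrier := {f | f = 1 ∨ f ∈ F}
      one_mem' := Or.inl rfl
      mul_mem' := by
        rintro f f' (rfl | hf) (rfl | hf')
        · left; simp
        · right; simpa using hf'
        · right; simpa using hf
        · rcases hFmul f hf f' hf' with h | h
          · exact Or.inl h
          · exact Or.inr h
      inv_mem' := by
        rintro f (rfl | hf)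
        · left; simp
        · right; exact hFinv f hf }
  have hK' : ∀ f : N, f ∈ K' ↔ f = 1 ∨ f ∈ F := fun f => Iff.rfl
  have hK : ∀ g : G, g ∈ K'.map N.subtype ↔ g ∈ N ∧ (g = 1 ∨ ∀ a : X, g • a ≠ a) := by
    intro g
    rw [Subgroup.mem_map]
    constructor
    · rintro ⟨f, hf, rfl⟩
      refine ⟨f.2, ?_⟩
      rcases (hK' f).mp hf with h | h
      · left; rw [h]; rfl
      · right; exact (hFmem f).mp h
    · rintro ⟨hgN, h⟩
      refine ⟨⟨g, hgN⟩, ?_, rfl⟩
      rw [hK']
      rcases h with h | h
      · left; exact Subtype.ext h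
      · right; exact (hFmem _).mpr h
  refine ⟨K'.map N.subtype, ?_, ?_, hK, ?_, ?_⟩
  · intro g hg
    exact ((hK g).mp hg).1
  · constructor
    intro n hn g
    rw [hK] at hn ⊢
    refine ⟨hNn.conj_mem n hn.1 g, ?_⟩
    rcases hn.2 with h | h
    · left; rw [h]; group
    · right
      intro x hx
      apply h (g⁻¹ • x)
      rw [mul_smul, mul_smul] at hx
      exact eq_inv_smul_iff.mpr hx
  · constructor
    intro a b
    by_cases hab : a = b
    · exact ⟨1, by rw [one_smul]; exact hab⟩
    · obtain ⟨f, hf, hfa⟩ := hsurj a b hab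
      exact ⟨⟨(f : G), (hK _).mpr ⟨f.2, Or.inr ((hFmem f).mp hf)⟩⟩, hfa⟩
  · intro a
    rw [Subgroup.eq_bot_iff_forall]
    intro k hk
    have hk' : (k : G) • a = a := hk
    rcases ((hK _).mp k.2).2 with h | h
    · exact Subtype.ext h
    · exact absurd hk' (h a)

/-- A finite sharply doubly transitive permutation group has degree a prime power `p ^ j`; a Sylow `p`-subgroup is normal, elementary abelian and regular, and consists of the identity together with the elements without fixed points. (Frobenius' Theorem is not needed.) -/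
theorem result {α : Type*} [Fintype α] [DecidableEq α] (G : Subgroup (Equiv.Perm α)) [MulAction.IsMultiplyPretransitive G α 2] (hsharp : ∀ x : Fin 2 ↪ α, MulAction.stabilizer G x = ⊥) (h2 : 2 ≤ Fintype.card α) : ∃ p j : ℕ, p.Prime ∧ 1 ≤ j ∧ Fintype.card α = p ^ j ∧ ∀ (hp : Fact p.Prime) (P : Sylow p G), (P : Subgroup G).Normal ∧ IsMulCommutative (P : Subgroup G) ∧ (∀ x ∈ (P : Subgroup G), x ^ p = 1) ∧ MulAction.IsPretransitive (P : Subgroup G) α ∧ (∀ a : α, MulAction.stabilizer (P : Subgroup G) a = ⊥) ∧ ∀ g : G, g ∈ (P : Subgroup G) ↔ g = 1 ∨ ∀ a : α, g • a ≠ a := by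
  classical
  have hG2 : MulAction.IsMultiplyPretransitive G α 2 := inferInstance
  have hGt : MulAction.IsPretransitive G α := MulAction.isPretransitive_of_is_two_pretransitive
  have hsr0 : ∀ a b : α, a ≠ b → ∀ n : G, n • a = a → n • b = b → n = 1 := by
    intro a b hab n ha hb
    have hmem : n ∈ MulAction.stabilizer G (Function.Embedding.embFinTwo hab) := by
      rw [MulAction.mem_stabilizer_iff]
      ext i
      fin_cases i
      · exact ha
      · exact hb
    rw [hsharp] at hmem
    exact Subgroup.mem_bot.mp hmem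
  have hsr : ∀ a b : α, a ≠ b → ∀ n ∈ (⊤ : Subgroup G), n • a = a → n • b = b → n = 1 :=
    fun a b hab n _ ha hb => hsr0 a b hab n ha hb
  have hTt : MulAction.IsPretransitive (⊤ : Subgroup G) α :=
    ⟨fun a b => by
      obtain ⟨g, hg⟩ := MulAction.exists_smul_eq G a b
      exact ⟨⟨g, Subgroup.mem_top g⟩, hg⟩⟩
  obtain ⟨K, -, hKn, hKmem, hKt, hKreg⟩ :=
    FK (by rw [Nat.card_eq_fintype_card]; exact h2) (⊤ : Subgroup G) hTt hG2 hsr
  obtain ⟨p, k, hp, hcard, hexp, hcomm, -⟩ := S0695.elemAb h2 K hKt hKreg hG2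
  have hk : 1 ≤ k := by
    by_contra hk0
    have : k = 0 := by omega
    rw [this, pow_zero] at hcard
    omega
  refine ⟨p, k, hp, hk, hcard, ?_⟩
  intro hpF P
  have hKp : IsPGroup p K := by
    intro n
    refine ⟨1, ?_⟩
    rw [pow_one]
    exact Subtype.ext (hexp n.1 n.2)
  have hPK : (P : Subgroup G) ≤ K := by
    intro g hg
    rw [hKmem]
    refine ⟨Subgroup.mem_top g, ?_⟩
    by_contra hcon
    push_neg at hcon
    obtain ⟨hg1, a, hga⟩ := hcon
    obtain ⟨m, hm⟩ := (IsPGroup.iff_orderOf.mp P.isPGroup') ⟨g, hg⟩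
    have hord : orderOf g = p ^ m := by
      rw [← hm]; exact (Subgroup.orderOf_mk g hg).symm
    have hdvd : orderOf g ∣ Nat.card α - 1 := by
      apply S0744.lemA' (K := Subgroup.zpowers g) (X := α) (orderOf g) a
      · rintro ⟨z, hz⟩
        obtain ⟨i, rfl⟩ := Subgroup.mem_zpowers_iff.mp hz
        change (g ^ i) • a = a
        exact MulAction.zpow_smul_eq_iff_period_dvd.mpr (by
          rw [MulAction.period_eq_one_iff.mpr hga]; exact one_dvd _)
      · intro x hx
        have h1 := S0744.orbit_mul_stab (K := Subgroup.zpowers g) x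
        have h2' : MulAction.stabilizer (Subgroup.zpowers g) x = ⊥ := by
          rw [Subgroup.eq_bot_iff_forall]
          rintro ⟨z, hz⟩ hzx
          apply Subtype.ext
          obtain ⟨i, rfl⟩ := Subgroup.mem_zpowers_iff.mp hz
          have hza : (g ^ i) • a = a := MulAction.zpow_smul_eq_iff_period_dvd.mpr (by
            rw [MulAction.period_eq_one_iff.mpr hga]; exact one_dvd _)
          exact hsr0 a x (Ne.symm hx) (g ^ i) hza hzx
        rw [h2', Subgroup.card_bot, mul_one, Nat.card_zpowers] at h1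
        exact h1
    rw [Nat.card_eq_fintype_card, hcard, hord] at hdvd
    have hm0 : m = 0 := by
      by_contra hm0
      have hpd : p ∣ p ^ m := dvd_pow_self p hm0
      have hpd2 : p ∣ p ^ k := dvd_pow_self p (by omega)
      have h3 : p ∣ p ^ k - 1 := hpd.trans hdvd
      have hpos : 1 ≤ p ^ k := Nat.one_le_pow _ _ hp.pos
      have : p ∣ 1 := by
        have := Nat.dvd_sub hpd2 h3
        rwa [Nat.sub_sub_self hpos] at this
      exact hp.one_lt.ne' (Nat.dvd_one.mp this)
    rw [hm0, pow_zero] at hord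
    exact hg1 (orderOf_eq_one_iff.mp hord)
  have hEq : K = (P : Subgroup G) := P.is_maximal' hKp hPK
  rw [← hEq]
  refine ⟨hKn, isMulCommutative_iff.mpr hcomm, hexp, hKt, hKreg, ?_⟩
  intro g
  rw [hKmem]
  simp
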