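import Mathlib
import Cfsg.Statements.S0681

set_option autoImplicit false
open Cfsg

namespace Cfsg.Agent.S0681

theorem zero_mul' {F : Type*} [Cfsg.NearField F] (c : F) : 0 * c = 0 := by
  have h := Cfsg.NearField.right_distrib (0 : F) 0 c
  rw [add_zero] at h
  exact add_left_cancel (a := 0 * c) (by rw [add_zero]; exact h.symm)

theorem sub_mul' {F : Type*} [Cfsg.NearField F] (x y a : F) : (x - y) * a = x * a - y * a := by
  rw [eq_sub_iff_add_eq, ← Cfsg.NearField.right_distrib, sub_add_cancel]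

theorem mul_ne_zero' {F : Type*} [Cfsg.NearField F] (c a : F) (hc : c ≠ 0) (ha : a ≠ 0) :
    c * a ≠ 0 := by
  intro h
  obtain ⟨a', ha1, _⟩ := Cfsg.NearField.exists_inv a ha
  apply hc
  calc c = c * (a * a') := by rw [ha1, mul_one]
    _ = (c * a) * a' := by rw [mul_assoc]
    _ = 0 := by rw [h, zero_mul']

theorem inv_ne_zero' {F : Type*} [Cfsg.NearField F] (a a' : F) (h : a * a' = 1) : a' ≠ 0 := by
  rintro rfl
  rw [Cfsg.NearField.mul_zero] at h
  exact Cfsg.NearField.zero_ne_one h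

/-- The affine maps `x ↦ x * a + b`, `a ≠ 0`, of a near-field form a sharply doubly transitive permutation group. -/
theorem result {F : Type*} [Cfsg.NearField F] : ∃ H : Subgroup (Equiv.Perm F), (∀ σ : Equiv.Perm F, σ ∈ H ↔ ∃ a b : F, a ≠ 0 ∧ ∀ x : F, σ x = x * a + b) ∧ MulAction.IsMultiplyPretransitive H F 2 ∧ ∀ x : Fin 2 ↪ F, MulAction.stabilizer H x = ⊥ := by
  let H : Subgroup (Equiv.Perm F) :=
    { carrier := {σ | ∃ a b : F, a ≠ 0 ∧ ∀ x : F, σ x = x * a + b}
      one_mem' := ⟨1, 0, fun h => Cfsg.NearField.zero_ne_one h.symm, fun x => by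
        rw [mul_one, add_zero]; rfl⟩
      mul_mem' := by
        rintro σ τ ⟨a, b, ha, hσ⟩ ⟨c, d, hc, hτ⟩
        refine ⟨c * a, d * a + b, mul_ne_zero' c a hc ha, fun x => ?_⟩
        rw [Equiv.Perm.mul_apply, hτ, hσ, Cfsg.NearField.right_distrib, mul_assoc, add_assoc]
      inv_mem' := by
        rintro σ ⟨a, b, ha, hσ⟩
        obtain ⟨a', ha1, ha2⟩ := Cfsg.NearField.exists_inv a ha
        refine ⟨a', (-b) * a', inv_ne_zero' a a' ha1, fun x => ?_⟩
        apply σ.injective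
        have e : σ (σ⁻¹ x) = x := by simp
        rw [e, hσ, Cfsg.NearField.right_distrib, mul_assoc, mul_assoc, ha2, mul_one, mul_one,
          add_assoc, neg_add_cancel, add_zero] }
  refine ⟨H, fun σ => Iff.rfl, ?_, ?_⟩
  · rw [MulAction.is_two_pretransitive_iff]
    intro x₁ x₂ y₁ y₂ hx hy
    obtain ⟨u', hu1, hu2⟩ := Cfsg.NearField.exists_inv (x₁ - x₂) (sub_ne_zero.mpr hx)
    have ha : u' * (y₁ - y₂) ≠ 0 :=
      mul_ne_zero' _ _ (inv_ne_zero' _ _ hu1) (sub_ne_zero.mpr hy)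
    obtain ⟨a', ha1, ha2⟩ := Cfsg.NearField.exists_inv _ ha
    let σ : Equiv.Perm F :=
      { toFun := fun x => x * (u' * (y₁ - y₂)) + (-(x₂ * (u' * (y₁ - y₂))) + y₂)
        invFun := fun y => (y + -(-(x₂ * (u' * (y₁ - y₂))) + y₂)) * a'
        left_inv := fun x => by
          simp only
          rw [add_neg_cancel_right, mul_assoc, ha1, mul_one]
        right_inv := fun y => by
          simp only
          rw [mul_assoc, ha2, mul_one, neg_add_cancel_right] }
    have hσ : σ ∈ H := ⟨_, _, ha, fun x => rfl⟩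
    refine ⟨⟨σ, hσ⟩, ?_, ?_⟩
    · change x₁ * (u' * (y₁ - y₂)) + (-(x₂ * (u' * (y₁ - y₂))) + y₂) = y₁
      rw [← add_assoc, ← sub_eq_add_neg, ← sub_mul', ← mul_assoc, hu1, one_mul, sub_add_cancel]
    · change x₂ * (u' * (y₁ - y₂)) + (-(x₂ * (u' * (y₁ - y₂))) + y₂) = y₂
      rw [add_neg_cancel_left]
  · intro x
    rw [eq_bot_iff]
    rintro ⟨σ, ⟨a, b, ha, hσ⟩⟩ hstab
    rw [Subgroup.mem_bot]
    have h0 : σ (x 0) = x 0 := DFunLike.congr_fun hstab 0
    have h1 : σ (x 1) = x 1 := DFunLike.congr_fun hstab 1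
    have hne : x 0 ≠ x 1 := fun h => by simpa using x.injective h
    rw [hσ] at h0 h1
    have hu : (x 0 - x 1) * a = x 0 - x 1 := by
      rw [sub_mul', ← add_sub_add_right_eq_sub (x 0 * a) (x 1 * a) b, h0, h1]
    obtain ⟨u', hu1, hu2⟩ := Cfsg.NearField.exists_inv (x 0 - x 1) (sub_ne_zero.mpr hne)
    have ha1 : a = 1 := by
      calc a = (u' * (x 0 - x 1)) * a := by rw [hu2, one_mul]
        _ = u' * ((x 0 - x 1) * a) := by rw [mul_assoc]
        _ = 1 := by rw [hu, hu2]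
    have hb0 : b = 0 := by
      rw [ha1, mul_one] at h0
      exact add_left_cancel (a := x 0) (by rw [add_zero]; exact h0)
    apply Subtype.ext
    ext y
    change σ y = y
    rw [hσ, ha1, hb0, mul_one, add_zero]

end Cfsg.Agent.S0681
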