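import Mathlib
import Cfsg.Statements.S0682

set_option autoImplicit false
open Cfsg

namespace Cfsg.Agent.S0682

/-- A finite near-field has prime-power order; its additive group is commutative of prime exponent. -/
theorem result {F : Type*} [Cfsg.NearField F] [Finite F] : ∃ p j : ℕ, p.Prime ∧ 1 ≤ j ∧ Nat.card F = p ^ j ∧ (∀ x y : F, x + y = y + x) ∧ ∀ x : F, p • x = 0 := by
  have zero_mul' : ∀ c : F, 0 * c = 0 := by
    intro c
    have h := Cfsg.NearField.right_distrib (0 : F) 0 c
    rw [add_zero] at h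
    exact add_left_cancel (a := 0 * c) (by rw [add_zero]; exact h.symm)
  have nsmul_mul : ∀ (n : ℕ) (x c : F), (n • x) * c = n • (x * c) := by
    intro n x c
    induction n with
    | zero => rw [zero_nsmul, zero_nsmul, zero_mul']
    | succ n ih => rw [succ_nsmul, succ_nsmul, Cfsg.NearField.right_distrib, ih]
  have htrans : ∀ x y : F, x ≠ 0 → ∃ c : F, x * c = y := by
    intro x y hx
    obtain ⟨x', hx1, _⟩ := Cfsg.NearField.exists_inv x hx
    exact ⟨x' * y, by rw [← mul_assoc, hx1, one_mul]⟩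
  have hnt : Nontrivial F := ⟨⟨0, 1, Cfsg.NearField.zero_ne_one⟩⟩
  have hcard : 1 < Nat.card F := Finite.one_lt_card
  obtain ⟨p, hp, hpd⟩ := Nat.exists_prime_and_dvd (Nat.ne_of_gt hcard)
  haveI : Fact p.Prime := ⟨hp⟩
  obtain ⟨x₀, hx₀⟩ := exists_prime_addOrderOf_dvd_card' (G := F) p hpd
  have hx₀ne : x₀ ≠ 0 := by
    rintro rfl
    rw [addOrderOf_zero] at hx₀
    exact hp.one_lt.ne hx₀
  have hpx₀ : p • x₀ = 0 := by rw [← hx₀]; exact addOrderOf_nsmul_eq_zero x₀
  have hexp : ∀ y : F, p • y = 0 := by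
    intro y
    obtain ⟨c, rfl⟩ := htrans x₀ y hx₀ne
    rw [← nsmul_mul, hpx₀, zero_mul']
  have hpow : Nat.card F = p ^ (Nat.card F).primeFactorsList.length := by
    apply Nat.eq_prime_pow_of_unique_prime_dvd (by omega)
    intro q hq hqd
    haveI : Fact q.Prime := ⟨hq⟩
    obtain ⟨y, hy⟩ := exists_prime_addOrderOf_dvd_card' (G := F) q hqd
    have h1 : q ∣ p := by rw [← hy]; exact addOrderOf_dvd_of_nsmul_eq_zero (hexp y)
    exact (Nat.prime_dvd_prime_iff_eq hq hp).mp h1
  have hcomm : ∀ x y : F, x + y = y + x := by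
    have hP : IsPGroup p (Multiplicative F) :=
      IsPGroup.of_card (n := (Nat.card F).primeFactorsList.length) hpow
    haveI : Nontrivial (Multiplicative F) := hnt
    have hcn := hP.center_nontrivial
    obtain ⟨⟨z, hzc⟩, hz⟩ := exists_ne (1 : Subgroup.center (Multiplicative F))
    have hz' : ∀ y : F, y + Multiplicative.toAdd z = Multiplicative.toAdd z + y :=
      fun y => (Subgroup.mem_center_iff.mp hzc) (Multiplicative.ofAdd y)
    have hz'ne : Multiplicative.toAdd z ≠ 0 := by
      intro h0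
      apply hz
      apply Subtype.ext
      exact h0
    intro x y
    by_cases hx : x = 0
    · rw [hx, zero_add, add_zero]
    · obtain ⟨c, hc⟩ := htrans (Multiplicative.toAdd z) x hz'ne
      have hc0 : c ≠ 0 := by
        rintro rfl
        rw [Cfsg.NearField.mul_zero] at hc
        exact hx hc.symm
      obtain ⟨c', hc1, hc2⟩ := Cfsg.NearField.exists_inv c hc0
      have hy : y = (y * c') * c := by rw [mul_assoc, hc2, mul_one]
      rw [hy, ← hc, ← Cfsg.NearField.right_distrib, ← Cfsg.NearField.right_distrib,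
        hz' (y * c')]
  refine ⟨p, _, hp, ?_, hpow, hcomm, hexp⟩
  by_contra hcon
  have h0 : (Nat.card F).primeFactorsList.length = 0 := by omega
  rw [h0, pow_zero] at hpow
  omega

end Cfsg.Agent.S0682
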