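import Mathlib
import Cfsg.Statements.S0683
import Cfsg.Agent.S0680

set_option autoImplicit false
open Cfsg

namespace Cfsg.Agent.S0683

/-- A finite sharply doubly transitive permutation group is the affine group of a near-field: the permuted set carries a near-field structure for which the group consists exactly of the maps `x ↦ x * a + b` with `a ≠ 0`. -/
theorem result {α : Type*} [Fintype α] [DecidableEq α] (H : Subgroup (Equiv.Perm α)) [MulAction.IsMultiplyPretransitive H α 2] (hsharp : ∀ x : Fin 2 ↪ α, MulAction.stabilizer H x = ⊥) (h2 : 2 ≤ Fintype.card α) : ∃ _ : Cfsg.NearField α, ∀ σ : Equiv.Perm α, σ ∈ H ↔ ∃ a b : α, a ≠ 0 ∧ ∀ x : α, σ x = x * a + b := by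
  classical
  have hG2 : MulAction.IsMultiplyPretransitive H α 2 := inferInstance
  have hGt : MulAction.IsPretransitive H α := MulAction.isPretransitive_of_is_two_pretransitive
  have hsr0 : ∀ a b : α, a ≠ b → ∀ n : H, n • a = a → n • b = b → n = 1 := by
    intro a b hab n ha hb
    have hmem : n ∈ MulAction.stabilizer H (Function.Embedding.embFinTwo hab) := by
      rw [MulAction.mem_stabilizer_iff]
      ext i
      fin_cases i
      · exact ha
      · exact hb
    rw [hsharp] at hmem
    exact Subgroup.mem_bot.mp hmem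
  have hsr : ∀ a b : α, a ≠ b → ∀ n ∈ (⊤ : Subgroup H), n • a = a → n • b = b → n = 1 :=
    fun a b hab n _ ha hb => hsr0 a b hab n ha hb
  have hTt : MulAction.IsPretransitive (⊤ : Subgroup H) α :=
    ⟨fun a b => by
      obtain ⟨g, hg⟩ := MulAction.exists_smul_eq H a b
      exact ⟨⟨g, Subgroup.mem_top g⟩, hg⟩⟩
  obtain ⟨K, -, hKn, hKmem, hKt, hKreg⟩ :=
    S0680.FK (by rw [Nat.card_eq_fintype_card]; exact h2) (⊤ : Subgroup H) hTt hG2 hsr
  have h2' : ∀ a b c d : α, a ≠ b → c ≠ d → ∃ g : H, g • a = c ∧ g • b = d :=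
    fun a b c d h h' => MulAction.is_two_pretransitive_iff.mp hG2 h h'
  obtain ⟨o, e, hoe⟩ : ∃ a b : α, a ≠ b := by
    have : 1 < Fintype.card α := h2
    rw [Fintype.one_lt_card_iff_nontrivial] at this
    exact exists_pair_ne α
  -- translations
  have hκ : ∀ x : α, ∃ k : H, k ∈ K ∧ k • o = x := by
    intro x
    obtain ⟨k, hk⟩ := MulAction.exists_smul_eq K o x
    exact ⟨k.1, k.2, hk⟩
  choose κ hκK hκo using hκ
  have hκu : ∀ x : α, ∀ k ∈ K, k • o = x → k = κ x := by
    intro x k hk hko
    have := S0695.L1 K hKreg o ⟨k, hk⟩ ⟨κ x, hκK x⟩ (by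
      change k • o = κ x • o
      rw [hko, hκo])
    exact congrArg Subtype.val this
  have K1 : κ o = 1 := (hκu o 1 K.one_mem (one_smul _ _)).symm
  have K2 : ∀ y z : α, κ (κ z • y) = κ z * κ y := by
    intro y z
    exact (hκu _ (κ z * κ y) (K.mul_mem (hκK z) (hκK y)) (by rw [mul_smul, hκo])).symm
  have K3 : ∀ x : α, κ ((κ x)⁻¹ • o) = (κ x)⁻¹ := by
    intro x
    exact (hκu _ (κ x)⁻¹ (K.inv_mem (hκK x)) rfl).symm
  -- dilations
  have hη : ∀ a : α, ∃ h : H, h • o = o ∧ (a ≠ o → h • e = a) := by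
    intro a
    by_cases ha : a = o
    · exact ⟨1, one_smul _ _, fun h => absurd ha h⟩
    · obtain ⟨g, hg1, hg2⟩ := h2' o e o a hoe (Ne.symm ha)
      exact ⟨g, hg1, fun _ => hg2⟩
  choose η hηo hηe using hη
  have hηu : ∀ a : α, a ≠ o → ∀ h : H, h • o = o → h • e = a → h = η a := by
    intro a ha h hho hhe
    have : (η a)⁻¹ * h = 1 := by
      apply hsr0 o e hoe
      · rw [mul_smul, hho, inv_smul_eq_iff, hηo]
      · rw [mul_smul, hhe, inv_smul_eq_iff, hηe a ha]
    exact (inv_mul_eq_one.mp this).symm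
  have hηo' : ∀ a : α, (η a)⁻¹ • o = o := by
    intro a; rw [inv_smul_eq_iff, hηo]
  have K4 : ∀ c y : α, κ (η c • y) = η c * κ y * (η c)⁻¹ := by
    intro c y
    refine (hκu _ (η c * κ y * (η c)⁻¹) (hKn.conj_mem _ (hκK y) _) ?_).symm
    rw [mul_smul, mul_smul, hηo', hκo]
  have E1 : η e = 1 := (hηu e (Ne.symm hoe) 1 (one_smul _ _) (one_smul _ _)).symm
  have E0 : ∀ a b : α, a ≠ o → η b • a ≠ o := by
    intro a b ha h
    apply ha
    have : η b • a = η b • o := by rw [h, hηo]
    exact smul_left_cancel _ this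
  have E2 : ∀ a b : α, a ≠ o → b ≠ o → η (η b • a) = η b * η a := by
    intro a b ha hb
    refine (hηu _ (E0 a b ha) (η b * η a) ?_ ?_).symm
    · rw [mul_smul, hηo, hηo]
    · rw [mul_smul, hηe a ha]
  have E0' : ∀ a : α, (η a)⁻¹ • e ≠ o := by
    intro a h
    apply hoe
    have : (η a)⁻¹ • e = (η a)⁻¹ • o := by rw [h, hηo']
    exact (smul_left_cancel _ this).symm
  have E3 : ∀ a : α, a ≠ o → η ((η a)⁻¹ • e) = (η a)⁻¹ := by
    intro a ha
    exact (hηu _ (E0' a) (η a)⁻¹ (hηo' a) rfl).symm
  have hA1 : ∀ x y z : α, κ z • (κ y • x) = κ (κ z • y) • x := by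
    intro x y z
    rw [K2, mul_smul]
  have hA2 : ∀ x : α, κ x • o = x := hκo
  have hA3 : ∀ x : α, κ x • ((κ x)⁻¹ • o) = o := by
    intro x
    rw [smul_inv_smul]
  have hM1 : ∀ x a b : α, (if b = o then o else η b • (if a = o then o else η a • x)) =
      (if (if b = o then o else η b • a) = o then o
        else η (if b = o then o else η b • a) • x) := by
    intro x a b
    by_cases hb : b = o
    · simp [hb]
    · by_cases ha : a = o
      · simp [hb, ha, hηo]
      · rw [if_neg hb, if_neg ha, if_neg hb, if_neg (E0 a b ha), E2 a b ha hb, mul_smul]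
  have hM2 : ∀ a : α, (if a = o then o else η a • e) = a := by
    intro a
    by_cases ha : a = o
    · simp [ha]
    · rw [if_neg ha, hηe a ha]
  have hM3 : ∀ x : α, (if e = o then o else η e • x) = x := by
    intro x
    rw [if_neg (Ne.symm hoe), E1, one_smul]
  have hD : ∀ x y c : α, (if c = o then o else η c • (κ y • x)) =
      κ (if c = o then o else η c • y) • (if c = o then o else η c • x) := by
    intro x y c
    by_cases hc : c = o
    · simp [hc, K1]
    · rw [if_neg hc, if_neg hc, if_neg hc, K4, mul_smul, mul_smul, inv_smul_smul]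
  have hZ : ∀ a : α, (if o = o then o else η o • a) = o := by
    intro a
    rw [if_pos rfl]
  have hI : ∀ a : α, a ≠ o → ∃ b : α, (if b = o then o else η b • a) = e ∧
      (if a = o then o else η a • b) = e := by
    intro a ha'
    refine ⟨(η a)⁻¹ • e, ?_, ?_⟩
    · rw [if_neg (E0' a), E3 a ha', inv_smul_eq_iff, hηe a ha']
    · rw [if_neg ha', smul_inv_smul]
  letI iAdd : Add α := ⟨fun x y => κ y • x⟩
  letI iZero : Zero α := ⟨o⟩
  letI iNeg : Neg α := ⟨fun x => (κ x)⁻¹ • o⟩
  letI iAG : AddGroup α :=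
    AddGroup.ofLeftAxioms (fun x y z => hA1 x y z) (fun x => hA2 x) (fun x => hA3 x)
  letI iMon : Monoid α :=
    { mul := fun x a => if a = o then o else η a • x
      one := e
      mul_assoc := hM1
      one_mul := hM2
      mul_one := hM3 }
  refine ⟨{ toAddGroup := iAG, toMonoid := iMon, right_distrib := hD, mul_zero := hZ,
            zero_ne_one := hoe, exists_inv := hI }, ?_⟩
  · intro σ
    change σ ∈ H ↔ ∃ a b : α, a ≠ o ∧ ∀ x : α, σ x = κ b • (if a = o then o else η a • x)
    constructor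
    · intro hσ
      set s : H := ⟨σ, hσ⟩ with hs
      set b : α := σ o with hb
      set τ : H := (κ b)⁻¹ * s with hτ
      have hτo : τ • o = o := by
        rw [hτ, mul_smul, inv_smul_eq_iff, hκo]
        rfl
      have hτe : τ • e ≠ o := by
        intro h
        apply hoe
        have : τ • e = τ • o := by rw [h, hτo]
        exact (smul_left_cancel _ this).symm
      refine ⟨τ • e, b, hτe, ?_⟩
      intro x
      rw [if_neg hτe, ← hηu (τ • e) hτe τ hτo rfl, hτ, mul_smul, smul_inv_smul]
      rfl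
    · rintro ⟨a, b, ha, hσ⟩
      have : σ = ((κ b * η a : H) : Equiv.Perm α) := by
        apply Equiv.ext
        intro x
        rw [hσ x, if_neg ha]
        rfl
      rw [this]
      exact (κ b * η a).2

end Cfsg.Agent.S0683
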