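import Cfsg.Statements.S0684
import Mathlib
import Cfsg.Agent.Lib.Helper2.OddReal
-- import your own Cfsg.Agent.* helpers here

set_option autoImplicit false
open Cfsg

namespace Cfsg.Agent.S0684

open scoped IsMulCommutative in
theorem cyc {p : ℕ} [Fact p.Prime] {V : Type*} [AddCommGroup V] [Module (ZMod p) V] [Finite V]
    (H : Subgroup (V ≃ₗ[ZMod p] V))
    (hfree : ∀ h : H, ∀ v : V, v ≠ 0 → (h : V ≃ₗ[ZMod p] V) v = v → h = 1)
    (A : Subgroup H) [hAc : IsMulCommutative A] : IsCyclic A := by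
  classical
  haveI : Finite (V ≃ₗ[ZMod p] V) :=
    Finite.of_injective (fun f => (f : V → V)) DFunLike.coe_injective
  by_cases hV : ∃ x : V, x ≠ 0
  swap
  · push Not at hV
    haveI : Subsingleton A := ⟨fun a b => by
      apply Subtype.ext; apply Subtype.ext
      apply LinearEquiv.ext; intro x; rw [hV x]; simp⟩
    exact isCyclic_of_subsingleton
  obtain ⟨x₀, hx₀⟩ := hV
  haveI : Fintype A := Fintype.ofFinite A
  apply isCyclic_of_card_pow_eq_one_le
  intro n hn
  by_contra hcon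
  push Not at hcon
  obtain ⟨t, hts, htc⟩ := Finset.exists_subset_card_eq (Nat.succ_le_of_lt hcon)
  obtain ⟨v, hvinj, hvn⟩ : ∃ v : Fin (n + 1) → A, Function.Injective v ∧ ∀ i, v i ^ n = 1 := by
    refine ⟨fun i => (((Finset.equivFinOfCardEq htc).symm i : t) : A), ?_, ?_⟩
    · intro i j h
      exact (Finset.equivFinOfCardEq htc).symm.injective (Subtype.ext h)
    · intro i
      have := hts ((Finset.equivFinOfCardEq htc).symm i).2
      simpa using this
  let φ : A →* Module.End (ZMod p) V :=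
    { toFun := fun a => ((a : H) : V ≃ₗ[ZMod p] V).toLinearMap
      map_one' := rfl
      map_mul' := fun a b => rfl }
  obtain ⟨ρ, hρ⟩ : ∃ ρ : MonoidAlgebra (ZMod p) A →ₐ[ZMod p] Module.End (ZMod p) V,
      ∀ a : A, ρ (MonoidAlgebra.of (ZMod p) A a) = φ a :=
    ⟨MonoidAlgebra.lift (ZMod p) (Module.End (ZMod p) V) A φ,
      fun a => MonoidAlgebra.lift_of φ a⟩
  obtain ⟨w, hw⟩ : ∃ w : Fin (n + 1) → MonoidAlgebra (ZMod p) A,
      ∀ i, w i = MonoidAlgebra.of (ZMod p) A (v i) := ⟨_, fun _ => rfl⟩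
  have hdet : (Matrix.vandermonde w).det = 0 := by
    apply Matrix.det_zero_of_column_eq (i := 0) (j := Fin.last n)
    · intro h; have := congrArg Fin.val h; simp at this; omega
    · intro k
      rw [Matrix.vandermonde_apply, Matrix.vandermonde_apply]
      simp only [Fin.val_zero, pow_zero, Fin.val_last]
      rw [hw, ← map_pow, hvn k, map_one]
  rw [Matrix.det_vandermonde] at hdet
  have hmulQ : ∀ a b : MonoidAlgebra (ZMod p) A,
      Function.Injective (ρ a) → Function.Injective (ρ b) → Function.Injective (ρ (a * b)) := by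
    intro a b ha hb
    rw [map_mul]
    exact ha.comp hb
  have honeQ : Function.Injective (ρ (1 : MonoidAlgebra (ZMod p) A)) := by
    rw [map_one]; exact fun x y h => h
  have hQ : Function.Injective (ρ (∏ i : Fin (n + 1), ∏ j ∈ Finset.Ioi i, (w j - w i))) := by
    apply Finset.prod_induction _ (fun r => Function.Injective (ρ r)) hmulQ honeQ
    intro i _
    apply Finset.prod_induction _ (fun r => Function.Injective (ρ r)) hmulQ honeQ
    intro j hj
    have hij : i ≠ j := (Finset.mem_Ioi.mp hj).ne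
    rw [map_sub, hw, hw, hρ, hρ]
    show Function.Injective (⇑(φ (v j) - φ (v i)))
    rw [injective_iff_map_eq_zero]
    intro x hx
    by_contra hx0
    have h1 : ((v j : H) : V ≃ₗ[ZMod p] V) x = ((v i : H) : V ≃ₗ[ZMod p] V) x := by
      have : φ (v j) x - φ (v i) x = 0 := hx
      exact sub_eq_zero.mp this
    have h2 : (v i)⁻¹ * (v j) = 1 := by
      have := hfree (((v i)⁻¹ * (v j) : A) : H) x hx0 (by
        show ((v i : H) : V ≃ₗ[ZMod p] V).symm (((v j : H) : V ≃ₗ[ZMod p] V) x) = x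
        rw [h1]; exact LinearEquiv.symm_apply_apply _ x)
      exact Subtype.ext this
    exact hij (hvinj (inv_mul_eq_one.mp h2))
  rw [hdet, map_zero] at hQ
  exact hx₀ (hQ (show (0 : Module.End (ZMod p) V) x₀ = (0 : Module.End (ZMod p) V) 0 by simp))

/-- Point stabiliser of a sharply doubly transitive group not of semilinear type: a maximal normal abelian subgroup `A` of a linear group `H` that is regular on non-zero vectors and has no irreducible cyclic normal subgroup is cyclic and reducible, and the order of `A` divides `p ^ k - 1` for `k` the dimension of a minimal `A`-invariant subspace. -/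
theorem result {p : ℕ} [Fact p.Prime] {V : Type*} [AddCommGroup V] [Module (ZMod p) V] [Finite V] (H : Subgroup (V ≃ₗ[ZMod p] V)) (hreg : ∀ v w : V, v ≠ 0 → w ≠ 0 → ∃! h : H, (h : V ≃ₗ[ZMod p] V) v = w) (hI : ∀ A : Subgroup H, A.Normal → IsCyclic A → ∃ W : Submodule (ZMod p) V, W ≠ ⊥ ∧ W ≠ ⊤ ∧ ∀ a ∈ A, ∀ v ∈ W, ((a : H) : V ≃ₗ[ZMod p] V) v ∈ W) (A : Subgroup H) (hAn : A.Normal) (hAc : IsMulCommutative A) (hAmax : ∀ B : Subgroup H, B.Normal → IsMulCommutative B → A ≤ B → B = A) : IsCyclic A ∧ ∃ W : Submodule (ZMod p) V, W ≠ ⊥ ∧ W ≠ ⊤ ∧ (∀ a ∈ A, ∀ v ∈ W, ((a : H) : V ≃ₗ[ZMod p] V) v ∈ W) ∧ (∀ W' : Submodule (ZMod p) V, W' ≤ W → (∀ a ∈ A, ∀ v ∈ W', ((a : H) : V ≃ₗ[ZMod p] V) v ∈ W') → W' = ⊥ ∨ W' = W) ∧ Nat.card A ∣ p ^ Module.finrank (ZMod p) W - 1 := by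
  classical
  have hp : p.Prime := Fact.out
  haveI : Finite (V ≃ₗ[ZMod p] V) :=
    Finite.of_injective (fun f => (f : V → V)) DFunLike.coe_injective
  have hfree : ∀ h : H, ∀ v : V, v ≠ 0 → (h : V ≃ₗ[ZMod p] V) v = v → h = 1 := by
    intro h v hv hhv
    obtain ⟨h', -, huniq⟩ := hreg v v hv hv
    rw [huniq h hhv, huniq 1 (by simp)]
  have hcyc : IsCyclic A := Cfsg.Agent.S0684.cyc H hfree A
  refine ⟨hcyc, ?_⟩
  obtain ⟨W₀, hW₀bot, hW₀top, hW₀inv⟩ := hI A hAn hcyc
  have hex : ∃ n, ∃ W : Submodule (ZMod p) V, W ≤ W₀ ∧ W ≠ ⊥ ∧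
      (∀ a ∈ A, ∀ v ∈ W, ((a : H) : V ≃ₗ[ZMod p] V) v ∈ W) ∧ Module.finrank (ZMod p) W = n :=
    ⟨_, W₀, le_rfl, hW₀bot, hW₀inv, rfl⟩
  obtain ⟨W, hWle, hWbot, hWinv, hWn⟩ := Nat.find_spec hex
  have hmin := fun m (hm : m < Nat.find hex) => Nat.find_min hex hm
  haveI : Module.Finite (ZMod p) V := Module.Finite.of_finite
  refine ⟨W, hWbot, ?_, hWinv, ?_, ?_⟩
  · rintro rfl
    exact hW₀top (top_le_iff.mp hWle)
  · intro W' hW'le hW'inv
    by_cases hW'bot : W' = ⊥
    · exact Or.inl hW'bot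
    right
    apply Submodule.eq_of_le_of_finrank_le hW'le
    by_contra hlt
    push Not at hlt
    exact hmin _ (by rw [← hWn]; exact hlt) ⟨W', hW'le.trans hWle, hW'bot, hW'inv, rfl⟩
  · haveI : Fintype A := Fintype.ofFinite A
    obtain ⟨act, hact⟩ : ∃ act : A → {w : W // w ≠ 0} → {w : W // w ≠ 0},
        ∀ a y, (((act a y).1 : W) : V) = ((a : H) : V ≃ₗ[ZMod p] V) ((y.1 : W) : V) :=
      ⟨fun a y => ⟨⟨((a : H) : V ≃ₗ[ZMod p] V) ((y.1 : W) : V), hWinv a a.2 _ y.1.2⟩, by
        intro h0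
        apply y.2
        have h1 : ((a : H) : V ≃ₗ[ZMod p] V) ((y.1 : W) : V) = 0 := congrArg Subtype.val h0
        apply Subtype.ext
        exact (LinearEquiv.map_eq_zero_iff _).mp h1⟩, fun a y => rfl⟩
    have hact1 : ∀ y, act 1 y = y := by
      intro y
      apply Subtype.ext; apply Subtype.ext
      rw [hact]; rfl
    have hactmul : ∀ g h y, act (g * h) y = act g (act h y) := by
      intro g h y
      apply Subtype.ext; apply Subtype.ext
      rw [hact, hact, hact]; rfl
    have hb := Cfsg.Agent.Lib.Helper2.OddReal.burnside act hact1 hactmul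
    have hsum : (∑ a : A, Nat.card {y : {w : W // w ≠ 0} // act a y = y})
        = Nat.card {w : W // w ≠ 0} := by
      rw [Finset.sum_eq_single (1 : A)]
      · exact Nat.card_congr (Equiv.subtypeUnivEquiv (fun y => hact1 y))
      · intro a _ ha
        rw [Nat.card_eq_zero]
        left
        constructor
        rintro ⟨y, hy⟩
        apply ha
        have h1 : ((a : H) : V ≃ₗ[ZMod p] V) ((y.1 : W) : V) = ((y.1 : W) : V) := by
          rw [← hact, hy]
        have := hfree (a : H) ((y.1 : W) : V) (fun h0 => y.2 (Subtype.ext h0)) h1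
        exact Subtype.ext this
      · intro h; exact absurd (Finset.mem_univ _) h
    have hcardY : Nat.card {w : W // w ≠ 0} = p ^ Module.finrank (ZMod p) W - 1 := by
      haveI : Fintype W := Fintype.ofFinite W
      rw [Nat.card_eq_fintype_card, Fintype.card_subtype_compl, Fintype.card_subtype_eq,
        ← Nat.card_eq_fintype_card, Module.natCard_eq_pow_finrank (K := ZMod p) (V := W),
        Nat.card_zmod]
    rw [hsum, hcardY] at hb
    exact Dvd.intro_left _ hb

end Cfsg.Agent.S0684
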