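import Cfsg.Statements.S0685
import Mathlib
import Cfsg.Agent.S0684
-- import your own Cfsg.Agent.* helpers here

set_option autoImplicit false
open Cfsg

namespace Cfsg.Agent.S0685

/-- In a linear group over the prime field that is regular on non-zero vectors and has no irreducible cyclic normal subgroup, a maximal normal abelian subgroup is properly contained in its centraliser, which is non-abelian. -/
theorem result {p : ℕ} [Fact p.Prime] {V : Type*} [AddCommGroup V] [Module (ZMod p) V] [Finite V] (H : Subgroup (V ≃ₗ[ZMod p] V)) (hreg : ∀ v w : V, v ≠ 0 → w ≠ 0 → ∃! h : H, (h : V ≃ₗ[ZMod p] V) v = w) (hI : ∀ A : Subgroup H, A.Normal → IsCyclic A → ∃ W : Submodule (ZMod p) V, W ≠ ⊥ ∧ W ≠ ⊤ ∧ ∀ a ∈ A, ∀ v ∈ W, ((a : H) : V ≃ₗ[ZMod p] V) v ∈ W) (A : Subgroup H) (hAn : A.Normal) (hAc : IsMulCommutative A) (hAmax : ∀ B : Subgroup H, B.Normal → IsMulCommutative B → A ≤ B → B = A) : A < Subgroup.centralizer (A : Set H) ∧ ¬ IsMulCommutative (Subgroup.centralizer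 (A : Set H)) := by
  classical
  have hp : p.Prime := Fact.out
  haveI : Finite (V ≃ₗ[ZMod p] V) :=
    Finite.of_injective (fun f => (f : V → V)) DFunLike.coe_injective
  haveI : Module.Finite (ZMod p) V := Module.Finite.of_finite
  obtain ⟨hcyc, W, hWbot, hWtop, hWinv, hWmin, hdvd⟩ :=
    Cfsg.Agent.S0684.result H hreg hI A hAn hAc hAmax
  have hAle : A ≤ Subgroup.centralizer (A : Set H) := by
    intro a ha
    rw [Subgroup.mem_centralizer_iff]
    intro b hb
    have := hAc.is_comm.comm (⟨b, hb⟩ : A) ⟨a, ha⟩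
    exact congrArg Subtype.val this
  have hne : Subgroup.centralizer (A : Set H) ≠ A := by
    intro hCA
    obtain ⟨g, hg⟩ := IsCyclic.exists_generator (α := A)
    have hkey : ∀ x h₀ : H, x * (g : H) * x⁻¹ = h₀ * (g : H) * h₀⁻¹ → h₀⁻¹ * x ∈ A := by
      intro x h₀ hx
      rw [← hCA, Subgroup.mem_centralizer_iff]
      intro b hb
      have h1 : h₀⁻¹ * (x * (g : H) * x⁻¹) * x = h₀⁻¹ * (h₀ * (g : H) * h₀⁻¹) * x := by rw [hx]
      have h2 : h₀⁻¹ * x * (g : H) = (g : H) * (h₀⁻¹ * x) := by simpa [mul_assoc] using h1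
      obtain ⟨m, hm⟩ := Subgroup.mem_zpowers_iff.mp (hg ⟨b, hb⟩)
      have hb' : b = (g : H) ^ m := by
        have := congrArg Subtype.val hm
        simpa using this.symm
      rw [hb']
      exact (Commute.zpow_left (show Commute (g : H) (h₀⁻¹ * x) from h2.symm) m).eq
    haveI : Fintype A := Fintype.ofFinite A
    obtain ⟨f', hf'⟩ : ∃ f' : H → A, ∀ h, ((f' h : A) : H) = h * (g : H) * h⁻¹ :=
      ⟨fun h => ⟨h * (g : H) * h⁻¹, hAn.conj_mem (g : H) g.2 h⟩, fun h => rfl⟩
    have hfib : ∀ c : A, Nat.card {x : H // f' x = c} ≤ Nat.card A := by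
      intro c
      by_cases hne : Nonempty {x : H // f' x = c}
      · obtain ⟨⟨h₀, hh₀⟩⟩ := hne
        apply Nat.card_le_card_of_injective (fun x : {x : H // f' x = c} =>
          (⟨h₀⁻¹ * x.1, hkey x.1 h₀ (by rw [← hf', ← hf', x.2, hh₀])⟩ : A))
        intro x y hxy
        have := congrArg Subtype.val hxy
        exact Subtype.ext (mul_left_cancel this)
      · rw [not_nonempty_iff] at hne
        rw [Nat.card_of_isEmpty]; exact Nat.zero_le _
    have hHle : Nat.card H ≤ Nat.card A * Nat.card A := by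
      rw [← Nat.card_congr (Equiv.sigmaFiberEquiv f'), Nat.card_sigma]
      calc ∑ c : A, Nat.card {x : H // f' x = c} ≤ ∑ c : A, Nat.card A :=
            Finset.sum_le_sum (fun c _ => hfib c)
        _ = Nat.card A * Nat.card A := by
            rw [Finset.sum_const, Finset.card_univ, smul_eq_mul, Nat.card_eq_fintype_card]
    obtain ⟨w₀, hw₀W, hw₀⟩ : ∃ w₀ ∈ W, w₀ ≠ 0 := (Submodule.ne_bot_iff W).mp hWbot
    obtain ⟨v₁, hv₁⟩ : ∃ v₁, v₁ ∉ W := by
      by_contra hcon
      push Not at hcon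
      exact hWtop (eq_top_iff.mpr (fun v _ => hcon v))
    have hv₁0 : v₁ ≠ 0 := fun h => hv₁ (h ▸ W.zero_mem)
    obtain ⟨h₁, hh₁, -⟩ := hreg w₀ v₁ hw₀ hv₁0
    obtain ⟨W', hW'⟩ : ∃ W' : Submodule (ZMod p) V,
        W' = W.map (((h₁ : H) : V ≃ₗ[ZMod p] V) : V →ₗ[ZMod p] V) := ⟨_, rfl⟩
    have hmemW' : ∀ v, v ∈ W' ↔ ∃ y ∈ W, ((h₁ : H) : V ≃ₗ[ZMod p] V) y = v := by
      intro v; rw [hW']; exact Submodule.mem_map
    have hinfinv : ∀ a ∈ A, ∀ v ∈ W ⊓ W', ((a : H) : V ≃ₗ[ZMod p] V) v ∈ W ⊓ W' := by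
      intro a ha v hv
      obtain ⟨y, hyW, hy⟩ := (hmemW' v).mp hv.2
      refine Submodule.mem_inf.mpr ⟨hWinv a ha v hv.1, (hmemW' _).mpr ?_⟩
      have hconj : h₁⁻¹ * a * h₁ ∈ A := by simpa using hAn.conj_mem a ha h₁⁻¹
      refine ⟨((h₁⁻¹ * a * h₁ : H) : V ≃ₗ[ZMod p] V) y, hWinv _ hconj y hyW, ?_⟩
      show ((h₁ : H) : V ≃ₗ[ZMod p] V) (((h₁ : H) : V ≃ₗ[ZMod p] V).symm
        (((a : H) : V ≃ₗ[ZMod p] V) (((h₁ : H) : V ≃ₗ[ZMod p] V) y))) = _
      rw [LinearEquiv.apply_symm_apply, hy]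
    have hinf : W ⊓ W' = ⊥ := by
      rcases hWmin (W ⊓ W') inf_le_left hinfinv with h | h
      · exact h
      · exfalso
        have hle : W ≤ W' := by rw [← h]; exact inf_le_right
        have hfr : Module.finrank (ZMod p) W' = Module.finrank (ZMod p) W := by
          rw [hW']; exact LinearEquiv.finrank_map_eq _ W
        have heq : W = W' := Submodule.eq_of_le_of_finrank_le hle hfr.le
        apply hv₁
        rw [heq, hmemW']
        exact ⟨w₀, hw₀W, hh₁⟩
    have hinj : Function.Injective (fun xy : W × W =>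
        (xy.1 : V) + ((h₁ : H) : V ≃ₗ[ZMod p] V) (xy.2 : V)) := by
      rintro ⟨x, y⟩ ⟨x', y'⟩ hxy
      have hxy' : (x : V) + ((h₁ : H) : V ≃ₗ[ZMod p] V) (y : V)
          = (x' : V) + ((h₁ : H) : V ≃ₗ[ZMod p] V) (y' : V) := hxy
      have hmem : (x : V) - (x' : V) ∈ W ⊓ W' := by
        refine Submodule.mem_inf.mpr ⟨W.sub_mem x.2 x'.2, (hmemW' _).mpr ?_⟩
        refine ⟨(y' : V) - (y : V), W.sub_mem y'.2 y.2, ?_⟩
        rw [map_sub, sub_eq_sub_iff_add_eq_add, add_comm]
        exact hxy'.symm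
      rw [hinf, Submodule.mem_bot, sub_eq_zero] at hmem
      have hx : x = x' := Subtype.ext hmem
      have hy : y = y' := by
        rw [hmem] at hxy'
        have := add_left_cancel hxy'
        exact Subtype.ext ((((h₁ : H) : V ≃ₗ[ZMod p] V)).injective this)
      rw [hx, hy]
    have hcard2 : Nat.card W * Nat.card W ≤ Nat.card V := by
      rw [← Nat.card_prod]; exact Nat.card_le_card_of_injective _ hinj
    have hVH : Nat.card V ≤ Nat.card H + 1 := by
      have hsurj : Function.Surjective (fun h : H =>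
          (⟨((h : H) : V ≃ₗ[ZMod p] V) w₀, by
            intro h0; exact hw₀ ((LinearEquiv.map_eq_zero_iff _).mp h0)⟩ : {v : V // v ≠ 0})) := by
        rintro ⟨v, hv⟩
        obtain ⟨h, hh, -⟩ := hreg w₀ v hw₀ hv
        exact ⟨h, Subtype.ext hh⟩
      have h1 := Nat.card_le_card_of_surjective _ hsurj
      haveI : Fintype V := Fintype.ofFinite V
      have h2 : Nat.card {v : V // v ≠ 0} = Nat.card V - 1 := by
        rw [Nat.card_eq_fintype_card, Fintype.card_subtype_compl, Fintype.card_subtype_eq,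
          ← Nat.card_eq_fintype_card]
      omega
    have hWcard : Nat.card W = p ^ Module.finrank (ZMod p) W := by
      rw [Module.natCard_eq_pow_finrank (K := ZMod p) (V := W), Nat.card_zmod]
    have hq2 : 2 ≤ Nat.card W := by
      rw [hWcard]
      have hk : Module.finrank (ZMod p) W ≠ 0 := by
        intro h0
        apply hWbot
        exact Submodule.finrank_eq_zero.mp h0
      calc 2 ≤ p := hp.two_le
        _ = p ^ 1 := (pow_one p).symm
        _ ≤ p ^ Module.finrank (ZMod p) W :=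
            Nat.pow_le_pow_right hp.pos (Nat.one_le_iff_ne_zero.mpr hk)
    have hAq : Nat.card A + 1 ≤ Nat.card W := by
      have hpos : 0 < p ^ Module.finrank (ZMod p) W - 1 := by rw [← hWcard]; omega
      have := Nat.le_of_dvd hpos hdvd
      rw [hWcard]
      omega
    have hApos : 0 < Nat.card A := Nat.card_pos
    have h5 : (Nat.card A + 1) * (Nat.card A + 1) ≤ Nat.card W * Nat.card W :=
      Nat.mul_le_mul hAq hAq
    nlinarith [h5, hcard2, hVH, hHle, hApos]
  have hlt : A < Subgroup.centralizer (A : Set H) := lt_of_le_of_ne hAle (Ne.symm hne)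
  haveI := hAn
  refine ⟨hlt, fun hcomm => ?_⟩
  exact hne (hAmax _ inferInstance hcomm hAle)

end Cfsg.Agent.S0685
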