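import Mathlib
import Cfsg.Statements.S0691
import Cfsg.Agent.H4Sharp

set_option autoImplicit false

open Cfsg

namespace Cfsg.Agent.S0691

open Cfsg.Agent.H4Sharp

/-- The list of group elements (up to scalars). -/
def L : List Q := [
  (1, 0, 0, 1), (2, 0, 0, 3), (0, 4, 1, 0), (1, 2, 1, 3), (3, 0, 0, 2), (0, 1, 4, 0),
  (3, 3, 4, 1), (4, 0, 0, 4), (0, 3, 3, 0), (2, 4, 3, 4), (0, 2, 2, 0), (1, 1, 2, 3),
  (4, 2, 1, 2), (1, 4, 3, 3), (2, 1, 2, 4), (3, 4, 3, 1), (3, 1, 2, 1), (4, 4, 3, 2),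
  (1, 3, 4, 3), (4, 1, 2, 2), (3, 2, 1, 1), (2, 3, 4, 4), (4, 3, 4, 2), (2, 2, 1, 4)]

/-- The word program. -/
def prog : List (ℕ × ℕ) := [
  (0, 0), (0, 1), (0, 2), (0, 3), (0, 4), (0, 5), (1, 0), (1, 1), (1, 2), (1, 4),
  (1, 5), (2, 2), (2, 5), (3, 0), (3, 3), (3, 4), (4, 5), (5, 2), (5, 5), (6, 1),
  (6, 4), (7, 2), (7, 5)]

/-- Generators and their inverses. -/
def gs : List Q := [(2, 0, 0, 3), (0, 4, 1, 0), (1, 2, 1, 3), (3, 0, 0, 2), (0, 1, 4, 0), (3, 3, 4, 1)]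

/-- The scalars. -/
def zs : List ℕ := [1]

theorem c_red : chkRed 5 L zs = true := by decide +kernel
theorem c_det : chkDet 5 L = true := by decide +kernel
theorem c_free : chkFree 5 L zs = true := by decide +kernel
theorem c_zs : chkZs 5 zs = true := by decide +kernel
theorem c_mul : gs.all (chkMul 5 L zs) = true := by decide +kernel
theorem c_w : chkW 5 gs L.tail prog [one] = true := by decide +kernel
theorem c_L0 : L = one :: L.tail := by decide +kernel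
theorem c_nodup : L.Nodup := by decide +kernel
theorem c_zn : (zs.map fun z => z * z % 5).Nodup := by decide +kernel
theorem c_card : zs.length * L.length = 5 ^ 2 - 1 := by decide +kernel

/-- An exceptional sharply doubly transitive group of degree 5^2: the listed matrices generate a subgroup of GL(2,5) of order 24 acting regularly on the non-zero vectors. -/
theorem result (A : Matrix.GeneralLinearGroup (Fin 2) (ZMod 5)) (B : Matrix.GeneralLinearGroup (Fin 2) (ZMod 5)) (C : Matrix.GeneralLinearGroup (Fin 2) (ZMod 5)) (hA : (A : Matrix (Fin 2) (Fin 2) (ZMod 5)) = !![2, 0; 0, -2]) (hB : (B : Matrix (Fin 2) (Fin 2) (ZMod 5)) = !![0, -1; 1, 0]) (hC : (C : Matrix (Fin 2) (Fin 2) (ZMod 5)) = !![1, 2; 1, -2]) : Nat.card (Subgroup.closure ({A, B, C} : Set (Matrix.GeneralLinearGroup (Fin 2) (ZMod 5)))) = 24 ∧ ∀ v w : Fin 2 → ZMod 5, v ≠ 0 → w ≠ 0 → ∃! h : Subgroup.closure ({A, B, C}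 : Set (Matrix.GeneralLinearGroup (Fin 2) (ZMod 5))), Matrix.mulVec ((h : Matrix.GeneralLinearGroup (Fin 2) (ZMod 5)) : Matrix (Fin 2) (Fin 2) (ZMod 5)) v = w := by
  have eA : (A : Matrix (Fin 2) (Fin 2) (ZMod 5)) = toM 5 (2, 0, 0, 3) := by
    rw [hA]; decide
  have eA' : ((A⁻¹ : Matrix.GeneralLinearGroup (Fin 2) (ZMod 5)) : Matrix (Fin 2) (Fin 2) (ZMod 5)) = toM 5 (3, 0, 0, 2) :=
    inv_coe 5 A (2, 0, 0, 3) (3, 0, 0, 2) eA (by decide)
  have eB : (B : Matrix (Fin 2) (Fin 2) (ZMod 5)) = toM 5 (0, 4, 1, 0) := by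
    rw [hB]; decide
  have eB' : ((B⁻¹ : Matrix.GeneralLinearGroup (Fin 2) (ZMod 5)) : Matrix (Fin 2) (Fin 2) (ZMod 5)) = toM 5 (0, 1, 4, 0) :=
    inv_coe 5 B (0, 4, 1, 0) (0, 1, 4, 0) eB (by decide)
  have eC : (C : Matrix (Fin 2) (Fin 2) (ZMod 5)) = toM 5 (1, 2, 1, 3) := by
    rw [hC]; decide
  have eC' : ((C⁻¹ : Matrix.GeneralLinearGroup (Fin 2) (ZMod 5)) : Matrix (Fin 2) (Fin 2) (ZMod 5)) = toM 5 (3, 3, 4, 1) :=
    inv_coe 5 C (1, 2, 1, 3) (3, 3, 4, 1) eC (by decide)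
  have hmemgs : ∀ q : Q, q ∈ gs ↔ q = (2, 0, 0, 3) ∨ q = (0, 4, 1, 0) ∨ q = (1, 2, 1, 3) ∨ q = (3, 0, 0, 2) ∨ q = (0, 1, 4, 0) ∨ q = (3, 3, 4, 1) := by
    intro q; simp [gs]
  have hgens : ∀ g ∈ ({A, B, C} : Set (Matrix.GeneralLinearGroup (Fin 2) (ZMod 5))),
      (∃ q ∈ gs, (g : Matrix (Fin 2) (Fin 2) (ZMod 5)) = toM 5 q) ∧
      (∃ q ∈ gs, ((g⁻¹ : Matrix.GeneralLinearGroup (Fin 2) (ZMod 5)) : Matrix (Fin 2) (Fin 2) (ZMod 5)) = toM 5 q) := by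
    intro g hg
    simp only [Set.mem_insert_iff, Set.mem_singleton_iff] at hg
    rcases hg with rfl | rfl | rfl
    · exact ⟨⟨_, (hmemgs _).mpr (by simp), eA⟩, ⟨_, (hmemgs _).mpr (by simp), eA'⟩⟩
    · exact ⟨⟨_, (hmemgs _).mpr (by simp), eB⟩, ⟨_, (hmemgs _).mpr (by simp), eB'⟩⟩
    · exact ⟨⟨_, (hmemgs _).mpr (by simp), eC⟩, ⟨_, (hmemgs _).mpr (by simp), eC'⟩⟩
  have hgs : ∀ q ∈ gs, ∃ g ∈ Subgroup.closure ({A, B, C} : Set (Matrix.GeneralLinearGroup (Fin 2) (ZMod 5))),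
      ((g : Matrix.GeneralLinearGroup (Fin 2) (ZMod 5)) : Matrix (Fin 2) (Fin 2) (ZMod 5)) = toM 5 q := by
    intro q hq
    rw [hmemgs] at hq
    rcases hq with rfl | rfl | rfl | rfl | rfl | rfl
    · exact ⟨A, Subgroup.subset_closure (by simp), eA⟩
    · exact ⟨B, Subgroup.subset_closure (by simp), eB⟩
    · exact ⟨C, Subgroup.subset_closure (by simp), eC⟩
    · exact ⟨A⁻¹, Subgroup.inv_mem _ (Subgroup.subset_closure (by simp)), eA'⟩
    · exact ⟨B⁻¹, Subgroup.inv_mem _ (Subgroup.subset_closure (by simp)), eB'⟩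
    · exact ⟨C⁻¹, Subgroup.inv_mem _ (Subgroup.subset_closure (by simp)), eC'⟩
  have hz : ∀ z ∈ zs, ∃ g ∈ Subgroup.closure ({A, B, C} : Set (Matrix.GeneralLinearGroup (Fin 2) (ZMod 5))),
      ((g : Matrix.GeneralLinearGroup (Fin 2) (ZMod 5)) : Matrix (Fin 2) (Fin 2) (ZMod 5)) = (z : ZMod 5) • (1 : Matrix (Fin 2) (Fin 2) (ZMod 5)) := hz_one 5 _
  haveI : Fact (Nat.Prime 5) := ⟨by norm_num⟩
  have hmain := sharp_main 5 ({A, B, C} : Set (Matrix.GeneralLinearGroup (Fin 2) (ZMod 5))) L zs gs prog hgens hgs hz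
    c_red c_det c_free c_zs c_mul c_w c_L0 c_nodup c_zn (by decide) c_card
  have hN : 5 ^ 2 - 1 = 24 := by norm_num
  rw [hN] at hmain
  exact hmain

end Cfsg.Agent.S0691
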