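import Mathlib
import Cfsg.Statements.S0692
import Cfsg.Agent.H4Sharp

set_option autoImplicit false

open Cfsg

namespace Cfsg.Agent.S0692

open Cfsg.Agent.H4Sharp

/-- The list of group elements (up to scalars). -/
def L : List Q := [
  (1, 0, 0, 1), (0, 10, 1, 0), (2, 4, 1, 8), (0, 1, 10, 0), (8, 7, 10, 2), (10, 0, 0, 10),
  (10, 3, 2, 4), (1, 9, 8, 7), (4, 9, 8, 10), (7, 2, 3, 1), (1, 8, 9, 7), (10, 2, 3, 4),
  (7, 3, 2, 1), (4, 8, 9, 10), (9, 7, 10, 3), (3, 4, 1, 9), (3, 1, 4, 9), (8, 10, 7, 2),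
  (9, 10, 7, 3), (2, 1, 4, 8), (6, 0, 4, 2), (1, 2, 10, 10), (5, 0, 7, 9), (10, 9, 1, 1),
  (6, 8, 5, 5), (9, 0, 4, 5), (5, 3, 6, 6), (2, 0, 7, 6), (7, 9, 6, 0), (1, 1, 1, 2),
  (4, 2, 5, 0), (10, 10, 10, 9), (6, 6, 6, 8), (7, 6, 9, 0), (5, 5, 5, 3), (4, 5, 2, 0),
  (0, 5, 2, 7), (0, 6, 9, 4), (2, 10, 10, 1), (9, 1, 1, 10), (8, 5, 5, 6), (3, 6, 6, 5),
  (0, 2, 5, 7), (0, 9, 6, 4), (9, 4, 0, 5), (2, 7, 0, 6), (1, 10, 2, 10), (10, 1, 9, 1),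
  (6, 5, 8, 5), (5, 6, 3, 6), (6, 4, 0, 2), (5, 7, 0, 9), (6, 10, 9, 6), (5, 1, 2, 5),
  (3, 0, 10, 4), (6, 1, 2, 6), (8, 0, 1, 7), (5, 10, 9, 5), (10, 6, 5, 2), (4, 0, 1, 3),
  (1, 5, 6, 9), (7, 0, 10, 8), (2, 5, 6, 10), (9, 6, 5, 1), (1, 7, 3, 0), (9, 5, 6, 1),
  (10, 4, 8, 0), (2, 6, 5, 10), (6, 9, 10, 6), (10, 8, 4, 0), (5, 2, 1, 5), (1, 3, 7, 0),
  (10, 5, 6, 2), (1, 6, 5, 9), (0, 8, 4, 1), (0, 3, 7, 10), (0, 7, 3, 10), (0, 4, 8, 1),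
  (5, 9, 10, 5), (6, 2, 1, 6), (7, 10, 0, 8), (4, 1, 0, 3), (8, 1, 0, 7), (3, 10, 0, 4),
  (3, 3, 3, 7), (9, 3, 2, 2), (8, 8, 8, 4), (2, 8, 9, 9), (8, 9, 9, 2), (3, 5, 9, 8),
  (3, 2, 2, 9), (8, 6, 2, 3), (7, 1, 5, 4), (4, 3, 3, 8), (4, 10, 6, 7), (7, 8, 8, 3),
  (8, 4, 3, 3), (9, 9, 9, 3), (3, 7, 8, 8), (2, 2, 2, 8), (2, 9, 8, 9), (2, 3, 3, 5),
  (9, 2, 3, 2), (9, 8, 8, 6), (6, 7, 7, 1), (8, 3, 4, 3), (5, 4, 4, 10), (3, 8, 7, 8),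
  (5, 8, 8, 2), (6, 3, 3, 9), (1, 4, 4, 6), (10, 7, 7, 5), (3, 9, 5, 8), (8, 2, 6, 3),
  (7, 5, 1, 4), (4, 6, 10, 7), (7, 7, 7, 4), (4, 4, 4, 7), (4, 7, 7, 7), (7, 4, 4, 4)]

/-- The word program. -/
def prog : List (ℕ × ℕ) := [
  (0, 0), (0, 1), (0, 2), (0, 3), (1, 0), (1, 1), (1, 3), (2, 0), (2, 2), (3, 1),
  (3, 3), (4, 0), (4, 2), (5, 1), (5, 3), (6, 0), (6, 2), (7, 0), (7, 2), (8, 1),
  (8, 3), (9, 1), (9, 3), (12, 1), (12, 3), (13, 1), (13, 3), (16, 1), (16, 3), (17, 1),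
  (17, 3), (18, 1), (18, 3), (19, 1), (19, 3), (20, 0), (20, 2), (21, 0), (21, 2), (24, 0),
  (24, 2), (25, 0), (25, 2), (28, 0), (28, 2), (29, 0), (29, 2), (32, 0), (32, 2), (33, 0),
  (33, 2), (36, 3), (37, 3), (38, 1), (38, 3), (39, 1), (39, 3), (40, 1), (40, 3), (41, 1),
  (41, 3), (42, 1), (43, 1), (46, 1), (46, 3), (47, 1), (47, 3), (48, 1), (48, 3), (49, 1),
  (49, 3), (52, 0), (52, 2), (54, 0), (54, 2), (59, 0), (59, 2), (62, 0), (62, 2), (64, 0),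
  (64, 2), (69, 0), (69, 2), (72, 1), (72, 3), (73, 1), (73, 3), (74, 1), (74, 3), (75, 1),
  (75, 3), (76, 1), (76, 3), (77, 1), (77, 3), (78, 1), (78, 3), (79, 1), (79, 3), (80, 1),
  (80, 3), (81, 1), (81, 3), (82, 1), (82, 3), (83, 1), (83, 3), (89, 0), (89, 2), (92, 0),
  (92, 2), (101, 0), (101, 2), (104, 0), (104, 2), (108, 1), (109, 1), (112, 1), (113, 1)]

/-- Generators and their inverses. -/
def gs : List Q := [(0, 10, 1, 0), (2, 4, 1, 8), (0, 1, 10, 0), (8, 7, 10, 2)]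

/-- The scalars. -/
def zs : List ℕ := [1]

theorem c_red : chkRed 11 L zs = true := by decide +kernel
theorem c_det : chkDet 11 L = true := by decide +kernel
theorem c_free : chkFree 11 L zs = true := by decide +kernel
theorem c_zs : chkZs 11 zs = true := by decide +kernel
theorem c_mul : gs.all (chkMul 11 L zs) = true := by decide +kernel
theorem c_w : chkW 11 gs L.tail prog [one] = true := by decide +kernel
theorem c_L0 : L = one :: L.tail := by decide +kernel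
theorem c_nodup : L.Nodup := by decide +kernel
theorem c_zn : (zs.map fun z => z * z % 11).Nodup := by decide +kernel
theorem c_card : zs.length * L.length = 11 ^ 2 - 1 := by decide +kernel

/-- An exceptional sharply doubly transitive group of degree 11^2: the listed matrices generate a subgroup of GL(2,11) of order 120 acting regularly on the non-zero vectors. -/
theorem result (A : Matrix.GeneralLinearGroup (Fin 2) (ZMod 11)) (B : Matrix.GeneralLinearGroup (Fin 2) (ZMod 11)) (hA : (A : Matrix (Fin 2) (Fin 2) (ZMod 11)) = !![0, -1; 1, 0]) (hB : (B : Matrix (Fin 2) (Fin 2) (ZMod 11)) = !![2, 4; 1, -3]) : Nat.card (Subgroup.closure ({A, B} : Set (Matrix.GeneralLinearGroup (Fin 2) (ZMod 11)))) = 120 ∧ ∀ v w : Fin 2 → ZMod 11, v ≠ 0 → w ≠ 0 → ∃! h : Subgroup.closure ({A, B} : Set (Matrix.GeneralLinearGroup (Fin 2) (ZMod 11))), Matrix.mulVec ((h : Matrix.GeneralLinearGroup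 (Fin 2) (ZMod 11)) : Matrix (Fin 2) (Fin 2) (ZMod 11)) v = w := by
  have eA : (A : Matrix (Fin 2) (Fin 2) (ZMod 11)) = toM 11 (0, 10, 1, 0) := by
    rw [hA]; decide
  have eA' : ((A⁻¹ : Matrix.GeneralLinearGroup (Fin 2) (ZMod 11)) : Matrix (Fin 2) (Fin 2) (ZMod 11)) = toM 11 (0, 1, 10, 0) :=
    inv_coe 11 A (0, 10, 1, 0) (0, 1, 10, 0) eA (by decide)
  have eB : (B : Matrix (Fin 2) (Fin 2) (ZMod 11)) = toM 11 (2, 4, 1, 8) := by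
    rw [hB]; decide
  have eB' : ((B⁻¹ : Matrix.GeneralLinearGroup (Fin 2) (ZMod 11)) : Matrix (Fin 2) (Fin 2) (ZMod 11)) = toM 11 (8, 7, 10, 2) :=
    inv_coe 11 B (2, 4, 1, 8) (8, 7, 10, 2) eB (by decide)
  have hmemgs : ∀ q : Q, q ∈ gs ↔ q = (0, 10, 1, 0) ∨ q = (2, 4, 1, 8) ∨ q = (0, 1, 10, 0) ∨ q = (8, 7, 10, 2) := by
    intro q; simp [gs]
  have hgens : ∀ g ∈ ({A, B} : Set (Matrix.GeneralLinearGroup (Fin 2) (ZMod 11))),
      (∃ q ∈ gs, (g : Matrix (Fin 2) (Fin 2) (ZMod 11)) = toM 11 q) ∧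
      (∃ q ∈ gs, ((g⁻¹ : Matrix.GeneralLinearGroup (Fin 2) (ZMod 11)) : Matrix (Fin 2) (Fin 2) (ZMod 11)) = toM 11 q) := by
    intro g hg
    simp only [Set.mem_insert_iff, Set.mem_singleton_iff] at hg
    rcases hg with rfl | rfl
    · exact ⟨⟨_, (hmemgs _).mpr (by simp), eA⟩, ⟨_, (hmemgs _).mpr (by simp), eA'⟩⟩
    · exact ⟨⟨_, (hmemgs _).mpr (by simp), eB⟩, ⟨_, (hmemgs _).mpr (by simp), eB'⟩⟩
  have hgs : ∀ q ∈ gs, ∃ g ∈ Subgroup.closure ({A, B} : Set (Matrix.GeneralLinearGroup (Fin 2) (ZMod 11))),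
      ((g : Matrix.GeneralLinearGroup (Fin 2) (ZMod 11)) : Matrix (Fin 2) (Fin 2) (ZMod 11)) = toM 11 q := by
    intro q hq
    rw [hmemgs] at hq
    rcases hq with rfl | rfl | rfl | rfl
    · exact ⟨A, Subgroup.subset_closure (by simp), eA⟩
    · exact ⟨B, Subgroup.subset_closure (by simp), eB⟩
    · exact ⟨A⁻¹, Subgroup.inv_mem _ (Subgroup.subset_closure (by simp)), eA'⟩
    · exact ⟨B⁻¹, Subgroup.inv_mem _ (Subgroup.subset_closure (by simp)), eB'⟩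
  have hz : ∀ z ∈ zs, ∃ g ∈ Subgroup.closure ({A, B} : Set (Matrix.GeneralLinearGroup (Fin 2) (ZMod 11))),
      ((g : Matrix.GeneralLinearGroup (Fin 2) (ZMod 11)) : Matrix (Fin 2) (Fin 2) (ZMod 11)) = (z : ZMod 11) • (1 : Matrix (Fin 2) (Fin 2) (ZMod 11)) := hz_one 11 _
  haveI : Fact (Nat.Prime 11) := ⟨by norm_num⟩
  have hmain := sharp_main 11 ({A, B} : Set (Matrix.GeneralLinearGroup (Fin 2) (ZMod 11))) L zs gs prog hgens hgs hz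
    c_red c_det c_free c_zs c_mul c_w c_L0 c_nodup c_zn (by decide) c_card
  have hN : 11 ^ 2 - 1 = 120 := by norm_num
  rw [hN] at hmain
  exact hmain

end Cfsg.Agent.S0692
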