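import Mathlib
import Cfsg.Statements.S0693
import Cfsg.Agent.H4Sharp

set_option autoImplicit false

open Cfsg

namespace Cfsg.Agent.S0693

open Cfsg.Agent.H4Sharp

/-- The list of group elements (up to scalars). -/
def L : List Q := [
  (1, 0, 0, 1), (0, 58, 1, 0), (9, 15, 49, 49), (0, 1, 58, 0), (49, 44, 10, 9), (58, 0, 0, 58),
  (10, 10, 9, 15), (49, 50, 49, 44), (15, 50, 49, 10), (44, 9, 10, 49), (49, 49, 50, 44), (10, 9, 10, 15),
  (44, 10, 9, 49), (15, 49, 50, 10), (50, 44, 10, 10), (10, 15, 49, 50), (10, 49, 15, 50), (49, 10, 44, 9),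
  (50, 10, 44, 10), (9, 49, 15, 49), (48, 20, 46, 45), (55, 48, 23, 4), (11, 39, 13, 14), (4, 11, 36, 55),
  (1, 29, 4, 58), (14, 20, 46, 11), (58, 30, 55, 1), (45, 39, 13, 48), (13, 14, 48, 20), (36, 55, 55, 48),
  (46, 45, 11, 39), (23, 4, 4, 11), (55, 1, 1, 29), (13, 48, 14, 20), (4, 58, 58, 30), (46, 11, 45, 39),
  (20, 11, 45, 13), (39, 48, 14, 46), (48, 4, 4, 36), (11, 55, 55, 23), (29, 58, 58, 55), (30, 1, 1, 4),
  (20, 45, 11, 13), (39, 14, 48, 46), (14, 46, 20, 11), (45, 13, 39, 48), (55, 23, 48, 4), (4, 36, 11, 55),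
  (1, 4, 29, 58), (58, 55, 30, 1), (48, 46, 20, 45), (11, 13, 39, 14), (28, 35, 34, 32), (31, 24, 25, 27),
  (38, 31, 30, 54), (32, 24, 25, 28), (21, 28, 29, 5), (27, 35, 34, 31), (35, 32, 31, 25), (54, 28, 29, 38),
  (24, 27, 28, 34), (5, 31, 30, 21), (25, 27, 28, 35), (34, 32, 31, 24), (29, 5, 38, 31), (34, 31, 32, 24),
  (30, 54, 21, 28), (25, 28, 27, 35), (28, 34, 35, 32), (30, 21, 54, 28), (31, 25, 24, 27), (29, 38, 5, 31),
  (35, 31, 32, 25), (24, 28, 27, 34), (31, 21, 54, 29), (28, 38, 5, 30), (28, 5, 38, 30), (31, 54, 21, 29),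
  (27, 34, 35, 31), (32, 25, 24, 28), (5, 30, 31, 21), (54, 29, 28, 38), (21, 29, 28, 5), (38, 30, 31, 54),
  (5, 38, 38, 53), (19, 49, 48, 40), (54, 21, 21, 6), (40, 10, 11, 19), (10, 19, 19, 48), (18, 19, 45, 41),
  (49, 40, 40, 11), (41, 40, 14, 18), (25, 16, 42, 34), (6, 38, 38, 54), (34, 43, 17, 25), (53, 21, 21, 5),
  (21, 6, 5, 38), (11, 19, 19, 49), (38, 53, 54, 21), (48, 40, 40, 10), (40, 11, 10, 19), (14, 18, 18, 19),
  (19, 48, 49, 40), (45, 41, 41, 40), (17, 25, 25, 16), (21, 5, 6, 38), (42, 34, 34, 43), (38, 54, 53, 21),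
  (19, 41, 41, 14), (40, 18, 18, 45), (16, 34, 34, 17), (43, 25, 25, 42), (18, 45, 19, 41), (41, 14, 40, 18),
  (25, 42, 16, 34), (34, 17, 43, 25), (56, 52, 52, 3), (3, 7, 7, 56), (7, 56, 56, 52), (52, 3, 3, 7)]

/-- The word program. -/
def prog : List (ℕ × ℕ) := [
  (0, 0), (0, 1), (0, 3), (0, 4), (1, 0), (1, 1), (1, 4), (2, 0), (2, 3), (3, 1),
  (3, 4), (4, 0), (4, 3), (5, 1), (5, 4), (6, 0), (6, 3), (7, 0), (7, 3), (8, 1),
  (8, 4), (9, 1), (9, 4), (12, 1), (12, 4), (13, 1), (13, 4), (16, 1), (16, 4), (17, 1),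
  (17, 4), (18, 1), (18, 4), (19, 1), (19, 4), (20, 0), (20, 3), (21, 0), (21, 3), (24, 0),
  (24, 3), (25, 0), (25, 3), (28, 0), (28, 3), (29, 0), (29, 3), (32, 0), (32, 3), (33, 0),
  (33, 3), (36, 4), (37, 4), (38, 1), (38, 4), (39, 1), (39, 4), (40, 1), (40, 4), (41, 1),
  (41, 4), (42, 1), (43, 1), (46, 1), (46, 4), (47, 1), (47, 4), (48, 1), (48, 4), (49, 1),
  (49, 4), (52, 0), (52, 3), (54, 0), (54, 3), (59, 0), (59, 3), (62, 0), (62, 3), (64, 0),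
  (64, 3), (69, 0), (69, 3), (72, 1), (72, 4), (73, 1), (73, 4), (74, 1), (74, 4), (75, 1),
  (75, 4), (76, 1), (76, 4), (77, 1), (77, 4), (78, 1), (78, 4), (79, 1), (79, 4), (80, 1),
  (80, 4), (81, 1), (81, 4), (82, 1), (82, 4), (83, 1), (83, 4), (89, 0), (89, 3), (92, 0),
  (92, 3), (101, 0), (101, 3), (104, 0), (104, 3), (108, 1), (109, 1), (112, 1), (113, 1)]

/-- Generators and their inverses. -/
def gs : List Q := [(0, 58, 1, 0), (9, 15, 49, 49), (4, 0, 0, 4), (0, 1, 58, 0), (49, 44, 10, 9), (15, 0, 0, 15)]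

/-- The scalars. -/
def zs : List ℕ := [1, 4, 16, 5, 20, 21, 25, 41, 46, 7, 28, 53, 35, 22, 29, 57, 51, 27, 49, 19, 17, 9, 36, 26, 45, 3, 12, 48, 15]

theorem c_red : chkRed 59 L zs = true := by decide +kernel
theorem c_det : chkDet 59 L = true := by decide +kernel
theorem c_free : chkFree 59 L zs = true := by decide +kernel
theorem c_zs : chkZs 59 zs = true := by decide +kernel
theorem c_mul : gs.all (chkMul 59 L zs) = true := by decide +kernel
theorem c_w : chkW 59 gs L.tail prog [one] = true := by decide +kernel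
theorem c_L0 : L = one :: L.tail := by decide +kernel
theorem c_nodup : L.Nodup := by decide +kernel
theorem c_zn : (zs.map fun z => z * z % 59).Nodup := by decide +kernel
theorem c_card : zs.length * L.length = 59 ^ 2 - 1 := by decide +kernel

theorem c_z0 : zs = 1 :: zs.tail := by decide +kernel
theorem c_chkZ : chkZ 59 4 zs.tail 1 = true := by decide +kernel

/-- An exceptional sharply doubly transitive group of degree 59^2: the listed matrices generate a subgroup of GL(2,59) of order 3480 acting regularly on the non-zero vectors. -/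
theorem result (A : Matrix.GeneralLinearGroup (Fin 2) (ZMod 59)) (B : Matrix.GeneralLinearGroup (Fin 2) (ZMod 59)) (C : Matrix.GeneralLinearGroup (Fin 2) (ZMod 59)) (hA : (A : Matrix (Fin 2) (Fin 2) (ZMod 59)) = !![0, -1; 1, 0]) (hB : (B : Matrix (Fin 2) (Fin 2) (ZMod 59)) = !![9, 15; -10, -10]) (hC : (C : Matrix (Fin 2) (Fin 2) (ZMod 59)) = !![4, 0; 0, 4]) : Nat.card (Subgroup.closure ({A, B, C} : Set (Matrix.GeneralLinearGroup (Fin 2) (ZMod 59)))) = 3480 ∧ ∀ v w : Fin 2 → ZMod 59, v ≠ 0 → w ≠ 0 → ∃! h : Subgroup.closure ({A, B, C} : Set (Matrix.GeneralLinearGroup (Fin 2) (ZMod 59))), Matrix.mulVec ((h : Matrix.GeneralLinearGroup (Fin 2) (ZMod 59)) : Matrix (Fin 2) (Fin 2) (ZMod 59)) v = w := by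
  have eA : (A : Matrix (Fin 2) (Fin 2) (ZMod 59)) = toM 59 (0, 58, 1, 0) := by
    rw [hA]; decide
  have eA' : ((A⁻¹ : Matrix.GeneralLinearGroup (Fin 2) (ZMod 59)) : Matrix (Fin 2) (Fin 2) (ZMod 59)) = toM 59 (0, 1, 58, 0) :=
    inv_coe 59 A (0, 58, 1, 0) (0, 1, 58, 0) eA (by decide)
  have eB : (B : Matrix (Fin 2) (Fin 2) (ZMod 59)) = toM 59 (9, 15, 49, 49) := by
    rw [hB]; decide
  have eB' : ((B⁻¹ : Matrix.GeneralLinearGroup (Fin 2) (ZMod 59)) : Matrix (Fin 2) (Fin 2) (ZMod 59)) = toM 59 (49, 44, 10, 9) :=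
    inv_coe 59 B (9, 15, 49, 49) (49, 44, 10, 9) eB (by decide)
  have eC : (C : Matrix (Fin 2) (Fin 2) (ZMod 59)) = toM 59 (4, 0, 0, 4) := by
    rw [hC]; decide
  have eC' : ((C⁻¹ : Matrix.GeneralLinearGroup (Fin 2) (ZMod 59)) : Matrix (Fin 2) (Fin 2) (ZMod 59)) = toM 59 (15, 0, 0, 15) :=
    inv_coe 59 C (4, 0, 0, 4) (15, 0, 0, 15) eC (by decide)
  have hmemgs : ∀ q : Q, q ∈ gs ↔ q = (0, 58, 1, 0) ∨ q = (9, 15, 49, 49) ∨ q = (4, 0, 0, 4) ∨ q = (0, 1, 58, 0) ∨ q = (49, 44, 10, 9) ∨ q = (15, 0, 0, 15) := by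
    intro q; simp [gs]
  have hgens : ∀ g ∈ ({A, B, C} : Set (Matrix.GeneralLinearGroup (Fin 2) (ZMod 59))),
      (∃ q ∈ gs, (g : Matrix (Fin 2) (Fin 2) (ZMod 59)) = toM 59 q) ∧
      (∃ q ∈ gs, ((g⁻¹ : Matrix.GeneralLinearGroup (Fin 2) (ZMod 59)) : Matrix (Fin 2) (Fin 2) (ZMod 59)) = toM 59 q) := by
    intro g hg
    simp only [Set.mem_insert_iff, Set.mem_singleton_iff] at hg
    rcases hg with rfl | rfl | rfl
    · exact ⟨⟨_, (hmemgs _).mpr (by simp), eA⟩, ⟨_, (hmemgs _).mpr (by simp), eA'⟩⟩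
    · exact ⟨⟨_, (hmemgs _).mpr (by simp), eB⟩, ⟨_, (hmemgs _).mpr (by simp), eB'⟩⟩
    · exact ⟨⟨_, (hmemgs _).mpr (by simp), eC⟩, ⟨_, (hmemgs _).mpr (by simp), eC'⟩⟩
  have hgs : ∀ q ∈ gs, ∃ g ∈ Subgroup.closure ({A, B, C} : Set (Matrix.GeneralLinearGroup (Fin 2) (ZMod 59))),
      ((g : Matrix.GeneralLinearGroup (Fin 2) (ZMod 59)) : Matrix (Fin 2) (Fin 2) (ZMod 59)) = toM 59 q := by
    intro q hq
    rw [hmemgs] at hq
    rcases hq with rfl | rfl | rfl | rfl | rfl | rfl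
    · exact ⟨A, Subgroup.subset_closure (by simp), eA⟩
    · exact ⟨B, Subgroup.subset_closure (by simp), eB⟩
    · exact ⟨C, Subgroup.subset_closure (by simp), eC⟩
    · exact ⟨A⁻¹, Subgroup.inv_mem _ (Subgroup.subset_closure (by simp)), eA'⟩
    · exact ⟨B⁻¹, Subgroup.inv_mem _ (Subgroup.subset_closure (by simp)), eB'⟩
    · exact ⟨C⁻¹, Subgroup.inv_mem _ (Subgroup.subset_closure (by simp)), eC'⟩
  have hCm : (C : Matrix (Fin 2) (Fin 2) (ZMod 59)) = ((4 : ℕ) : ZMod 59) • (1 : Matrix (Fin 2) (Fin 2) (ZMod 59)) := by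
    rw [hC]; decide
  have hz : ∀ z ∈ zs, ∃ g ∈ Subgroup.closure ({A, B, C} : Set (Matrix.GeneralLinearGroup (Fin 2) (ZMod 59))),
      ((g : Matrix.GeneralLinearGroup (Fin 2) (ZMod 59)) : Matrix (Fin 2) (Fin 2) (ZMod 59)) = (z : ZMod 59) • (1 : Matrix (Fin 2) (Fin 2) (ZMod 59)) :=
    hz_of 59 4 _ zs C (Subgroup.subset_closure (by simp)) hCm c_z0 c_chkZ
  haveI : Fact (Nat.Prime 59) := ⟨by norm_num⟩
  have hmain := sharp_main 59 ({A, B, C} : Set (Matrix.GeneralLinearGroup (Fin 2) (ZMod 59))) L zs gs prog hgens hgs hz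
    c_red c_det c_free c_zs c_mul c_w c_L0 c_nodup c_zn (by decide) c_card
  have hN : 59 ^ 2 - 1 = 3480 := by norm_num
  rw [hN] at hmain
  exact hmain

end Cfsg.Agent.S0693
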