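import Cfsg.Statements.S0694
import Mathlib
-- import your own Cfsg.Agent.* helpers here

set_option autoImplicit false
open Cfsg

namespace Cfsg.Agent.S0694

theorem step_dvd (s y : ℕ) (hy : 1 ≤ y) (h : s ∣ y - 1) : s * (y - 1) ∣ y ^ s - 1 := by
  have hys : 1 ≤ y ^ s := Nat.one_le_pow _ _ hy
  have h1 : (s:ℤ) ∣ (y:ℤ) - 1 := by
    have : ((y - 1 : ℕ) : ℤ) = (y:ℤ) - 1 := by push_cast [Nat.cast_sub hy]; ring
    rw [← this]; exact_mod_cast h
  have h2 : (s:ℤ) ∣ ∑ i ∈ Finset.range s, (y:ℤ) ^ i := by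
    have := dvd_geom_sum₂_self (x := (y:ℤ)) (y := 1) (n := s) h1
    simpa using this
  have h3 : ((s * (y - 1) : ℕ) : ℤ) ∣ ((y ^ s - 1 : ℕ) : ℤ) := by
    push_cast [Nat.cast_sub hy, Nat.cast_sub hys]
    rw [← geom_sum_mul]
    exact mul_dvd_mul h2 dvd_rfl
  exact_mod_cast h3

theorem pow_dvd_lift (s x a : ℕ) (hx : 1 ≤ x) (ha : 1 ≤ a) (h : s ^ a ∣ x - 1) (k : ℕ) :
    s ^ (a + k) ∣ x ^ (s ^ k) - 1 := by
  induction k with
  | zero => simpa using h
  | succ k ih =>
    have hy : 1 ≤ x ^ s ^ k := Nat.one_le_pow _ _ hx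
    have hs : s ∣ x ^ s ^ k - 1 := dvd_trans (dvd_pow_self s (by omega)) ih
    have h1 := Cfsg.Agent.S0694.step_dvd s (x ^ s ^ k) hy hs
    have h2 : s ^ (a + (k+1)) ∣ s * (x ^ s ^ k - 1) := by
      rw [show a + (k+1) = (a + k) + 1 by ring, pow_succ, mul_comm]
      exact mul_dvd_mul dvd_rfl ih
    have h3 : (x ^ s ^ k) ^ s = x ^ s ^ (k+1) := by rw [← pow_mul, ← pow_succ]
    rw [← h3]
    exact dvd_trans h2 h1

theorem pow_dvd_lift' (s x a : ℕ) (hx : 1 ≤ x) (ha : 1 ≤ a) (h : s ^ a ∣ x - 1) (k m : ℕ) :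
    s ^ (a + k) ∣ x ^ (s ^ k * m) - 1 := by
  have h1 := Cfsg.Agent.S0694.pow_dvd_lift s x a hx ha h k
  have h2 : x ^ s ^ k - 1 ∣ (x ^ s ^ k) ^ m - 1 := Nat.sub_one_dvd_pow_sub_one _ _
  rw [pow_mul]
  exact dvd_trans h1 h2

theorem key (s q d j a : ℕ) (hs : s.Prime) (hq : 1 ≤ q) (hd : d ∣ j) (hsd : ¬ s ∣ d)
    (hj : j ≠ 0) (ha : 1 ≤ a) (h : s ^ a ∣ q ^ d - 1) :
    s ^ (a + padicValNat s j) ∣ q ^ j - 1 := by
  haveI : Fact s.Prime := ⟨hs⟩
  obtain ⟨k, hk⟩ : ∃ k, k = padicValNat s j := ⟨_, rfl⟩
  rw [← hk]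
  have hdv : s ^ k ∣ j := hk ▸ pow_padicValNat_dvd
  obtain ⟨m₀, hm₀⟩ := hdv
  have hcop : Nat.Coprime d (s ^ k) :=
    Nat.Coprime.pow_right _ ((Nat.Prime.coprime_iff_not_dvd hs).mpr hsd).symm
  have hdm : d ∣ m₀ := hcop.dvd_of_dvd_mul_left (hm₀ ▸ hd)
  obtain ⟨m, rfl⟩ := hdm
  have hjj : j = d * (s ^ k * m) := by rw [hm₀]; ring
  rw [hjj, pow_mul]
  exact Cfsg.Agent.S0694.pow_dvd_lift' s (q ^ d) a (Nat.one_le_pow _ _ hq) ha h k m

theorem crit (N M : ℕ) (hN : N ≠ 0) (hM : M ≠ 0)
    (h : ∀ s : ℕ, s.Prime → s ^ (padicValNat s N) ∣ M) : N ∣ M := by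
  refine (Nat.factorization_prime_le_iff_dvd hN hM).mp (fun s hs => ?_)
  haveI : Fact s.Prime := ⟨hs⟩
  rw [Nat.factorization_def _ hs, Nat.factorization_def _ hs]
  exact (padicValNat_dvd_iff_le hM).mp (h s hs)

theorem lte_two (q i : ℕ) (hq : 1 < q) (h4 : 4 ∣ q - 1) (hi : i ≠ 0) :
    padicValNat 2 (q ^ i - 1) = padicValNat 2 (q - 1) + padicValNat 2 i := by
  have hqi : 1 ≤ q ^ i := Nat.one_le_pow _ _ (by omega)
  have hqi' : 1 < q ^ i := Nat.one_lt_pow hi hq
  have h4' : (4:ℤ) ∣ (q:ℤ) - 1 := by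
    have : ((q - 1 : ℕ) : ℤ) = (q:ℤ) - 1 := by push_cast [Nat.cast_sub hq.le]; ring
    rw [← this]; exact_mod_cast h4
  have h2 : ¬ (2:ℤ) ∣ (q:ℤ) := by
    intro h
    have : (2:ℕ) ∣ q := by exact_mod_cast h
    omega
  have h := Int.two_pow_sub_pow' (x := (q:ℤ)) (y := 1) i h4' h2
  rw [← Nat.cast_inj (R := ℕ∞), Nat.cast_add]
  rw [padicValNat_eq_emultiplicity (by omega), padicValNat_eq_emultiplicity (by omega),
    padicValNat_eq_emultiplicity hi]
  rw [← Int.natCast_emultiplicity, ← Int.natCast_emultiplicity 2 (q-1),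
    ← Int.natCast_emultiplicity 2 i]
  push_cast [Nat.cast_sub hqi, Nat.cast_sub hq.le]
  simpa using h

/-- The Dickson pair condition: for a prime power `q` and `n > 1`, (every prime factor of `n` divides `q - 1`, and `4 ∣ n → 4 ∣ q - 1`) holds exactly when `q ^ n ≡ 1` modulo `n * (q - 1)` but `q ^ i` is not, for `0 < i < n`. -/
theorem result (q n : ℕ) (hq : IsPrimePow q) (hn : 1 < n) : ((∀ r : ℕ, r.Prime → r ∣ n → r ∣ q - 1) ∧ (4 ∣ n → 4 ∣ q - 1)) ↔ (q ^ n ≡ 1 [MOD n * (q - 1)] ∧ ∀ i : ℕ, 0 < i → i < n → ¬ q ^ i ≡ 1 [MOD n * (q - 1)]) := by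
  have hq2 : 2 ≤ q := hq.two_le
  have hq1 : q - 1 ≠ 0 := by omega
  have hn0 : n ≠ 0 := by omega
  have hN : n * (q - 1) ≠ 0 := mul_ne_zero hn0 hq1
  have hpow : ∀ i : ℕ, 1 ≤ q ^ i := fun i => Nat.one_le_pow _ _ (by omega)
  have hpow1 : ∀ i : ℕ, i ≠ 0 → q ^ i - 1 ≠ 0 := by
    intro i hi
    have : 1 < q ^ i := Nat.one_lt_pow hi (by omega)
    omega
  have hmod : ∀ i : ℕ, (q ^ i ≡ 1 [MOD n * (q - 1)]) ↔ n * (q - 1) ∣ q ^ i - 1 := by
    intro i
    rw [Nat.ModEq.comm, Nat.modEq_iff_dvd' (hpow i)]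
  simp only [hmod]
  have hq1dvd : ∀ i : ℕ, q - 1 ∣ q ^ i - 1 := fun i => Nat.sub_one_dvd_pow_sub_one q i
  have hval : ∀ s : ℕ, s.Prime →
      padicValNat s (n * (q - 1)) = padicValNat s n + padicValNat s (q - 1) := by
    intro s hs
    haveI : Fact s.Prime := ⟨hs⟩
    exact padicValNat.mul hn0 hq1
  constructor
  · rintro ⟨H1, H2⟩
    constructor
    · apply Cfsg.Agent.S0694.crit _ _ hN (hpow1 n hn0)
      intro s hs
      haveI : Fact s.Prime := ⟨hs⟩
      rw [hval s hs]
      by_cases hsn : s ∣ n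
      · have hsq := H1 s hs hsn
        have ha : 1 ≤ padicValNat s (q - 1) := one_le_padicValNat_of_dvd hq1 hsq
        have h := Cfsg.Agent.S0694.key s q 1 n (padicValNat s (q - 1)) hs (by omega) (one_dvd _)
          (by intro h; exact hs.one_lt.ne' (Nat.dvd_one.mp h)) hn0 ha
          (by simpa using pow_padicValNat_dvd)
        exact dvd_trans (pow_dvd_pow s (by omega)) h
      · rw [padicValNat.eq_zero_of_not_dvd hsn, zero_add]
        exact dvd_trans pow_padicValNat_dvd (hq1dvd n)
    · intro i hi0 hin hdiv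
      have hi : i ≠ 0 := by omega
      have hni : n ∣ i := by
        apply Cfsg.Agent.S0694.crit _ _ hn0 hi
        intro s hs
        haveI : Fact s.Prime := ⟨hs⟩
        by_cases hsn : s ∣ n
        · have hsq := H1 s hs hsn
          have hsq' : ¬ s ∣ q := by
            intro h
            have := (Nat.dvd_sub h hsq)
            rw [show q - (q - 1) = 1 by omega] at this
            exact hs.one_lt.ne' (Nat.dvd_one.mp this)
          have hle : padicValNat s n + padicValNat s (q - 1) ≤ padicValNat s (q ^ i - 1) := by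
            rw [← hval s hs]
            exact (padicValNat_dvd_iff_le (hpow1 i hi)).mp (dvd_trans pow_padicValNat_dvd hdiv)
          have hgoal : padicValNat s (q ^ i - 1) = padicValNat s (q - 1) + padicValNat s i →
              s ^ padicValNat s n ∣ i := by
            intro he
            exact (padicValNat_dvd_iff_le hi).mpr (by omega)
          rcases hs.eq_two_or_odd' with rfl | hodd
          · by_cases h4 : 4 ∣ q - 1
            · exact hgoal (Cfsg.Agent.S0694.lte_two q i (by omega) h4 hi)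
            · have h4n : ¬ 4 ∣ n := fun h => h4 (H2 h)
              have hv1 : padicValNat 2 n ≤ 1 := by
                by_contra hc
                push_neg at hc
                have h22 : 2 ^ 2 ∣ n := (padicValNat_dvd_iff_le (p := 2) hn0).mpr hc
                exact h4n (by simpa using h22)
              have h2i : 2 ∣ i := by
                by_contra hc
                have hodd : Odd i := Nat.odd_iff.mpr (by omega)
                have hq4 : q % 4 = 3 := by omega
                have hqi4 : q ^ i % 4 = 3 := by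
                  obtain ⟨j, rfl⟩ := hodd
                  rw [Nat.pow_mod, hq4, pow_succ, pow_mul, Nat.mul_mod, Nat.pow_mod]
                  norm_num
                have h4N : 4 ∣ n * (q - 1) := by
                  have := mul_dvd_mul hsn hsq
                  simpa using this
                have h4d := dvd_trans h4N hdiv
                have := hpow i
                omega
              exact dvd_trans (pow_dvd_pow 2 hv1) (by simpa using h2i)
          · have he := padicValNat.pow_sub_pow (p := s) hodd (x := q) (y := 1) (by omega)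
              hsq hsq' hi
            rw [one_pow] at he
            exact hgoal he
        · rw [padicValNat.eq_zero_of_not_dvd hsn, pow_zero]
          exact one_dvd _
      exact absurd (Nat.le_of_dvd hi0 hni) (by omega)
  · rintro ⟨R1, R2⟩
    have S1 : ∀ r : ℕ, r.Prime → r ∣ n → r ∣ q - 1 := by
      by_contra hcon
      push_neg at hcon
      obtain ⟨r₀, hr₀, hr₀n, hr₀q⟩ := hcon
      have hne : (n.primeFactors.filter (fun r => ¬ r ∣ q - 1)).Nonempty :=
        ⟨r₀, by simp [hr₀, hr₀n, hr₀q, hn0]⟩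
      obtain ⟨r, hrB, hrmax⟩ := Finset.exists_max_image _ id hne
      have hrB' : r.Prime ∧ r ∣ n ∧ ¬ r ∣ q - 1 := by
        have := hrB
        simp [hn0] at this
        tauto
      obtain ⟨hr, hrn, hrq⟩ := hrB'
      have hmax : ∀ s : ℕ, s.Prime → s ∣ n → ¬ s ∣ q - 1 → s ≤ r := by
        intro s hs hsn hsq
        exact hrmax s (by simp [hs, hsn, hsq, hn0])
      obtain ⟨j, hj⟩ := hrn
      have hj0 : j ≠ 0 := by
        rintro rfl
        simp at hj
        omega
      have hjn : j < n := by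
        rw [hj]
        have := hr.one_lt
        nlinarith [Nat.pos_of_ne_zero hj0]
      refine R2 j (Nat.pos_of_ne_zero hj0) hjn ?_
      apply Cfsg.Agent.S0694.crit _ _ hN (hpow1 j hj0)
      intro s hs
      haveI : Fact s.Prime := ⟨hs⟩
      haveI : Fact r.Prime := ⟨hr⟩
      rw [hval s hs]
      by_cases hsn : s ∣ n
      · have hsNq : s ∣ q ^ n - 1 := dvd_trans (dvd_mul_of_dvd_left hsn _) R1
        have hsq' : ¬ s ∣ q := by
          intro h
          have h1 : s ∣ q ^ n := dvd_pow h hn0
          have := (Nat.dvd_sub h1 hsNq)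
          rw [show q ^ n - (q ^ n - 1) = 1 by have := hpow n; omega] at this
          exact hs.one_lt.ne' (Nat.dvd_one.mp this)
        obtain ⟨d, hdj, hsd, hsqd⟩ : ∃ d, d ∣ j ∧ ¬ s ∣ d ∧ s ∣ q ^ d - 1 := by
          by_cases hsq : s ∣ q - 1
          · exact ⟨1, one_dvd _, fun h => hs.one_lt.ne' (Nat.dvd_one.mp h), by simpa using hsq⟩
          · have hsr : s ≤ r := hmax s hs hsn hsq
            have hs2 := hs.two_le
            have hd1 : Nat.gcd n (s - 1) ∣ s - 1 := Nat.gcd_dvd_right _ _
            have hdpos : 0 < Nat.gcd n (s - 1) := Nat.gcd_pos_of_pos_left _ (by omega)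
            have hdle : Nat.gcd n (s - 1) ≤ s - 1 := Nat.le_of_dvd (by omega) hd1
            refine ⟨Nat.gcd n (s - 1), ?_, ?_, ?_⟩
            · have hcop : Nat.Coprime (Nat.gcd n (s - 1)) r := by
                refine (Nat.Coprime.symm ((Nat.Prime.coprime_iff_not_dvd hr).mpr ?_))
                intro h
                have := Nat.le_of_dvd hdpos h
                omega
              have h1 : Nat.gcd n (s - 1) ∣ r * j := hj ▸ Nat.gcd_dvd_left _ _
              exact hcop.dvd_of_dvd_mul_left h1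
            · intro h
              have := Nat.le_of_dvd hdpos h
              omega
            · have hferm : s ∣ q ^ (s - 1) - 1 := by
                have hcop : Nat.Coprime q s := ((Nat.Prime.coprime_iff_not_dvd hs).mpr hsq').symm
                have := Nat.ModEq.pow_totient hcop
                rw [Nat.totient_prime hs] at this
                exact (Nat.modEq_iff_dvd' (hpow _)).mp this.symm
              have hg := Nat.dvd_gcd hsNq hferm
              rwa [Nat.pow_sub_one_gcd_pow_sub_one] at hg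
        have hd0 : d ≠ 0 := by
          rintro rfl
          exact hj0 (Nat.eq_zero_of_zero_dvd hdj)
        have ha1 : 1 ≤ padicValNat s (q ^ d - 1) :=
          one_le_padicValNat_of_dvd (hpow1 d hd0) hsqd
        have ha2 : padicValNat s (q - 1) ≤ padicValNat s (q ^ d - 1) :=
          (padicValNat_dvd_iff_le (hpow1 d hd0)).mp (dvd_trans pow_padicValNat_dvd (hq1dvd d))
        have hk := Cfsg.Agent.S0694.key s q d j (padicValNat s (q ^ d - 1)) hs (by omega) hdj hsd
          hj0 ha1 pow_padicValNat_dvd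
        refine dvd_trans (pow_dvd_pow s ?_) hk
        have hvn : padicValNat s n = padicValNat s r + padicValNat s j := by
          rw [hj]
          exact padicValNat.mul hr.ne_zero hj0
        by_cases hsr : s = r
        · subst hsr
          have h1 : padicValNat s s = 1 := padicValNat_self
          have h2 : padicValNat s (q - 1) = 0 := padicValNat.eq_zero_of_not_dvd hrq
          omega
        · have h1 : padicValNat s r = 0 :=
            padicValNat.eq_zero_of_not_dvd (fun h => hsr ((Nat.prime_dvd_prime_iff_eq hs hr).mp h))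
          omega
      · rw [padicValNat.eq_zero_of_not_dvd hsn, zero_add]
        exact dvd_trans pow_padicValNat_dvd (hq1dvd j)
    refine ⟨S1, ?_⟩
    intro h4n
    by_contra h4q
    have h2n : 2 ∣ n := dvd_trans (by norm_num) h4n
    have h2q : 2 ∣ q - 1 := S1 2 Nat.prime_two h2n
    obtain ⟨j, hj⟩ := h4n
    have hj0 : j ≠ 0 := by
      rintro rfl
      omega
    refine R2 (2 * j) (by omega) (by omega) ?_
    apply Cfsg.Agent.S0694.crit _ _ hN (hpow1 (2 * j) (by omega))
    intro s hs
    haveI : Fact s.Prime := ⟨hs⟩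
    rw [hval s hs]
    by_cases hsn : s ∣ n
    · have hsq := S1 s hs hsn
      rcases hs.eq_two_or_odd' with rfl | hodd
      · have h8 : 2 ^ 3 ∣ (q ^ 2) ^ 1 - 1 := by
          have hqodd : Odd q := Nat.odd_iff.mpr (by omega)
          simpa using Nat.eight_dvd_sq_sub_one_of_odd hqodd
        have hk := Cfsg.Agent.S0694.key 2 (q ^ 2) 1 j 3 Nat.prime_two (hpow 2) (one_dvd _)
          (by norm_num) hj0 (by norm_num) h8
        rw [← pow_mul] at hk
        refine dvd_trans (pow_dvd_pow 2 ?_) hk
        have hv1 : padicValNat 2 (q - 1) ≤ 1 := by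
          by_contra hc
          push_neg at hc
          have h22 : 2 ^ 2 ∣ q - 1 := (padicValNat_dvd_iff_le (p := 2) hq1).mpr hc
          exact h4q (by simpa using h22)
        have hvn : padicValNat 2 n = 2 + padicValNat 2 j := by
          rw [hj, padicValNat.mul (by norm_num) hj0]
          congr 1
          have h42 : (4:ℕ) = 2 ^ 2 := by norm_num
          rw [h42, padicValNat.prime_pow]
        omega
      · have ha : 1 ≤ padicValNat s (q - 1) := one_le_padicValNat_of_dvd hq1 hsq
        have hk := Cfsg.Agent.S0694.key s q 1 (2 * j) (padicValNat s (q - 1)) hs (by omega)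
          (one_dvd _) (fun h => hs.one_lt.ne' (Nat.dvd_one.mp h)) (by omega) ha
          (by simpa using pow_padicValNat_dvd)
        refine dvd_trans (pow_dvd_pow s ?_) hk
        have hs2 : ¬ s ∣ 2 := by
          intro h
          have := (Nat.prime_dvd_prime_iff_eq hs Nat.prime_two).mp h
          subst this
          exact absurd hodd (by decide)
        have hvn : padicValNat s n = padicValNat s (2 * j) := by
          rw [hj, show 4 * j = 2 * (2 * j) by ring, padicValNat.mul (by norm_num) (by omega),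
            padicValNat.eq_zero_of_not_dvd hs2, zero_add]
        omega
    · rw [padicValNat.eq_zero_of_not_dvd hsn, zero_add]
      exact dvd_trans pow_padicValNat_dvd (hq1dvd (2 * j))

end Cfsg.Agent.S0694
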