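import Mathlib
import Cfsg.Statements.S0696
import Cfsg.Agent.S0695

set_option autoImplicit false
open Cfsg

namespace Cfsg.Agent.S0696

/-- A triply primitive group of degree at least 3 having a regular normal subgroup has degree 3 or 4. -/
theorem result {G : Type*} [Group G] {X : Type*} [Fintype X] [MulAction G X] (hX : 3 ≤ Fintype.card X) (h3 : MulAction.IsMultiplyPreprimitive G X 3) (N : Subgroup G) [N.Normal] (htrans : MulAction.IsPretransitive N X) (hreg : ∀ x : X, MulAction.stabilizer N x = ⊥) : Fintype.card X = 3 ∨ Fintype.card X = 4 := by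
  classical
  have hNn : N.Normal := inferInstance
  have hcardE : ((3 : ℕ) : ℕ∞) ≤ ENat.card X := by
    rw [ENat.card_eq_coe_fintype_card]; exact_mod_cast hX
  have h2 : MulAction.IsMultiplyPreprimitive G X 2 :=
    MulAction.isMultiplyPreprimitive_of_le G X h3 (by omega) hcardE
  rcases S0695.result (by omega) h2 N htrans hreg with h | ⟨hcomm, hexp, -, -⟩
  · left; exact h
  · right
    obtain ⟨a, b, c, hab, hac, hbc⟩ := Fintype.two_lt_card_iff.mp (by omega : 2 < Fintype.card X)
    obtain ⟨n₀, hn₀⟩ := MulAction.exists_smul_eq N a b
    obtain ⟨m₀, hm₀⟩ := MulAction.exists_smul_eq N a c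
    have hn₀' : (n₀ : G) • a = b := hn₀
    have hm₀' : (m₀ : G) • a = c := hm₀
    have hn2 : (n₀ : G) * (n₀ : G) = 1 := by
      have := hexp n₀.1 n₀.2
      rwa [pow_two] at this
    have hn2' : n₀ * n₀ = 1 := Subtype.ext hn2
    have hd : ((m₀ * n₀ : N) : G) • a ≠ a := by
      intro h
      have : m₀ * n₀ = 1 := S0695.L1 N hreg a _ _ (by rw [one_smul]; exact h)
      have h' : m₀ = n₀ := by
        have := congrArg (· * n₀) this
        simp only [mul_assoc, hn2', mul_one, one_mul] at this
        exact this
      apply hbc
      rw [← hn₀', ← hm₀', h']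
    have hd' : ((m₀ * n₀ : N) : G) • a ≠ b := by
      intro h
      have : m₀ * n₀ = n₀ := S0695.L1 N hreg a _ _ (h.trans hn₀'.symm)
      have h' : m₀ = 1 := by
        have := congrArg (· * n₀) this
        simp only [mul_assoc, hn2', mul_one] at this
        exact this
      apply hac
      rw [← hm₀', h', OneMemClass.coe_one, one_smul]
    have hdc : ((m₀ * n₀ : N) : G) • a ≠ c := by
      intro h
      have : m₀ * n₀ = m₀ := S0695.L1 N hreg a _ _ (h.trans hm₀'.symm)
      have h' : n₀ = 1 := by simpa using this
      apply hab
      rw [← hn₀', h', OneMemClass.coe_one, one_smul]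
    set s : Set X := {a, b} with hs
    have hprim : MulAction.IsPreprimitive (fixingSubgroup G s) (SubMulAction.ofFixingSubgroup G s) :=
      h3.isPreprimitive_ofFixingSubgroup (s := s) (by rw [hs, Set.encard_pair hab]; rfl)
    have hcs : c ∈ SubMulAction.ofFixingSubgroup G s := by
      rw [SubMulAction.mem_ofFixingSubgroup_iff, hs]
      simp only [Set.mem_insert_iff, Set.mem_singleton_iff, not_or]
      exact ⟨Ne.symm hac, Ne.symm hbc⟩
    have hds : ((m₀ * n₀ : N) : G) • a ∈ SubMulAction.ofFixingSubgroup G s := by
      rw [SubMulAction.mem_ofFixingSubgroup_iff, hs]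
      simp only [Set.mem_insert_iff, Set.mem_singleton_iff, not_or]
      exact ⟨hd, hd'⟩
    let Y₁ : SubMulAction.ofFixingSubgroup G s := ⟨c, hcs⟩
    let Y₂ : SubMulAction.ofFixingSubgroup G s := ⟨((m₀ * n₀ : N) : G) • a, hds⟩
    have hY12 : Y₁ ≠ Y₂ := fun h => hdc (congrArg Subtype.val h).symm
    have hB : MulAction.IsBlock (fixingSubgroup G s) ({Y₁, Y₂} : Set _) := by
      rw [MulAction.isBlock_iff_smul_eq_of_mem]
      intro g y hy hgy
      have hga : (g : G) • a = a := (mem_fixingSubgroup_iff G).mp g.2 a (by rw [hs]; simp)
      have hgb : (g : G) • b = b := (mem_fixingSubgroup_iff G).mp g.2 b (by rw [hs]; simp)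
      have hgn : (g : G) * (n₀ : G) * (g : G)⁻¹ = n₀ :=
        S0695.L3 N hreg a g hga n₀ n₀ (by rw [hn₀']; exact hgb)
      have hc : (g : G) * (m₀ : G) * (g : G)⁻¹ ∈ N := hNn.conj_mem m₀.1 m₀.2 g
      set m' : N := ⟨_, hc⟩ with hm'
      have e1 : ((g • Y₁ : SubMulAction.ofFixingSubgroup G s) : X) = (m' : G) • a := by
        change (g : G) • c = _
        rw [← hm₀']
        exact S0695.L2 a (g : G) hga (m₀ : G)
      have e2 : ((g • Y₂ : SubMulAction.ofFixingSubgroup G s) : X) = ((m' * n₀ : N) : G) • a := by
        change (g : G) • (((m₀ * n₀ : N) : G) • a) = _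
        rw [S0695.L2 a (g : G) hga]
        congr 1
        change (g : G) * ((m₀ : G) * (n₀ : G)) * (g : G)⁻¹ = (g : G) * (m₀ : G) * (g : G)⁻¹ * (n₀ : G)
        nth_rewrite 2 [← hgn]
        group
      have hm : m' = m₀ ∨ m' = m₀ * n₀ := by
        rcases hy with rfl | rfl
        · rcases hgy with h | h
          · left
            apply S0695.L1 N hreg a
            have := congrArg Subtype.val h
            rw [e1] at this
            exact this.trans hm₀'.symm
          · right
            apply S0695.L1 N hreg a
            have := congrArg Subtype.val h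
            rw [e1] at this
            exact this
        · rcases hgy with h | h
          · right
            have h1 : m' * n₀ = m₀ := by
              apply S0695.L1 N hreg a
              have := congrArg Subtype.val h
              rw [e2] at this
              exact this.trans hm₀'.symm
            rw [← h1, mul_assoc, hn2', mul_one]
          · left
            have h1 : m' * n₀ = m₀ * n₀ := by
              apply S0695.L1 N hreg a
              have := congrArg Subtype.val h
              rw [e2] at this
              exact this
            exact mul_right_cancel h1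
      have hg1 : g • Y₁ = Y₁ ∧ g • Y₂ = Y₂ ∨ g • Y₁ = Y₂ ∧ g • Y₂ = Y₁ := by
        rcases hm with h | h
        · left
          constructor
          · apply Subtype.ext; rw [e1, h]; exact hm₀'
          · apply Subtype.ext; rw [e2, h]
        · right
          constructor
          · apply Subtype.ext; rw [e1, h]
          · apply Subtype.ext; rw [e2, h, mul_assoc, hn2', mul_one]; exact hm₀'
      rw [Set.smul_set_insert, Set.smul_set_singleton]
      rcases hg1 with ⟨h1, h2⟩ | ⟨h1, h2⟩
      · rw [h1, h2]
      · rw [h1, h2, Set.pair_comm]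
    have huniv : ({Y₁, Y₂} : Set (SubMulAction.ofFixingSubgroup G s)) = Set.univ := by
      rcases hprim.isTrivialBlock_of_isBlock hB with h | h
      · exact absurd (h (by simp) (by simp)) hY12
      · exact h
    have hall : ∀ z : X, z = a ∨ z = b ∨ z = c ∨ z = ((m₀ * n₀ : N) : G) • a := by
      intro z
      by_cases hz : z ∈ s
      · rw [hs] at hz
        rcases hz with h | h
        · exact Or.inl h
        · exact Or.inr (Or.inl h)
      · right; right
        have : (⟨z, (SubMulAction.mem_ofFixingSubgroup_iff G).mpr hz⟩ :
            SubMulAction.ofFixingSubgroup G s) ∈ ({Y₁, Y₂} : Set _) := by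
          rw [huniv]; trivial
        rcases this with h | h
        · left; exact congrArg Subtype.val h
        · right; exact congrArg Subtype.val h
    have hfin : (Finset.univ : Finset X) = {a, b, c, ((m₀ * n₀ : N) : G) • a} := by
      ext z
      simp only [Finset.mem_univ, Finset.mem_insert, Finset.mem_singleton, true_iff]
      exact hall z
    rw [← Finset.card_univ, hfin]
    rw [Finset.card_insert_of_notMem, Finset.card_insert_of_notMem, Finset.card_insert_of_notMem,
      Finset.card_singleton]
    · simp only [Finset.mem_singleton]; exact Ne.symm hdc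
    · simp only [Finset.mem_insert, Finset.mem_singleton, not_or]; exact ⟨hbc, Ne.symm hd'⟩
    · simp only [Finset.mem_insert, Finset.mem_singleton, not_or]; exact ⟨hab, hac, Ne.symm hd⟩

end Cfsg.Agent.S0696
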