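import Mathlib
import Cfsg.Statements.S0698
import Cfsg.Agent.S0695
import Cfsg.Agent.S0696

set_option autoImplicit false
open Cfsg

namespace Cfsg.Agent.S0698

universe u v

/-- a nontrivial normal subgroup of a primitive faithful action is transitive -/
theorem Ltrans {G : Type u} {X : Type v} [Group G] [MulAction G X] [FaithfulSMul G X]
    (hprim : MulAction.IsPreprimitive G X) (N : Subgroup G) [N.Normal] (hN : N ≠ ⊥) :
    MulAction.IsPretransitive N X := by
  apply MulAction.IsQuasiPreprimitive.isPretransitive_of_normal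
  intro h
  apply hN
  rw [Subgroup.eq_bot_iff_forall]
  intro n hn
  apply FaithfulSMul.eq_of_smul_eq_smul (α := X)
  intro x
  rw [one_smul]
  have : x ∈ MulAction.fixedPoints N X := by rw [h]; trivial
  exact this ⟨n, hn⟩

/-- the stabiliser acts faithfully on the complement of the point -/
theorem Lfaith {G : Type u} {X : Type v} [Group G] [MulAction G X] [FaithfulSMul G X] (a : X) :
    FaithfulSMul (MulAction.stabilizer G a) (SubMulAction.ofStabilizer G a) := by
  constructor
  intro g g' h
  apply Subtype.ext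
  apply FaithfulSMul.eq_of_smul_eq_smul (α := X)
  intro x
  by_cases hx : x = a
  · rw [hx]; exact g.2.trans g'.2.symm
  · exact congrArg Subtype.val (h ⟨x, hx⟩)

/-- transfer of multiple transitivity from `N ∩ G_a` on the complement of `a` to `N` -/
theorem Ltransfer {G : Type u} {X : Type v} [Group G] [MulAction G X] (N : Subgroup G) (a : X)
    (m : ℕ) (hNt : MulAction.IsPretransitive N X)
    (h : MulAction.IsMultiplyPretransitive (N.subgroupOf (MulAction.stabilizer G a))
      (SubMulAction.ofStabilizer G a) m) :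
    MulAction.IsMultiplyPretransitive N X (m + 1) := by
  rw [SubMulAction.ofStabilizer.isMultiplyPretransitive (a := a)]
  let σ : (N.subgroupOf (MulAction.stabilizer G a)) → MulAction.stabilizer N a :=
    fun g => ⟨⟨g.1.1, g.2⟩, g.1.2⟩
  let f : SubMulAction.ofStabilizer G a →ₑ[σ] SubMulAction.ofStabilizer N a :=
    { toFun := fun x => ⟨x.1, x.2⟩
      map_smul' := fun g x => rfl }
  have hσ : Function.Surjective σ := fun n => ⟨⟨⟨n.1.1, n.2⟩, n.1.2⟩, rfl⟩
  have hf : Function.Bijective f :=
    ⟨fun x y hxy => Subtype.ext (congrArg Subtype.val hxy), fun y => ⟨⟨y.1, y.2⟩, rfl⟩⟩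
  exact (MulAction.IsPretransitive.of_embedding_congr hσ hf).mp h

/-- 3-transitivity, elementwise -/
theorem L3t {G : Type u} {X : Type v} [Group G] [MulAction G X]
    (h3 : MulAction.IsMultiplyPretransitive G X 3) (x₁ x₂ x₃ y₁ y₂ y₃ : X)
    (hx12 : x₁ ≠ x₂) (hx13 : x₁ ≠ x₃) (hx23 : x₂ ≠ x₃)
    (hy12 : y₁ ≠ y₂) (hy13 : y₁ ≠ y₃) (hy23 : y₂ ≠ y₃) :
    ∃ g : G, g • x₁ = y₁ ∧ g • x₂ = y₂ ∧ g • x₃ = y₃ := by
  let x : Fin 3 ↪ X := ⟨![x₁, x₂, x₃], by
    intro i j h
    fin_cases i <;> fin_cases j <;> simp_all⟩
  let y : Fin 3 ↪ X := ⟨![y₁, y₂, y₃], by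
    intro i j h
    fin_cases i <;> fin_cases j <;> simp_all⟩
  obtain ⟨g, hg⟩ := MulAction.exists_smul_eq G x y
  refine ⟨g, ?_, ?_, ?_⟩
  · exact DFunLike.congr_fun hg 0
  · exact DFunLike.congr_fun hg 1
  · exact DFunLike.congr_fun hg 2

/-- the involution lemma -/
theorem Linv {G : Type u} {X : Type v} [Group G] [MulAction G X] [Finite X]
    (h3 : MulAction.IsMultiplyPretransitive G X 3) (hX : 4 ≤ Nat.card X)
    (N : Subgroup G) [hNn : N.Normal] (a : X)
    (hsr : ∀ n ∈ N, ∀ x : X, x ≠ a → n • a = a → n • x = x → n = 1)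
    (s : G) (hsN : s ∈ N) (hs1 : s ≠ 1) (hsa : s • a = a) (hs2 : s * s = 1) : False := by
  classical
  haveI := Fintype.ofFinite X
  rw [Nat.card_eq_fintype_card] at hX
  obtain ⟨b, hb⟩ : ∃ b : X, b ≠ a := by
    have : 1 < Fintype.card X := by omega
    rw [Fintype.one_lt_card_iff_nontrivial] at this
    exact exists_ne a
  have hcb : s • b ≠ b := fun h => hs1 (hsr s hsN b hb hsa h)
  have hca : s • b ≠ a := fun h => hb (smul_left_cancel s (h.trans hsa.symm))
  have hsc : s • (s • b) = b := by rw [← mul_smul, hs2, one_smul]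
  obtain ⟨a', ha'a, ha'b, ha'c⟩ : ∃ a' : X, a' ≠ a ∧ a' ≠ b ∧ a' ≠ s • b := by
    by_contra hcon
    push_neg at hcon
    have hsub : (Finset.univ : Finset X) ⊆ {a, b, s • b} := by
      intro x _
      simp only [Finset.mem_insert, Finset.mem_singleton]
      by_cases h1 : x = a
      · exact Or.inl h1
      · by_cases h2 : x = b
        · exact Or.inr (Or.inl h2)
        · exact Or.inr (Or.inr (hcon x h1 h2))
    have := Finset.card_le_card hsub
    have h3' : ({a, b, s • b} : Finset X).card ≤ 3 := Finset.card_le_three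
    rw [Finset.card_univ] at this
    omega
  obtain ⟨g, hgb, hgc, hga⟩ := L3t h3 b (s • b) a b (s • b) a' (Ne.symm hcb) hb hca
    (Ne.symm hcb) (Ne.symm ha'b) (Ne.symm ha'c)
  have hgb' : g⁻¹ • b = b := by rw [inv_smul_eq_iff, hgb]
  have hgc' : g⁻¹ • (s • b) = s • b := by rw [inv_smul_eq_iff, hgc]
  have hga' : g⁻¹ • a' = a := by rw [inv_smul_eq_iff, hga]
  have htN : g * s * g⁻¹ ∈ N := hNn.conj_mem s hsN g
  have htb : (g * s * g⁻¹) • b = s • b := by
    rw [mul_smul, mul_smul, hgb', hgc]
  have htc : (g * s * g⁻¹) • (s • b) = b := by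
    rw [mul_smul, mul_smul, hgc', hsc, hgb]
  have hta' : (g * s * g⁻¹) • a' = a' := by
    rw [mul_smul, mul_smul, hga', hsa, hga]
  have huN : g * s * g⁻¹ * s ∈ N := N.mul_mem htN hsN
  have hub : (g * s * g⁻¹ * s) • b = b := by
    rw [mul_smul, htc]
  have huc : (g * s * g⁻¹ * s) • (s • b) = s • b := by
    rw [mul_smul, hsc, htb]
  obtain ⟨h, hhb, hhc, -⟩ := L3t h3 b (s • b) a a b (s • b) (Ne.symm hcb) hb hca
    (Ne.symm hb) (Ne.symm hca) (Ne.symm hcb)
  have hhb' : h⁻¹ • a = b := by rw [inv_smul_eq_iff, hhb]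
  have hhc' : h⁻¹ • b = s • b := by rw [inv_smul_eq_iff, hhc]
  have hv : h * (g * s * g⁻¹ * s) * h⁻¹ = 1 := by
    apply hsr _ (hNn.conj_mem _ huN h) b hb
    · rw [mul_smul, mul_smul, hhb', hub, hhb]
    · rw [mul_smul, mul_smul, hhc', huc, hhc]
  have hu1 : g * s * g⁻¹ * s = 1 := by
    have := congrArg (fun z => h⁻¹ * z * h) hv
    simp only [mul_one, inv_mul_cancel] at this
    rw [← this]; group
  have hts : g * s * g⁻¹ = s := by
    have h1 : g * s * g⁻¹ = s⁻¹ := eq_inv_of_mul_eq_one_left hu1
    have h2 : s⁻¹ = s := inv_eq_of_mul_eq_one_left hs2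
    rw [h1, h2]
  rw [hts] at hta'
  exact hs1 (hsr s hsN a' ha'a hsa hta')

/-- Jordan's theorem on normal subgroups of multiply transitive groups, general form -/
theorem jordan (k : ℕ) (hk : 2 ≤ k) : ∀ {G : Type u} {X : Type v} [Group G] [MulAction G X]
    [Finite X] [FaithfulSMul G X], k < Nat.card X → MulAction.IsMultiplyPretransitive G X k →
    ∀ (N : Subgroup G), N.Normal → N ≠ ⊥ →
    (MulAction.IsMultiplyPretransitive N X (k - 1) ∨
      (k = 3 ∧ (∀ x y : N, x * y = y * x) ∧ (∀ n ∈ N, n ^ 2 = 1) ∧
        ∀ x : X, MulAction.stabilizer N x = ⊥)) := by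
  induction k, hk using Nat.le_induction with
  | base =>
    intro G X _ _ _ _ hcard h2 N hNn hN
    left
    haveI := hNn
    have hprim : MulAction.IsPreprimitive G X := MulAction.isPreprimitive_of_is_two_pretransitive h2
    have := Ltrans hprim N hN
    exact MulAction.is_one_pretransitive_iff.mpr this
  | succ k hk ih =>
    intro G X _ _ _ _ hcard hG N hNn hN
    haveI := hNn
    haveI := hG
    classical
    haveI := Fintype.ofFinite X
    have hcardF : k + 1 < Fintype.card X := by rwa [Nat.card_eq_fintype_card] at hcard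
    have h2 : MulAction.IsMultiplyPretransitive G X 2 :=
      MulAction.isMultiplyPretransitive_of_le (n := k + 1) (by omega) (by omega)
    have h3 : MulAction.IsMultiplyPretransitive G X 3 :=
      MulAction.isMultiplyPretransitive_of_le (n := k + 1) (by omega) (by omega)
    have hprim := MulAction.isPreprimitive_of_is_two_pretransitive h2
    have hGt : MulAction.IsPretransitive G X := hprim.toIsPretransitive
    have hNt := Ltrans hprim N hN
    have hE : ∀ j : ℕ, j ≤ Fintype.card X → ((j : ℕ) : ℕ∞) ≤ ENat.card X := by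
      intro j hj
      rw [ENat.card_eq_coe_fintype_card]; exact_mod_cast hj
    by_cases hreg : ∀ x : X, MulAction.stabilizer N x = ⊥
    · right
      have h2p : MulAction.IsMultiplyPreprimitive G X 2 :=
        MulAction.isMultiplyPreprimitive_of_isMultiplyPretransitive_succ G X (hE 3 (by omega))
      rcases S0695.result (by omega) h2p N hNt hreg with h | ⟨hc, he, -⟩
      · omega
      · by_cases hk2 : k = 2
        · subst hk2; exact ⟨rfl, isMulCommutative_iff.mp hc, he, hreg⟩
        · exfalso
          have h4 : MulAction.IsMultiplyPretransitive G X 4 :=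
            MulAction.isMultiplyPretransitive_of_le (n := k + 1) (by omega) (by omega)
          have h3p : MulAction.IsMultiplyPreprimitive G X 3 :=
            MulAction.isMultiplyPreprimitive_of_isMultiplyPretransitive_succ G X (hE 4 (by omega))
          rcases S0696.result (by omega) h3p N hNt hreg with h | h <;> omega
    · left
      push_neg at hreg
      obtain ⟨a, ha⟩ := hreg
      haveI hfa := Lfaith (G := G) a
      have hGa : MulAction.IsMultiplyPretransitive (MulAction.stabilizer G a)
          (SubMulAction.ofStabilizer G a) k :=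
        SubMulAction.ofStabilizer.isMultiplyPretransitive.mp hG
      have hcarda : k < Nat.card (SubMulAction.ofStabilizer G a) := by
        have := SubMulAction.nat_card_ofStabilizer_add_one_eq (G := G) a
        omega
      obtain ⟨s, hs, hs1⟩ : ∃ s ∈ MulAction.stabilizer N a, s ≠ 1 := by
        by_contra hcon
        push_neg at hcon
        exact ha ((Subgroup.eq_bot_iff_forall _).mpr hcon)
      have hsa : (s : G) • a = a := hs
      have hNa : N.subgroupOf (MulAction.stabilizer G a) ≠ ⊥ := by
        intro h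
        have hmem : (⟨(s : G), hsa⟩ : MulAction.stabilizer G a) ∈
            N.subgroupOf (MulAction.stabilizer G a) := s.2
        rw [h, Subgroup.mem_bot] at hmem
        apply hs1
        apply Subtype.ext
        have := congrArg Subtype.val hmem
        exact this
      rcases ih hcarda hGa (N.subgroupOf (MulAction.stabilizer G a)) inferInstance hNa with
        h | ⟨hk3, hc, he, hr⟩
      · have := Ltransfer N a (k - 1) hNt h
        have e : k - 1 + 1 = k + 1 - 1 := by omega
        rw [e] at this
        exact this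
      · exfalso
        apply Linv h3 (by omega) N a ?_ (s : G) s.2 (fun h => hs1 (Subtype.ext h)) hsa ?_
        · intro n hn x hx hna hnx
          have hmem : (⟨⟨n, hna⟩, hn⟩ : N.subgroupOf (MulAction.stabilizer G a)) ∈
              MulAction.stabilizer (N.subgroupOf (MulAction.stabilizer G a))
                (⟨x, hx⟩ : SubMulAction.ofStabilizer G a) := by
            rw [MulAction.mem_stabilizer_iff]
            apply Subtype.ext
            exact hnx
          rw [hr, Subgroup.mem_bot] at hmem
          have := congrArg (fun z : ↥(N.subgroupOf (MulAction.stabilizer G a)) =>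
            ((z : MulAction.stabilizer G a) : G)) hmem
          exact this
        · have := he ⟨(s : G), hsa⟩ s.2
          rw [pow_two] at this
          exact congrArg Subtype.val this

/-- Jordan's Theorem on normal subgroups of multiply transitive groups: if `G` is `k`-transitive (`k > 1`) of degree greater than `k`, a non-trivial normal subgroup is `(k-1)`-transitive, except possibly for `k = 3` when it may be an elementary abelian 2-group. -/
theorem result {α : Type*} [Fintype α] [DecidableEq α] (G : Subgroup (Equiv.Perm α)) {k : ℕ} (hk : 1 < k) (hdeg : k < Fintype.card α) (hG : MulAction.IsMultiplyPretransitive G α k) (N : Subgroup G) [N.Normal] (hN : N ≠ ⊥) : MulAction.IsMultiplyPretransitive N α (k - 1) ∨ (k = 3 ∧ IsMulCommutative N ∧ ∀ n ∈ N, n ^ 2 = 1) := by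
  rcases jordan k hk (G := G) (X := α) (by rw [Nat.card_eq_fintype_card]; exact hdeg) hG N
    inferInstance hN with h | ⟨h3, hc, he, -⟩
  · exact Or.inl h
  · exact Or.inr ⟨h3, isMulCommutative_iff.mpr hc, he⟩

end Cfsg.Agent.S0698
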