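import Mathlib
import Cfsg.Statements.S0697
import Cfsg.Agent.S0698

set_option autoImplicit false
open Cfsg

namespace Cfsg.Agent.S0697

universe u v

open Cfsg.Agent.S0698 in
/-- general form -/
theorem main (k : ℕ) (hk : 1 ≤ k) : ∀ {G : Type u} {X : Type v} [Group G] [MulAction G X]
    [Finite X] [FaithfulSMul G X], k ≤ Nat.card X → MulAction.IsMultiplyPreprimitive G X k →
    ¬ MulAction.IsMultiplyPretransitive G X (Nat.card X - 1) →
    ∀ (H : Subgroup G), H.Normal → H ≠ ⊥ → (k = 1 ∨ ∃ a : X, MulAction.stabilizer H a ≠ ⊥) →
    MulAction.IsMultiplyPretransitive H X k := by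
  induction k, hk using Nat.le_induction with
  | base =>
    intro G X _ _ _ _ hcard hG hnt H hHn hH _
    haveI := hHn
    have hprim : MulAction.IsPreprimitive G X := (MulAction.is_one_preprimitive_iff G X).mp hG
    have := Ltrans hprim H hH
    exact MulAction.is_one_pretransitive_iff.mpr this
  | succ k hk ih =>
    intro G X _ _ _ _ hcard hG hnt H hHn hH hnr
    haveI := hHn
    haveI := hG
    classical
    haveI := Fintype.ofFinite X
    have hcardF : k + 1 ≤ Fintype.card X := by rwa [Nat.card_eq_fintype_card] at hcard
    have hcN : Nat.card X = Fintype.card X := Nat.card_eq_fintype_card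
    have hGtr : MulAction.IsMultiplyPretransitive G X (k + 1) := hG.isMultiplyPretransitive
    have h2 : MulAction.IsMultiplyPretransitive G X 2 :=
      MulAction.isMultiplyPretransitive_of_le (n := k + 1) (by omega) (by omega)
    have hprim := MulAction.isPreprimitive_of_is_two_pretransitive h2
    have hGt : MulAction.IsPretransitive G X := hprim.toIsPretransitive
    have hHt := Ltrans hprim H hH
    obtain ⟨a, ha⟩ : ∃ a : X, MulAction.stabilizer H a ≠ ⊥ := by
      rcases hnr with h | h
      · omega
      · exact h
    haveI hfa := Lfaith (G := G) a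
    have hGa : MulAction.IsMultiplyPreprimitive (MulAction.stabilizer G a)
        (SubMulAction.ofStabilizer G a) k :=
      MulAction.isMultiplyPreprimitive_ofStabilizer (M := G) (α := X) (n := k)
    have hca := SubMulAction.nat_card_ofStabilizer_add_one_eq (G := G) a
    have hcarda : k ≤ Nat.card (SubMulAction.ofStabilizer G a) := by omega
    have hnta : ¬ MulAction.IsMultiplyPretransitive (MulAction.stabilizer G a)
        (SubMulAction.ofStabilizer G a) (Nat.card (SubMulAction.ofStabilizer G a) - 1) := by
      intro h
      apply hnt
      have := (SubMulAction.ofStabilizer.isMultiplyPretransitive (G := G) (a := a)).mpr h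
      have e : (Nat.card (SubMulAction.ofStabilizer G a) - 1).succ = Nat.card X - 1 := by omega
      rw [e] at this
      exact this
    obtain ⟨s, hs, hs1⟩ : ∃ s ∈ MulAction.stabilizer H a, s ≠ 1 := by
      by_contra hcon
      push_neg at hcon
      exact ha ((Subgroup.eq_bot_iff_forall _).mpr hcon)
    have hsa : (s : G) • a = a := hs
    have hHa : H.subgroupOf (MulAction.stabilizer G a) ≠ ⊥ := by
      intro h
      have hmem : (⟨(s : G), hsa⟩ : MulAction.stabilizer G a) ∈
          H.subgroupOf (MulAction.stabilizer G a) := s.2
      rw [h, Subgroup.mem_bot] at hmem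
      apply hs1
      apply Subtype.ext
      have := congrArg Subtype.val hmem
      exact this
    by_cases hcase : k = 1 ∨ ∃ x : SubMulAction.ofStabilizer G a,
        MulAction.stabilizer (H.subgroupOf (MulAction.stabilizer G a)) x ≠ ⊥
    · have := ih hcarda hGa hnta (H.subgroupOf (MulAction.stabilizer G a)) inferInstance hHa hcase
      exact Ltransfer H a k hHt this
    · exfalso
      push_neg at hcase
      obtain ⟨hk1, hr⟩ := hcase
      have hk2 : 2 ≤ k := by omega
      have hE : ((k : ℕ) : ℕ∞) ≤ ENat.card (SubMulAction.ofStabilizer G a) := by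
        rw [ENat.card_eq_coe_natCard]; exact_mod_cast hcarda
      have hGa2 : MulAction.IsMultiplyPreprimitive (MulAction.stabilizer G a)
          (SubMulAction.ofStabilizer G a) 2 :=
        MulAction.isMultiplyPreprimitive_of_le _ _ hGa hk2 hE
      have hGa2t : MulAction.IsMultiplyPretransitive (MulAction.stabilizer G a)
          (SubMulAction.ofStabilizer G a) 2 := hGa2.isMultiplyPretransitive
      have hprima := MulAction.isPreprimitive_of_is_two_pretransitive hGa2t
      have hHat := Ltrans hprima (H.subgroupOf (MulAction.stabilizer G a)) hHa
      have h3 : MulAction.IsMultiplyPretransitive G X 3 :=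
        MulAction.isMultiplyPretransitive_of_le (n := k + 1) (by omega) (by omega)
      haveI := Fintype.ofFinite (SubMulAction.ofStabilizer G a)
      have hcF : Fintype.card (SubMulAction.ofStabilizer G a) + 1 = Fintype.card X := by
        rw [← Nat.card_eq_fintype_card, ← Nat.card_eq_fintype_card]; exact hca
      rcases S0695.result (by omega) hGa2 (H.subgroupOf (MulAction.stabilizer G a)) hHat hr with
        h | ⟨-, he, -⟩
      · apply hnt
        have e : Nat.card X - 1 = 3 := by omega
        rw [e]
        exact h3
      · by_cases h4 : 4 ≤ Nat.card X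
        · apply Linv h3 h4 H a ?_ (s : G) s.2 (fun h => hs1 (Subtype.ext h)) hsa ?_
          · intro n hn x hx hna hnx
            have hmem : (⟨⟨n, hna⟩, hn⟩ : H.subgroupOf (MulAction.stabilizer G a)) ∈
                MulAction.stabilizer (H.subgroupOf (MulAction.stabilizer G a))
                  (⟨x, hx⟩ : SubMulAction.ofStabilizer G a) := by
              rw [MulAction.mem_stabilizer_iff]
              apply Subtype.ext
              exact hnx
            rw [hr, Subgroup.mem_bot] at hmem
            have := congrArg (fun z : ↥(H.subgroupOf (MulAction.stabilizer G a)) =>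
              ((z : MulAction.stabilizer G a) : G)) hmem
            exact this
          · have := he ⟨(s : G), hsa⟩ s.2
            rw [pow_two] at this
            exact congrArg Subtype.val this
        · apply hnt
          have e : Nat.card X - 1 = 2 := by omega
          rw [e]
          exact h2

/-- In a `k`-primitive permutation group which is not the whole symmetric group, a non-trivial non-regular normal subgroup is `k`-transitive. -/
theorem result {α : Type*} [Fintype α] [DecidableEq α] (G : Subgroup (Equiv.Perm α)) {k : ℕ} (hk : 1 ≤ k) (hkn : k ≤ Fintype.card α) (hG : MulAction.IsMultiplyPreprimitive G α k) (htop : G ≠ ⊤) (H : Subgroup G) [H.Normal] (hH : H ≠ ⊥) (hnr : ∃ a : α, MulAction.stabilizer H a ≠ ⊥) : MulAction.IsMultiplyPretransitive H α k := by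
  exact main k hk (G := G) (X := α) (by rw [Nat.card_eq_fintype_card]; exact hkn) hG
    (fun h => htop (Equiv.Perm.eq_top_of_isMultiplyPretransitive h)) H inferInstance hH
    (Or.inr hnr)

end Cfsg.Agent.S0697
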