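import Mathlib
import Cfsg.Statements.S0706

set_option autoImplicit false
open Cfsg

namespace Cfsg.Agent.S0706

universe u v

/-- homogeneity from generosity -/
theorem homog_aux {G : Type u} {X : Type v} [Group G] [MulAction G X] [DecidableEq X] {k : ℕ}
    (hgen : ∀ s : Finset X, s.card = k + 1 → ∀ σ : Equiv.Perm ↥s,
      ∃ g : G, ∀ x : ↥s, g • (x : X) = σ x) :
    ∀ (d : ℕ) (A B : Finset X), A.card = k → B.card = k → (B \ A).card = d →
      ∃ g : G, ∀ x ∈ A, g • x ∈ B := by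
  intro d
  induction d with
  | zero =>
    intro A B hA hB h0
    refine ⟨1, fun x hx => ?_⟩
    rw [one_smul]
    have hBA : B ⊆ A := Finset.sdiff_eq_empty_iff_subset.mp (Finset.card_eq_zero.mp h0)
    have : B = A := Finset.eq_of_subset_of_card_le hBA (by rw [hA, hB])
    rw [this]; exact hx
  | succ d ih =>
    intro A B hA hB hd
    obtain ⟨b, hb⟩ : (B \ A).Nonempty := by rw [← Finset.card_pos, hd]; omega
    rw [Finset.mem_sdiff] at hb
    have hAB : (A \ B).card = (B \ A).card := by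
      have h1 := Finset.card_sdiff_add_card_inter A B
      have h2 := Finset.card_sdiff_add_card_inter B A
      rw [Finset.inter_comm] at h2
      omega
    obtain ⟨a, ha⟩ : (A \ B).Nonempty := by rw [← Finset.card_pos, hAB, hd]; omega
    rw [Finset.mem_sdiff] at ha
    have hA'c : (insert b (A.erase a)).card = k := by
      rw [Finset.card_insert_of_notMem (fun h => hb.2 (Finset.mem_of_mem_erase h)),
        Finset.card_erase_of_mem ha.1, hA]
      have : 0 < k := by rw [← hA]; exact Finset.card_pos.mpr ⟨a, ha.1⟩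
      omega
    have hd' : (B \ insert b (A.erase a)).card = d := by
      have : B \ insert b (A.erase a) = (B \ A).erase b := by
        ext x
        simp only [Finset.mem_sdiff, Finset.mem_insert, Finset.mem_erase, not_or, not_and]
        constructor
        · rintro ⟨hxB, hxb, hx⟩
          refine ⟨hxb, hxB, fun hxA => hx ?_ hxA⟩
          rintro rfl; exact ha.2 hxB
        · rintro ⟨hxb, hxB, hxA⟩
          exact ⟨hxB, hxb, fun _ h => hxA h⟩
      rw [this, Finset.card_erase_of_mem (Finset.mem_sdiff.mpr hb), hd]; rfl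
    obtain ⟨g₂, hg₂⟩ := ih (insert b (A.erase a)) B hA'c hB hd'
    have hS : (insert b A).card = k + 1 := by rw [Finset.card_insert_of_notMem hb.2, hA]
    obtain ⟨g₁, hg₁⟩ := hgen (insert b A) hS
      (Equiv.swap ⟨a, Finset.mem_insert_of_mem ha.1⟩ ⟨b, Finset.mem_insert_self b A⟩)
    refine ⟨g₂ * g₁, fun x hx => ?_⟩
    rw [mul_smul]
    apply hg₂
    have := hg₁ ⟨x, Finset.mem_insert_of_mem hx⟩
    by_cases hxa : x = a
    · subst hxa
      rw [Equiv.swap_apply_left] at this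
      rw [this]; exact Finset.mem_insert_self _ _
    · have hxb : x ≠ b := fun h => hb.2 (h ▸ hx)
      rw [Equiv.swap_apply_of_ne_of_ne (fun h => hxa (congrArg Subtype.val h))
        (fun h => hxb (congrArg Subtype.val h))] at this
      rw [this]
      exact Finset.mem_insert_of_mem (Finset.mem_erase.mpr ⟨hxa, hx⟩)

open scoped Pointwise in
theorem card_fix_eq {G : Type u} {X : Type v} [Group G] [MulAction G X] [DecidableEq X] {k : ℕ}
    (hgen : ∀ s : Finset X, s.card = k + 1 → ∀ σ : Equiv.Perm ↥s,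
      ∃ g : G, ∀ x : ↥s, g • (x : X) = σ x)
    (A B : Finset X) (hA : A.card = k) (hB : B.card = k) :
    Nat.card (fixingSubgroup G (A : Set X)) = Nat.card (fixingSubgroup G (B : Set X)) := by
  obtain ⟨g, hg⟩ := homog_aux hgen _ A B hA hB rfl
  have hgAB : g • (A : Set X) = (B : Set X) := by
    have : A.image (fun x => g • x) = B := by
      apply Finset.eq_of_subset_of_card_le
      · intro y hy
        obtain ⟨x, hx, rfl⟩ := Finset.mem_image.mp hy
        exact hg x hx
      · rw [Finset.card_image_of_injective _ (MulAction.injective g), hA, hB]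
    rw [← this, Finset.coe_image, Set.image_smul]
  exact Nat.card_congr (SubMulAction.fixingSubgroupEquivFixingSubgroup hgAB).toEquiv

/-- Neumann's lemma on generously `k`-transitive groups, for general actions of finite groups -/
theorem neumann {G : Type u} {X : Type v} [Group G] [Finite G] [MulAction G X] [Fintype X]
    [DecidableEq X] {k : ℕ}
    (hgen : ∀ s : Finset X, s.card = k + 1 → ∀ σ : Equiv.Perm ↥s,
      ∃ g : G, ∀ x : ↥s, g • (x : X) = σ x)
    {p : ℕ} (hp : p.Prime) (hpk : p ≤ k) (Γ : Finset X) (hΓ : Γ.card = k)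
    (f : Fin p → X) (hf : ∀ i, f i ∉ Γ)
    (hdist : ∀ i j, i ≠ j → f j ∉ MulAction.orbit (fixingSubgroup G (Γ : Set X)) (f i)) :
    ∃ i, p ∣ Nat.card (MulAction.orbit (fixingSubgroup G (Γ : Set X)) (f i)) := by
  classical
  haveI : Fact p.Prime := ⟨hp⟩
  by_contra hno
  push_neg at hno
  set H := fixingSubgroup G (Γ : Set X) with hH
  have hHmem : ∀ g : G, g ∈ H ↔ ∀ x ∈ Γ, g • x = x := fun g => by
    rw [hH, mem_fixingSubgroup_iff]; simp
  obtain ⟨C, hCΓ, hCc⟩ := Finset.exists_subset_card_eq (hΓ ▸ hpk : p ≤ Γ.card)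
  obtain ⟨τ, hτC, hτs⟩ := Finset.exists_cycleOn C
  have hτfix : ∀ x, x ∉ C → τ x = x := fun x hx => by
    by_contra h; exact hx (hτs (Equiv.Perm.mem_support.mpr h))
  have hCnt : C.Nontrivial := by
    rw [← Finset.one_lt_card_iff_nontrivial, hCc]; exact hp.one_lt
  have hτmove : ∀ x ∈ C, τ x ≠ x := fun x hx => hτC.apply_ne hCnt hx
  have hτnfix : ∀ (n : ℕ) x, x ∉ C → (τ ^ n) x = x := fun n x hx =>
    Equiv.Perm.pow_apply_eq_self_of_apply_eq_self (hτfix x hx) n
  have hτnC : ∀ (n : ℕ) x, x ∈ C → (τ ^ n) x ∈ C := fun n x hx =>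
    hτs (Equiv.Perm.pow_apply_mem_support.mpr (Equiv.Perm.mem_support.mpr (hτmove x hx)))
  have hτnΓ : ∀ (n : ℕ) x, x ∈ Γ → (τ ^ n) x ∈ Γ := by
    intro n x hx
    by_cases hxC : x ∈ C
    · exact hCΓ (hτnC n x hxC)
    · rw [hτnfix n x hxC]; exact hx
  have hτp : τ ^ p = 1 := by
    ext x
    by_cases hx : x ∈ C
    · rw [← hCc]; exact hτC.pow_card_apply hx
    · rw [hτnfix p x hx]; rfl
  -- the group B
  let B : Subgroup G :=
    { carrier := {b | ∃ n : ℕ, ∀ x ∈ Γ, b • x = (τ ^ n) x}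
      one_mem' := ⟨0, fun x _ => by simp⟩
      mul_mem' := by
        rintro b b' ⟨j, hj⟩ ⟨j', hj'⟩
        refine ⟨j + j', fun x hx => ?_⟩
        rw [mul_smul, hj' x hx, hj _ (hτnΓ j' x hx), pow_add, Equiv.Perm.mul_apply]
      inv_mem' := by
        rintro b ⟨j, hj⟩
        refine ⟨(p - 1) * j, fun x hx => ?_⟩
        rw [inv_smul_eq_iff, hj _ (hτnΓ _ x hx), ← Equiv.Perm.mul_apply, ← pow_add]
        have e : j + (p - 1) * j = p * j := by
          have := hp.pos
          calc j + (p - 1) * j = (1 + (p - 1)) * j := by ring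
            _ = p * j := by rw [Nat.add_sub_cancel' hp.pos]
        rw [e, pow_mul, hτp, one_pow]; rfl }
  have hBmem : ∀ b, b ∈ B ↔ ∃ n : ℕ, ∀ x ∈ Γ, b • x = (τ ^ n) x := fun b => Iff.rfl
  have hHB : H ≤ B := fun h hh => ⟨0, fun x hx => by rw [(hHmem h).mp hh x hx]; rfl⟩
  have hBΓ : ∀ b ∈ B, ∀ x ∈ Γ, b • x ∈ Γ := by
    rintro b ⟨n, hn⟩ x hx
    rw [hn x hx]; exact hτnΓ n x hx
  have hBfix : ∀ b ∈ B, ∀ x ∈ Γ, x ∉ C → b • x = x := by
    rintro b ⟨n, hn⟩ x hx hxC
    rw [hn x hx]; exact hτnfix n x hxC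
  have hBnorm : ∀ b ∈ B, ∀ h ∈ H, b * h * b⁻¹ ∈ H := by
    intro b hb h hh
    rw [hHmem]
    intro x hx
    rw [mul_smul, mul_smul, (hHmem h).mp hh _ (hBΓ b⁻¹ (B.inv_mem hb) x hx), smul_inv_smul]
  -- the elements g i
  have hg : ∀ i, ∃ g : G, ∀ x ∈ insert (f i) Γ, g • x = τ x := by
    intro i
    have hS : (insert (f i) Γ).card = k + 1 := by
      rw [Finset.card_insert_of_notMem (hf i), hΓ]
    have hτS : ∀ x, τ x ∈ insert (f i) Γ ↔ x ∈ insert (f i) Γ := by
      intro x
      by_cases hx : x ∈ C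
      · constructor
        · intro _; exact Finset.mem_insert_of_mem (hCΓ hx)
        · intro _
          have := hτnC 1 x hx
          rw [pow_one] at this
          exact Finset.mem_insert_of_mem (hCΓ this)
      · rw [hτfix x hx]
    obtain ⟨g, hg⟩ := hgen (insert (f i) Γ) hS (τ.subtypePerm hτS)
    exact ⟨g, fun x hx => hg ⟨x, hx⟩⟩
  choose g hg using hg
  have hgn : ∀ i (n : ℕ), ∀ x ∈ Γ, (g i ^ n) • x = (τ ^ n) x := by
    intro i n
    induction n with
    | zero => intro x _; simp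
    | succ n ih =>
      intro x hx
      rw [pow_succ', mul_smul, ih x hx, hg i _ (Finset.mem_insert_of_mem (hτnΓ n x hx)),
        pow_succ', Equiv.Perm.mul_apply]
  have hgB : ∀ i (n : ℕ), g i ^ n ∈ B := fun i n => ⟨n, hgn i n⟩
  have hfC : ∀ i, f i ∉ C := fun i h => hf i (hCΓ h)
  have hgf : ∀ i (n : ℕ), (g i ^ n) • f i = f i := by
    intro i n
    induction n with
    | zero => simp
    | succ n ih =>
      rw [pow_succ', mul_smul, ih, hg i _ (Finset.mem_insert_self _ _), hτfix _ (hfC i)]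
  -- p * |H| divides |B|
  haveI hH'n : (H.subgroupOf B).Normal := ⟨fun h hh b => hBnorm b.1 b.2 h.1 hh⟩
  have hdvd : p * Nat.card H ∣ Nat.card B := by
    have i₀ : Fin p := ⟨0, hp.pos⟩
    have hg1B : g i₀ ∈ B := by have := hgB i₀ 1; rwa [pow_one] at this
    let x₁ : ↥B ⧸ H.subgroupOf B := QuotientGroup.mk ⟨g i₀, hg1B⟩
    have hx₁p : x₁ ^ p = 1 := by
      change ((⟨g i₀, hg1B⟩ ^ p : ↥B) : ↥B ⧸ H.subgroupOf B) = 1
      rw [QuotientGroup.eq_one_iff]
      change g i₀ ^ p ∈ H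
      rw [hHmem]
      intro x hx
      rw [hgn i₀ p x hx, hτp]; rfl
    have hx₁1 : x₁ ≠ 1 := by
      intro h
      have h' : (⟨g i₀, hg1B⟩ : ↥B) ∈ H.subgroupOf B := (QuotientGroup.eq_one_iff _).mp h
      have h'' : g i₀ ∈ H := h'
      obtain ⟨c, hc⟩ := hCnt.nonempty
      have := (hHmem _).mp h'' c (hCΓ hc)
      rw [hg i₀ c (Finset.mem_insert_of_mem (hCΓ hc))] at this
      exact hτmove c hc this
    have ho : orderOf x₁ = p := orderOf_eq_prime hx₁p hx₁1
    have hd1 : p ∣ Nat.card (↥B ⧸ H.subgroupOf B) := ho ▸ orderOf_dvd_natCard x₁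
    have hc := Subgroup.card_eq_card_quotient_mul_card_subgroup (H.subgroupOf B)
    have hc2 : Nat.card (H.subgroupOf B) = Nat.card H :=
      Nat.card_congr (Subgroup.subgroupOfEquivOfLe hHB).toEquiv
    rw [hc, hc2]
    exact Nat.mul_dvd_mul hd1 dvd_rfl
  -- B preserves the orbits
  have hBO : ∀ b ∈ B, ∀ i, ∀ y ∈ MulAction.orbit H (f i), b • y ∈ MulAction.orbit H (f i) := by
    rintro b hb i y ⟨h, rfl⟩
    obtain ⟨n, hn⟩ := hb
    have hh' : (g i ^ n)⁻¹ * b ∈ H := by
      rw [hHmem]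
      intro x hx
      rw [mul_smul, hn x hx, inv_smul_eq_iff, hgn i n x hx]
    have hmem : (g i ^ n) * (((g i ^ n)⁻¹ * b) * (h : G)) * (g i ^ n)⁻¹ ∈ H :=
      hBnorm _ (hgB i n) _ (H.mul_mem hh' h.2)
    refine ⟨⟨_, hmem⟩, ?_⟩
    change ((g i ^ n) * (((g i ^ n)⁻¹ * b) * (h : G)) * (g i ^ n)⁻¹) • f i = b • ((h : G) • f i)
    have e : (g i ^ n)⁻¹ • f i = f i := by rw [inv_smul_eq_iff, hgf]
    rw [mul_smul, e, mul_smul, mul_smul, mul_smul, smul_inv_smul]
  -- a Sylow subgroup of B and its fixed points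
  obtain ⟨Q⟩ : Nonempty (Sylow p B) := inferInstance
  have hε : ∀ i, ∃ ε, ε ∈ MulAction.orbit H (f i) ∧
      ∀ q ∈ (Q : Subgroup B), ((q : B) : G) • ε = ε := by
    intro i
    let S : SubMulAction B X :=
      { carrier := MulAction.orbit H (f i)
        smul_mem' := fun b x hx => hBO b.1 b.2 i x hx }
    have h1 := Q.isPGroup'.card_modEq_card_fixedPoints (↥S)
    have hne : Nonempty (MulAction.fixedPoints (Q : Subgroup B) (↥S)) := by
      by_contra hemp
      rw [not_nonempty_iff] at hemp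
      have h0 : Nat.card (MulAction.fixedPoints (Q : Subgroup B) (↥S)) = 0 := Nat.card_of_isEmpty
      rw [h0] at h1
      have h2 : Nat.card (↥S) = Nat.card (MulAction.orbit H (f i)) := rfl
      rw [h2] at h1
      exact hno i ((Nat.modEq_zero_iff_dvd).mp h1)
    obtain ⟨⟨⟨ε, hεO⟩, hεfix⟩⟩ := hne
    refine ⟨ε, hεO, fun q hq => ?_⟩
    have := hεfix ⟨q, hq⟩
    exact congrArg Subtype.val this
  choose ε hεO hεQ using hε
  have hεinj : Function.Injective ε := by
    intro i j hij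
    by_contra hne
    apply hdist i j hne
    have h1 : MulAction.orbit H (ε i) = MulAction.orbit H (f i) :=
      MulAction.orbit_eq_iff.mpr (hεO i)
    have h2 : MulAction.orbit H (ε j) = MulAction.orbit H (f j) :=
      MulAction.orbit_eq_iff.mpr (hεO j)
    rw [← h1, hij, h2]
    exact MulAction.mem_orbit_self _
  have hεΓ : ∀ i, ε i ∉ Γ := by
    intro i hi
    obtain ⟨h, hh⟩ := hεO i
    have hh' : (h : G) • f i = ε i := hh
    have h3 : (h : G)⁻¹ • ε i = ε i := (hHmem _).mp (H.inv_mem h.2) _ hi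
    rw [← hh', inv_smul_smul] at h3
    apply hf i
    rw [h3, hh']; exact hi
  -- the k-set fixed by Q
  set Γ₁ : Finset X := (Γ \ C) ∪ Finset.univ.image ε with hΓ₁
  have hΓ₁c : Γ₁.card = k := by
    rw [hΓ₁, Finset.card_union_of_disjoint, Finset.card_sdiff_of_subset hCΓ,
      Finset.card_image_of_injective _ hεinj, Finset.card_univ, Fintype.card_fin, hΓ, hCc]
    · omega
    · rw [Finset.disjoint_left]
      intro x hx hx'
      obtain ⟨i, -, rfl⟩ := Finset.mem_image.mp hx'
      exact hεΓ i (Finset.mem_sdiff.mp hx).1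
  have hQfix : (Q : Subgroup B).map B.subtype ≤ fixingSubgroup G (Γ₁ : Set X) := by
    rintro _ ⟨q, hq, rfl⟩
    rw [mem_fixingSubgroup_iff]
    intro x hx
    have hx' : x ∈ Γ₁ := hx
    rw [hΓ₁, Finset.mem_union] at hx'
    rcases hx' with h | h
    · rw [Finset.mem_sdiff] at h
      exact hBfix q.1 q.2 x h.1 h.2
    · obtain ⟨i, -, rfl⟩ := Finset.mem_image.mp h
      exact hεQ i q hq
  have hc1 : Nat.card ((Q : Subgroup B).map B.subtype) = Nat.card (Q : Subgroup B) :=
    Subgroup.card_map_of_injective B.subtype_injective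
  have hc2 : Nat.card (Q : Subgroup B) = p ^ (Nat.card B).factorization p :=
    Q.card_eq_multiplicity
  have hc3 : Nat.card (fixingSubgroup G (Γ₁ : Set X)) = Nat.card H :=
    card_fix_eq hgen Γ₁ Γ hΓ₁c hΓ
  have hd2 : p ^ (Nat.card B).factorization p ∣ Nat.card H := by
    rw [← hc2, ← hc1, ← hc3]
    exact Subgroup.card_dvd_of_le hQfix
  have hH0 : Nat.card H ≠ 0 := Nat.card_pos.ne'
  have hB0 : Nat.card B ≠ 0 := Nat.card_pos.ne'
  have hle1 : (Nat.card B).factorization p ≤ (Nat.card H).factorization p :=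
    (hp.pow_dvd_iff_le_factorization hH0).mp hd2
  have hd3 : p ^ ((Nat.card H).factorization p + 1) ∣ Nat.card B := by
    rw [pow_succ']
    exact (Nat.mul_dvd_mul dvd_rfl (Nat.ordProj_dvd _ p)).trans hdvd
  have hle2 := (hp.pow_dvd_iff_le_factorization hB0).mp hd3
  omega

/-- In a generously `k`-transitive permutation group, for a prime `p ≤ k` and a `k`-set `Γ`, there are no `p` points outside `Γ` lying in distinct orbits of the pointwise stabiliser of `Γ` all of length prime to `p` (at most `p - 1` such orbits). -/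
theorem result {α : Type*} [Fintype α] [DecidableEq α] (G : Subgroup (Equiv.Perm α)) {k : ℕ} (hk : k < Fintype.card α) (hgen : ∀ s : Finset α, s.card = k + 1 → ∀ σ : Equiv.Perm ↥s, ∃ g ∈ G, ∀ x : ↥s, g (x : α) = σ x) {p : ℕ} (hp : p.Prime) (hpk : p ≤ k) (Γ : Finset α) (hΓ : Γ.card = k) (f : Fin p → α) (hf : ∀ i, f i ∉ Γ) (hdist : ∀ i j, i ≠ j → f j ∉ MulAction.orbit (fixingSubgroup G (Γ : Set α)) (f i)) : ∃ i, p ∣ Nat.card (MulAction.orbit (fixingSubgroup G (Γ : Set α)) (f i)) := by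
  apply neumann (G := G) (X := α) ?_ hp hpk Γ hΓ f hf hdist
  intro s hs σ
  obtain ⟨g, hg, hgs⟩ := hgen s hs σ
  exact ⟨⟨g, hg⟩, hgs⟩

end Cfsg.Agent.S0706
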