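import Mathlib
import Cfsg.Statements.S0699
import Cfsg.Agent.S0698
import Cfsg.Agent.S0706
import Cfsg.Agent.S0744

set_option autoImplicit false
open Cfsg

namespace Cfsg.Agent.S0699

/-- Wagner's Theorem: a non-trivial normal subgroup of a triply transitive permutation group of odd degree at least 5 is triply transitive. -/
theorem result {α : Type*} [Fintype α] [DecidableEq α] (G : Subgroup (Equiv.Perm α)) (hodd : Odd (Fintype.card α)) (h5 : 5 ≤ Fintype.card α) (hG : MulAction.IsMultiplyPretransitive G α 3) (N : Subgroup G) [N.Normal] (hN : N ≠ ⊥) : MulAction.IsMultiplyPretransitive N α 3 := by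
  classical
  have hNn : N.Normal := inferInstance
  have hcN : Nat.card α = Fintype.card α := Nat.card_eq_fintype_card
  have h2G : MulAction.IsMultiplyPretransitive G α 2 :=
    MulAction.isMultiplyPretransitive_of_le (n := 3) (by omega) (by omega)
  have hprimG := MulAction.isPreprimitive_of_is_two_pretransitive h2G
  have hNt : MulAction.IsPretransitive N α := S0698.Ltrans hprimG N hN
  -- N is 2-transitive
  have h2N : MulAction.IsMultiplyPretransitive N α 2 := by
    rcases S0698.jordan 3 (by norm_num) (G := G) (X := α) (by omega) hG N inferInstance hN with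
      h | ⟨-, -, he, hr⟩
    · exact h
    · exfalso
      obtain ⟨x₀⟩ : Nonempty α := Fintype.card_pos_iff.mp (by omega)
      have hbij : Function.Bijective (fun n : N => n • x₀) :=
        ⟨fun n m h => S0695.L1 N hr x₀ n m h, fun y => MulAction.exists_smul_eq N x₀ y⟩
      have hcard : Nat.card N = Fintype.card α := by
        rw [← Nat.card_eq_fintype_card]; exact Nat.card_eq_of_bijective _ hbij
      haveI : Fact (Nat.Prime 2) := ⟨Nat.prime_two⟩
      have hP : IsPGroup 2 N := by
        intro n
        refine ⟨1, ?_⟩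
        rw [pow_one]
        exact Subtype.ext (he n.1 n.2)
      obtain ⟨m, hm⟩ := IsPGroup.iff_card.mp hP
      rw [hcard] at hm
      rcases Nat.eq_zero_or_pos m with h0 | hpos
      · rw [h0, pow_zero] at hm; omega
      · rw [hm] at hodd
        have : Even (2 ^ m) := (Nat.even_pow' (by omega)).mpr (by decide)
        exact (Nat.not_even_iff_odd.mpr hodd) this
  have h2N' : ∀ a b c d : α, a ≠ b → c ≠ d → ∃ n : N, n • a = c ∧ n • b = d :=
    fun a b c d h h' => MulAction.is_two_pretransitive_iff.mp h2N h h'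
  -- an element swapping two points and fixing a third
  have hswap0 : ∃ a b c : α, a ≠ b ∧ a ≠ c ∧ b ≠ c ∧ ∃ n : N, n • a = b ∧ n • b = a ∧ n • c = c := by
    obtain ⟨a, b, hab⟩ : ∃ a b : α, a ≠ b := by
      have : 1 < Fintype.card α := by omega
      rw [Fintype.one_lt_card_iff_nontrivial] at this
      exact exists_pair_ne α
    obtain ⟨n₀, hn₀a, hn₀b⟩ := h2N' a b b a hab (Ne.symm hab)
    have hord : orderOf n₀ ≠ 0 := (orderOf_pos n₀).ne'
    obtain ⟨e, u, hu, heq⟩ := Nat.exists_eq_two_pow_mul_odd hord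
    obtain ⟨j, rfl⟩ := hu
    have hsq : ∀ i : ℕ, (n₀ ^ (2 * i)) • a = a ∧ (n₀ ^ (2 * i)) • b = b := by
      intro i
      induction i with
      | zero => simp
      | succ i ih =>
        have e1 : n₀ ^ (2 * (i + 1)) = n₀ ^ (2 * i) * (n₀ * n₀) := by
          rw [← pow_two, ← pow_add, Nat.mul_succ]
        rw [e1]
        constructor
        · rw [mul_smul, mul_smul, hn₀a, hn₀b, ih.1]
        · rw [mul_smul, mul_smul, hn₀b, hn₀a, ih.2]
    set t := n₀ ^ (2 * j + 1) with ht
    have hta : t • a = b := by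
      rw [ht, pow_succ', mul_smul, (hsq j).1, hn₀a]
    have htb : t • b = a := by
      rw [ht, pow_succ', mul_smul, (hsq j).2, hn₀b]
    have htpow : t ^ (2 ^ e) = 1 := by
      rw [ht, ← pow_mul, mul_comm, ← heq, pow_orderOf_eq_one]
    haveI : Fact (Nat.Prime 2) := ⟨Nat.prime_two⟩
    have hPz : IsPGroup 2 (Subgroup.zpowers t) := by
      have hd : orderOf t ∣ 2 ^ e := orderOf_dvd_of_pow_eq_one htpow
      obtain ⟨i, -, hi⟩ := (Nat.dvd_prime_pow Nat.prime_two).mp hd
      exact IsPGroup.of_card (n := i) (by rw [Nat.card_zpowers, hi])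
    have hfix := hPz.card_modEq_card_fixedPoints α
    have hne : Nonempty (MulAction.fixedPoints (Subgroup.zpowers t) α) := by
      by_contra hemp
      rw [not_nonempty_iff] at hemp
      have h0 : Nat.card (MulAction.fixedPoints (Subgroup.zpowers t) α) = 0 := Nat.card_of_isEmpty
      rw [h0, hcN] at hfix
      have := (Nat.modEq_zero_iff_dvd).mp hfix
      exact (Nat.not_even_iff_odd.mpr hodd) (even_iff_two_dvd.mpr this)
    obtain ⟨⟨c, hc⟩⟩ := hne
    have htc : t • c = c := hc ⟨t, Subgroup.mem_zpowers t⟩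
    refine ⟨a, b, c, hab, ?_, ?_, t, hta, htb, htc⟩
    · rintro rfl; rw [htc] at hta; exact hab hta
    · rintro rfl; rw [htc] at htb; exact hab htb.symm
  obtain ⟨a₀, b₀, c₀, hab₀, hac₀, hbc₀, n₀, hn₀a, hn₀b, hn₀c⟩ := hswap0
  have hswap : ∀ x y z : α, x ≠ y → x ≠ z → y ≠ z →
      ∃ n : N, n • x = y ∧ n • y = x ∧ n • z = z := by
    intro x y z hxy hxz hyz
    obtain ⟨g, hga, hgb, hgc⟩ := S0698.L3t hG a₀ b₀ c₀ x y z hab₀ hac₀ hbc₀ hxy hxz hyz
    have hga' : g⁻¹ • x = a₀ := by rw [inv_smul_eq_iff, hga]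
    have hgb' : g⁻¹ • y = b₀ := by rw [inv_smul_eq_iff, hgb]
    have hgc' : g⁻¹ • z = c₀ := by rw [inv_smul_eq_iff, hgc]
    have hn₀a' : (n₀ : G) • a₀ = b₀ := hn₀a
    have hn₀b' : (n₀ : G) • b₀ = a₀ := hn₀b
    have hn₀c' : (n₀ : G) • c₀ = c₀ := hn₀c
    refine ⟨⟨g * n₀ * g⁻¹, hNn.conj_mem _ n₀.2 g⟩, ?_, ?_, ?_⟩
    · change (g * (n₀ : G) * g⁻¹) • x = y
      rw [mul_smul, mul_smul, hga', hn₀a', hgb]
    · change (g * (n₀ : G) * g⁻¹) • y = x
      rw [mul_smul, mul_smul, hgb', hn₀b', hga]
    · change (g * (n₀ : G) * g⁻¹) • z = z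
      rw [mul_smul, mul_smul, hgc', hn₀c', hgc]
  -- generosity of N on 3-sets
  have hgenN : ∀ s : Finset α, s.card = 2 + 1 → ∀ σ : Equiv.Perm ↥s,
      ∃ n : N, ∀ x : ↥s, n • (x : α) = σ x := by
    intro s hs σ
    let K : Subgroup (Equiv.Perm ↥s) :=
      { carrier := {σ | ∃ n : N, ∀ x : ↥s, n • (x : α) = σ x}
        one_mem' := ⟨1, fun x => by simp⟩
        mul_mem' := by
          rintro σ₁ σ₂ ⟨n₁, h₁⟩ ⟨n₂, h₂⟩
          refine ⟨n₁ * n₂, fun x => ?_⟩
          rw [mul_smul, h₂ x, h₁ (σ₂ x)]; rfl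
        inv_mem' := by
          rintro σ₁ ⟨n₁, h₁⟩
          refine ⟨n₁⁻¹, fun x => ?_⟩
          rw [inv_smul_eq_iff, h₁ (σ₁⁻¹ x)]
          simp }
    have hK : K = ⊤ := by
      rw [eq_top_iff, ← Equiv.Perm.closure_isSwap, Subgroup.closure_le]
      rintro σ₁ ⟨x, y, hxy, rfl⟩
      have hxy' : (x : α) ≠ y := fun h => hxy (Subtype.ext h)
      obtain ⟨z, hz⟩ : ∃ z ∈ s, z ≠ (x : α) ∧ z ≠ (y : α) := by
        by_contra hcon
        push_neg at hcon
        have hsub : s ⊆ {(x : α), (y : α)} := by
          intro w hw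
          simp only [Finset.mem_insert, Finset.mem_singleton]
          by_cases h1 : w = x
          · exact Or.inl h1
          · exact Or.inr (hcon w hw h1)
        have := Finset.card_le_card hsub
        have h2 : ({(x : α), (y : α)} : Finset α).card ≤ 2 := Finset.card_le_two
        omega
      obtain ⟨hzs, hzx, hzy⟩ := hz
      obtain ⟨n, hnx, hny, hnz⟩ := hswap x y z hxy' (Ne.symm hzx) (Ne.symm hzy)
      have hall : ∀ w ∈ s, w = (x : α) ∨ w = (y : α) ∨ w = z := by
        have hsub : ({(x : α), (y : α), z} : Finset α) ⊆ s := by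
          intro w hw
          simp only [Finset.mem_insert, Finset.mem_singleton] at hw
          rcases hw with rfl | rfl | rfl
          · exact x.2
          · exact y.2
          · exact hzs
        have hc3 : ({(x : α), (y : α), z} : Finset α).card = 3 :=
          Finset.card_eq_three.mpr ⟨_, _, _, hxy', Ne.symm hzx, Ne.symm hzy, rfl⟩
        have heq := Finset.eq_of_subset_of_card_le hsub (by rw [hc3, hs])
        intro w hw
        rw [← heq] at hw
        simpa using hw
      refine ⟨n, fun w => ?_⟩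
      rcases hall w w.2 with h | h | h
      · have hw : w = x := Subtype.ext h
        rw [hw, Equiv.swap_apply_left]; exact hnx
      · have hw : w = y := Subtype.ext h
        rw [hw, Equiv.swap_apply_right]; exact hny
      · have hwx : w ≠ x := fun e => hzx (h ▸ congrArg Subtype.val e)
        have hwy : w ≠ y := fun e => hzy (h ▸ congrArg Subtype.val e)
        rw [Equiv.swap_apply_of_ne_of_ne hwx hwy, h]; exact hnz
    have : σ ∈ K := by rw [hK]; trivial
    exact this
  -- the two-point stabiliser of N is transitive on the remaining points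
  have htr : ∀ a b : α, a ≠ b → ∀ c c' : α, c ≠ a → c ≠ b → c' ≠ a → c' ≠ b →
      ∃ n : N, n • a = a ∧ n • b = b ∧ n • c = c' := by
    intro a b hab c c' hca hcb hc'a hc'b
    set Γ : Finset α := {a, b} with hΓ
    have hΓc : Γ.card = 2 := Finset.card_pair hab
    set H := fixingSubgroup N (Γ : Set α) with hH
    have hHmem : ∀ n : N, n ∈ H ↔ n • a = a ∧ n • b = b := by
      intro n
      rw [hH, mem_fixingSubgroup_iff]
      simp [hΓ]
    -- all orbits outside Γ have the same size
    have hle : ∀ x y : α, x ∉ Γ → y ∉ Γ →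
        Nat.card (MulAction.orbit H x) ≤ Nat.card (MulAction.orbit H y) := by
      intro x y hx hy
      have hxa : x ≠ a := fun h => hx (by rw [hΓ, h]; simp)
      have hxb : x ≠ b := fun h => hx (by rw [hΓ, h]; simp)
      have hya : y ≠ a := fun h => hy (by rw [hΓ, h]; simp)
      have hyb : y ≠ b := fun h => hy (by rw [hΓ, h]; simp)
      obtain ⟨g, hga, hgb, hgx⟩ := S0698.L3t hG a b x a b y hab (Ne.symm hxa) (Ne.symm hxb)
        hab (Ne.symm hya) (Ne.symm hyb)
      have hga' : g⁻¹ • a = a := by rw [inv_smul_eq_iff, hga]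
      have hgb' : g⁻¹ • b = b := by rw [inv_smul_eq_iff, hgb]
      have hmap : ∀ w ∈ MulAction.orbit H x, g • w ∈ MulAction.orbit H y := by
        rintro w ⟨h, rfl⟩
        have hh := (hHmem h.1).mp h.2
        have hha : ((h : N) : G) • a = a := hh.1
        have hhb : ((h : N) : G) • b = b := hh.2
        have hcN : g * ((h : N) : G) * g⁻¹ ∈ N := hNn.conj_mem _ (h : N).2 g
        have hcH : (⟨_, hcN⟩ : N) ∈ H := by
          rw [hHmem]
          constructor
          · change (g * ((h : N) : G) * g⁻¹) • a = a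
            rw [mul_smul, mul_smul, hga', hha, hga]
          · change (g * ((h : N) : G) * g⁻¹) • b = b
            rw [mul_smul, mul_smul, hgb', hhb, hgb]
        refine ⟨⟨⟨_, hcN⟩, hcH⟩, ?_⟩
        change (g * ((h : N) : G) * g⁻¹) • y = g • (((h : N) : G) • x)
        rw [mul_smul, mul_smul, ← hgx, inv_smul_smul]
      exact Nat.card_le_card_of_injective
        (fun w : MulAction.orbit H x => (⟨g • w.1, hmap w.1 w.2⟩ : MulAction.orbit H y))
        (fun w w' hww' => Subtype.ext (MulAction.injective g (congrArg Subtype.val hww')))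
    have hcnotin : c ∉ Γ := by rw [hΓ]; simp [hca, hcb]
    have hc'notin : c' ∉ Γ := by rw [hΓ]; simp [hc'a, hc'b]
    have hdall : ∀ x : α, x ∉ Γ →
        Nat.card (MulAction.orbit H x) = Nat.card (MulAction.orbit H c) :=
      fun x hx => le_antisymm (hle x c hx hcnotin) (hle c x hcnotin hx)
    have hdvd : Nat.card (MulAction.orbit H c) ∣
        Nat.card (SubMulAction.ofFixingSubgroup N (Γ : Set α)) := by
      apply S0744.lemA (K := H) (X := SubMulAction.ofFixingSubgroup N (Γ : Set α))
      intro x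
      rw [← hdall x.1 x.2, ← SubMulAction.val_image_orbit x, Nat.card_image_of_injective
        Subtype.val_injective]
    have hcardc : Nat.card (SubMulAction.ofFixingSubgroup N (Γ : Set α)) + 2 =
        Fintype.card α := by
      have h1 : Nat.card (SubMulAction.ofFixingSubgroup N (Γ : Set α)) =
          ((Γ : Set α)ᶜ).ncard := by
        rw [← Nat.card_coe_set_eq]; rfl
      rw [h1, Set.ncard_compl, Set.ncard_coe_finset, hΓc, hcN]
      omega
    have hdodd : Odd (Nat.card (MulAction.orbit H c)) := by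
      have h1 : Odd (Nat.card (SubMulAction.ofFixingSubgroup N (Γ : Set α))) := by
        obtain ⟨j, hj⟩ := hodd
        exact ⟨j - 1, by omega⟩
      exact Odd.of_dvd_nat h1 hdvd
    -- apply Neumann's lemma
    have hmemO : c' ∈ MulAction.orbit H c := by
      by_contra hnot
      have hdist : ∀ i j : Fin 2, i ≠ j →
          (![c, c'] : Fin 2 → α) j ∉ MulAction.orbit (fixingSubgroup N (Γ : Set α))
            ((![c, c'] : Fin 2 → α) i) := by
        intro i j hij
        fin_cases i <;> fin_cases j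
        · exact absurd rfl hij
        · exact hnot
        · intro h
          exact hnot (MulAction.mem_orbit_symm.mp h)
        · exact absurd rfl hij
      obtain ⟨i, hi⟩ := S0706.neumann (G := N) (X := α) hgenN Nat.prime_two (le_refl 2) Γ hΓc
        ![c, c'] (by
          intro i
          fin_cases i
          · exact hcnotin
          · exact hc'notin) hdist
      have hi' : 2 ∣ Nat.card (MulAction.orbit H c) := by
        fin_cases i
        · exact hi
        · have := hdall c' hc'notin
          rw [← this]; exact hi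
      exact (Nat.not_even_iff_odd.mpr hdodd) (even_iff_two_dvd.mpr hi')
    obtain ⟨h, hh⟩ := hmemO
    have := (hHmem h.1).mp h.2
    exact ⟨h.1, this.1, this.2, hh⟩
  -- conclusion
  refine ⟨fun x y => ?_⟩
  have hx01 : x 0 ≠ x 1 := fun h => by simpa using x.injective h
  have hx02 : x 0 ≠ x 2 := fun h => by simpa using x.injective h
  have hx12 : x 1 ≠ x 2 := fun h => by simpa using x.injective h
  have hy01 : y 0 ≠ y 1 := fun h => by simpa using y.injective h
  have hy02 : y 0 ≠ y 2 := fun h => by simpa using y.injective h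
  have hy12 : y 1 ≠ y 2 := fun h => by simpa using y.injective h
  obtain ⟨n₁, hn0, hn1⟩ := h2N' (x 0) (x 1) (y 0) (y 1) hx01 hy01
  have hz0 : n₁ • x 2 ≠ y 0 := fun h => hx02 (smul_left_cancel n₁ (hn0.trans h.symm))
  have hz1 : n₁ • x 2 ≠ y 1 := fun h => hx12 (smul_left_cancel n₁ (hn1.trans h.symm))
  obtain ⟨n₂, h20, h21, h22⟩ := htr (y 0) (y 1) hy01 (n₁ • x 2) (y 2) hz0 hz1
    (Ne.symm hy02) (Ne.symm hy12)
  refine ⟨n₂ * n₁, ?_⟩
  ext i
  fin_cases i
  · change (n₂ * n₁) • x 0 = y 0
    rw [mul_smul, hn0, h20]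
  · change (n₂ * n₁) • x 1 = y 1
    rw [mul_smul, hn1, h21]
  · change (n₂ * n₁) • x 2 = y 2
    rw [mul_smul, h22]

end Cfsg.Agent.S0699
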