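import Mathlib
import Cfsg.Statements.S0700
import Cfsg.Agent.S0680
import Cfsg.Agent.S0698

set_option autoImplicit false
open Cfsg

namespace Cfsg.Agent.S0700

universe u v

open scoped Pointwise in
/-- a nonregular minimal normal subgroup of a faithful 2-transitive finite action is primitive -/
theorem prim_of_nonreg {G : Type u} {X : Type v} [Group G] [MulAction G X] [Finite X]
    [FaithfulSMul G X]
    (h2 : MulAction.IsMultiplyPretransitive G X 2) (N : Subgroup G) [hNn : N.Normal] (hN : N ≠ ⊥)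
    (hmin : ∀ M : Subgroup G, M.Normal → M ≤ N → M = ⊥ ∨ M = N)
    (hnr : ∃ a : X, MulAction.stabilizer N a ≠ ⊥) : MulAction.IsPreprimitive N X := by
  classical
  have hprimG := MulAction.isPreprimitive_of_is_two_pretransitive h2
  have hNt : MulAction.IsPretransitive N X := S0698.Ltrans hprimG N hN
  have h2' : ∀ a b c d : X, a ≠ b → c ≠ d → ∃ g : G, g • a = c ∧ g • b = d :=
    fun a b c d h h' => MulAction.is_two_pretransitive_iff.mp h2 h h'
  by_contra hnp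
  have hex : ∃ B : Set X, MulAction.IsBlock N B ∧ ¬ MulAction.IsTrivialBlock B := by
    by_contra h
    push_neg at h
    exact hnp ⟨fun {B} hB => h B hB⟩
  obtain ⟨B₁, hB₁, hB₁t⟩ := hex
  have hB₁ns : ¬ B₁.Subsingleton := fun h => hB₁t (Or.inl h)
  have hB₁u : B₁ ≠ Set.univ := fun h => hB₁t (Or.inr h)
  have hP : ∃ m : ℕ, ∃ B : Set X, MulAction.IsBlock N B ∧ ¬ B.Subsingleton ∧ B.ncard = m :=
    ⟨_, B₁, hB₁, hB₁ns, rfl⟩
  obtain ⟨B₀, hB₀, hB₀ns, hB₀c⟩ := Nat.find_spec hP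
  have hmin' : ∀ B : Set X, MulAction.IsBlock N B → ¬ B.Subsingleton → B₀.ncard ≤ B.ncard := by
    intro B hB hBns
    rw [hB₀c]
    exact Nat.find_min' hP ⟨B, hB, hBns, rfl⟩
  have hB₁lt : B₁.ncard < Nat.card X := by
    rw [← Set.ncard_univ]
    exact Set.ncard_lt_ncard (lt_of_le_of_ne (Set.subset_univ _) hB₁u) (Set.toFinite _)
  have hB₀lt : B₀.ncard < Nat.card X := lt_of_le_of_lt (hmin' B₁ hB₁ hB₁ns) hB₁lt
  have hsm : ∀ (n : N) (S : Set X), n • S = (n : G) • S := fun n S => rfl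
  -- translates of the minimal block are blocks
  have hLblock : ∀ g : G, MulAction.IsBlock N (g • B₀) := by
    intro g
    rw [MulAction.isBlock_iff_smul_eq_of_mem]
    intro n x hx hnx
    obtain ⟨b, hb, rfl⟩ := hx
    obtain ⟨b', hb', hb'e⟩ := hnx
    have hn' : g⁻¹ * (n : G) * g ∈ N := by
      have := hNn.conj_mem n.1 n.2 g⁻¹
      rwa [inv_inv] at this
    have hb'2 : (⟨_, hn'⟩ : N) • b = b' := by
      change (g⁻¹ * (n : G) * g) • b = b'
      rw [mul_smul, mul_smul, inv_smul_eq_iff]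
      exact hb'e.symm
    have hblk := (MulAction.isBlock_iff_smul_eq_of_mem.mp hB₀) hb (by rw [hb'2]; exact hb')
    rw [hsm] at hblk ⊢
    change (g⁻¹ * (n : G) * g) • B₀ = B₀ at hblk
    calc (n : G) • g • B₀ = g • ((g⁻¹ * (n : G) * g) • B₀) := by
          rw [smul_smul, smul_smul]; congr 1; group
      _ = g • B₀ := by rw [hblk]
  have hLcard : ∀ g : G, (g • B₀).ncard = B₀.ncard := by
    intro g
    rw [← Set.image_smul]
    exact Set.ncard_image_of_injective _ (MulAction.injective g)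
  -- two lines with two common points coincide
  have hLuniq : ∀ L₁ L₂ : Set X, MulAction.IsBlock N L₁ → MulAction.IsBlock N L₂ →
      L₁.ncard = B₀.ncard → L₂.ncard = B₀.ncard → ∀ x y : X, x ≠ y → x ∈ L₁ → y ∈ L₁ →
      x ∈ L₂ → y ∈ L₂ → L₁ = L₂ := by
    intro L₁ L₂ h₁ h₂ c₁ c₂ x y hxy hx1 hy1 hx2 hy2
    have hI : MulAction.IsBlock N (L₁ ∩ L₂) := h₁.inter h₂
    have hIns : ¬ (L₁ ∩ L₂).Subsingleton := fun h => hxy (h ⟨hx1, hx2⟩ ⟨hy1, hy2⟩)
    have hIc := hmin' _ hI hIns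
    have e1 : L₁ ∩ L₂ = L₁ :=
      Set.eq_of_subset_of_ncard_le Set.inter_subset_left (by rw [c₁]; exact hIc) (Set.toFinite _)
    have e2 : L₁ ∩ L₂ = L₂ :=
      Set.eq_of_subset_of_ncard_le Set.inter_subset_right (by rw [c₂]; exact hIc) (Set.toFinite _)
    rw [← e1]; exact e2
  -- any two points are on a line
  have hLex : ∀ x y : X, x ≠ y → ∃ L : Set X, MulAction.IsBlock N L ∧ L.ncard = B₀.ncard ∧
      x ∈ L ∧ y ∈ L := by
    intro x y hxy
    have : ∃ u ∈ B₀, ∃ v ∈ B₀, u ≠ v := by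
      by_contra h
      push_neg at h
      exact hB₀ns (fun u hu v hv => h u hu v hv)
    obtain ⟨u, hu, v, hv, huv⟩ := this
    obtain ⟨g, hgu, hgv⟩ := h2' u v x y huv hxy
    exact ⟨g • B₀, hLblock g, hLcard g, hgu ▸ Set.smul_mem_smul_set hu,
      hgv ▸ Set.smul_mem_smul_set hv⟩
  -- an element of N fixing a point of a block stabilises it
  have hLfix : ∀ L : Set X, MulAction.IsBlock N L → ∀ n ∈ N, ∀ x ∈ L, n • x = x →
      ∀ y ∈ L, n • y ∈ L := by
    intro L hL n hn x hx hnx y hy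
    have hblk := (MulAction.isBlock_iff_smul_eq_of_mem.mp hL) (g := ⟨n, hn⟩) hx
      (by change n • x ∈ L; rw [hnx]; exact hx)
    rw [hsm] at hblk
    change n • L = L at hblk
    rw [← hblk]
    exact Set.smul_mem_smul_set hy
  have F1 : ∀ a b : X, a ≠ b → ∀ h ∈ N, h • a = a → h • b = b → ∀ L : Set X,
      MulAction.IsBlock N L → L.ncard = B₀.ncard → a ∈ L → b ∈ L → ∀ c : X, c ∉ L →
      h • c = c := by
    intro a b hab h hh hha hhb L hL hLc haL hbL c hcL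
    by_contra hc'
    have hca : a ≠ c := fun e => hcL (e ▸ haL)
    have hcb : b ≠ c := fun e => hcL (e ▸ hbL)
    obtain ⟨L₁, hL₁, hL₁c, haL₁, hcL₁⟩ := hLex a c hca
    obtain ⟨L₂, hL₂, hL₂c, hbL₂, hcL₂⟩ := hLex b c hcb
    have h1 : h • c ∈ L₁ := hLfix L₁ hL₁ h hh a haL₁ hha c hcL₁
    have h2 : h • c ∈ L₂ := hLfix L₂ hL₂ h hh b hbL₂ hhb c hcL₂
    have e12 : L₁ = L₂ := hLuniq L₁ L₂ hL₁ hL₂ hL₁c hL₂c c (h • c) (Ne.symm hc') hcL₁ h1 hcL₂ h2
    have e1L : L₁ = L := hLuniq L₁ L hL₁ hL hL₁c hLc a b hab haL₁ (e12 ▸ hbL₂) haL hbL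
    exact hcL (e1L ▸ hcL₁)
  have hsr : ∀ a b : X, a ≠ b → ∀ n ∈ N, n • a = a → n • b = b → n = 1 := by
    intro a b hab n hn hna hnb
    apply FaithfulSMul.eq_of_smul_eq_smul (α := X)
    intro c
    rw [one_smul]
    obtain ⟨L₀, hL₀, hL₀c, haL₀, hbL₀⟩ := hLex a b hab
    by_cases hc : c ∈ L₀
    · by_cases hca : c = a
      · rw [hca]; exact hna
      · have : ∃ c' : X, c' ∉ L₀ := by
          by_contra h
          push_neg at h
          have : L₀ = Set.univ := Set.eq_univ_of_forall h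
          rw [this, Set.ncard_univ] at hL₀c
          omega
        obtain ⟨c', hc'⟩ := this
        have hnc' : n • c' = c' := F1 a b hab n hn hna hnb L₀ hL₀ hL₀c haL₀ hbL₀ c' hc'
        have hac' : a ≠ c' := fun e => hc' (e ▸ haL₀)
        obtain ⟨L₁, hL₁, hL₁c, haL₁, hc'L₁⟩ := hLex a c' hac'
        have hcL₁ : c ∉ L₁ := by
          intro hcL₁
          have e : L₁ = L₀ := hLuniq L₁ L₀ hL₁ hL₀ hL₁c hL₀c a c (Ne.symm hca) haL₁ hcL₁ haL₀ hc
          exact hc' (e ▸ hc'L₁)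
        exact F1 a c' hac' n hn hna hnc' L₁ hL₁ hL₁c haL₁ hc'L₁ c hcL₁
    · exact F1 a b hab n hn hna hnb L₀ hL₀ hL₀c haL₀ hbL₀ c hc
  have hX2 : 2 ≤ Nat.card X := by
    have : 2 ≤ B₁.ncard := by
      by_contra h
      push_neg at h
      have h1 : B₁.ncard ≤ 1 := by omega
      rw [Set.ncard_le_one_iff_subsingleton] at h1
      exact hB₁ns h1
    omega
  obtain ⟨K, hKN, hKn, hKmem, hKt, hKreg⟩ := S0680.FK hX2 N hNt h2 hsr
  obtain ⟨a, ha⟩ := hnr
  rcases hmin K hKn hKN with hK | hK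
  · obtain ⟨x, y, hxy⟩ : ∃ x y : X, x ≠ y := by
      have : 1 < Nat.card X := hX2
      rw [Finite.one_lt_card_iff_nontrivial] at this
      exact exists_pair_ne X
    obtain ⟨k, hk⟩ := MulAction.exists_smul_eq K x y
    have : (k : G) ∈ (⊥ : Subgroup G) := hK ▸ k.2
    rw [Subgroup.mem_bot] at this
    apply hxy
    have hk' : (k : G) • x = y := hk
    rw [this, one_smul] at hk'
    exact hk'
  · subst hK
    exact ha (hKreg a)

/-- commuting of two subgroups normalised by `N` with trivial intersection -/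
theorem P1 {G : Type u} [Group G] (N A B : Subgroup G) (hA : A ≤ N) (hB : B ≤ N)
    (hAn : ∀ n ∈ N, ∀ t ∈ A, n * t * n⁻¹ ∈ A) (hBn : ∀ n ∈ N, ∀ t ∈ B, n * t * n⁻¹ ∈ B)
    (hAB : A ⊓ B = ⊥) : ∀ a ∈ A, ∀ b ∈ B, a * b = b * a := by
  intro a ha b hb
  have h1 : a * b * a⁻¹ * b⁻¹ ∈ A := by
    have := A.mul_mem ha (hAn b (hB hb) a⁻¹ (A.inv_mem ha))
    have e : a * b * a⁻¹ * b⁻¹ = a * (b * a⁻¹ * b⁻¹) := by group
    rw [e]; exact this
  have h2 : a * b * a⁻¹ * b⁻¹ ∈ B := B.mul_mem (hBn a (hA ha) b hb) (B.inv_mem hb)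
  have : a * b * a⁻¹ * b⁻¹ ∈ A ⊓ B := ⟨h1, h2⟩
  rw [hAB, Subgroup.mem_bot] at this
  calc a * b = (a * b * a⁻¹ * b⁻¹) * (b * a) := by group
    _ = b * a := by rw [this, one_mul]

/-- an element commuting with a transitive subgroup and fixing a point is trivial -/
theorem P2 {G : Type u} {X : Type v} [Group G] [MulAction G X] [FaithfulSMul G X]
    (A : Subgroup G) (hAt : ∀ x y : X, ∃ t ∈ A, t • x = y) (c : G)
    (hc : ∀ t ∈ A, c * t = t * c) (x₀ : X) (hcx : c • x₀ = x₀) : c = 1 := by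
  apply FaithfulSMul.eq_of_smul_eq_smul (α := X)
  intro y
  obtain ⟨t, ht, rfl⟩ := hAt x₀ y
  rw [one_smul, ← mul_smul, hc t ht, mul_smul, hcx]

/-- a primitive minimal normal subgroup of a faithful 2-transitive finite action is simple -/
theorem simple_of_prim {G : Type u} {X : Type v} [Group G] [MulAction G X] [Finite X]
    [FaithfulSMul G X]
    (h2 : MulAction.IsMultiplyPretransitive G X 2) (N : Subgroup G) [hNn : N.Normal]
    (hmin : ∀ M : Subgroup G, M.Normal → M ≤ N → M = ⊥ ∨ M = N)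
    (hprim : MulAction.IsPreprimitive N X) :
    ∀ T : Subgroup G, T ≤ N → (∀ n ∈ N, ∀ t ∈ T, n * t * n⁻¹ ∈ T) → T = ⊥ ∨ T = N := by
  classical
  haveI : Finite G := Finite.of_injective (MulAction.toPermHom G X) MulAction.toPerm_injective
  have h2' : ∀ a b c d : X, a ≠ b → c ≠ d → ∃ g : G, g • a = c ∧ g • b = d :=
    fun a b c d h h' => MulAction.is_two_pretransitive_iff.mp h2 h h'
  intro T₁ hT₁N hT₁n
  by_contra hcon
  push_neg at hcon
  obtain ⟨hT₁b, hT₁N'⟩ := hcon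
  have hP : ∃ m : ℕ, ∃ T : Subgroup G, T ≤ N ∧ (∀ n ∈ N, ∀ t ∈ T, n * t * n⁻¹ ∈ T) ∧ T ≠ ⊥ ∧
      Nat.card T = m := ⟨_, T₁, hT₁N, hT₁n, hT₁b, rfl⟩
  obtain ⟨T, hTN, hTn, hTb, hTc⟩ := Nat.find_spec hP
  have hTmin : ∀ A : Subgroup G, A ≤ N → (∀ n ∈ N, ∀ t ∈ A, n * t * n⁻¹ ∈ A) → A ≠ ⊥ →
      Nat.card T ≤ Nat.card A := by
    intro A h1 h2 h3
    rw [hTc]
    exact Nat.find_min' hP ⟨A, h1, h2, h3, rfl⟩
  have hTneN : T ≠ N := by
    intro h
    apply hT₁N'
    apply Subgroup.eq_of_le_of_card_ge hT₁N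
    rw [← h]
    exact hTmin T₁ hT₁N hT₁n hT₁b
  have htrans : ∀ A : Subgroup G, A ≤ N → (∀ n ∈ N, ∀ t ∈ A, n * t * n⁻¹ ∈ A) → A ≠ ⊥ →
      ∀ x y : X, ∃ t ∈ A, t • x = y := by
    intro A hAN hAn hAb x y
    haveI : (A.subgroupOf N).Normal := ⟨fun t ht n => hAn n.1 n.2 t.1 ht⟩
    have hne : A.subgroupOf N ≠ ⊥ := by
      intro h
      apply hAb
      rw [Subgroup.eq_bot_iff_forall]
      intro t ht
      have : (⟨t, hAN ht⟩ : N) ∈ A.subgroupOf N := ht
      rw [h, Subgroup.mem_bot] at this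
      exact congrArg Subtype.val this
    have := S0698.Ltrans hprim (A.subgroupOf N) hne
    obtain ⟨t, ht⟩ := MulAction.exists_smul_eq (A.subgroupOf N) x y
    exact ⟨t.1.1, t.2, ht⟩
  obtain ⟨x₀⟩ : Nonempty X := by
    by_contra h
    rw [not_nonempty_iff] at h
    apply hTb
    rw [Subgroup.eq_bot_iff_forall]
    intro t _
    apply FaithfulSMul.eq_of_smul_eq_smul (α := X)
    intro x
    exact (h.false x).elim
  -- conjugates of T
  let Tg : G → Subgroup G := fun g => T.map (MulAut.conj g).toMonoidHom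
  have memTg : ∀ g x, x ∈ Tg g ↔ ∃ t ∈ T, g * t * g⁻¹ = x := fun g x => Subgroup.mem_map
  have TgN : ∀ g, Tg g ≤ N := by
    intro g x hx
    obtain ⟨t, ht, rfl⟩ := (memTg g x).mp hx
    exact hNn.conj_mem t (hTN ht) g
  have Tgn : ∀ g, ∀ n ∈ N, ∀ u ∈ Tg g, n * u * n⁻¹ ∈ Tg g := by
    intro g n hn u hu
    obtain ⟨t, ht, rfl⟩ := (memTg g u).mp hu
    have hn' : g⁻¹ * n * g ∈ N := by
      have := hNn.conj_mem n hn g⁻¹
      rwa [inv_inv] at this
    refine (memTg g _).mpr ⟨(g⁻¹ * n * g) * t * (g⁻¹ * n * g)⁻¹, hTn _ hn' t ht, ?_⟩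
    group
  have Tgc : ∀ g, Nat.card (Tg g) = Nat.card T := fun g =>
    Subgroup.card_map_of_injective (MulAut.conj g).injective
  have Tgb : ∀ g, Tg g ≠ ⊥ := fun g =>
    (Subgroup.map_eq_bot_iff_of_injective T (MulAut.conj g).injective).not.mpr hTb
  have hexg : ∃ g₀, Tg g₀ ≠ T := by
    by_contra hall
    push_neg at hall
    have hTnorm : T.Normal := ⟨fun t ht g => by
      have : g * t * g⁻¹ ∈ Tg g := (memTg g _).mpr ⟨t, ht, rfl⟩
      rwa [hall g] at this⟩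
    rcases hmin T hTnorm hTN with h | h
    · exact hTb h
    · exact hTneN h
  obtain ⟨g₀, hg₀⟩ := hexg
  have hdisj : ∀ A : Subgroup G, A ≤ N → (∀ n ∈ N, ∀ t ∈ A, n * t * n⁻¹ ∈ A) →
      Nat.card A = Nat.card T → A ≠ T → T ⊓ A = ⊥ := by
    intro A hAN hAn hAc hAT
    by_contra hne
    have hI : Nat.card T ≤ Nat.card (T ⊓ A : Subgroup G) :=
      hTmin (T ⊓ A) (inf_le_left.trans hTN)
        (fun n hn t ht => ⟨hTn n hn t ht.1, hAn n hn t ht.2⟩) hne
    have e1 : T ⊓ A = T := Subgroup.eq_of_le_of_card_ge inf_le_left hI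
    have hTA : T ≤ A := by rw [← e1]; exact inf_le_right
    exact hAT (Subgroup.eq_of_le_of_card_ge hTA (by rw [hAc])).symm
  have hcommg : ∀ g, Tg g = T ∨ ∀ t ∈ T, ∀ u ∈ Tg g, t * u = u * t := by
    intro g
    by_cases h : Tg g = T
    · exact Or.inl h
    · right
      exact P1 N T (Tg g) hTN (TgN g) hTn (Tgn g) (hdisj (Tg g) (TgN g) (Tgn g) (Tgc g) h)
  have hcomm' : ∀ t ∈ T, ∀ u ∈ Tg g₀, t * u = u * t := (hcommg g₀).resolve_left hg₀
  have hTt := htrans T hTN hTn hTb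
  have hT't := htrans (Tg g₀) (TgN g₀) (Tgn g₀) (Tgb g₀)
  have hTsr : ∀ t ∈ T, ∀ x : X, t • x = x → t = 1 := fun t ht x hx =>
    P2 (Tg g₀) hT't t (fun u hu => hcomm' t ht u hu) x hx
  have hT'sr : ∀ u ∈ Tg g₀, ∀ x : X, u • x = x → u = 1 := fun u hu x hx =>
    P2 T hTt u (fun t ht => (hcomm' t ht u hu).symm) x hx
  have hcent : ∀ c : G, (∀ t ∈ T, c * t = t * c) → c ∈ Tg g₀ := by
    intro c hc
    obtain ⟨u, hu, hux⟩ := hT't x₀ (c • x₀)
    have h1 : u⁻¹ * c = 1 := by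
      apply P2 T hTt (u⁻¹ * c) ?_ x₀ ?_
      · intro t ht
        have := hcomm' t ht u hu
        calc u⁻¹ * c * t = u⁻¹ * (c * t) := by group
          _ = u⁻¹ * (t * c) := by rw [hc t ht]
          _ = u⁻¹ * (t * u) * u⁻¹ * c := by group
          _ = u⁻¹ * (u * t) * u⁻¹ * c := by rw [this]
          _ = t * (u⁻¹ * c) := by group
      · rw [mul_smul, ← hux, inv_smul_smul]
    have : c = u := by
      have := congrArg (fun z => u * z) h1
      simpa using this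
    rw [this]; exact hu
  have hTgcases : ∀ g, Tg g = T ∨ Tg g ≤ Tg g₀ := by
    intro g
    rcases hcommg g with h | h
    · exact Or.inl h
    · right
      intro u hu
      exact hcent u (fun t ht => (h t ht u hu).symm)
  have O1 : ∀ u ∈ Tg g₀, ∀ t ∈ T, u • x₀ = t • x₀ → orderOf u = orderOf t := by
    intro u hu t ht hut
    have hpow : ∀ n : ℕ, (u ^ n) • x₀ = (t ^ n) • x₀ := by
      intro n
      induction n with
      | zero => simp
      | succ n ih =>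
        have hc := hcomm' t ht (u ^ n) ((Tg g₀).pow_mem hu n)
        rw [pow_succ, mul_smul, hut, ← mul_smul, ← hc, mul_smul, ih, ← mul_smul, ← pow_succ']
    rw [orderOf_eq_orderOf_iff]
    intro n
    constructor
    · intro h
      apply hTsr (t ^ n) (T.pow_mem ht n) x₀
      rw [← hpow n, h, one_smul]
    · intro h
      apply hT'sr (u ^ n) ((Tg g₀).pow_mem hu n) x₀
      rw [hpow n, h, one_smul]
  have O2 : ∀ t₁ ∈ T, ∀ t₂ ∈ T, t₁ ≠ 1 → t₂ ≠ 1 → orderOf t₁ = orderOf t₂ := by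
    intro t₁ ht₁ t₂ ht₂ h1 h2
    have hx : x₀ ≠ t₁ • x₀ := fun h => h1 (hTsr t₁ ht₁ x₀ h.symm)
    have hy : x₀ ≠ t₂ • x₀ := fun h => h2 (hTsr t₂ ht₂ x₀ h.symm)
    obtain ⟨g, hg0, hgx⟩ := h2' x₀ (t₁ • x₀) x₀ (t₂ • x₀) hx hy
    have hu : g * t₁ * g⁻¹ ∈ Tg g := (memTg g _).mpr ⟨t₁, ht₁, rfl⟩
    have hux : (g * t₁ * g⁻¹) • x₀ = t₂ • x₀ := by
      rw [mul_smul, mul_smul, inv_smul_eq_iff.mpr hg0.symm, hgx]
    have hord : orderOf (g * t₁ * g⁻¹) = orderOf t₁ :=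
      orderOf_injective (MulAut.conj g).toMonoidHom (MulAut.conj g).injective t₁
    rw [← hord]
    rcases hTgcases g with h | h
    · rw [h] at hu
      have : t₂⁻¹ * (g * t₁ * g⁻¹) = 1 := by
        apply hTsr _ (T.mul_mem (T.inv_mem ht₂) hu) x₀
        rw [mul_smul, hux, inv_smul_smul]
      rw [inv_mul_eq_one.mp this]
    · exact O1 _ (h hu) t₂ ht₂ hux
  obtain ⟨t₀, ht₀, ht₀1⟩ : ∃ t ∈ T, t ≠ 1 := by
    by_contra h
    push_neg at h
    exact hTb ((Subgroup.eq_bot_iff_forall T).mpr h)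
  have hd1 : orderOf t₀ ≠ 1 := fun h => ht₀1 (orderOf_eq_one_iff.mp h)
  have hd0 : orderOf t₀ ≠ 0 := (orderOf_pos t₀).ne'
  set p := (orderOf t₀).minFac with hp
  have hpp : p.Prime := Nat.minFac_prime hd1
  haveI : Fact p.Prime := ⟨hpp⟩
  have hpd : p ∣ orderOf t₀ := Nat.minFac_dvd _
  have ht₁o : orderOf (t₀ ^ (orderOf t₀ / p)) = p := orderOf_pow_orderOf_div hd0 hpd
  have ht₁T : t₀ ^ (orderOf t₀ / p) ∈ T := T.pow_mem ht₀ _
  have ht₁1 : t₀ ^ (orderOf t₀ / p) ≠ 1 := by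
    intro h
    rw [h, orderOf_one] at ht₁o
    exact hpp.one_lt.ne ht₁o
  have hexp : ∀ t ∈ T, t ^ p = 1 := by
    intro t ht
    by_cases h : t = 1
    · rw [h, one_pow]
    · have := O2 t ht _ ht₁T h ht₁1
      rw [ht₁o] at this
      rw [← this]
      exact pow_orderOf_eq_one t
  have hPG : IsPGroup p T := by
    intro t
    refine ⟨1, ?_⟩
    rw [pow_one]
    exact Subtype.ext (hexp t.1 t.2)
  haveI : Nontrivial T := (Subgroup.nontrivial_iff_ne_bot T).mpr hTb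
  have hcn := hPG.center_nontrivial
  obtain ⟨⟨z, hzc⟩, hz⟩ := exists_ne (1 : Subgroup.center T)
  have hzc' : ∀ t : T, t * z = z * t := Subgroup.mem_center_iff.mp hzc
  have hzT' : (z : G) ∈ Tg g₀ := by
    apply hcent
    intro t ht
    exact (congrArg Subtype.val (hzc' ⟨t, ht⟩)).symm
  have hz1 : (z : G) ∈ T ⊓ Tg g₀ := ⟨z.2, hzT'⟩
  rw [hdisj (Tg g₀) (TgN g₀) (Tgn g₀) (Tgc g₀) hg₀, Subgroup.mem_bot] at hz1
  exact hz (Subtype.ext (Subtype.ext hz1))

/-- Burnside's Theorem on doubly transitive groups: a minimal normal subgroup of a finite doubly transitive permutation group is elementary abelian and regular, or simple and primitive. -/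
theorem result {α : Type*} [Fintype α] [DecidableEq α] (G : Subgroup (Equiv.Perm α)) (hG : MulAction.IsMultiplyPretransitive G α 2) (N : Subgroup G) [N.Normal] (hN : N ≠ ⊥) (hmin : ∀ M : Subgroup G, M.Normal → M ≤ N → M = ⊥ ∨ M = N) : (IsMulCommutative N ∧ (∃ p : ℕ, p.Prime ∧ ∀ n ∈ N, n ^ p = 1) ∧ ∀ a : α, MulAction.stabilizer N a = ⊥) ∨ (IsSimpleGroup N ∧ MulAction.IsPreprimitive N α) := by
  classical
  have hprimG := MulAction.isPreprimitive_of_is_two_pretransitive hG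
  have hNt : MulAction.IsPretransitive N α := S0698.Ltrans hprimG N hN
  have hX2 : 2 ≤ Fintype.card α := by
    obtain ⟨n, hn, hn1⟩ : ∃ n ∈ N, n ≠ 1 := by
      by_contra h
      push_neg at h
      exact hN ((Subgroup.eq_bot_iff_forall N).mpr h)
    have : ∃ x : α, n • x ≠ x := by
      by_contra h
      push_neg at h
      apply hn1
      apply FaithfulSMul.eq_of_smul_eq_smul (α := α)
      intro x
      rw [one_smul]; exact h x
    obtain ⟨x, hx⟩ := this
    have : 1 < Fintype.card α := Fintype.one_lt_card_iff.mpr ⟨_, _, hx⟩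
    omega
  by_cases hreg : ∀ a : α, MulAction.stabilizer N a = ⊥
  · left
    obtain ⟨p, k, hp, -, hexp, hcomm, -⟩ := S0695.elemAb hX2 N hNt hreg hG
    exact ⟨isMulCommutative_iff.mpr hcomm, ⟨p, hp, hexp⟩, hreg⟩
  · right
    push_neg at hreg
    have hprim := prim_of_nonreg hG N hN hmin hreg
    refine ⟨?_, hprim⟩
    have hs := simple_of_prim hG N hmin hprim
    haveI : Nontrivial N := (Subgroup.nontrivial_iff_ne_bot N).mpr hN
    refine ⟨fun M hM => ?_⟩
    have hMn : ∀ n ∈ N, ∀ t ∈ M.map N.subtype, n * t * n⁻¹ ∈ M.map N.subtype := by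
      intro n hn t ht
      obtain ⟨m, hm, rfl⟩ := Subgroup.mem_map.mp ht
      exact Subgroup.mem_map.mpr ⟨⟨n, hn⟩ * m * ⟨n, hn⟩⁻¹, hM.conj_mem m hm ⟨n, hn⟩, rfl⟩
    rcases hs (M.map N.subtype) (Subgroup.map_subtype_le M) hMn with h | h
    · left
      exact (Subgroup.map_eq_bot_iff_of_injective M N.subtype_injective).mp h
    · right
      rw [Subgroup.eq_top_iff']
      intro x
      have : (x : G) ∈ M.map N.subtype := by rw [h]; exact x.2
      obtain ⟨m, hm, hmx⟩ := Subgroup.mem_map.mp this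
      have : m = x := Subtype.ext hmx
      rw [← this]; exact hm

end Cfsg.Agent.S0700
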