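import Cfsg.Statements.S0701

set_option autoImplicit false
open Cfsg

namespace Cfsg.Agent.S0701

/-- The centraliser in the full symmetric group of a transitive permutation group `G` is semiregular, and it is transitive if and only if `G` is regular. -/
theorem result {α : Type*} (G : Subgroup (Equiv.Perm α)) [MulAction.IsPretransitive G α] : (∀ c ∈ Subgroup.centralizer (G : Set (Equiv.Perm α)), ∀ a : α, c a = a → c = 1) ∧ (MulAction.IsPretransitive (Subgroup.centralizer (G : Set (Equiv.Perm α))) α ↔ ∀ a : α, MulAction.stabilizer G a = ⊥) := by
  constructor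
  · intro c hc a hca
    ext b
    obtain ⟨g, rfl⟩ := MulAction.exists_smul_eq G a b
    have h1 := (Subgroup.mem_centralizer_iff.mp hc) g.1 g.2
    have h2 : g.1 (c a) = c (g.1 a) := by
      have := congrArg (fun f : Equiv.Perm α => f a) h1
      simpa using this
    change c (g.1 a) = g.1 a
    rw [← h2, hca]
  · constructor
    · intro hC a
      rw [eq_bot_iff]
      intro g hg
      rw [Subgroup.mem_bot]
      have hga : g.1 a = a := hg
      apply Subtype.ext
      ext b
      obtain ⟨c, rfl⟩ := MulAction.exists_smul_eq (Subgroup.centralizer (G : Set (Equiv.Perm α))) a b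
      have h1 := (Subgroup.mem_centralizer_iff.mp c.2) g.1 g.2
      have h2 : g.1 (c.1 a) = c.1 (g.1 a) := by
        have := congrArg (fun f : Equiv.Perm α => f a) h1
        simpa using this
      change g.1 (c.1 a) = c.1 a
      rw [h2, hga]
    · intro hreg
      refine ⟨fun a b => ?_⟩
      have huniq : ∀ (x : α) (g g' : G), g • x = g' • x → g = g' := by
        intro x g g' h
        have : g'⁻¹ * g ∈ MulAction.stabilizer G x := by
          rw [MulAction.mem_stabilizer_iff, mul_smul, h, inv_smul_smul]
        rw [hreg x, Subgroup.mem_bot] at this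
        exact (inv_mul_eq_one.mp this).symm
      choose φ hφ using fun x => MulAction.exists_smul_eq G a x
      choose ψ hψ using fun y => MulAction.exists_smul_eq G b y
      have hφ' : ∀ g : G, φ (g • a) = g := fun g => huniq a _ _ (hφ _)
      have hψ' : ∀ g : G, ψ (g • b) = g := fun g => huniq b _ _ (hψ _)
      let c : Equiv.Perm α :=
        { toFun := fun x => φ x • b
          invFun := fun y => ψ y • a
          left_inv := fun x => by simp [hψ', hφ]
          right_inv := fun y => by simp [hφ', hψ] }
      have hc : c ∈ Subgroup.centralizer (G : Set (Equiv.Perm α)) := by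
        rw [Subgroup.mem_centralizer_iff]
        intro h hh
        ext x
        have h3 : φ ((⟨h, hh⟩ : G) • x) = ⟨h, hh⟩ * φ x := by
          conv_lhs => rw [← hφ x, ← mul_smul]
          exact hφ' _
        change (⟨h, hh⟩ : G) • (φ x • b) = φ ((⟨h, hh⟩ : G) • x) • b
        rw [h3, mul_smul]
      refine ⟨⟨c, hc⟩, ?_⟩
      change φ a • b = b
      have : φ a = 1 := by have := hφ' 1; rwa [one_smul] at this
      rw [this, one_smul]

end Cfsg.Agent.S0701
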