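import Mathlib
import Cfsg.Statements.S0702

set_option autoImplicit false
open Cfsg

namespace Cfsg.Agent.S0702

theorem lemN {G : Type*} [Group G] (H : Subgroup G) [Finite H] (g : G)
    (hg : ∀ h ∈ H, g⁻¹ * h * g ∈ H) : g ∈ Subgroup.normalizer (H : Set G) := by
  let θ : H → H := fun h => ⟨g⁻¹ * h * g, hg h h.2⟩
  have hinj : Function.Injective θ := by
    intro h h' e
    have e' : g⁻¹ * (h : G) * g = g⁻¹ * (h' : G) * g := congrArg Subtype.val e
    apply Subtype.ext
    have := mul_right_cancel (mul_left_cancel (by rw [← mul_assoc, ← mul_assoc]; exact e' :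
      g⁻¹ * ((h : G) * g) = g⁻¹ * ((h' : G) * g)))
    exact this
  have hsurj : Function.Surjective θ := Finite.injective_iff_surjective.mp hinj
  rw [Subgroup.mem_normalizer_iff'']
  intro h
  constructor
  · exact hg h
  · intro hh
    obtain ⟨h₀, e⟩ := hsurj ⟨g⁻¹ * h * g, hh⟩
    have e' : g⁻¹ * (h₀ : G) * g = g⁻¹ * h * g := congrArg Subtype.val e
    have : (h₀ : G) = h := by
      have := mul_right_cancel (mul_left_cancel (by rw [← mul_assoc, ← mul_assoc]; exact e' :
        g⁻¹ * ((h₀ : G) * g) = g⁻¹ * (h * g)))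
      exact this
    rw [← this]; exact h₀.2

/-- For a transitive permutation group `G` on a finite set, the centraliser of `G` in the symmetric group is isomorphic to `N_G(G_ω)/G_ω`, and its orbit of `ω` is the set of fixed points of `G_ω`. -/
theorem result {α : Type*} [Finite α] (G : Subgroup (Equiv.Perm α)) [MulAction.IsPretransitive G α] (a : α) : Nonempty (Subgroup.centralizer (G : Set (Equiv.Perm α)) ≃* Subgroup.normalizer ((MulAction.stabilizer G a : Subgroup G) : Set G) ⧸ (MulAction.stabilizer G a).subgroupOf (Subgroup.normalizer ((MulAction.stabilizer G a : Subgroup G) : Set G))) ∧ MulAction.orbit (Subgroup.centralizer (G : Set (Equiv.Perm α))) a = MulAction.fixedPoints (MulAction.stabilizer G a) α := by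
  choose φ hφ using fun x => MulAction.exists_smul_eq G a x
  -- commuting property of the centraliser
  have hCcomm : ∀ c ∈ Subgroup.centralizer (G : Set (Equiv.Perm α)), ∀ (g : G) (x : α),
      c (g • x) = g • c x := by
    intro c hc g x
    have h1 := (Subgroup.mem_centralizer_iff.mp hc) g.1 g.2
    have := congrArg (fun f : Equiv.Perm α => f x) h1
    exact this.symm
  let f : G → α → α := fun n x => φ x • n⁻¹ • a
  have K : ∀ n ∈ Subgroup.normalizer ((MulAction.stabilizer G a : Subgroup G) : Set G),
      ∀ g : G, f n (g • a) = g • n⁻¹ • a := by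
    intro n hn g
    have hh : g⁻¹ * φ (g • a) ∈ MulAction.stabilizer G a := by
      rw [MulAction.mem_stabilizer_iff, mul_smul, hφ, inv_smul_smul]
    have h2 := ((Subgroup.mem_normalizer_iff.mp hn) _).mp hh
    rw [MulAction.mem_stabilizer_iff] at h2
    have h3 : (g⁻¹ * φ (g • a)) • n⁻¹ • a = n⁻¹ • a := by
      have e : (g⁻¹ * φ (g • a)) • n⁻¹ • a =
          n⁻¹ • (n * (g⁻¹ * φ (g • a)) * n⁻¹) • a := by
        simp only [← mul_smul]; congr 1; group
      rw [e, h2]
    change φ (g • a) • n⁻¹ • a = g • n⁻¹ • a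
    have e2 : φ (g • a) = g * (g⁻¹ * φ (g • a)) := by group
    rw [e2, mul_smul, h3]
  have hone : ∀ x, f 1 x = x := by
    intro x
    change φ x • (1 : G)⁻¹ • a = x
    rw [inv_one, one_smul, hφ]
  have hcomp : ∀ n ∈ Subgroup.normalizer ((MulAction.stabilizer G a : Subgroup G) : Set G),
      ∀ m : G, ∀ x, f n (f m x) = f (n * m) x := by
    intro n hn m x
    have e1 : f m x = (φ x * m⁻¹) • a := by
      change φ x • m⁻¹ • a = _
      rw [mul_smul]
    rw [e1, K n hn]
    change (φ x * m⁻¹) • n⁻¹ • a = φ x • (n * m)⁻¹ • a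
    rw [mul_inv_rev, mul_smul, mul_smul]
  let cperm : Subgroup.normalizer ((MulAction.stabilizer G a : Subgroup G) : Set G) →
      Equiv.Perm α := fun n =>
    { toFun := f n.1
      invFun := f (n⁻¹).1
      left_inv := fun x => by
        rw [hcomp _ (n⁻¹).2]
        have : ((n⁻¹ : Subgroup.normalizer ((MulAction.stabilizer G a : Subgroup G) : Set G)) : G)
            * n.1 = 1 := by simp
        rw [this, hone]
      right_inv := fun x => by
        rw [hcomp _ n.2]
        have : n.1 * ((n⁻¹ : Subgroup.normalizer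
            ((MulAction.stabilizer G a : Subgroup G) : Set G)) : G) = 1 := by simp
        rw [this, hone] }
  have hC : ∀ n, cperm n ∈ Subgroup.centralizer (G : Set (Equiv.Perm α)) := by
    intro n
    rw [Subgroup.mem_centralizer_iff]
    intro k hk
    ext x
    change (⟨k, hk⟩ : G) • f n.1 x = f n.1 ((⟨k, hk⟩ : G) • x)
    have e1 : (⟨k, hk⟩ : G) • x = ((⟨k, hk⟩ : G) * φ x) • a := by rw [mul_smul, hφ]
    rw [e1, K n.1 n.2, mul_smul]
  let ψ : Subgroup.normalizer ((MulAction.stabilizer G a : Subgroup G) : Set G) →*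
      Subgroup.centralizer (G : Set (Equiv.Perm α)) :=
    MonoidHom.mk' (fun n => ⟨cperm n, hC n⟩) (by
      intro n m
      apply Subtype.ext
      ext x
      change f (n * m).1 x = f n.1 (f m.1 x)
      rw [hcomp _ n.2]; rfl)
  have hker : ψ.ker = (MulAction.stabilizer G a).subgroupOf
      (Subgroup.normalizer ((MulAction.stabilizer G a : Subgroup G) : Set G)) := by
    ext n
    rw [MonoidHom.mem_ker, Subgroup.mem_subgroupOf]
    constructor
    · intro h
      have h1 : cperm n = 1 := congrArg Subtype.val h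
      have h2 : f n.1 a = a := by
        have := congrArg (fun c : Equiv.Perm α => c a) h1
        exact this
      have h3 := K n.1 n.2 1
      rw [one_smul, one_smul, h2] at h3
      have h4 : n.1⁻¹ ∈ MulAction.stabilizer G a := by
        rw [MulAction.mem_stabilizer_iff]; exact h3.symm
      have := (MulAction.stabilizer G a).inv_mem h4
      rwa [inv_inv] at this
    · intro h
      apply Subtype.ext
      ext x
      change φ x • n.1⁻¹ • a = x
      have h4 : n.1⁻¹ • a = a := by
        have := (MulAction.stabilizer G a).inv_mem h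
        exact this
      rw [h4, hφ]
  have hfin : Finite (MulAction.stabilizer G a) := inferInstance
  have hnorm : ∀ b : α, (∀ h ∈ MulAction.stabilizer G a, h • b = b) →
      φ b ∈ Subgroup.normalizer ((MulAction.stabilizer G a : Subgroup G) : Set G) := by
    intro b hb
    apply lemN
    intro h hh
    rw [MulAction.mem_stabilizer_iff]
    calc ((φ b)⁻¹ * h * φ b) • a = (φ b)⁻¹ • h • φ b • a := by rw [mul_smul, mul_smul]
      _ = (φ b)⁻¹ • h • b := by rw [hφ]
      _ = (φ b)⁻¹ • b := by rw [hb h hh]
      _ = a := by rw [inv_smul_eq_iff, hφ]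
  have hfixC : ∀ c ∈ Subgroup.centralizer (G : Set (Equiv.Perm α)),
      ∀ h ∈ MulAction.stabilizer G a, h • c a = c a := by
    intro c hc h hh
    rw [← hCcomm c hc h a]
    have : h • a = a := hh
    rw [this]
  have hsurj : Function.Surjective ψ := by
    intro c
    have hn := hnorm (c.1 a) (hfixC c.1 c.2)
    refine ⟨⟨(φ (c.1 a))⁻¹, Subgroup.inv_mem _ hn⟩, ?_⟩
    apply Subtype.ext
    ext x
    change φ x • ((φ (c.1 a))⁻¹)⁻¹ • a = c.1 x
    rw [inv_inv, hφ, ← hCcomm c.1 c.2, hφ]
  refine ⟨⟨?_⟩, ?_⟩
  · exact (QuotientGroup.quotientKerEquivOfSurjective ψ hsurj).symm.trans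
      (QuotientGroup.quotientMulEquivOfEq hker)
  · ext b
    constructor
    · rintro ⟨c, rfl⟩
      intro h
      exact hfixC c.1 c.2 h.1 h.2
    · intro hb
      have hb' : ∀ h ∈ MulAction.stabilizer G a, h • b = b := fun h hh => hb ⟨h, hh⟩
      have hn := hnorm b hb'
      refine ⟨⟨cperm ⟨(φ b)⁻¹, Subgroup.inv_mem _ hn⟩, hC _⟩, ?_⟩
      change f (φ b)⁻¹ a = b
      have h3 := K (φ b)⁻¹ (Subgroup.inv_mem _ hn) 1
      rw [one_smul, one_smul, inv_inv, hφ] at h3
      exact h3

end Cfsg.Agent.S0702
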