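import Mathlib
import Cfsg.Statements.S0703

set_option autoImplicit false
open Cfsg

namespace Cfsg.Agent.S0703

/-- An abelian transitive minimal normal subgroup `M` of a permutation group on a finite set is self-centralising in the symmetric group, regular, elementary abelian, and is the unique minimal normal subgroup. -/
theorem result {α : Type*} [Finite α] (G : Subgroup (Equiv.Perm α)) (M : Subgroup G) [M.Normal] (hM : M ≠ ⊥) (hmin : ∀ L : Subgroup G, L.Normal → L ≤ M → L = ⊥ ∨ L = M) (hab : IsMulCommutative M) (htrans : MulAction.IsPretransitive M α) : Subgroup.centralizer ((M.map G.subtype : Subgroup (Equiv.Perm α)) : Set (Equiv.Perm α)) = M.map G.subtype ∧ (∀ a : α, MulAction.stabilizer M a = ⊥) ∧ (∃ p : ℕ, p.Prime ∧ ∀ m ∈ M, m ^ p = 1) ∧ ∀ L : Subgroup G, L.Normal → L ≠ ⊥ → (∀ L' : Subgroup G, L'.Normal → L' ≤ L → L' = ⊥ ∨ L' = L) → L = M := by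
  have hMn : M.Normal := inferInstance
  have hcomm : ∀ x ∈ M, ∀ y ∈ M, x * y = y * x := by
    intro x hx y hy
    have := isMulCommutative_iff.mp hab ⟨x, hx⟩ ⟨y, hy⟩
    exact congrArg Subtype.val this
  have hne : Nonempty α := by
    by_contra hcon
    rw [not_nonempty_iff] at hcon
    apply hM
    rw [eq_bot_iff]
    intro m _
    rw [Subgroup.mem_bot]
    apply Subtype.ext
    ext a
    exact (IsEmpty.false a).elim
  have hsemi : ∀ c ∈ Subgroup.centralizer
      ((M.map G.subtype : Subgroup (Equiv.Perm α)) : Set (Equiv.Perm α)),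
      ∀ a : α, c a = a → c = 1 := by
    intro c hc a hca
    ext b
    obtain ⟨m, hm⟩ := MulAction.exists_smul_eq M a b
    have hmem : (m.1.1 : Equiv.Perm α) ∈ M.map G.subtype := ⟨m.1, m.2, rfl⟩
    have h1 := (Subgroup.mem_centralizer_iff.mp hc) _ hmem
    have h2 : m.1.1 (c a) = c (m.1.1 a) := by
      have := congrArg (fun f : Equiv.Perm α => f a) h1
      simpa using this
    have hm' : m.1.1 a = b := hm
    rw [← hm']
    change c (m.1.1 a) = m.1.1 a
    rw [← h2, hca]
  have hMle : M.map G.subtype ≤ Subgroup.centralizer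
      ((M.map G.subtype : Subgroup (Equiv.Perm α)) : Set (Equiv.Perm α)) := by
    rintro _ ⟨x, hx, rfl⟩
    rw [Subgroup.mem_centralizer_iff]
    rintro _ ⟨y, hy, rfl⟩
    have := hcomm y hy x hx
    exact congrArg Subtype.val this
  have hC : Subgroup.centralizer
      ((M.map G.subtype : Subgroup (Equiv.Perm α)) : Set (Equiv.Perm α)) = M.map G.subtype := by
    apply le_antisymm _ hMle
    intro c hc
    obtain ⟨a⟩ := hne
    obtain ⟨m, hm⟩ := MulAction.exists_smul_eq M a (c a)
    have hmem : (m.1.1 : Equiv.Perm α) ∈ M.map G.subtype := ⟨m.1, m.2, rfl⟩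
    have h3 : (m.1.1)⁻¹ * c = 1 := by
      apply hsemi _ (Subgroup.mul_mem _ (Subgroup.inv_mem _ (hMle hmem)) hc) a
      have hm' : m.1.1 a = c a := hm
      simp [← hm']
    have : c = m.1.1 := by
      rw [inv_mul_eq_one] at h3; exact h3.symm
    rw [this]; exact hmem
  refine ⟨hC, ?_, ?_, ?_⟩
  · intro a
    rw [eq_bot_iff]
    intro m hm
    rw [Subgroup.mem_bot]
    have hmem : (m.1.1 : Equiv.Perm α) ∈ M.map G.subtype := ⟨m.1, m.2, rfl⟩
    have := hsemi _ (hMle hmem) a hm
    apply Subtype.ext; apply Subtype.ext; exact this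
  · have hMnt : Nontrivial M := (Subgroup.nontrivial_iff_ne_bot M).mpr hM
    have hcard : 1 < Nat.card M := Finite.one_lt_card
    obtain ⟨p, hp, hpdvd⟩ := Nat.exists_prime_and_dvd (Nat.ne_of_gt hcard)
    refine ⟨p, hp, ?_⟩
    haveI : Fact p.Prime := ⟨hp⟩
    obtain ⟨x, hx⟩ := exists_prime_orderOf_dvd_card' (G := M) p hpdvd
    let L : Subgroup G :=
      { carrier := {m | m ∈ M ∧ m ^ p = 1}
        one_mem' := ⟨M.one_mem, one_pow p⟩
        mul_mem' := by
          rintro a b ⟨ha, ha'⟩ ⟨hb, hb'⟩
          refine ⟨M.mul_mem ha hb, ?_⟩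
          have hc : Commute a b := hcomm a ha b hb
          rw [hc.mul_pow, ha', hb', one_mul]
        inv_mem' := by
          rintro a ⟨ha, ha'⟩
          exact ⟨M.inv_mem ha, by rw [inv_pow, ha', inv_one]⟩ }
    have hLn : L.Normal := by
      constructor
      rintro n ⟨hn, hn'⟩ g
      refine ⟨hMn.conj_mem n hn g, ?_⟩
      rw [conj_pow, hn', mul_one, mul_inv_cancel]
    have hLM : L ≤ M := fun m hm => hm.1
    have hLne : L ≠ ⊥ := by
      intro h
      have hxL : (x : G) ∈ L := ⟨x.2, by
        have := pow_orderOf_eq_one x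
        rw [hx] at this
        exact congrArg Subtype.val this⟩
      rw [h, Subgroup.mem_bot] at hxL
      have : x = 1 := Subtype.ext hxL
      rw [this, orderOf_one] at hx
      exact hp.one_lt.ne hx
    have hLeq : L = M := (hmin L hLn hLM).resolve_left hLne
    intro m hm
    have : m ∈ L := by rw [hLeq]; exact hm
    exact this.2
  · intro L hLn hLne hLmin
    haveI := hLn
    have hinf : (L ⊓ M).Normal := inferInstance
    rcases hLmin (L ⊓ M) hinf inf_le_left with h | h
    · exfalso
      have hLc : ∀ l ∈ L, ∀ m ∈ M, l * m = m * l := by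
        intro l hl m hm
        have h1 : l * m * l⁻¹ * m⁻¹ ∈ L ⊓ M := by
          refine Subgroup.mem_inf.mpr ⟨?_, ?_⟩
          · have := hLn.conj_mem l⁻¹ (L.inv_mem hl) m
            have h2 := L.mul_mem hl this
            have e : l * m * l⁻¹ * m⁻¹ = l * (m * l⁻¹ * m⁻¹) := by group
            rw [e]; exact h2
          · have := hMn.conj_mem m hm l
            exact M.mul_mem this (M.inv_mem hm)
        rw [h, Subgroup.mem_bot] at h1
        calc l * m = (l * m * l⁻¹ * m⁻¹) * (m * l) := by group
          _ = m * l := by rw [h1, one_mul]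
      have hLM : L ≤ M := by
        intro l hl
        have hmem : (l.1 : Equiv.Perm α) ∈ Subgroup.centralizer
            ((M.map G.subtype : Subgroup (Equiv.Perm α)) : Set (Equiv.Perm α)) := by
          rw [Subgroup.mem_centralizer_iff]
          rintro _ ⟨y, hy, rfl⟩
          have := hLc l hl y hy
          exact congrArg Subtype.val this.symm
        rw [hC] at hmem
        obtain ⟨y, hy, hyl⟩ := hmem
        have : y = l := Subtype.ext hyl
        rw [← this]; exact hy
      apply hLne
      rw [← inf_eq_left.mpr hLM]; exact h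
    · have hLM : L ≤ M := by rw [← h]; exact inf_le_right
      exact (hmin L hLn hLM).resolve_left hLne

end Cfsg.Agent.S0703
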