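import Mathlib
import Cfsg.Statements.S0704

set_option autoImplicit false
open Cfsg

namespace Cfsg.Agent.S0704

theorem semireg {α : Type*} (H : Subgroup (Equiv.Perm α)) (htr : ∀ a b : α, ∃ h ∈ H, h a = b)
    (c : Equiv.Perm α) (hc : c ∈ Subgroup.centralizer (H : Set (Equiv.Perm α))) (a : α)
    (hca : c a = a) : c = 1 := by
  ext b
  obtain ⟨h, hh, rfl⟩ := htr a b
  have h1 := (Subgroup.mem_centralizer_iff.mp hc) h hh
  have h2 : h (c a) = c (h a) := by
    have := congrArg (fun f : Equiv.Perm α => f a) h1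
    simpa using this
  change c (h a) = h a
  rw [← h2, hca]

theorem cent_eq {α : Type*} [Nonempty α] (H K : Subgroup (Equiv.Perm α))
    (htrH : ∀ a b : α, ∃ h ∈ H, h a = b) (htrK : ∀ a b : α, ∃ k ∈ K, k a = b)
    (hKH : K ≤ Subgroup.centralizer (H : Set (Equiv.Perm α))) :
    Subgroup.centralizer (H : Set (Equiv.Perm α)) = K := by
  apply le_antisymm _ hKH
  intro c hc
  obtain ⟨a⟩ := ‹Nonempty α›
  obtain ⟨k, hk, hka⟩ := htrK a (c a)
  have h3 : k⁻¹ * c = 1 := by
    apply semireg H htrH _ (Subgroup.mul_mem _ (Subgroup.inv_mem _ (hKH hk)) hc) a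
    simp [← hka]
  have : c = k := by rw [inv_mul_eq_one] at h3; exact h3.symm
  rw [this]; exact hk

theorem comm_of_inf {G : Type*} [Group G] (M N : Subgroup G) (hMn : M.Normal) (hNn : N.Normal)
    (hinf : M ⊓ N = ⊥) : ∀ m ∈ M, ∀ n ∈ N, m * n = n * m := by
  intro m hm n hn
  have h1 : m * n * m⁻¹ * n⁻¹ ∈ M ⊓ N := by
    refine Subgroup.mem_inf.mpr ⟨?_, ?_⟩
    · have := hMn.conj_mem m⁻¹ (M.inv_mem hm) n
      have h2 := M.mul_mem hm this
      have e : m * n * m⁻¹ * n⁻¹ = m * (n * m⁻¹ * n⁻¹) := by group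
      rw [e]; exact h2
    · have := hNn.conj_mem n hn m
      exact N.mul_mem this (N.inv_mem hn)
  rw [hinf, Subgroup.mem_bot] at h1
  calc m * n = (m * n * m⁻¹ * n⁻¹) * (n * m) := by group
    _ = n * m := by rw [h1, one_mul]

/-- Two distinct transitive minimal normal subgroups `M`, `N` of a permutation group are regular, non-abelian, isomorphic, each other's centraliser in the symmetric group, and the only minimal normal subgroups. -/
theorem result {α : Type*} (G : Subgroup (Equiv.Perm α)) (M N : Subgroup G) [M.Normal] [N.Normal] (hM : M ≠ ⊥) (hN : N ≠ ⊥) (hMmin : ∀ L : Subgroup G, L.Normal → L ≤ M → L = ⊥ ∨ L = M) (hNmin : ∀ L : Subgroup G, L.Normal → L ≤ N → L = ⊥ ∨ L = N) (hMN : M ≠ N) (hMt : MulAction.IsPretransitive M α) (hNt : MulAction.IsPretransitive N α) : (∀ a : α, MulAction.stabilizer M a = ⊥) ∧ (∀ a : α, MulAction.stabilizer N a = ⊥) ∧ ¬ IsMulCommutative M ∧ Nonempty (M ≃* N) ∧ Subgroup.centralizer ((M.map G.subtype : Subgroup (Equiv.Perm α)) : Set (Equiv.Perm α))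 = N.map G.subtype ∧ Subgroup.centralizer ((N.map G.subtype : Subgroup (Equiv.Perm α)) : Set (Equiv.Perm α)) = M.map G.subtype ∧ ∀ L : Subgroup G, L.Normal → L ≠ ⊥ → (∀ L' : Subgroup G, L'.Normal → L' ≤ L → L' = ⊥ ∨ L' = L) → L = M ∨ L = N := by
  have hMn : M.Normal := inferInstance
  have hNn : N.Normal := inferInstance
  have hne : Nonempty α := by
    by_contra hcon
    rw [not_nonempty_iff] at hcon
    apply hM
    rw [eq_bot_iff]
    intro m _
    rw [Subgroup.mem_bot]
    apply Subtype.ext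
    ext a
    exact (IsEmpty.false a).elim
  have hinf : M ⊓ N = ⊥ := by
    rcases hMmin (M ⊓ N) inferInstance inf_le_left with h | h
    · exact h
    · exfalso
      have hle : M ≤ N := by rw [← h]; exact inf_le_right
      rcases hNmin M hMn hle with h' | h'
      · exact hM h'
      · exact hMN h'
  have hcomm := comm_of_inf M N hMn hNn hinf
  have htrM : ∀ a b : α, ∃ h ∈ M.map G.subtype, h a = b := by
    intro a b
    obtain ⟨m, hm⟩ := MulAction.exists_smul_eq M a b
    exact ⟨m.1.1, ⟨m.1, m.2, rfl⟩, hm⟩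
  have htrN : ∀ a b : α, ∃ h ∈ N.map G.subtype, h a = b := by
    intro a b
    obtain ⟨m, hm⟩ := MulAction.exists_smul_eq N a b
    exact ⟨m.1.1, ⟨m.1, m.2, rfl⟩, hm⟩
  have hNC : N.map G.subtype ≤ Subgroup.centralizer
      ((M.map G.subtype : Subgroup (Equiv.Perm α)) : Set (Equiv.Perm α)) := by
    rintro _ ⟨n, hn, rfl⟩
    rw [Subgroup.mem_centralizer_iff]
    rintro _ ⟨m, hm, rfl⟩
    exact congrArg Subtype.val (hcomm m hm n hn)
  have hMC : M.map G.subtype ≤ Subgroup.centralizer
      ((N.map G.subtype : Subgroup (Equiv.Perm α)) : Set (Equiv.Perm α)) := by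
    rintro _ ⟨m, hm, rfl⟩
    rw [Subgroup.mem_centralizer_iff]
    rintro _ ⟨n, hn, rfl⟩
    exact congrArg Subtype.val (hcomm m hm n hn).symm
  have hCM := cent_eq _ _ htrM htrN hNC
  have hCN := cent_eq _ _ htrN htrM hMC
  have hregM : ∀ a : α, MulAction.stabilizer M a = ⊥ := by
    intro a
    rw [eq_bot_iff]
    intro m hm
    rw [Subgroup.mem_bot]
    have := semireg _ htrN m.1.1 (hMC ⟨m.1, m.2, rfl⟩) a hm
    apply Subtype.ext; apply Subtype.ext; exact this
  have hregN : ∀ a : α, MulAction.stabilizer N a = ⊥ := by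
    intro a
    rw [eq_bot_iff]
    intro m hm
    rw [Subgroup.mem_bot]
    have := semireg _ htrM m.1.1 (hNC ⟨m.1, m.2, rfl⟩) a hm
    apply Subtype.ext; apply Subtype.ext; exact this
  have hnab : ¬ IsMulCommutative M := by
    intro hab
    have hle : M.map G.subtype ≤ N.map G.subtype := by
      rw [← hCM]
      rintro _ ⟨x, hx, rfl⟩
      rw [Subgroup.mem_centralizer_iff]
      rintro _ ⟨y, hy, rfl⟩
      have := isMulCommutative_iff.mp hab ⟨y, hy⟩ ⟨x, hx⟩
      exact congrArg Subtype.val (congrArg Subtype.val this)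
    have hle' : M ≤ N := by
      intro m hm
      obtain ⟨n, hn, hnm⟩ := hle ⟨m, hm, rfl⟩
      have : n = m := Subtype.ext hnm
      rw [← this]; exact hn
    rcases hNmin M hMn hle' with h' | h'
    · exact hM h'
    · exact hMN h'
  refine ⟨hregM, hregN, hnab, ?_, hCM, hCN, ?_⟩
  · obtain ⟨a⟩ := hne
    have hex : ∀ m : M, ∃ n : N, n • a = m⁻¹ • a :=
      fun m => MulAction.exists_smul_eq N a (m⁻¹ • a)
    choose φ hφ using hex
    have huniqN : ∀ n n' : N, n • a = n' • a → n = n' := by
      intro n n' h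
      have : n'⁻¹ * n ∈ MulAction.stabilizer N a := by
        rw [MulAction.mem_stabilizer_iff, mul_smul, h, inv_smul_smul]
      rw [hregN a, Subgroup.mem_bot] at this
      exact (inv_mul_eq_one.mp this).symm
    have huniqM : ∀ n n' : M, n • a = n' • a → n = n' := by
      intro n n' h
      have : n'⁻¹ * n ∈ MulAction.stabilizer M a := by
        rw [MulAction.mem_stabilizer_iff, mul_smul, h, inv_smul_smul]
      rw [hregM a, Subgroup.mem_bot] at this
      exact (inv_mul_eq_one.mp this).symm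
    have hcomm' : ∀ (m : M) (n : N) (x : α), m • n • x = n • m • x := by
      intro m n x
      have := hcomm m.1 m.2 n.1 n.2
      change (m.1 * n.1) • x = (n.1 * m.1) • x
      rw [this]
    let f : M →* N := MonoidHom.mk' φ (by
      intro m1 m2
      apply huniqN
      calc φ (m1 * m2) • a = (m1 * m2)⁻¹ • a := hφ _
        _ = m2⁻¹ • m1⁻¹ • a := by rw [mul_inv_rev, mul_smul]
        _ = m2⁻¹ • φ m1 • a := by rw [hφ m1]
        _ = φ m1 • m2⁻¹ • a := hcomm' _ _ _
        _ = φ m1 • φ m2 • a := by rw [hφ m2]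
        _ = (φ m1 * φ m2) • a := (mul_smul _ _ _).symm)
    refine ⟨MulEquiv.ofBijective f ⟨?_, ?_⟩⟩
    · intro m1 m2 h
      have h' : φ m1 = φ m2 := h
      have h1 : m1⁻¹ • a = m2⁻¹ • a := by rw [← hφ m1, ← hφ m2, h']
      exact inv_injective (huniqM _ _ h1)
    · intro n
      obtain ⟨m, hm⟩ := MulAction.exists_smul_eq M a (n • a)
      refine ⟨m⁻¹, huniqN _ _ ?_⟩
      change φ m⁻¹ • a = n • a
      rw [hφ, inv_inv, hm]
  · intro L hLn hLne hLmin
    haveI := hLn
    rcases hLmin (L ⊓ M) inferInstance inf_le_left with h | h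
    · right
      have hLc := comm_of_inf L M hLn hMn h
      have hLN : L ≤ N := by
        intro l hl
        have hmem : (l.1 : Equiv.Perm α) ∈ Subgroup.centralizer
            ((M.map G.subtype : Subgroup (Equiv.Perm α)) : Set (Equiv.Perm α)) := by
          rw [Subgroup.mem_centralizer_iff]
          rintro _ ⟨y, hy, rfl⟩
          exact congrArg Subtype.val (hLc l hl y hy).symm
        rw [hCM] at hmem
        obtain ⟨y, hy, hyl⟩ := hmem
        have : y = l := Subtype.ext hyl
        rw [← this]; exact hy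
      exact (hNmin L hLn hLN).resolve_left hLne
    · left
      have hLM : L ≤ M := by rw [← h]; exact inf_le_right
      exact (hMmin L hLn hLM).resolve_left hLne

end Cfsg.Agent.S0704
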