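import Mathlib
import Cfsg.Statements.S0705
import Cfsg.Agent.S0712

set_option autoImplicit false
open Cfsg

namespace Cfsg.Agent.S0705

theorem lemT {α : Type*} [Fintype α] [DecidableEq α] (G : Subgroup (Equiv.Perm α)) {k : ℕ}
    (hk : k < Fintype.card α)
    (hgen : ∀ s : Finset α, s.card = k + 1 → ∀ σ : Equiv.Perm ↥s, ∃ g ∈ G, ∀ x : ↥s, g (x : α) = σ x)
    (Γ : Finset α) (hΓ : Γ.card < k) (a b : α) (ha : a ∉ Γ) (hb : b ∉ Γ) :
    ∃ g ∈ G, (∀ x ∈ Γ, g x = x) ∧ g a = b := by
  have hcard : (insert a (insert b Γ)).card ≤ k + 1 := by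
    refine (Finset.card_insert_le _ _).trans ?_
    have := Finset.card_insert_le b Γ
    omega
  obtain ⟨s, hts, -, hs⟩ := Finset.exists_subsuperset_card_eq
    (Finset.subset_univ (insert a (insert b Γ))) hcard (by rw [Finset.card_univ]; omega)
  have has : a ∈ s := hts (by simp)
  have hbs : b ∈ s := hts (by simp)
  obtain ⟨g, hg, hgσ⟩ := hgen s hs (Equiv.swap ⟨a, has⟩ ⟨b, hbs⟩)
  refine ⟨g, hg, ?_, ?_⟩
  · intro x hx
    have hxs : x ∈ s := hts (by simp [hx])
    have h1 := hgσ ⟨x, hxs⟩
    rw [Equiv.swap_apply_of_ne_of_ne] at h1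
    · exact h1
    · intro h; exact ha (by have := congrArg Subtype.val h; simp at this; rw [← this]; exact hx)
    · intro h; exact hb (by have := congrArg Subtype.val h; simp at this; rw [← this]; exact hx)
  · have h1 := hgσ ⟨a, has⟩
    rw [Equiv.swap_apply_left] at h1
    exact h1

open scoped Pointwise in
/-- A generously `k`-transitive permutation group (every `(k+1)`-subset has its full symmetric group induced by the setwise stabiliser) of degree greater than `k` is `k`-transitive, and for a `k`-subset the setwise and pointwise stabilisers have the same orbits outside it. -/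
theorem result {α : Type*} [Fintype α] [DecidableEq α] (G : Subgroup (Equiv.Perm α)) {k : ℕ} (hk : k < Fintype.card α) (hgen : ∀ s : Finset α, s.card = k + 1 → ∀ σ : Equiv.Perm ↥s, ∃ g ∈ G, ∀ x : ↥s, g (x : α) = σ x) : MulAction.IsMultiplyPretransitive G α k ∧ ∀ s : Finset α, s.card = k → ∀ a b : α, a ∉ s → b ∉ s → (∃ g ∈ G, g • s = s ∧ g a = b) → ∃ g ∈ G, (∀ x ∈ s, g x = x) ∧ g a = b := by
  constructor
  · have key : ∀ j, j ≤ k → MulAction.IsMultiplyPretransitive G α j := by
      intro j
      induction j with
      | zero => intro _; exact MulAction.is_zero_pretransitive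
      | succ j ih =>
        intro hj
        have ihj := ih (by omega)
        obtain ⟨Γ, -, hΓ⟩ := Finset.exists_subset_card_eq (s := (Finset.univ : Finset α))
          (n := j) (by rw [Finset.card_univ]; omega)
        have hs : (Γ : Set α).ncard = j := by rw [Set.ncard_coe_finset, hΓ]
        apply Cfsg.Agent.S0712.aux (k := 1) j (Γ : Set α) hs ihj
        rw [MulAction.is_one_pretransitive_iff]
        refine ⟨fun x y => ?_⟩
        have hx : (x : α) ∉ Γ := fun h => x.2 (by simpa using h)
        have hy : (y : α) ∉ Γ := fun h => y.2 (by simpa using h)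
        obtain ⟨g, hg, hfix, hgx⟩ := lemT G hk hgen Γ (by omega) x y hx hy
        have hmem : (⟨g, hg⟩ : G) ∈ fixingSubgroup G (Γ : Set α) := by
          rw [mem_fixingSubgroup_iff]
          intro z hz
          exact hfix z (by simpa using hz)
        refine ⟨⟨⟨g, hg⟩, hmem⟩, ?_⟩
        apply Subtype.ext
        exact hgx
    exact key k le_rfl
  · intro s hs a b ha hb ⟨g, hg, hgs, hga⟩
    have hmem : ∀ x, g x ∈ s ↔ x ∈ s := by
      intro x
      have h1 : g • x ∈ g • s ↔ x ∈ s := Finset.smul_mem_smul_finset_iff g
      rw [hgs] at h1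
      exact h1
    have hmem' : ∀ x, g⁻¹ x ∈ s ↔ x ∈ s := by
      intro x
      rw [← hmem (g⁻¹ x)]
      simp
    have hcard : (insert b s).card = k + 1 := by
      rw [Finset.card_insert_of_notMem hb, hs]
    have hρ : ∀ x, (Equiv.swap a b * g⁻¹) x ∈ insert b s ↔ x ∈ insert b s := by
      intro x
      rw [Equiv.Perm.mul_apply, Finset.mem_insert, Finset.mem_insert]
      by_cases hxb : x = b
      · subst hxb
        have : g⁻¹ (g a) = a := by simp
        rw [hga] at this
        rw [this, Equiv.swap_apply_left]
      · have hne : g⁻¹ x ≠ a := by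
          intro h
          apply hxb
          rw [← hga, ← h]; simp
        by_cases hxs : x ∈ s
        · have h1 : g⁻¹ x ∈ s := (hmem' x).mpr hxs
          have hne2 : g⁻¹ x ≠ b := fun h => hb (h ▸ h1)
          rw [Equiv.swap_apply_of_ne_of_ne hne hne2]
          exact ⟨fun _ => Or.inr hxs, fun _ => Or.inr h1⟩
        · have h1 : g⁻¹ x ∉ s := fun h => hxs ((hmem' x).mp h)
          constructor
          · intro h
            exfalso
            by_cases h2 : g⁻¹ x = b
            · rw [h2, Equiv.swap_apply_right] at h
              rcases h with h | h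
              · exact hne (h2.trans h.symm)
              · exact ha h
            · rw [Equiv.swap_apply_of_ne_of_ne hne h2] at h
              rcases h with h | h
              · exact h2 h
              · exact h1 h
          · intro h
            rcases h with h | h
            · exact absurd h hxb
            · exact absurd h hxs
    obtain ⟨h', hh', hσ⟩ := hgen (insert b s) hcard
      ((Equiv.swap a b * g⁻¹).subtypePerm hρ)
    refine ⟨h' * g, G.mul_mem hh' hg, ?_, ?_⟩
    · intro x hx
      have hgx : g x ∈ s := (hmem x).mpr hx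
      have h1 := hσ ⟨g x, Finset.mem_insert_of_mem hgx⟩
      rw [Equiv.Perm.subtypePerm_apply] at h1
      have e1 : g⁻¹ (g x) = x := by simp
      have h2 : h' (g x) = Equiv.swap a b x := by
        rw [h1]
        change Equiv.swap a b (g⁻¹ (g x)) = Equiv.swap a b x
        rw [e1]
      rw [Equiv.Perm.mul_apply, h2]
      exact Equiv.swap_apply_of_ne_of_ne (fun h => ha (by rw [← h]; exact hx))
        (fun h => hb (by rw [← h]; exact hx))
    · have h1 := hσ ⟨b, Finset.mem_insert_self b s⟩
      rw [Equiv.Perm.subtypePerm_apply] at h1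
      have e1 : g⁻¹ b = a := by rw [← hga]; simp
      have h2 : h' b = Equiv.swap a b a := by
        rw [h1]
        change Equiv.swap a b (g⁻¹ b) = Equiv.swap a b a
        rw [e1]
      rw [Equiv.Perm.mul_apply, hga, h2, Equiv.swap_apply_left]

end Cfsg.Agent.S0705
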