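import Mathlib
import Cfsg.Statements.S0707

set_option autoImplicit false
open Cfsg

namespace Cfsg.Agent.S0707

/-- In a primitive permutation group, distinct points have distinct stabilisers unless the group is regular of prime degree. -/
theorem result {α : Type*} (G : Subgroup (Equiv.Perm α)) [MulAction.IsPreprimitive G α] (h : ¬ (Nat.card α).Prime ∨ ∃ a : α, MulAction.stabilizer G a ≠ ⊥) {a b : α} (hab : a ≠ b) : MulAction.stabilizer G a ≠ MulAction.stabilizer G b := by
  intro hK
  have hnt : Nontrivial α := ⟨⟨a, b, hab⟩⟩
  obtain ⟨K, hKdef⟩ : ∃ K, K = MulAction.stabilizer G a := ⟨_, rfl⟩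
  let B : Set α := {x | MulAction.stabilizer G x = K}
  have hB : MulAction.IsBlock G B := by
    rw [MulAction.isBlock_iff_smul_eq_of_mem]
    intro g x hx hgx
    have hx' : MulAction.stabilizer G x = K := hx
    have hgx' : MulAction.stabilizer G (g • x) = K := hgx
    have hconj : K.map (MulAut.conj g).toMonoidHom = K := by
      have := MulAction.stabilizer_smul_eq_stabilizer_map_conj g x
      rw [hgx', hx'] at this
      exact this.symm
    ext y
    rw [Set.mem_smul_set_iff_inv_smul_mem]
    change MulAction.stabilizer G (g⁻¹ • y) = K ↔ MulAction.stabilizer G y = K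
    constructor
    · intro h
      have := MulAction.stabilizer_smul_eq_stabilizer_map_conj g (g⁻¹ • y)
      rw [smul_inv_smul, h, hconj] at this
      exact this
    · intro h
      have h2 := MulAction.stabilizer_smul_eq_stabilizer_map_conj g (g⁻¹ • y)
      rw [smul_inv_smul, h] at h2
      exact Subgroup.map_injective (MulAut.conj g).injective (h2.symm.trans hconj.symm)
  have huniv : B = Set.univ := by
    rcases hB.subsingleton_or_eq_univ with h | h
    · exact absurd (h (show a ∈ B from hKdef.symm) (show b ∈ B from hK.symm.trans hKdef.symm)) hab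
    · exact h
  have hall : ∀ x, MulAction.stabilizer G x = K := fun x => by
    have : x ∈ B := by rw [huniv]; trivial
    exact this
  have hKbot : K = ⊥ := by
    rw [eq_bot_iff]
    intro k hk
    rw [Subgroup.mem_bot]
    apply Subtype.ext
    ext x
    have : k ∈ MulAction.stabilizer G x := by rw [hall x]; exact hk
    exact this
  have hprime : ¬ (Nat.card α).Prime := by
    rcases h with h | ⟨x, hx⟩
    · exact h
    · exact absurd ((hall x).trans hKbot) hx
  apply hprime
  have hco : IsCoatom (⊥ : Subgroup G) := by
    have := MulAction.IsPreprimitive.isCoatom_stabilizer_of_isPreprimitive (G := G) a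
    rwa [← hKdef, hKbot] at this
  have hsub : ∀ H : Subgroup G, H = ⊥ ∨ H = ⊤ := fun H => by
    by_cases hH : H = ⊥
    · exact Or.inl hH
    · exact Or.inr (hco.2 H (bot_lt_iff_ne_bot.mpr hH))
  obtain ⟨g, hg⟩ := MulAction.exists_smul_eq G a b
  have hg1 : g ≠ 1 := by rintro rfl; exact hab (by simpa using hg)
  have hz : Subgroup.zpowers g = ⊤ := (hsub _).resolve_left (by simpa using hg1)
  have hcomm : IsMulCommutative G := by
    rw [isMulCommutative_iff]
    intro x y
    have hx : x ∈ Subgroup.zpowers g := by rw [hz]; trivial
    have hy : y ∈ Subgroup.zpowers g := by rw [hz]; trivial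
    obtain ⟨i, rfl⟩ := hx
    obtain ⟨j, rfl⟩ := hy
    exact zpow_mul_comm g i j
  have hntG : Nontrivial G := ⟨⟨g, 1, hg1⟩⟩
  have hsimple : IsSimpleGroup G := ⟨fun H _ => hsub H⟩
  have hp : (Nat.card G).Prime := Group.is_simple_iff_prime_card.mp hsimple
  have hcard : Nat.card α = Nat.card G := by
    rw [← MulAction.index_stabilizer_of_transitive G a, ← hKdef, hKbot, Subgroup.index_bot]
  rw [hcard]; exact hp

end Cfsg.Agent.S0707
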