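import Mathlib
import Cfsg.Statements.S0710
import Cfsg.Agent.S0704

set_option autoImplicit false
open Cfsg

namespace Cfsg.Agent.S0710

/-- No transitive permutation group on 13 points has order `13 * 12 * 11 * 10 * 9 * 8`. -/
theorem result {α : Type*} [Fintype α] [DecidableEq α] (hα : Fintype.card α = 13) (G : Subgroup (Equiv.Perm α)) [MulAction.IsPretransitive G α] : Nat.card G ≠ 13 * 12 * 11 * 10 * 9 * 8 := by
  intro hcard
  haveI : Fact (Nat.Prime 13) := ⟨by norm_num⟩
  obtain ⟨P⟩ : Nonempty (Sylow 13 G) := inferInstance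
  have hPcard : Nat.card (P : Subgroup G) = 13 := by
    obtain ⟨k, hk⟩ := P.2.exists_card_eq
    have h1 := (P : Subgroup G).card_mul_index
    have h2 := P.not_dvd_index
    rw [hk, hcard] at h1
    rcases k with _ | _ | k
    · exfalso; apply h2
      rw [pow_zero, one_mul] at h1
      rw [h1]; norm_num
    · simpa using hk
    · exfalso
      have : 169 ∣ 13 * 12 * 11 * 10 * 9 * 8 := by
        rw [← h1]
        exact ⟨13 ^ k * (P : Subgroup G).index, by ring⟩
      norm_num at this
  have hPcyc : IsCyclic (P : Subgroup G) := isCyclic_of_prime_card hPcard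
  have hPcomm : IsMulCommutative (P : Subgroup G) := inferInstance
  -- P is transitive on α
  have hne : Nonempty α := by
    rw [← Fintype.card_pos_iff, hα]; norm_num
  have htr : ∀ a b : α, ∃ h ∈ (P : Subgroup G).map G.subtype, h a = b := by
    have hnt : Nontrivial (P : Subgroup G) := by
      rw [← Finite.one_lt_card_iff_nontrivial, hPcard]; norm_num
    obtain ⟨g, hg⟩ := exists_ne (1 : (P : Subgroup G))
    have hex : ∃ a : α, g.1.1 a ≠ a := by
      by_contra hcon
      push_neg at hcon
      apply hg; apply Subtype.ext; apply Subtype.ext; ext a; exact hcon a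
    obtain ⟨a, ha⟩ := hex
    have horb : MulAction.orbit (P : Subgroup G) a = Set.univ := by
      have h1 : Nat.card (MulAction.orbit (P : Subgroup G) a) ∣ Nat.card (P : Subgroup G) := by
        rw [Nat.card_coe_set_eq, ← MulAction.index_stabilizer]
        exact Subgroup.index_dvd_card _
      rw [hPcard] at h1
      have h2 : 1 < Nat.card (MulAction.orbit (P : Subgroup G) a) := by
        rw [Finite.one_lt_card_iff_nontrivial]
        exact ⟨⟨⟨a, MulAction.mem_orbit_self a⟩, ⟨g.1.1 a, ⟨g, rfl⟩⟩,
          fun h => ha (congrArg Subtype.val h).symm⟩⟩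
      have h3 : Nat.card (MulAction.orbit (P : Subgroup G) a) = 13 := by
        rcases (Nat.dvd_prime (by norm_num : Nat.Prime 13)).mp h1 with h | h
        · omega
        · exact h
      rw [Nat.card_coe_set_eq] at h3
      rw [Set.eq_univ_iff_ncard, h3, Nat.card_eq_fintype_card, hα]
    intro x y
    have hx : x ∈ MulAction.orbit (P : Subgroup G) a := by rw [horb]; trivial
    have hy : y ∈ MulAction.orbit (P : Subgroup G) a := by rw [horb]; trivial
    obtain ⟨gx, hgx⟩ := hx
    obtain ⟨gy, hgy⟩ := hy
    refine ⟨(gy * gx⁻¹).1.1, ⟨(gy * gx⁻¹).1, (gy * gx⁻¹).2, rfl⟩, ?_⟩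
    have hgx' : gx • a = x := hgx
    have hgy' : gy • a = y := hgy
    change (gy * gx⁻¹) • x = y
    rw [← hgx', mul_smul, inv_smul_smul, hgy']
  have hPle : (P : Subgroup G).map G.subtype ≤ Subgroup.centralizer
      (((P : Subgroup G).map G.subtype : Subgroup (Equiv.Perm α)) : Set (Equiv.Perm α)) := by
    rintro _ ⟨x, hx, rfl⟩
    rw [Subgroup.mem_centralizer_iff]
    rintro _ ⟨y, hy, rfl⟩
    have := isMulCommutative_iff.mp hPcomm ⟨y, hy⟩ ⟨x, hx⟩
    exact congrArg Subtype.val (congrArg Subtype.val this)
  have hC := Cfsg.Agent.S0704.cent_eq _ _ htr htr hPle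
  have hCG : Subgroup.centralizer ((P : Subgroup G) : Set G) = (P : Subgroup G) := by
    apply le_antisymm
    · intro c hc
      have hmem : (c.1 : Equiv.Perm α) ∈ Subgroup.centralizer
          (((P : Subgroup G).map G.subtype : Subgroup (Equiv.Perm α)) : Set (Equiv.Perm α)) := by
        rw [Subgroup.mem_centralizer_iff]
        rintro _ ⟨y, hy, rfl⟩
        exact congrArg Subtype.val ((Subgroup.mem_centralizer_iff.mp hc) y hy)
      rw [hC] at hmem
      obtain ⟨y, hy, hyc⟩ := hmem
      have : y = c := Subtype.ext hyc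
      rw [← this]; exact hy
    · exact Subgroup.le_centralizer (P : Subgroup G)
  have key := Subgroup.card_dvd_of_injective _
    (QuotientGroup.kerLift_injective (P : Subgroup G).normalizerMonoidHom)
  rw [Subgroup.normalizerMonoidHom_ker, ← Subgroup.index, ← Subgroup.relIndex, hCG,
    hPcyc.card_mulAut, hPcard, Nat.totient_prime (by norm_num)] at key
  have h1 := (P : Subgroup G).card_mul_index
  have h2 := Subgroup.relIndex_mul_index (Subgroup.le_normalizer (H := (P : Subgroup G)))
  have h3 := P.card_eq_index_normalizer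
  have h4 := card_sylow_modEq_one 13 G
  rw [h3] at h4
  rw [hPcard, hcard, ← h2] at h1
  have hd : (P : Subgroup G).relIndex (Subgroup.normalizer ((P : Subgroup G) : Set G)) ≤ 12 :=
    Nat.le_of_dvd (by norm_num) key
  generalize (P : Subgroup G).relIndex (Subgroup.normalizer ((P : Subgroup G) : Set G)) = d at *
  generalize (Subgroup.normalizer ((P : Subgroup G) : Set G)).index = n at *
  have h5 : n % 13 = 1 := h4
  interval_cases d <;> omega

end Cfsg.Agent.S0710
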