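import Mathlib
import Cfsg.Statements.S0711

set_option autoImplicit false
open Cfsg

namespace Cfsg.Agent.S0711

variable {α : Type*} [Fintype α] [DecidableEq α]

/-- prescribing a group element on a small set -/
theorem exists_on (G : Subgroup (Equiv.Perm α)) {k : ℕ} (hkn : k ≤ Fintype.card α)
    (hG : MulAction.IsMultiplyPretransitive G α k) (T : Finset α) (hT : T.card ≤ k)
    (π : Equiv.Perm α) : ∃ x ∈ G, ∀ p ∈ T, x p = π p := by
  haveI := hG
  have hj : MulAction.IsMultiplyPretransitive G α T.card :=
    MulAction.isMultiplyPretransitive_of_le hT (by rw [Nat.card_eq_fintype_card]; exact hkn)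
  obtain ⟨x, hx⟩ := hj.exists_smul_eq
    ((T.equivFin.symm.toEmbedding).trans (Function.Embedding.subtype _))
    (((T.equivFin.symm.toEmbedding).trans (Function.Embedding.subtype _)).trans π.toEmbedding)
  refine ⟨x.1, x.2, fun p hp => ?_⟩
  have h := congrArg (fun f : Fin T.card ↪ α => f (T.equivFin ⟨p, hp⟩)) hx
  simpa [Function.Embedding.smul_apply, Subgroup.smul_def] using h

theorem comm_supp (g x : Equiv.Perm α) (B B' E : Finset α)
    (hxB : ∀ p ∈ B, x p = p) (hB' : ∀ p ∈ B', p ∈ B ∧ g p ∈ B)
    (hE : ∀ q ∈ g.support, q ∉ E → x q ∈ g.support) :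
    (g⁻¹ * x * g * x⁻¹).support ⊆ (g.support \ B') ∪ E.image x := by
  intro p hp
  rw [Equiv.Perm.mem_support] at hp
  by_contra hnot
  rw [Finset.mem_union, Finset.mem_sdiff, Finset.mem_image] at hnot
  push_neg at hnot
  obtain ⟨h1, h2⟩ := hnot
  apply hp
  by_cases hpΔ : p ∈ g.support
  · have hpB' := h1 hpΔ
    obtain ⟨hpB, hgpB⟩ := hB' p hpB'
    have e1 : x⁻¹ p = p := by rw [Equiv.Perm.inv_eq_iff_eq]; exact (hxB p hpB).symm
    simp only [Equiv.Perm.mul_apply]
    rw [e1, hxB _ hgpB]
    simp
  · have hq : x⁻¹ p ∉ g.support := by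
      intro hq
      by_cases hqE : x⁻¹ p ∈ E
      · exact h2 _ hqE (by simp)
      · have h3 := hE _ hq hqE
        have h4 : x (x⁻¹ p) = p := by
          rw [← Equiv.Perm.mul_apply, mul_inv_cancel]; rfl
        rw [h4] at h3
        exact hpΔ h3
    rw [Equiv.Perm.notMem_support] at hq hpΔ
    simp only [Equiv.Perm.mul_apply]
    have h4 : x (x⁻¹ p) = p := by
      rw [← Equiv.Perm.mul_apply, mul_inv_cancel]; rfl
    rw [hq, h4, Equiv.Perm.inv_eq_iff_eq]
    exact hpΔ.symm

theorem comm_card (g x : Equiv.Perm α) (B B' E : Finset α)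
    (hxB : ∀ p ∈ B, x p = p) (hB' : ∀ p ∈ B', p ∈ B ∧ g p ∈ B)
    (hE : ∀ q ∈ g.support, q ∉ E → x q ∈ g.support) (hB'Δ : B' ⊆ g.support) :
    (g⁻¹ * x * g * x⁻¹).support.card + B'.card ≤ g.support.card + E.card := by
  have h := Finset.card_le_card (comm_supp g x B B' E hxB hB' hE)
  have h2 := Finset.card_union_le (g.support \ B') (E.image x)
  have h3 : (E.image x).card ≤ E.card := Finset.card_image_le
  have h4 := Finset.card_sdiff_add_card_eq_card hB'Δ
  omega

theorem comm_ne_one (g x : Equiv.Perm α) (p : α) (h : x (g p) ≠ g (x p)) :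
    g⁻¹ * x * g * x⁻¹ ≠ 1 := by
  intro h1
  apply h
  have h2 : x * g = g * x := by
    have h3 := congrArg (fun t => g * t * x) h1
    simpa [mul_assoc] using h3
  exact congrArg (fun t : Equiv.Perm α => t p) h2

theorem comm_mem (G : Subgroup (Equiv.Perm α)) (g x : Equiv.Perm α) (hg : g ∈ G) (hx : x ∈ G) :
    g⁻¹ * x * g * x⁻¹ ∈ G :=
  G.mul_mem (G.mul_mem (G.mul_mem (G.inv_mem hg) hx) hg) (G.inv_mem hx)

theorem greedy (g : Equiv.Perm α) (j : ℕ) (hj : j ≤ g.support.card) :
    ∃ B : Finset α, B ⊆ g.support ∧ B.card = j ∧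
      ∀ p ∈ B, ∀ q ∈ B, g p ∉ B → g q ∉ B → p = q := by
  induction j with
  | zero =>
    exact ⟨∅, Finset.empty_subset _, rfl, fun p hp => absurd hp (Finset.notMem_empty p)⟩
  | succ j ih =>
    obtain ⟨B, hBΔ, hBc, hB⟩ := ih (by omega)
    by_cases hbad : ∃ β ∈ B, g β ∉ B
    · obtain ⟨β, hβ, hgβ⟩ := hbad
      refine ⟨insert (g β) B, ?_, ?_, ?_⟩
      · intro p hp
        rw [Finset.mem_insert] at hp
        rcases hp with rfl | hp
        · exact Equiv.Perm.apply_mem_support.2 (hBΔ hβ)
        · exact hBΔ hp
      · rw [Finset.card_insert_of_notMem hgβ, hBc]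
      · have key : ∀ r ∈ insert (g β) B, g r ∉ insert (g β) B → r = g β := by
          intro r hr hgr
          rw [Finset.mem_insert] at hr
          rcases hr with rfl | hr
          · rfl
          · exfalso
            have hgr' : g r ∉ B := fun h => hgr (Finset.mem_insert_of_mem h)
            have e : r = β := hB r hr β hβ hgr' hgβ
            subst e
            exact hgr (Finset.mem_insert_self _ _)
        intro p hp q hq hgp hgq
        rw [key p hp hgp, key q hq hgq]
    · push_neg at hbad
      obtain ⟨q, hqΔ, hqB⟩ : ∃ q ∈ g.support, q ∉ B := by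
        by_contra hcon
        push_neg at hcon
        have h1 := Finset.card_le_card (fun q hq => hcon q hq : g.support ⊆ B)
        omega
      refine ⟨insert q B, ?_, ?_, ?_⟩
      · intro p hp
        rw [Finset.mem_insert] at hp
        rcases hp with rfl | hp
        · exact hqΔ
        · exact hBΔ hp
      · rw [Finset.card_insert_of_notMem hqB, hBc]
      · have key : ∀ r ∈ insert q B, g r ∉ insert q B → r = q := by
          intro r hr hgr
          rw [Finset.mem_insert] at hr
          rcases hr with rfl | hr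
          · rfl
          · exact absurd (Finset.mem_insert_of_mem (hbad r hr)) hgr
        intro p hp p' hp' hgp hgp'
        rw [key p hp hgp, key p' hp' hgp']

theorem step (G : Subgroup (Equiv.Perm α)) {k : ℕ} (hk : 3 ≤ k) (hkn : k ≤ Fintype.card α)
    (hG : MulAction.IsMultiplyPretransitive G α k) (g : Equiv.Perm α) (hg : g ∈ G)
    (h4 : 4 ≤ g.support.card) (hsupp : g.support.card < 2 * k - 2) :
    ∃ h ∈ G, h ≠ 1 ∧ h.support.card < g.support.card := by
  by_cases hfull : g.support = Finset.univ
  · -- an element with a fixed point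
    have hcard : 4 ≤ Fintype.card α := by rw [← Finset.card_univ, ← hfull]; exact h4
    obtain ⟨a, b, c, hab, hac, hbc⟩ := Fintype.two_lt_card_iff.1 (by omega : 2 < Fintype.card α)
    obtain ⟨x, hx, hxT⟩ := exists_on G hkn hG {a, b} (by
      have h1 := Finset.card_le_two (a := a) (b := b); omega) (Equiv.swap b c)
    have ha : x a = a := by
      rw [hxT a (by simp)]; exact Equiv.swap_apply_of_ne_of_ne hab hac
    have hb : x b = c := by
      rw [hxT b (by simp)]; exact Equiv.swap_apply_left b c
    refine ⟨x, hx, ?_, ?_⟩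
    · intro h1; rw [h1] at hb; exact hbc hb
    · have hsub : x.support ⊆ Finset.univ.erase a := by
        intro p hp
        rw [Finset.mem_erase]
        refine ⟨?_, Finset.mem_univ _⟩
        rintro rfl
        exact (Equiv.Perm.mem_support.1 hp) ha
      have h1 := Finset.card_le_card hsub
      rw [Finset.card_erase_of_mem (Finset.mem_univ a), ← hfull] at h1
      omega
  · obtain ⟨ω, hω⟩ : ∃ ω, ω ∉ g.support := by
      by_contra hcon; push_neg at hcon
      exact hfull (Finset.eq_univ_iff_forall.2 hcon)
    have hgω : g ω = ω := Equiv.Perm.notMem_support.1 hω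
    by_cases hmk : g.support.card ≤ k
    · -- direct
      obtain ⟨δ, hδ⟩ : ∃ δ, δ ∈ g.support := Finset.card_pos.1 (by omega)
      obtain ⟨x, hx, hxT⟩ := exists_on G hkn hG g.support hmk (Equiv.swap δ ω)
      have hxδ : x δ = ω := by rw [hxT δ hδ]; exact Equiv.swap_apply_left δ ω
      have hxB : ∀ p ∈ g.support.erase δ, x p = p := by
        intro p hp
        rw [Finset.mem_erase] at hp
        rw [hxT p hp.2]
        exact Equiv.swap_apply_of_ne_of_ne hp.1 (fun e => hω (e ▸ hp.2))
      have hcard := comm_card g x (g.support.erase δ) ((g.support.erase δ).erase (g⁻¹ δ)) {δ}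
        hxB ?_ ?_ ?_
      · refine ⟨g⁻¹ * x * g * x⁻¹, comm_mem G g x hg hx, comm_ne_one g x δ ?_, ?_⟩
        · rw [hxδ, hgω, ← hxδ]
          intro e
          exact (Equiv.Perm.mem_support.1 hδ) (x.injective e)
        · have c1 : g.support.card - 2 ≤ ((g.support.erase δ).erase (g⁻¹ δ)).card := by
            have h1 := Finset.pred_card_le_card_erase (s := g.support.erase δ) (a := g⁻¹ δ)
            rw [Finset.card_erase_of_mem hδ] at h1
            omega
          rw [Finset.card_singleton] at hcard
          omega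
      · intro p hp
        rw [Finset.mem_erase, Finset.mem_erase] at hp
        refine ⟨Finset.mem_erase.2 hp.2,
          Finset.mem_erase.2 ⟨?_, Equiv.Perm.apply_mem_support.2 hp.2.2⟩⟩
        intro e
        apply hp.1
        rw [← e]; simp
      · intro q hq hqE
        rw [Finset.mem_singleton] at hqE
        rw [hxB q (Finset.mem_erase.2 ⟨hqE, hq⟩)]
        exact hq
      · exact fun p hp => (Finset.mem_erase.1 (Finset.mem_erase.1 hp).2).2
    · push_neg at hmk
      obtain ⟨B, hBΔ, hBc, hB⟩ := greedy g (k - 1) (by omega)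
      by_cases hbad : ∃ β ∈ B, g β ∉ B
      · obtain ⟨β, hβ, hgβ⟩ := hbad
        have hTc : (insert (g β) B).card = k := by
          rw [Finset.card_insert_of_notMem hgβ, hBc]; omega
        have hTΔ : insert (g β) B ⊆ g.support := by
          intro p hp
          rw [Finset.mem_insert] at hp
          rcases hp with rfl | hp
          · exact Equiv.Perm.apply_mem_support.2 (hBΔ hβ)
          · exact hBΔ hp
        obtain ⟨ε', hε'Δ, hε'T⟩ : ∃ q ∈ g.support, q ∉ insert (g β) B := by
          by_contra hcon; push_neg at hcon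
          have h1 := Finset.card_le_card (fun q hq => hcon q hq : g.support ⊆ insert (g β) B)
          omega
        obtain ⟨x, hx, hxT⟩ := exists_on G hkn hG (insert (g β) B) (by omega)
          (Equiv.swap (g β) ε')
        have hxε : x (g β) = ε' := by
          rw [hxT _ (Finset.mem_insert_self _ _)]; exact Equiv.swap_apply_left _ _
        have hxB : ∀ p ∈ B, x p = p := by
          intro p hp
          rw [hxT p (Finset.mem_insert_of_mem hp)]
          exact Equiv.swap_apply_of_ne_of_ne (fun e => hgβ (e ▸ hp))
            (fun e => hε'T (e ▸ Finset.mem_insert_of_mem hp))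
        have hcard := comm_card g x B (B.erase β) (g.support \ insert (g β) B) hxB ?_ ?_ ?_
        · refine ⟨g⁻¹ * x * g * x⁻¹, comm_mem G g x hg hx, comm_ne_one g x β ?_, ?_⟩
          · rw [hxε, hxB β hβ]
            intro e; exact hε'T (e ▸ Finset.mem_insert_self _ _)
          · have c1 : (B.erase β).card = k - 2 := by
              rw [Finset.card_erase_of_mem hβ, hBc]; omega
            have c2 : (g.support \ insert (g β) B).card = g.support.card - k := by
              rw [Finset.card_sdiff_of_subset hTΔ, hTc]
            omega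
        · intro p hp
          rw [Finset.mem_erase] at hp
          refine ⟨hp.2, ?_⟩
          by_contra hgp
          exact hp.1 (hB p hp.2 β hβ hgp hgβ)
        · intro q hq hqE
          have hqT : q ∈ insert (g β) B := by
            by_contra hqT
            exact hqE (Finset.mem_sdiff.2 ⟨hq, hqT⟩)
          rw [Finset.mem_insert] at hqT
          rcases hqT with rfl | hqB
          · rw [hxε]; exact hε'Δ
          · rw [hxB q hqB]; exact hq
        · exact fun p hp => hBΔ (Finset.mem_erase.1 hp).2
      · push_neg at hbad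
        obtain ⟨ε, hεΔ, hεB⟩ : ∃ q ∈ g.support, q ∉ B := by
          by_contra hcon; push_neg at hcon
          have h1 := Finset.card_le_card (fun q hq => hcon q hq : g.support ⊆ B)
          omega
        obtain ⟨x, hx, hxT⟩ := exists_on G hkn hG (insert ε B)
          (by rw [Finset.card_insert_of_notMem hεB, hBc]; omega) (Equiv.swap ε ω)
        have hxε : x ε = ω := by
          rw [hxT _ (Finset.mem_insert_self _ _)]; exact Equiv.swap_apply_left _ _
        have hxB : ∀ p ∈ B, x p = p := by
          intro p hp
          rw [hxT p (Finset.mem_insert_of_mem hp)]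
          exact Equiv.swap_apply_of_ne_of_ne (fun e => hεB (e ▸ hp)) (fun e => hω (e ▸ hBΔ hp))
        have hcard := comm_card g x B B (g.support \ B) hxB ?_ ?_ hBΔ
        · refine ⟨g⁻¹ * x * g * x⁻¹, comm_mem G g x hg hx, comm_ne_one g x ε ?_, ?_⟩
          · rw [hxε, hgω, ← hxε]
            intro e
            exact (Equiv.Perm.mem_support.1 hεΔ) (x.injective e)
          · have c2 : (g.support \ B).card = g.support.card - (k - 1) := by
              rw [Finset.card_sdiff_of_subset hBΔ, hBc]
            omega
        · exact fun p hp => ⟨hp, hbad p hp⟩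
        · intro q hq hqE
          have hqB : q ∈ B := by
            by_contra hqB
            exact hqE (Finset.mem_sdiff.2 ⟨hq, hqB⟩)
          rw [hxB q hqB]; exact hq

theorem main (G : Subgroup (Equiv.Perm α)) {k : ℕ} (hk : 3 ≤ k) (hkn : k ≤ Fintype.card α)
    (hG : MulAction.IsMultiplyPretransitive G α k) :
    ∀ n : ℕ, ∀ g ∈ G, g ≠ 1 → g.support.card = n → n < 2 * k - 2 →
      ∃ h ∈ G, h ≠ 1 ∧ h.support.card ≤ 3 := by
  intro n
  induction n using Nat.strong_induction_on with
  | _ n ih =>
    intro g hg hg1 hn hlt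
    by_cases h3 : n ≤ 3
    · exact ⟨g, hg, hg1, by omega⟩
    · obtain ⟨h, hh, hh1, hlt'⟩ := step G hk hkn hG g hg (by omega) (by omega)
      exact ih h.support.card (by omega) h hh hh1 rfl (by omega)

/-- A `k`-transitive permutation group (`k ≥ 3`) with a non-identity element of support smaller than `2k - 2` contains a non-identity element of support at most 3, and therefore contains the alternating group. -/
theorem result {α : Type*} [Fintype α] [DecidableEq α] (G : Subgroup (Equiv.Perm α)) {k : ℕ} (hk : 3 ≤ k) (hkn : k ≤ Fintype.card α) (hG : MulAction.IsMultiplyPretransitive G α k) (g : Equiv.Perm α) (hg : g ∈ G) (hg1 : g ≠ 1) (hsupp : g.support.card < 2 * k - 2) : (∃ h : Equiv.Perm α, h ∈ G ∧ h ≠ 1 ∧ h.support.card ≤ 3) ∧ alternatingGroup α ≤ G := by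
  have hex := main G hk hkn hG g.support.card g hg hg1 rfl hsupp
  obtain ⟨h, hh, hh1, hc⟩ := hex
  refine ⟨⟨h, hh, hh1, hc⟩, ?_⟩
  haveI := hG
  have h2 : MulAction.IsMultiplyPretransitive G α 2 :=
    MulAction.isMultiplyPretransitive_of_le (n := k) (by omega)
      (by rw [Nat.card_eq_fintype_card]; exact hkn)
  have hprim : MulAction.IsPreprimitive G α := MulAction.isPreprimitive_of_is_two_pretransitive h2
  have hc2 : 2 ≤ h.support.card := by
    by_contra hcon
    exact hh1 (Equiv.Perm.card_support_le_one.1 (by omega))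
  rcases (by omega : h.support.card = 2 ∨ h.support.card = 3) with h2c | h3c
  · have htop := Equiv.Perm.subgroup_eq_top_of_isPreprimitive_of_isSwap_mem hprim h
      (Equiv.Perm.card_support_eq_two.1 h2c) hh
    rw [htop]; exact le_top
  · exact Equiv.Perm.alternatingGroup_le_of_isPreprimitive_of_isThreeCycle_mem hprim
      (card_support_eq_three_iff.1 h3c) hh

end Cfsg.Agent.S0711
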