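import Mathlib
import Cfsg.Statements.S0713

set_option autoImplicit false
open Cfsg

namespace Cfsg.Agent.S0713

open Equiv Equiv.Perm MulAction

theorem lemA {α : Type*} [Fintype α] [DecidableEq α] (G : Subgroup (Perm α)) (Δ : Finset α)
    (hG : IsMultiplyPretransitive G α Δ.card) (τ : Perm α) :
    ∃ x ∈ G, ∀ d ∈ Δ, x d = τ d := by
  let e0 : Δ ≃ Fin Δ.card := Δ.equivFin
  let e : Fin Δ.card ↪ α := e0.symm.toEmbedding.trans (Function.Embedding.subtype _)
  let e' : Fin Δ.card ↪ α := e.trans τ.toEmbedding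
  obtain ⟨x, hx⟩ := (isMultiplyPretransitive_iff.mp hG) e e'
  refine ⟨x.1, x.2, fun d hd => ?_⟩
  have h1 := congrArg (fun f : Fin Δ.card ↪ α => f (e0 ⟨d, hd⟩)) hx
  simpa [e, e', Subgroup.smul_def] using h1

theorem swap_mem {α : Type*} [DecidableEq α] {Δ : Finset α} {u v d : α} (hu : u ∈ Δ) (hv : v ∈ Δ)
    (hd : d ∈ Δ) : swap u v d ∈ Δ := by
  rw [swap_apply_def]; split_ifs <;> assumption

theorem lemB {α : Type*} [Fintype α] [DecidableEq α] (G : Subgroup (Perm α)) {p : ℕ} (hp : p.Prime)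
    {g : Perm α} (hgc : g.IsCycle) (hgp : g.support.card = p) (hg : g ∈ G)
    (x : Perm α) (hx : x ∈ G) (hxs : ∀ d, d ∈ g.support → x d ∈ g.support) :
    ∃ y ∈ G, (∀ d, d ∉ g.support → y d = d) ∧ y * (x * g * x⁻¹) * y⁻¹ ∈ Subgroup.zpowers g := by
  haveI : Fact p.Prime := ⟨hp⟩
  obtain ⟨F, hFdef⟩ : ∃ F : Subgroup (Perm α),
      F = (ofSubtype : Perm {a // a ∈ g.support} →* Perm α).range := ⟨_, rfl⟩
  let H : Subgroup (Perm α) := G ⊓ F
  have hF : ∀ f : Perm α, f ∈ F ↔ ∀ d, d ∉ g.support → f d = d := by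
    intro f
    rw [hFdef, mem_range_ofSubtype_iff]
    constructor
    · intro h d hd
      by_contra hne
      exact hd (h (by simpa using hne))
    · intro h d hd
      by_contra hne
      exact (by simpa using hd : f d ≠ d) (h d hne)
  have hgF : g ∈ F := (hF g).mpr (fun d hd => by simpa using hd)
  have hg'F : x * g * x⁻¹ ∈ F := by
    refine (hF _).mpr (fun d hd => ?_)
    have h1 : x⁻¹ d ∉ g.support := by
      intro h
      have h2 := hxs _ h
      simp at h2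
      exact hd (by simpa using h2)
    simp only [Perm.mul_apply]
    rw [notMem_support.mp h1]; simp
  have hcardF : Nat.card F = p.factorial := by
    rw [hFdef, Nat.card_congr (MonoidHom.ofInjective ofSubtype_injective).symm.toEquiv, Nat.card_perm]
    rw [Nat.card_eq_fintype_card, Fintype.card_coe, hgp]
  have hH : ¬ p ^ 2 ∣ Nat.card H := by
    intro h
    have h2 : p ^ 2 ∣ p.factorial := hcardF ▸ h.trans (Subgroup.card_dvd_of_le inf_le_right)
    obtain ⟨q, rfl⟩ : ∃ q, p = q + 1 := ⟨p - 1, by have := hp.pos; omega⟩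
    rw [Nat.factorial_succ, pow_two] at h2
    have h3 : (q + 1) ∣ q.factorial := Nat.dvd_of_mul_dvd_mul_left (by omega) h2
    have := (hp.dvd_factorial).mp h3
    omega
  let gH : H := ⟨g, hg, hgF⟩
  let g'H : H := ⟨x * g * x⁻¹, G.mul_mem (G.mul_mem hx hg) (G.inv_mem hx), hg'F⟩
  have hog : orderOf gH = p := by
    rw [← hgp, ← hgc.orderOf]; exact Subgroup.orderOf_mk _ _
  have hog' : orderOf g'H = p := by
    rw [← hgp, ← hgc.orderOf, ← (MulAut.conj x).orderOf_eq g]; exact Subgroup.orderOf_mk _ _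
  have hpg : IsPGroup p (Subgroup.zpowers gH) :=
    IsPGroup.of_card (n := 1) (by rw [Nat.card_zpowers, hog, pow_one])
  have hpg' : IsPGroup p (Subgroup.zpowers g'H) :=
    IsPGroup.of_card (n := 1) (by rw [Nat.card_zpowers, hog', pow_one])
  obtain ⟨P, hP⟩ := hpg.exists_le_sylow
  obtain ⟨Q, hQ⟩ := hpg'.exists_le_sylow
  obtain ⟨y, hy⟩ := MulAction.exists_smul_eq H P Q
  have hcardP : Nat.card P = p := by
    obtain ⟨e, he⟩ := IsPGroup.iff_card.mp P.isPGroup'
    have h1 : p ^ e ∣ Nat.card H := he ▸ Subgroup.card_subgroup_dvd_card _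
    have h2 : p ∣ p ^ e := by
      have h2' : Nat.card (Subgroup.zpowers gH) ∣ Nat.card P := Subgroup.card_dvd_of_le hP
      rw [Nat.card_zpowers, hog, he] at h2'
      exact h2'
    have he1 : e = 1 := by
      rcases e with _ | _ | e
      · simp at h2; exact absurd h2 hp.one_lt.ne'
      · rfl
      · exact absurd (dvd_trans (pow_dvd_pow p (by omega)) h1) hH
    rw [he, he1, pow_one]
  have hPeq : Subgroup.zpowers gH = (P : Subgroup H) :=
    Subgroup.eq_of_le_of_card_ge hP (by rw [hcardP, Nat.card_zpowers, hog])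
  have hmem : g'H ∈ ((y • P : Sylow p H) : Subgroup H) := by
    rw [hy]; exact hQ (Subgroup.mem_zpowers _)
  have hmem2 : y⁻¹ * g'H * y ∈ (P : Subgroup H) := by
    rw [Sylow.coe_subgroup_smul, Subgroup.mem_pointwise_smul_iff_inv_smul_mem] at hmem
    simpa [MulAut.smul_def] using hmem
  rw [← hPeq, Subgroup.mem_zpowers_iff] at hmem2
  obtain ⟨k, hk⟩ := hmem2
  refine ⟨((y⁻¹ : H) : Perm α), (y⁻¹).2.1, (hF _).mp (y⁻¹).2.2, ?_⟩
  rw [Subgroup.mem_zpowers_iff]
  refine ⟨k, ?_⟩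
  have h5 := congrArg Subtype.val hk
  simpa [gH, g'H] using h5

/-- Jordan's Theorem: a primitive permutation group of degree `n ≥ 5` containing a `p`-cycle for a prime `p ≤ n - 3` contains the alternating group. -/
theorem result {α : Type*} [Fintype α] [DecidableEq α] (G : Subgroup (Equiv.Perm α)) (hG : MulAction.IsPreprimitive G α) {p : ℕ} (hp : p.Prime) (hn : 5 ≤ Fintype.card α) (hpn : p + 3 ≤ Fintype.card α) {g : Equiv.Perm α} (hgc : g.IsCycle) (hgp : g.support.card = p) (hg : g ∈ G) : alternatingGroup α ≤ G := by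
  classical
  obtain ⟨Δ, hΔdef⟩ : ∃ Δ : Finset α, Δ = g.supportᶜ := ⟨_, rfl⟩
  have hΔmem : ∀ d, d ∈ Δ ↔ d ∉ g.support := by intro d; rw [hΔdef, Finset.mem_compl]
  have hΔcard : Δ.card = Fintype.card α - p := by rw [hΔdef, Finset.card_compl, hgp]
  have hΔ3 : 3 ≤ Δ.card := by omega
  have hmt : IsMultiplyPretransitive G α Δ.card := by
    obtain ⟨m, hm⟩ : ∃ m, Δ.card = m + 1 := ⟨Δ.card - 1, by omega⟩
    have hsc : Set.ncard ((g.support : Set α)ᶜ) = m + 1 := by
      rw [← hm, hΔdef, ← Finset.coe_compl, Set.ncard_coe_finset]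
    have hprim : IsPreprimitive (fixingSubgroup G ((g.support : Set α)ᶜ))
        (SubMulAction.ofFixingSubgroup G ((g.support : Set α)ᶜ)) := by
      have := isPretransitive_of_isCycle_mem hgc hg
      apply IsPreprimitive.of_prime_card
      convert hp
      rw [Nat.card_eq_fintype_card, Fintype.card_subtype, ← hgp]
      apply congr_arg
      ext x
      simp [SubMulAction.mem_ofFixingSubgroup_iff]
    have hmp := hG.isMultiplyPreprimitive hsc
      (by rw [Nat.card_eq_fintype_card]; have := hp.two_le; omega) hprim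
    have hmt2 : IsMultiplyPretransitive G α (m + 2) := hmp.isMultiplyPretransitive
    rw [hm]
    exact isMultiplyPretransitive_of_le (n := m + 2) (by omega)
      (by rw [Nat.card_eq_fintype_card]; have := hp.two_le; omega)
  obtain ⟨a, b, c, ha, hb, hc, hab, hac, hbc⟩ :
      ∃ a b c, a ∈ Δ ∧ b ∈ Δ ∧ c ∈ Δ ∧ a ≠ b ∧ a ≠ c ∧ b ≠ c := by
    obtain ⟨t, ht, ht3⟩ := Finset.exists_subset_card_eq hΔ3
    obtain ⟨a, b, c, hab, hac, hbc, rfl⟩ := Finset.card_eq_three.mp ht3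
    exact ⟨a, b, c, ht (by simp), ht (by simp), ht (by simp), hab, hac, hbc⟩
  have key : ∀ u v, u ∈ Δ → v ∈ Δ →
      ∃ z ∈ G, (∀ d ∈ Δ, z d = swap u v d) ∧ z * g * z⁻¹ ∈ Subgroup.zpowers g := by
    intro u v hu hv
    obtain ⟨x, hxG, hx⟩ := lemA G Δ hmt (swap u v)
    have hxΔ : ∀ d ∈ Δ, x d ∈ Δ := by
      intro d hd; rw [hx d hd]; exact swap_mem hu hv hd
    have hxΓ : ∀ d, d ∈ g.support → x d ∈ g.support := by
      intro d hd
      by_contra hcon
      have h1 : x d ∈ Δ := (hΔmem _).mpr hcon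
      have h2 := Equiv.Perm.perm_symm_on_of_perm_on_finset hxΔ h1
      rw [Equiv.symm_apply_apply] at h2
      exact ((hΔmem _).mp h2) hd
    obtain ⟨y, hyG, hyfix, hy⟩ := lemB G hp hgc hgp hg x hxG hxΓ
    refine ⟨y * x, G.mul_mem hyG hxG, ?_, ?_⟩
    · intro d hd
      rw [Perm.mul_apply, hyfix _ ((hΔmem _).mp (hxΔ d hd)), hx d hd]
    · have h3 : y * x * g * (y * x)⁻¹ = y * (x * g * x⁻¹) * y⁻¹ := by group
      rw [h3]; exact hy
  obtain ⟨z₁, hz₁G, hz₁, hz₁n⟩ := key a b ha hb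
  obtain ⟨z₂, hz₂G, hz₂, hz₂n⟩ := key b c hb hc
  obtain ⟨w, hwdef⟩ : ∃ w : Perm α, w = z₁⁻¹ * z₂⁻¹ * z₁ * z₂ := ⟨_, rfl⟩
  obtain ⟨κ, hκdef⟩ : ∃ κ : Perm α, κ = swap a b * swap b c * (swap a b * swap b c) := ⟨_, rfl⟩
  have hκ3 : IsThreeCycle κ := by
    have h1 : IsThreeCycle (swap b a * swap b c) := isThreeCycle_swap_mul_swap_same hab.symm hbc hac
    rw [swap_comm b a] at h1
    rw [hκdef]
    exact h1.isThreeCycle_sq
  have hwΔ : ∀ d ∈ Δ, w d = κ d := by
    intro d hd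
    have e1 : z₂ d = swap b c d := hz₂ d hd
    have m1 : swap b c d ∈ Δ := swap_mem hb hc hd
    have e2 : z₁ (swap b c d) = swap a b (swap b c d) := hz₁ _ m1
    have m2 : swap a b (swap b c d) ∈ Δ := swap_mem ha hb m1
    have m3 : swap b c (swap a b (swap b c d)) ∈ Δ := swap_mem hb hc m2
    have e3 : z₂⁻¹ (swap a b (swap b c d)) = swap b c (swap a b (swap b c d)) := by
      rw [Perm.inv_eq_iff_eq, hz₂ _ m3]; simp
    have m4 : swap a b (swap b c (swap a b (swap b c d))) ∈ Δ := swap_mem ha hb m3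
    have e4 : z₁⁻¹ (swap b c (swap a b (swap b c d))) = swap a b (swap b c (swap a b (swap b c d))) := by
      rw [Perm.inv_eq_iff_eq, hz₁ _ m4]; simp
    rw [hwdef, hκdef]
    simp only [Perm.mul_apply, e1, e2, e3, e4]
  have hκΔ : ∀ d ∈ Δ, κ d ∈ Δ := fun d hd => by
    rw [hκdef]
    exact swap_mem ha hb (swap_mem hb hc (swap_mem ha hb (swap_mem hb hc hd)))
  have hcomm : Commute w g := by
    obtain ⟨i, hi⟩ := Subgroup.mem_zpowers_iff.mp hz₁n
    obtain ⟨j, hj⟩ := Subgroup.mem_zpowers_iff.mp hz₂n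
    have h12 : z₁ * z₂ * g * (z₁ * z₂)⁻¹ = g ^ (i * j) := by
      have h0 : z₁ * z₂ * g * (z₁ * z₂)⁻¹ = z₁ * (z₂ * g * z₂⁻¹) * z₁⁻¹ := by group
      rw [h0, ← hj, ← conj_zpow, ← hi, ← zpow_mul]
    have h21 : z₂ * z₁ * g * (z₂ * z₁)⁻¹ = g ^ (i * j) := by
      have h0 : z₂ * z₁ * g * (z₂ * z₁)⁻¹ = z₂ * (z₁ * g * z₁⁻¹) * z₂⁻¹ := by group
      rw [h0, ← hi, ← conj_zpow, ← hj, ← zpow_mul, mul_comm]
    have h3 : z₁ * z₂ * g * (z₁ * z₂)⁻¹ = z₂ * z₁ * g * (z₂ * z₁)⁻¹ := h12.trans h21.symm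
    have h4 : (z₁ * z₂) * g = (z₂ * z₁) * g * (z₂ * z₁)⁻¹ * (z₁ * z₂) := by
      rw [← h3]; group
    show w * g = g * w
    have h5 : w = (z₂ * z₁)⁻¹ * (z₁ * z₂) := by rw [hwdef]; group
    rw [h5, mul_assoc, h4]; group
  obtain ⟨hc', hσ⟩ := (hgc.commute_iff).mp hcomm
  have hσG : ofSubtype (subtypePerm w hc') ∈ G := (Subgroup.zpowers_le.mpr hg) hσ
  have hwG : w ∈ G := by
    rw [hwdef]
    exact G.mul_mem (G.mul_mem (G.mul_mem (G.inv_mem hz₁G) (G.inv_mem hz₂G)) hz₁G) hz₂G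
  have hκG : κ ∈ G := by
    have h6 : κ = (ofSubtype (subtypePerm w hc'))⁻¹ * w := by
      ext d
      rw [Perm.mul_apply, Perm.eq_inv_iff_eq]
      by_cases hd : d ∈ g.support
      · have hκd : κ d = d := by
          have hda : d ≠ a := fun h => ((hΔmem _).mp ha) (h ▸ hd)
          have hdb : d ≠ b := fun h => ((hΔmem _).mp hb) (h ▸ hd)
          have hdc : d ≠ c := fun h => ((hΔmem _).mp hc) (h ▸ hd)
          rw [hκdef]
          simp [Perm.mul_apply, swap_apply_of_ne_of_ne, hda, hdb, hdc]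
        rw [hκd]
        exact ofSubtype_subtypePerm_of_mem hc' hd
      · have hdΔ : d ∈ Δ := (hΔmem _).mpr hd
        rw [← hwΔ d hdΔ]
        have h7 : w d ∉ g.support := by rw [hwΔ d hdΔ]; exact (hΔmem _).mp (hκΔ d hdΔ)
        exact ofSubtype_subtypePerm_of_not_mem hc' h7
    rw [h6]; exact G.mul_mem (G.inv_mem hσG) hwG
  exact alternatingGroup_le_of_isPreprimitive_of_isThreeCycle_mem hG hκ3 hκG

end Cfsg.Agent.S0713
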