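import Cfsg.Statements.S0714
-- import your own Cfsg.Agent.* helpers here

set_option autoImplicit false
open Cfsg

namespace Cfsg.Agent.S0714

/-- Over any field, the permutation module of the alternating group of degree at least 5 has exactly four invariant subspaces: zero, the constant functions, the functions with coordinate sum zero, and everything. -/
theorem result {α : Type*} [Fintype α] [DecidableEq α] (hα : 5 ≤ Fintype.card α) {K : Type*} [Field K] (W : Subrepresentation (Cfsg.permRep K (alternatingGroup α) α)) : W.toSubmodule = ⊥ ∨ W = Cfsg.permConstants K (alternatingGroup α) α ∨ W = Cfsg.permSumZero K (alternatingGroup α) α ∨ W.toSubmodule = ⊤ := by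
  classical
  have hmem : ∀ (g : alternatingGroup α) (f : α → K), f ∈ W.toSubmodule →
      (fun x => f ((g : Equiv.Perm α)⁻¹ x)) ∈ W.toSubmodule := fun g f hf =>
    W.apply_mem_toSubmodule g hf
  -- even permutations from two swaps
  have hswap2 : ∀ a b c d : α, a ≠ b → c ≠ d →
      Equiv.swap a b * Equiv.swap c d ∈ alternatingGroup α := by
    intro a b c d hab hcd
    rw [Equiv.Perm.mem_alternatingGroup, map_mul, Equiv.Perm.sign_swap hab, Equiv.Perm.sign_swap hcd]
    decide
  have hcard : ∀ T : Finset α, T.card < 5 → ∃ x, x ∉ T := by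
    intro T hT
    obtain ⟨x, -, hx⟩ := Finset.exists_mem_notMem_of_card_lt_card
      (s := T) (t := Finset.univ) (by rw [Finset.card_univ]; omega)
    exact ⟨x, hx⟩
  -- step C: one difference of basis vectors gives all sum-zero functions
  have stepC : (∃ a b : α, a ≠ b ∧ (Pi.single a 1 - Pi.single b 1 : α → K) ∈ W.toSubmodule) →
      ∀ f : α → K, ∑ x, f x = 0 → f ∈ W.toSubmodule := by
    rintro ⟨a, b, hab, hW⟩
    have hall : ∀ x y : α, x ≠ y → (Pi.single x 1 - Pi.single y 1 : α → K) ∈ W.toSubmodule := by
      intro x y hxy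
      -- a permutation with π a = x, π b = y
      obtain ⟨π, hπa, hπb⟩ : ∃ π : Equiv.Perm α, π a = x ∧ π b = y := by
        refine ⟨Equiv.swap (Equiv.swap a x b) y * Equiv.swap a x, ?_, ?_⟩
        · have h1 : Equiv.swap a x b ≠ x := by
            intro h
            have : b = a := by
              have := congrArg (Equiv.swap a x) h
              rw [Equiv.swap_apply_self, Equiv.swap_apply_right] at this
              exact this
            exact hab this.symm
          rw [Equiv.Perm.mul_apply, Equiv.swap_apply_left]
          exact Equiv.swap_apply_of_ne_of_ne h1.symm hxy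
        · rw [Equiv.Perm.mul_apply, Equiv.swap_apply_left]
      obtain ⟨π', hπ'm, hπ'a, hπ'b⟩ : ∃ π' : Equiv.Perm α, π' ∈ alternatingGroup α ∧
          π' a = x ∧ π' b = y := by
        by_cases hs : Equiv.Perm.sign π = 1
        · exact ⟨π, Equiv.Perm.mem_alternatingGroup.mpr hs, hπa, hπb⟩
        · obtain ⟨c, hc⟩ := hcard {x, y} (lt_of_le_of_lt Finset.card_le_two (by norm_num))
          obtain ⟨d, hd⟩ := hcard {x, y, c} (lt_of_le_of_lt Finset.card_le_three (by norm_num))
          simp only [Finset.mem_insert, Finset.mem_singleton, not_or] at hc hd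
          refine ⟨Equiv.swap c d * π, ?_, ?_, ?_⟩
          · rw [Equiv.Perm.mem_alternatingGroup, map_mul, Equiv.Perm.sign_swap (Ne.symm hd.2.2)]
            rcases Int.units_eq_one_or (Equiv.Perm.sign π) with h | h
            · exact absurd h hs
            · rw [h]; decide
          · rw [Equiv.Perm.mul_apply, hπa]
            exact Equiv.swap_apply_of_ne_of_ne (Ne.symm hc.1) (Ne.symm hd.1)
          · rw [Equiv.Perm.mul_apply, hπb]
            exact Equiv.swap_apply_of_ne_of_ne (Ne.symm hc.2) (Ne.symm hd.2.1)
      have h1 := hmem ⟨π', hπ'm⟩ _ hW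
      have h2 : (fun z => (Pi.single a 1 - Pi.single b 1 : α → K) ((π' : Equiv.Perm α)⁻¹ z)) =
          (Pi.single x 1 - Pi.single y 1 : α → K) := by
        funext z
        simp only [Pi.sub_apply, Pi.single_apply]
        have e1 : (π'⁻¹ z = a) ↔ (z = x) := by
          rw [← hπ'a, Equiv.Perm.inv_eq_iff_eq]
        have e2 : (π'⁻¹ z = b) ↔ (z = y) := by
          rw [← hπ'b, Equiv.Perm.inv_eq_iff_eq]
        simp only [e1, e2]
      rw [h2] at h1
      exact h1
    intro f hf
    obtain ⟨x₀⟩ : Nonempty α := by
      rw [← Fintype.card_pos_iff]; omega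
    have hfe : f = ∑ x, f x • (Pi.single x 1 - Pi.single x₀ 1 : α → K) := by
      funext z
      simp only [Finset.sum_apply, Pi.smul_apply, Pi.sub_apply, Pi.single_apply, smul_eq_mul,
        mul_sub, mul_ite, mul_one, mul_zero, Finset.sum_sub_distrib]
      rw [Finset.sum_ite_eq Finset.univ z f]
      simp only [Finset.mem_univ, if_true]
      by_cases hz : z = x₀
      · subst hz
        simp only [if_true]
        rw [hf, sub_zero]
      · simp only [if_neg hz, Finset.sum_const_zero, sub_zero]
    rw [hfe]
    refine Submodule.sum_mem _ (fun x _ => ?_)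
    by_cases hx : x = x₀
    · rw [hx, sub_self, smul_zero]; exact Submodule.zero_mem _
    · exact Submodule.smul_mem _ _ (hall x x₀ hx)
  -- steps A and B: a non-constant vector gives a difference of basis vectors
  have stepAB : (∃ v ∈ W.toSubmodule, ∃ i j : α, v i ≠ v j) →
      ∃ a b : α, a ≠ b ∧ (Pi.single a 1 - Pi.single b 1 : α → K) ∈ W.toSubmodule := by
    rintro ⟨v, hv, i, j, hij⟩
    have hij' : i ≠ j := fun h => hij (by rw [h])
    obtain ⟨l, hl⟩ := hcard {i, j} (lt_of_le_of_lt Finset.card_le_two (by norm_num))
    obtain ⟨s, hs⟩ := hcard {i, j, l} (lt_of_le_of_lt Finset.card_le_three (by norm_num))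
    obtain ⟨t, ht⟩ := hcard {i, j, l, s} (lt_of_le_of_lt Finset.card_le_four (by norm_num))
    simp only [Finset.mem_insert, Finset.mem_singleton, not_or] at hl hs ht
    obtain ⟨hli, hlj⟩ := hl
    obtain ⟨hsi, hsj, hsl⟩ := hs
    obtain ⟨hti, htj, htl, hts⟩ := ht
    -- σ = (i j l), σ⁻¹ = swap i j * swap l i
    have hσ : (Equiv.swap l i * Equiv.swap i j) ∈ alternatingGroup α := hswap2 l i i j hli hij'
    have hw := W.toSubmodule.sub_mem hv (hmem ⟨_, hσ⟩ v hv)
    obtain ⟨w, hwdef⟩ : ∃ w : α → K, w = v - (fun x => v ((Equiv.swap l i * Equiv.swap i j)⁻¹ x)) :=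
      ⟨_, rfl⟩
    rw [← hwdef] at hw
    have hinv : ∀ x, (Equiv.swap l i * Equiv.swap i j)⁻¹ x = Equiv.swap i j (Equiv.swap l i x) := by
      intro x
      rw [mul_inv_rev, Equiv.swap_inv, Equiv.swap_inv, Equiv.Perm.mul_apply]
    have hwi : w i = v i - v l := by
      rw [hwdef, Pi.sub_apply, hinv, Equiv.swap_apply_right,
        Equiv.swap_apply_of_ne_of_ne hli hlj]
    have hwj : w j = v j - v i := by
      rw [hwdef, Pi.sub_apply, hinv, Equiv.swap_apply_of_ne_of_ne (Ne.symm hlj) (Ne.symm hij'),
        Equiv.swap_apply_right]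
    have hwl : w l = v l - v j := by
      rw [hwdef, Pi.sub_apply, hinv, Equiv.swap_apply_left, Equiv.swap_apply_left]
    have hwx : ∀ x, x ≠ i → x ≠ j → x ≠ l → w x = 0 := by
      intro x hxi hxj hxl
      rw [hwdef, Pi.sub_apply, hinv, Equiv.swap_apply_of_ne_of_ne hxl hxi,
        Equiv.swap_apply_of_ne_of_ne hxi hxj, sub_self]
    have hwj0 : w j ≠ 0 := by
      rw [hwj]; exact sub_ne_zero.mpr (Ne.symm hij)
    by_cases hwl0 : w l = 0
    · -- w = w j • (e_j - e_i)
      refine ⟨j, i, Ne.symm hij', ?_⟩
      have hwi' : w i = - w j := by rw [hwi, hwj]; rw [hwl, sub_eq_zero] at hwl0; rw [hwl0]; ring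
      have e : (Pi.single j 1 - Pi.single i 1 : α → K) = (w j)⁻¹ • w := by
        funext x
        simp only [Pi.sub_apply, Pi.single_apply, Pi.smul_apply, smul_eq_mul]
        by_cases hxj : x = j
        · subst hxj
          rw [if_pos rfl, if_neg hij'.symm, sub_zero, inv_mul_cancel₀ hwj0]
        · by_cases hxi : x = i
          · subst hxi
            rw [if_neg hxj, if_pos rfl, hwi', mul_neg, inv_mul_cancel₀ hwj0, zero_sub]
          · by_cases hxl : x = l
            · subst hxl
              rw [if_neg hxj, if_neg hxi, hwl0, mul_zero, sub_zero]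
            · rw [if_neg hxj, if_neg hxi, hwx x hxi hxj hxl, mul_zero, sub_zero]
      rw [e]
      exact Submodule.smul_mem _ _ hw
    · -- τ = (l s t): τ⁻¹ = swap l s * swap t l
      refine ⟨l, s, Ne.symm hsl, ?_⟩
      have hτ : (Equiv.swap t l * Equiv.swap l s) ∈ alternatingGroup α :=
        hswap2 t l l s htl (Ne.symm hsl)
      have hu := W.toSubmodule.sub_mem hw (hmem ⟨_, hτ⟩ w hw)
      have hinv2 : ∀ x, (Equiv.swap t l * Equiv.swap l s)⁻¹ x =
          Equiv.swap l s (Equiv.swap t l x) := by
        intro x
        rw [mul_inv_rev, Equiv.swap_inv, Equiv.swap_inv, Equiv.Perm.mul_apply]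
      have e : (Pi.single l 1 - Pi.single s 1 : α → K) =
          (w l)⁻¹ • (w - fun x => w ((Equiv.swap t l * Equiv.swap l s)⁻¹ x)) := by
        funext x
        simp only [Pi.sub_apply, Pi.single_apply, Pi.smul_apply, smul_eq_mul]
        rw [hinv2]
        by_cases hxl : x = l
        · subst hxl
          rw [if_pos rfl, if_neg (Ne.symm hsl), Equiv.swap_apply_right,
            Equiv.swap_apply_of_ne_of_ne htl hts, hwx t hti htj htl]
          field_simp
          ring
        · by_cases hxs : x = s
          · subst hxs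
            rw [if_neg hxl, if_pos rfl, Equiv.swap_apply_of_ne_of_ne (Ne.symm hts) hxl,
              Equiv.swap_apply_right, hwx x hsi hsj hsl]
            field_simp
            ring
          · by_cases hxt : x = t
            · subst hxt
              rw [if_neg hxl, if_neg hxs, Equiv.swap_apply_left, Equiv.swap_apply_left,
                hwx x hti htj htl, hwx s hsi hsj hsl]
              simp
            · rw [if_neg hxl, if_neg hxs, Equiv.swap_apply_of_ne_of_ne hxt hxl,
                Equiv.swap_apply_of_ne_of_ne hxl hxs]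
              simp
      rw [e]
      exact Submodule.smul_mem _ _ hu
  by_cases h : ∃ v ∈ W.toSubmodule, ∃ i j : α, v i ≠ v j
  · have hS := stepC (stepAB h)
    by_cases h2 : ∀ f ∈ W.toSubmodule, ∑ x, f x = 0
    · right; right; left
      apply Subrepresentation.toSubmodule_injective
      apply le_antisymm
      · intro f hf
        exact h2 f hf
      · intro f hf
        exact hS f hf
    · right; right; right
      push_neg at h2
      obtain ⟨w, hw, hw0⟩ := h2
      rw [eq_top_iff]
      intro f _
      have e : f = (f - ((∑ x, f x) / (∑ x, w x)) • w) + ((∑ x, f x) / (∑ x, w x)) • w := by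
        rw [sub_add_cancel]
      rw [e]
      refine Submodule.add_mem _ (hS _ ?_) (Submodule.smul_mem _ _ hw)
      simp only [Pi.sub_apply, Pi.smul_apply, smul_eq_mul, Finset.sum_sub_distrib,
        ← Finset.mul_sum]
      rw [div_mul_cancel₀ _ hw0, sub_self]
  · push_neg at h
    by_cases h3 : W.toSubmodule = ⊥
    · left; exact h3
    · right; left
      apply Subrepresentation.toSubmodule_injective
      obtain ⟨x₀⟩ : Nonempty α := by
        rw [← Fintype.card_pos_iff]; omega
      have hconst : ∀ v ∈ W.toSubmodule, v = v x₀ • (fun _ => (1 : K)) := by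
        intro v hv
        funext x
        simp only [Pi.smul_apply, smul_eq_mul, mul_one]
        exact h v hv x x₀
      apply le_antisymm
      · intro v hv
        show v ∈ Submodule.span K {fun _ => (1 : K)}
        rw [hconst v hv]
        exact Submodule.smul_mem _ _ (Submodule.subset_span rfl)
      · show Submodule.span K {fun _ => (1 : K)} ≤ W.toSubmodule
        rw [Submodule.span_le, Set.singleton_subset_iff]
        obtain ⟨v, hv, hv0⟩ := (Submodule.ne_bot_iff _).mp h3
        have hvx : v x₀ ≠ 0 := by
          intro h0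
          apply hv0
          rw [hconst v hv, h0, zero_smul]
        have e : (fun _ => (1 : K)) = (v x₀)⁻¹ • v := by
          funext z
          simp only [Pi.smul_apply, smul_eq_mul]
          rw [h v hv z x₀, inv_mul_cancel₀ hvx]
        rw [SetLike.mem_coe, e]
        exact Submodule.smul_mem _ _ hv

end Cfsg.Agent.S0714
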