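import Mathlib
import Cfsg.Statements.S0721

set_option autoImplicit false
open Cfsg

namespace Cfsg.Agent.S0721

/-- `K` is contained in `N` and normalised by `N`. -/
def NN {H : Type*} [Group H] (N K : Subgroup H) : Prop :=
  K ≤ N ∧ ∀ n ∈ N, ∀ k ∈ K, n * k * n⁻¹ ∈ K

theorem comm_of_NN {H : Type*} [Group H] (N M S : Subgroup H) (hM : NN N M) (hS : NN N S)
    (hinf : M ⊓ S = ⊥) : ∀ x ∈ M, ∀ y ∈ S, x * y = y * x := by
  intro x hx y hy
  have h1 : x * y * x⁻¹ * y⁻¹ ∈ M ⊓ S := by
    refine Subgroup.mem_inf.mpr ⟨?_, ?_⟩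
    · have := hM.2 y (hS.1 hy) x⁻¹ (M.inv_mem hx)
      have h2 := M.mul_mem hx this
      have e : x * y * x⁻¹ * y⁻¹ = x * (y * x⁻¹ * y⁻¹) := by group
      rw [e]; exact h2
    · have := hS.2 x (hM.1 hx) y hy
      exact S.mul_mem this (S.inv_mem hy)
  rw [hinf, Subgroup.mem_bot] at h1
  calc x * y = (x * y * x⁻¹ * y⁻¹) * (y * x) := by group
    _ = y * x := by rw [h1, one_mul]

def consEquiv (T₀ : Type*) [Group T₀] (k : ℕ) : (Fin k → T₀) × T₀ ≃* (Fin (k + 1) → T₀) where
  toFun p := Fin.cons p.2 p.1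
  invFun f := (Fin.tail f, f 0)
  left_inv p := by simp
  right_inv f := by simp
  map_mul' p q := by
    funext i
    refine Fin.cases ?_ (fun j => ?_) i <;> simp

theorem extend {H : Type*} [Group H] {T₀ : Type*} [Group T₀] (N M S : Subgroup H) (hM : NN N M)
    (hS : NN N S) (hinf : M ⊓ S = ⊥) (k : ℕ) (e : M ≃* (Fin k → T₀)) (c : S ≃* T₀) :
    NN N (M ⊔ S) ∧ Nonempty ((M ⊔ S : Subgroup H) ≃* (Fin (k + 1) → T₀)) := by
  constructor
  · refine ⟨sup_le hM.1 hS.1, ?_⟩
    intro n hn x hx
    have hle : (M ⊔ S).map (MulAut.conj n).toMonoidHom ≤ M ⊔ S := by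
      rw [Subgroup.map_sup]
      apply sup_le_sup
      · rintro _ ⟨y, hy, rfl⟩; exact hM.2 n hn y hy
      · rintro _ ⟨y, hy, rfl⟩; exact hS.2 n hn y hy
    exact hle ⟨x, hx, rfl⟩
  · have comm := comm_of_NN N M S hM hS hinf
    let F : M × S →* H :=
      MonoidHom.noncommCoprod M.subtype S.subtype (fun m s => comm m.1 m.2 s.1 s.2)
    have hinj : Function.Injective F := by
      refine (MonoidHom.noncommCoprod_injective M.subtype S.subtype _).mpr
        ⟨Subtype.coe_injective, Subtype.coe_injective, ?_⟩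
      rw [Subgroup.range_subtype, Subgroup.range_subtype, disjoint_iff]; exact hinf
    have hrange : F.range = M ⊔ S := by
      have h := MonoidHom.noncommCoprod_range M.subtype S.subtype
        (fun m s => comm m.1 m.2 s.1 s.2)
      rw [Subgroup.range_subtype, Subgroup.range_subtype] at h
      exact h
    have e1 : M × S ≃* F.range := MonoidHom.ofInjective hinj
    have e2 : F.range ≃* (M ⊔ S : Subgroup H) := MulEquiv.subgroupCongr hrange
    have e3 : M × S ≃* (Fin k → T₀) × T₀ := MulEquiv.prodCongr e c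
    exact ⟨(e2.symm.trans e1.symm).trans (e3.trans (consEquiv T₀ k))⟩

theorem conj_NN {H : Type*} [Group H] (N : Subgroup H) (hNn : N.Normal) (T : Subgroup H)
    (hT : NN N T) (h : H) : NN N (T.map (MulAut.conj h).toMonoidHom) := by
  refine ⟨?_, ?_⟩
  · rintro _ ⟨t, ht, rfl⟩
    exact hNn.conj_mem t (hT.1 ht) h
  · rintro n hn _ ⟨t, ht, rfl⟩
    have h1 : h⁻¹ * n * h ∈ N := by
      have := hNn.conj_mem n hn h⁻¹
      rwa [inv_inv] at this
    have h2 := hT.2 _ h1 t ht
    refine ⟨_, h2, ?_⟩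
    change h * (h⁻¹ * n * h * t * (h⁻¹ * n * h)⁻¹) * h⁻¹ = n * (h * t * h⁻¹) * n⁻¹
    group

theorem main {H : Type*} [Group H] [Finite H] (N : Subgroup H) (hNn : N.Normal)
    (hmin : ∀ M : Subgroup H, M.Normal → M ≤ N → M = ⊥ ∨ M = N)
    (T : Subgroup H) (hT : NN N T) (hTne : T ≠ ⊥)
    (hTmin : ∀ K : Subgroup H, NN N K → K ≠ ⊥ → Nat.card T ≤ Nat.card K) :
    ∀ d : ℕ, ∀ M : Subgroup H, NN N M → (∃ k : ℕ, Nonempty (M ≃* (Fin k → T))) →
      Nat.card N - Nat.card M ≤ d → ∃ k : ℕ, Nonempty (N ≃* (Fin k → T)) := by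
  intro d
  induction d with
  | zero =>
    intro M hM ⟨k, ⟨e⟩⟩ hd
    have hMN : M = N := Subgroup.eq_of_le_of_card_ge hM.1 (by omega)
    exact ⟨k, ⟨(MulEquiv.subgroupCongr hMN).symm.trans e⟩⟩
  | succ d ih =>
    intro M hM ⟨k, ⟨e⟩⟩ hd
    by_cases hMN : M = N
    · exact ⟨k, ⟨(MulEquiv.subgroupCongr hMN).symm.trans e⟩⟩
    · have hex : ∃ h : H, ¬ T.map (MulAut.conj h).toMonoidHom ≤ M := by
        by_contra hcon
        push_neg at hcon
        apply hMN
        apply le_antisymm hM.1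
        have hle : Subgroup.normalClosure (T : Set H) ≤ M := by
          rw [Subgroup.normalClosure, Subgroup.closure_le]
          intro x hx
          rw [Group.mem_conjugatesOfSet_iff] at hx
          obtain ⟨t, ht, hconj⟩ := hx
          rw [isConj_iff] at hconj
          obtain ⟨c, rfl⟩ := hconj
          exact hcon c ⟨t, ht, rfl⟩
        have hnc : Subgroup.normalClosure (T : Set H) = N := by
          rcases hmin _ Subgroup.normalClosure_normal (hle.trans hM.1) with h | h
          · exfalso; apply hTne; rw [eq_bot_iff, ← h]; exact Subgroup.le_normalClosure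
          · exact h
        rw [← hnc]; exact hle
      obtain ⟨h, hh⟩ := hex
      obtain ⟨S, hS⟩ : ∃ S, S = T.map (MulAut.conj h).toMonoidHom := ⟨_, rfl⟩
      rw [← hS] at hh
      have hSNN : NN N S := by rw [hS]; exact conj_NN N hNn T hT h
      have hScard : Nat.card S = Nat.card T := by
        rw [hS]; exact Subgroup.card_map_of_injective (MulAut.conj h).injective
      have hinf : M ⊓ S = ⊥ := by
        by_contra hne
        have hNNinf : NN N (M ⊓ S) :=
          ⟨inf_le_left.trans hM.1, fun n hn x hx => ⟨hM.2 n hn x hx.1, hSNN.2 n hn x hx.2⟩⟩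
        have h1 := hTmin _ hNNinf hne
        have h2 : M ⊓ S = S :=
          Subgroup.eq_of_le_of_card_ge inf_le_right (by rw [hScard]; exact h1)
        exact hh (by rw [← h2]; exact inf_le_left)
      have c : S ≃* T := by
        rw [hS]; exact (T.equivMapOfInjective _ (MulAut.conj h).injective).symm
      obtain ⟨hNN', ⟨e'⟩⟩ := extend N M S hM hSNN hinf k e c
      apply ih (M ⊔ S) hNN' ⟨k + 1, ⟨e'⟩⟩
      have hlt : Nat.card M < Nat.card (M ⊔ S : Subgroup H) := by
        have hlt' : M < M ⊔ S :=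
          lt_of_le_of_ne le_sup_left (fun heq => hh (by rw [heq]; exact le_sup_right))
        have h := Set.ncard_lt_ncard (SetLike.coe_ssubset_coe.mpr hlt') (Set.toFinite _)
        rw [← Nat.card_coe_set_eq, ← Nat.card_coe_set_eq] at h
        exact h
      have hle : Nat.card (M ⊔ S : Subgroup H) ≤ Nat.card N := Subgroup.card_le_of_le hNN'.1
      omega

/-- A minimal normal subgroup of a finite group is isomorphic to a direct power `T ^ m` of a simple group `T` (possibly of prime order). -/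
theorem result {H : Type*} [Group H] [Finite H] (N : Subgroup H) [N.Normal] (hN : N ≠ ⊥) (hmin : ∀ M : Subgroup H, M.Normal → M ≤ N → M = ⊥ ∨ M = N) : ∃ (T : Type) (_ : Group T) (m : ℕ), IsSimpleGroup T ∧ 0 < m ∧ Nonempty (N ≃* (Fin m → T)) := by
  classical
  have hNn : N.Normal := inferInstance
  have hex : ∃ c : ℕ, ∃ K : Subgroup H, NN N K ∧ K ≠ ⊥ ∧ Nat.card K = c :=
    ⟨_, N, ⟨le_rfl, fun n hn k hk => N.mul_mem (N.mul_mem hn hk) (N.inv_mem hn)⟩, hN, rfl⟩
  obtain ⟨T, hT, hTne, hTc⟩ := Nat.find_spec hex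
  have hTmin : ∀ K : Subgroup H, NN N K → K ≠ ⊥ → Nat.card T ≤ Nat.card K := by
    intro K hK hKne
    rw [hTc]
    exact Nat.find_min' hex ⟨K, hK, hKne, rfl⟩
  have hbot : NN N ⊥ := ⟨bot_le, fun n _ x hx => by
    rw [Subgroup.mem_bot] at hx ⊢; rw [hx]; group⟩
  obtain ⟨k, ⟨e⟩⟩ := main N hNn hmin T hT hTne hTmin (Nat.card N) ⊥ hbot
    ⟨0, ⟨MulEquiv.ofUnique⟩⟩ (Nat.sub_le _ _)
  have hk : 0 < k := by
    by_contra hk0
    have hk0' : k = 0 := by omega
    subst hk0'
    apply hN
    have : Subsingleton N := e.toEquiv.subsingleton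
    exact Subgroup.eq_bot_of_subsingleton N
  have hTnt : Nontrivial T := (Subgroup.nontrivial_iff_ne_bot T).mpr hTne
  have hTsimple : IsSimpleGroup T := by
    refine ⟨fun A hA => ?_⟩
    by_cases hAbot : A = ⊥
    · exact Or.inl hAbot
    · right
      obtain ⟨k', rfl⟩ : ∃ k', k = k' + 1 := ⟨k - 1, by omega⟩
      let ι : T →* (Fin (k' + 1) → T) := MonoidHom.mulSingle (fun _ : Fin (k' + 1) => ↥T) 0
      have hι : Function.Injective ι := by
        intro a b h
        have := congrFun h 0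
        simpa [ι] using this
      let B : Subgroup (Fin (k' + 1) → T) := A.map ι
      have hBn : B.Normal := by
        constructor
        rintro _ ⟨a, ha, rfl⟩ g
        refine ⟨g 0 * a * (g 0)⁻¹, hA.conj_mem a ha (g 0), ?_⟩
        funext i
        by_cases hi : i = 0
        · subst hi; simp [ι]
        · simp [ι, Pi.mulSingle_eq_of_ne hi]
      let B' : Subgroup H := (B.comap e.toMonoidHom).map N.subtype
      have hB'NN : NN N B' := by
        refine ⟨?_, ?_⟩
        · rintro _ ⟨x, _, rfl⟩; exact x.2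
        · rintro n hn _ ⟨x, hx, rfl⟩
          refine ⟨⟨n, hn⟩ * x * ⟨n, hn⟩⁻¹, ?_, rfl⟩
          exact (hBn.comap e.toMonoidHom).conj_mem x hx ⟨n, hn⟩
      have hcardB' : Nat.card B' = Nat.card A := by
        have h1 : Nat.card B' = Nat.card (B.comap e.toMonoidHom) :=
          Subgroup.card_map_of_injective N.subtype_injective
        have h2 : B.comap e.toMonoidHom = B.map e.symm.toMonoidHom :=
          Subgroup.comap_equiv_eq_map_symm e B
        have h3 : Nat.card (B.map e.symm.toMonoidHom) = Nat.card B :=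
          Subgroup.card_map_of_injective e.symm.injective
        have h4 : Nat.card B = Nat.card A := Subgroup.card_map_of_injective hι
        rw [h1, h2, h3, h4]
      have hB'ne : B' ≠ ⊥ := by
        intro hb
        have h1 : Nat.card B' = 1 := by rw [hb]; simp
        rw [hcardB'] at h1
        exact hAbot (Subgroup.card_eq_one.mp h1)
      have h1 := hTmin B' hB'NN hB'ne
      rw [hcardB'] at h1
      exact Subgroup.eq_top_of_le_card A h1
  have me : Shrink.{0} T ≃* T := Shrink.mulEquiv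
  exact ⟨Shrink.{0} T, inferInstance, k, me.isSimpleGroup, hk,
    ⟨e.trans (MulEquiv.piCongrRight fun _ => me.symm)⟩⟩

end Cfsg.Agent.S0721
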