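import Mathlib
import Cfsg.Statements.S0722

set_option autoImplicit false
open Cfsg

namespace Cfsg.Agent.S0722

open scoped Pointwise in
/-- In a primitive group `H`, with `N` a minimal normal subgroup and `K` a point stabiliser, `K ⊓ N` is maximal among proper `K`-invariant subgroups of `N`. -/
theorem result {α : Type*} [Finite α] (H : Subgroup (Equiv.Perm α)) [MulAction.IsPreprimitive H α] (N : Subgroup H) [N.Normal] (hN : N ≠ ⊥) (hmin : ∀ M : Subgroup H, M.Normal → M ≤ N → M = ⊥ ∨ M = N) (a : α) (X : Subgroup H) (hX : X ≤ N) (hKX : MulAction.stabilizer H a ⊓ N ≤ X) (hinv : MulAction.stabilizer H a ≤ Subgroup.normalizer (X : Set H)) : X = MulAction.stabilizer H a ⊓ N ∨ X = N := by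
  rcases subsingleton_or_nontrivial α with hα | hα
  · right
    apply le_antisymm hX
    intro n hn
    apply hKX
    have h1 : n ∈ MulAction.stabilizer H a := by
      rw [MulAction.mem_stabilizer_iff]
      exact Subsingleton.elim _ _
    exact ⟨h1, hn⟩
  · have hco : IsCoatom (MulAction.stabilizer H a) :=
      MulAction.IsPreprimitive.isCoatom_stabilizer_of_isPreprimitive (G := H) a
    by_cases hle : X ≤ MulAction.stabilizer H a
    · left
      exact le_antisymm (le_inf hle hX) hKX
    · right
      have htop : MulAction.stabilizer H a ⊔ X = ⊤ := by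
        apply hco.2
        rw [lt_iff_le_and_ne]
        refine ⟨le_sup_left, fun h => hle ?_⟩
        rw [h]; exact le_sup_right
      apply le_antisymm hX
      intro n hn
      have hmem : n ∈ ((MulAction.stabilizer H a ⊔ X : Subgroup H) : Set H) := by
        rw [htop]; trivial
      rw [Subgroup.coe_mul_of_left_le_normalizer_right _ _ hinv] at hmem
      obtain ⟨k, hk, x, hx, rfl⟩ := hmem
      have hkN : k ∈ N := by
        have : k = (k * x) * x⁻¹ := by group
        rw [this]
        exact N.mul_mem hn (N.inv_mem (hX hx))
      exact X.mul_mem (hKX ⟨hk, hkN⟩) hx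

end Cfsg.Agent.S0722
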