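import Mathlib
import Cfsg.Statements.S0724

set_option autoImplicit false
open Cfsg

namespace Cfsg.Agent.S0724

theorem card_fixedBy_pow {α : Type*} [Fintype α] (G : Subgroup (Equiv.Perm α)) (g : G) (k : ℕ) :
    Nat.card (MulAction.fixedBy (Fin k → α) g) =
      Nat.card (MulAction.fixedBy α (g : Equiv.Perm α)) ^ k := by
  have e : MulAction.fixedBy (Fin k → α) g ≃ (Fin k → MulAction.fixedBy α (g : Equiv.Perm α)) :=
    { toFun := fun f i => ⟨f.1 i, congrFun f.2 i⟩
      invFun := fun h => ⟨fun i => (h i).1, funext fun i => (h i).2⟩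
      left_inv := fun f => rfl
      right_inv := fun h => rfl }
  rw [Nat.card_congr e, Nat.card_fun, Nat.card_fin]

theorem dvd_sum_pow {α : Type*} [Fintype α] (G : Subgroup (Equiv.Perm α)) [Fintype G] (k : ℕ) :
    Nat.card G ∣ ∑ g : G, Nat.card (MulAction.fixedBy α (g : Equiv.Perm α)) ^ k := by
  classical
  haveI : ∀ g : G, Fintype (MulAction.fixedBy (Fin k → α) g) := fun g => Fintype.ofFinite _
  haveI : Fintype (Quotient (MulAction.orbitRel G (Fin k → α))) := Fintype.ofFinite _
  have hB := MulAction.sum_card_fixedBy_eq_card_orbits_mul_card_group G (Fin k → α)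
  have : ∑ g : G, Nat.card (MulAction.fixedBy α (g : Equiv.Perm α)) ^ k =
      ∑ g : G, Fintype.card (MulAction.fixedBy (Fin k → α) g) := by
    apply Finset.sum_congr rfl
    intro g _
    rw [← card_fixedBy_pow, Nat.card_eq_fintype_card]
  rw [this, hB, Nat.card_eq_fintype_card]
  exact dvd_mul_left _ _

/-- Blichfeldt's Theorem: if a finite set `L` of natural numbers contains the number of fixed points of every non-identity element of a permutation group `G` of degree `n`, then the order of `G` divides `∏ (n - l)` over `l ∈ L`. -/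
theorem result {α : Type*} [Fintype α] [DecidableEq α] (G : Subgroup (Equiv.Perm α)) (L : Finset ℕ) (hL : ∀ g ∈ G, g ≠ 1 → Nat.card (MulAction.fixedBy α g) ∈ L) : Nat.card G ∣ ∏ l ∈ L, (Fintype.card α - l) := by
  classical
  by_cases hbig : ∃ l ∈ L, Fintype.card α ≤ l
  · obtain ⟨l, hl, hle⟩ := hbig
    have : ∏ l ∈ L, (Fintype.card α - l) = 0 := Finset.prod_eq_zero hl (Nat.sub_eq_zero_of_le hle)
    rw [this]; exact dvd_zero _
  · push_neg at hbig
    haveI : Fintype G := Fintype.ofFinite G
    have claim : ∀ (S : Finset ℕ) (j : ℕ), (Nat.card G : ℤ) ∣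
        ∑ g : G, (Nat.card (MulAction.fixedBy α (g : Equiv.Perm α)) : ℤ) ^ j *
          ∏ l ∈ S, ((Nat.card (MulAction.fixedBy α (g : Equiv.Perm α)) : ℤ) - l) := by
      intro S
      induction S using Finset.induction_on with
      | empty =>
        intro j
        simp only [Finset.prod_empty, mul_one]
        have := dvd_sum_pow G j
        exact_mod_cast this
      | insert a S ha ih =>
        intro j
        have h1 := ih (j + 1)
        have h2 := ih j
        have : ∑ g : G, (Nat.card (MulAction.fixedBy α (g : Equiv.Perm α)) : ℤ) ^ j *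
            ∏ l ∈ insert a S, ((Nat.card (MulAction.fixedBy α (g : Equiv.Perm α)) : ℤ) - l) =
            (∑ g : G, (Nat.card (MulAction.fixedBy α (g : Equiv.Perm α)) : ℤ) ^ (j + 1) *
              ∏ l ∈ S, ((Nat.card (MulAction.fixedBy α (g : Equiv.Perm α)) : ℤ) - l)) -
            (a : ℤ) * ∑ g : G, (Nat.card (MulAction.fixedBy α (g : Equiv.Perm α)) : ℤ) ^ j *
              ∏ l ∈ S, ((Nat.card (MulAction.fixedBy α (g : Equiv.Perm α)) : ℤ) - l) := by
          rw [Finset.mul_sum, ← Finset.sum_sub_distrib]
          apply Finset.sum_congr rfl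
          intro g _
          rw [Finset.prod_insert ha]
          ring
        rw [this]
        exact dvd_sub h1 (Dvd.dvd.mul_left h2 _)
    have h0 := claim L 0
    simp only [pow_zero, one_mul] at h0
    have hsum : ∑ g : G, ∏ l ∈ L, ((Nat.card (MulAction.fixedBy α (g : Equiv.Perm α)) : ℤ) - l) =
        ∏ l ∈ L, ((Fintype.card α : ℤ) - l) := by
      rw [Finset.sum_eq_single (1 : G)]
      · have : Nat.card (MulAction.fixedBy α ((1 : G) : Equiv.Perm α)) = Fintype.card α := by
          simp [MulAction.fixedBy]
        rw [this]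
      · intro g _ hg
        have hmem := hL g.1 g.2 (by intro h; exact hg (Subtype.ext h))
        exact Finset.prod_eq_zero hmem (sub_self _)
      · intro h; exact absurd (Finset.mem_univ _) h
    rw [hsum] at h0
    have hcast : ((∏ l ∈ L, (Fintype.card α - l) : ℕ) : ℤ) = ∏ l ∈ L, ((Fintype.card α : ℤ) - l) := by
      rw [Nat.cast_prod]
      apply Finset.prod_congr rfl
      intro l hl
      rw [Nat.cast_sub (hbig l hl).le]
    rw [← hcast] at h0
    exact_mod_cast h0

end Cfsg.Agent.S0724
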