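import Cfsg.Statements.S0726

set_option autoImplicit false
open Cfsg

namespace Cfsg.Agent.S0726

/-- The left and right regular permutation representations of a group are each other's centralisers in the symmetric group: the centraliser of the left regular image is the right regular image, and a transitive subgroup centralising the left regular image is the whole right regular image. -/
theorem result {G : Type*} [Group G] : Subgroup.centralizer ((MulAction.toPermHom G G).range : Set (Equiv.Perm G)) = (MulAction.toPermHom Gᵐᵒᵖ G).range ∧ ∀ H : Subgroup (Equiv.Perm G), H ≤ Subgroup.centralizer ((MulAction.toPermHom G G).range : Set (Equiv.Perm G)) → MulAction.IsPretransitive H G → H = (MulAction.toPermHom Gᵐᵒᵖ G).range := by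
  have key : ∀ c : Equiv.Perm G,
      c ∈ Subgroup.centralizer ((MulAction.toPermHom G G).range : Set (Equiv.Perm G)) →
      c = MulAction.toPermHom Gᵐᵒᵖ G (MulOpposite.op (c 1)) := by
    intro c hc
    ext x
    have h1 := (Subgroup.mem_centralizer_iff.mp hc) (MulAction.toPermHom G G x) ⟨x, rfl⟩
    have h2 := congrArg (fun f : Equiv.Perm G => f 1) h1
    simp at h2
    simp [h2]
  have hR : ∀ a : G, MulAction.toPermHom Gᵐᵒᵖ G (MulOpposite.op a) ∈
      Subgroup.centralizer ((MulAction.toPermHom G G).range : Set (Equiv.Perm G)) := by
    intro a
    rw [Subgroup.mem_centralizer_iff]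
    rintro _ ⟨g, rfl⟩
    ext x
    simp [mul_assoc]
  constructor
  · ext c
    constructor
    · intro hc; exact ⟨_, (key c hc).symm⟩
    · rintro ⟨a, rfl⟩
      induction a using MulOpposite.rec' with | _ a => exact hR a
  · intro H hH hT
    apply le_antisymm
    · intro h hh; exact ⟨_, (key h (hH hh)).symm⟩
    · rintro _ ⟨a, rfl⟩
      induction a using MulOpposite.rec' with | _ a => ?_
      obtain ⟨h, hh⟩ := MulAction.exists_smul_eq H (1 : G) a
      have h2 : h.1 (1 : G) = a := hh
      have h3 := key h.1 (hH h.2)
      rw [h2] at h3
      rw [← h3]; exact h.2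

end Cfsg.Agent.S0726
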