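import Mathlib
import Cfsg.Statements.S0733

set_option autoImplicit false
open Cfsg

namespace Cfsg.Agent.S0733

open scoped Pointwise in
/-- A permutation group of affine type — generated by the translations of a finite vector space `V` over `ZMod p` together with a group `G₀` of linear automorphisms — is primitive on `V` if and only if `G₀` is irreducible on `V`. -/
theorem result {p : ℕ} [Fact p.Prime] {V : Type*} [AddCommGroup V] [Module (ZMod p) V] [Finite V] [Nontrivial V] (G₀ : Subgroup (V ≃ₗ[ZMod p] V)) (G : Subgroup (Equiv.Perm V)) (hG : ∀ σ : Equiv.Perm V, σ ∈ G ↔ ∃ g ∈ G₀, ∃ b : V, ∀ x : V, σ x = (g : V ≃ₗ[ZMod p] V) x + b) : MulAction.IsPreprimitive G V ↔ ∀ W : Submodule (ZMod p) V, (∀ g ∈ G₀, ∀ v ∈ W, (g : V ≃ₗ[ZMod p] V) v ∈ W) → W = ⊥ ∨ W = ⊤ := by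
  have htrans_mem : ∀ b : V, Equiv.addRight b ∈ G := by
    intro b
    rw [hG]
    exact ⟨1, G₀.one_mem, b, fun x => by simp⟩
  have hlin_mem : ∀ g ∈ G₀, (g : V ≃ₗ[ZMod p] V).toEquiv ∈ G := by
    intro g hg
    rw [hG]
    exact ⟨g, hg, 0, fun x => by simp⟩
  have htr : MulAction.IsPretransitive G V := by
    refine ⟨fun x y => ⟨⟨Equiv.addRight (y - x), htrans_mem _⟩, ?_⟩⟩
    change x + (y - x) = y
    abel
  constructor
  · intro hprim W hW
    have hB : MulAction.IsBlock G (W : Set V) := by
      rw [MulAction.isBlock_iff_smul_eq_of_mem]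
      intro σ x hx hσx
      obtain ⟨g, hg, b, hgb⟩ := (hG σ.1).mp σ.2
      have hb : b ∈ W := by
        have h1 : σ.1 x ∈ W := hσx
        rw [hgb] at h1
        have h2 := hW g hg x hx
        have := W.sub_mem h1 h2
        simpa using this
      ext y
      rw [Set.mem_smul_set_iff_inv_smul_mem]
      have hy : σ.1 (σ⁻¹ • y) = y := by
        change σ • (σ⁻¹ • y) = y
        rw [smul_inv_smul]
      constructor
      · intro h
        have : σ.1 (σ⁻¹ • y) ∈ W := by rw [hgb]; exact W.add_mem (hW g hg _ h) hb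
        rwa [hy] at this
      · intro h
        have h1 : (g : V ≃ₗ[ZMod p] V) (σ⁻¹ • y) ∈ W := by
          have : (g : V ≃ₗ[ZMod p] V) (σ⁻¹ • y) = y - b := by
            rw [eq_sub_iff_add_eq, ← hgb, hy]
          rw [this]; exact W.sub_mem h hb
        have h2 := hW g⁻¹ (G₀.inv_mem hg) _ h1
        have h3 : (g⁻¹ : V ≃ₗ[ZMod p] V) ((g : V ≃ₗ[ZMod p] V) (σ⁻¹ • y)) = σ⁻¹ • y := by
          change (g⁻¹ * g) (σ⁻¹ • y) = σ⁻¹ • y
          rw [inv_mul_cancel]; rfl
        rw [h3] at h2
        exact h2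
    rcases hB.subsingleton_or_eq_univ with h | h
    · left
      rw [eq_bot_iff]
      intro v hv
      rw [Submodule.mem_bot]
      exact h hv W.zero_mem
    · right
      rw [eq_top_iff]
      intro v _
      have : v ∈ (W : Set V) := by rw [h]; trivial
      exact this
  · intro hirr
    apply MulAction.IsPreprimitive.of_isTrivialBlock_base (0 : V)
    intro B h0 hB
    have hblk := MulAction.isBlock_iff_smul_eq_of_mem.mp hB
    have hadd : ∀ u v : V, u ∈ B → v ∈ B → v + u ∈ B := by
      intro u v hu hv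
      have h1 : (⟨Equiv.addRight u, htrans_mem u⟩ : G) • B = B := by
        apply hblk h0
        change (0 : V) + u ∈ B
        rw [zero_add]; exact hu
      rw [← h1]
      exact ⟨v, hv, rfl⟩
    let W₀ : AddSubmonoid V :=
      { carrier := B, zero_mem' := h0, add_mem' := fun {a b} ha hb => hadd b a hb ha }
    let W : Submodule (ZMod p) V :=
      { W₀ with
        smul_mem' := fun c v hv => by
          rw [← ZMod.natCast_zmod_val c, Nat.cast_smul_eq_nsmul]
          exact W₀.nsmul_mem hv _ }
    have hWinv : ∀ g ∈ G₀, ∀ v ∈ W, (g : V ≃ₗ[ZMod p] V) v ∈ W := by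
      intro g hg v hv
      have h1 : (⟨(g : V ≃ₗ[ZMod p] V).toEquiv, hlin_mem g hg⟩ : G) • B = B := by
        apply hblk h0
        change (g : V ≃ₗ[ZMod p] V) 0 ∈ B
        rw [map_zero]; exact h0
      change (g : V ≃ₗ[ZMod p] V) v ∈ B
      rw [← h1]
      exact ⟨v, hv, rfl⟩
    rcases hirr W hWinv with h | h
    · left
      intro x hx y hy
      have hx' : x ∈ W := hx
      have hy' : y ∈ W := hy
      rw [h, Submodule.mem_bot] at hx' hy'
      rw [hx', hy']
    · right
      rw [Set.eq_univ_iff_forall]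
      intro x
      have : x ∈ W := by rw [h]; trivial
      exact this

end Cfsg.Agent.S0733
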