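import Mathlib
import Cfsg.Statements.S0734

set_option autoImplicit false
open Cfsg

namespace Cfsg.Agent.S0734

open scoped Pointwise in
/-- Higman's criterion for primitivity: a transitive action on a finite set is primitive if and only if every non-trivial orbital graph (edges = images of a fixed pair of distinct points) is connected. -/
theorem result {G : Type*} [Group G] {Ω : Type*} [Finite Ω] [MulAction G Ω] [MulAction.IsPretransitive G Ω] [Nontrivial Ω] : MulAction.IsPreprimitive G Ω ↔ ∀ a b : Ω, a ≠ b → (SimpleGraph.fromRel fun x y : Ω => ∃ g : G, g • a = x ∧ g • b = y).Connected := by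
  constructor
  · intro hprim a b hab
    obtain ⟨Γ, hΓ⟩ : ∃ Γ : SimpleGraph Ω,
        Γ = SimpleGraph.fromRel fun x y : Ω => ∃ g : G, g • a = x ∧ g • b = y := ⟨_, rfl⟩
    rw [← hΓ]
    have hadj : ∀ (g : G) (x y : Ω), Γ.Adj x y → Γ.Adj (g • x) (g • y) := by
      intro g x y h
      rw [hΓ, SimpleGraph.fromRel_adj] at h ⊢
      refine ⟨fun h' => h.1 (MulAction.injective g h'), ?_⟩
      rcases h.2 with ⟨k, hk1, hk2⟩ | ⟨k, hk1, hk2⟩
      · left; exact ⟨g * k, by rw [mul_smul, hk1], by rw [mul_smul, hk2]⟩
      · right; exact ⟨g * k, by rw [mul_smul, hk1], by rw [mul_smul, hk2]⟩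
    have hreach : ∀ (g : G) (x y : Ω), Γ.Reachable x y → Γ.Reachable (g • x) (g • y) := by
      intro g x y h
      rw [SimpleGraph.reachable_iff_reflTransGen] at h ⊢
      exact Relation.ReflTransGen.lift (fun z => g • z) (fun u v huv => hadj g u v huv) _ _ h
    let B : Set Ω := {x | Γ.Reachable a x}
    have hB : MulAction.IsBlock G B := by
      rw [MulAction.isBlock_iff_smul_eq_of_mem]
      intro g x hx hgx
      have hx' : Γ.Reachable a x := hx
      have hgx' : Γ.Reachable a (g • x) := hgx
      ext y
      rw [Set.mem_smul_set_iff_inv_smul_mem]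
      constructor
      · intro hy
        have hy' : Γ.Reachable a (g⁻¹ • y) := hy
        have h1 := hreach g _ _ hy'
        rw [smul_inv_smul] at h1
        have h2 := hreach g _ _ hx'
        exact (hgx'.trans h2.symm).trans h1
      · intro hy
        have hy' : Γ.Reachable a y := hy
        have h1 := hreach g⁻¹ _ _ hy'
        have h2 := hreach g⁻¹ _ _ hgx'
        rw [inv_smul_smul] at h2
        exact (hx'.trans h2.symm).trans h1
    have hab' : Γ.Adj a b := by
      rw [hΓ, SimpleGraph.fromRel_adj]
      exact ⟨hab, Or.inl ⟨1, one_smul _ _, one_smul _ _⟩⟩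
    have huniv : B = Set.univ := by
      rcases hB.subsingleton_or_eq_univ with h | h
      · exact absurd (h (show a ∈ B from SimpleGraph.Reachable.refl a)
          (show b ∈ B from hab'.reachable)) hab
      · exact h
    have hall : ∀ x, Γ.Reachable a x := fun x => by
      have : x ∈ B := by rw [huniv]; trivial
      exact this
    exact SimpleGraph.Connected.mk (fun u v => (hall u).symm.trans (hall v))
  · intro h
    apply MulAction.IsPreprimitive.mk
    intro B hB
    by_cases hsub : B.Subsingleton
    · left; exact hsub
    · right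
      rw [Set.not_subsingleton_iff] at hsub
      obtain ⟨a, ha, b, hb, hab⟩ := hsub
      rw [Set.eq_univ_iff_forall]
      intro c
      have hconn := (h a b hab).preconnected a c
      rw [SimpleGraph.reachable_iff_reflTransGen] at hconn
      induction hconn with
      | refl => exact ha
      | tail _ hyz ih =>
        rw [SimpleGraph.fromRel_adj] at hyz
        rcases hyz.2 with ⟨g, hg1, hg2⟩ | ⟨g, hg1, hg2⟩
        · have : g • B = B :=
            (MulAction.isBlock_iff_smul_eq_of_mem.mp hB) ha (by rw [hg1]; exact ih)
          rw [← this, ← hg2]; exact Set.smul_mem_smul_set hb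
        · have : g • B = B :=
            (MulAction.isBlock_iff_smul_eq_of_mem.mp hB) hb (by rw [hg2]; exact ih)
          rw [← this, ← hg1]; exact Set.smul_mem_smul_set ha

end Cfsg.Agent.S0734
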