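import Mathlib
import Cfsg.Statements.S0735

set_option autoImplicit false
open Cfsg

namespace Cfsg.Agent.S0735

open scoped Pointwise in
theorem helper {α : Type*} [Fintype α] [DecidableEq α] (G : Subgroup (Equiv.Perm α))
    (h2 : MulAction.IsPretransitive G (Set.powersetCard α 2)) (x y a b : α) (hxy : x ≠ y)
    (hab : a ≠ b) : ∃ g : G, (g • x = a ∧ g • y = b) ∨ (g • x = b ∧ g • y = a) := by
  let s : Set.powersetCard α 2 := ⟨{x, y}, Finset.card_pair hxy⟩
  let t : Set.powersetCard α 2 := ⟨{a, b}, Finset.card_pair hab⟩
  obtain ⟨g, hg⟩ := MulAction.exists_smul_eq G s t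
  refine ⟨g, ?_⟩
  have h' : g • ({x, y} : Finset α) = {a, b} := by
    have h := Set.powersetCard.coe_smul (g := g) (s := s)
    have h'' := congrArg Subtype.val hg
    exact h.symm.trans h''
  have hx : g • x ∈ ({a, b} : Finset α) := by
    rw [← h']; exact Finset.smul_mem_smul_finset (by simp)
  have hy : g • y ∈ ({a, b} : Finset α) := by
    rw [← h']; exact Finset.smul_mem_smul_finset (by simp)
  have hne : g • x ≠ g • y := fun hh => hxy (MulAction.injective g hh)
  simp only [Finset.mem_insert, Finset.mem_singleton] at hx hy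
  rcases hx with hx | hx <;> rcases hy with hy | hy
  · exact absurd (hx.trans hy.symm) hne
  · exact Or.inl ⟨hx, hy⟩
  · exact Or.inr ⟨hx, hy⟩
  · exact absurd (hx.trans hy.symm) hne

open scoped Pointwise in
/-- A 2-homogeneous permutation group (transitive on 2-subsets) of even order is doubly transitive; a non-trivial 2-homogeneous group is primitive. -/
theorem result {α : Type*} [Fintype α] [DecidableEq α] (G : Subgroup (Equiv.Perm α)) (h2 : MulAction.IsPretransitive G (Set.powersetCard α 2)) (hα : 3 ≤ Fintype.card α) : (Even (Nat.card G) → MulAction.IsMultiplyPretransitive G α 2) ∧ (G ≠ ⊥ → MulAction.IsPreprimitive G α) := by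
  constructor
  · intro heven
    haveI : Fact (Nat.Prime 2) := ⟨Nat.prime_two⟩
    obtain ⟨t, ht⟩ := exists_prime_orderOf_dvd_card' (G := G) 2 heven.two_dvd
    have ht1 : t ≠ 1 := by
      rintro rfl
      rw [orderOf_one] at ht; omega
    have ht2 : t * t = 1 := by
      have := pow_orderOf_eq_one t
      rw [ht, pow_two] at this; exact this
    have : ∃ a : α, t • a ≠ a := by
      by_contra hcon
      push_neg at hcon
      apply ht1
      apply Subtype.ext
      ext a
      exact hcon a
    obtain ⟨a, ha⟩ := this
    have hta : t • (t • a) = a := by rw [← mul_smul, ht2, one_smul]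
    have C : ∀ x y : α, x ≠ y → ∃ g : G, g • x = a ∧ g • y = t • a := by
      intro x y hxy
      obtain ⟨g, hg | hg⟩ := helper G h2 x y a (t • a) hxy (Ne.symm ha)
      · exact ⟨g, hg⟩
      · refine ⟨t * g, ?_, ?_⟩
        · rw [mul_smul, hg.1, hta]
        · rw [mul_smul, hg.2]
    rw [MulAction.is_two_pretransitive_iff]
    intro x y c d hxy hcd
    obtain ⟨g1, h1, h1'⟩ := C x y hxy
    obtain ⟨g2, h3, h3'⟩ := C c d hcd
    refine ⟨g2⁻¹ * g1, ?_, ?_⟩
    · rw [mul_smul, h1, inv_smul_eq_iff, h3]
    · rw [mul_smul, h1', inv_smul_eq_iff, h3']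
  · intro _
    have htrans : MulAction.IsPretransitive G α := by
      refine ⟨fun x y => ?_⟩
      by_cases hxy : x = y
      · exact ⟨1, by rw [one_smul, hxy]⟩
      · have : ∃ z, z ≠ x ∧ z ≠ y := by
          by_contra hcon
          push_neg at hcon
          have hsub : (Finset.univ : Finset α) ⊆ {x, y} := fun z _ => by
            by_cases hz : z = x
            · simp [hz]
            · simp [hcon z hz]
          have h1 := Finset.card_le_card hsub
          rw [Finset.card_univ] at h1
          have h3 := h1.trans (Finset.card_le_two)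
          omega
        obtain ⟨z, hzx, hzy⟩ := this
        obtain ⟨g, hg | hg⟩ := helper G h2 x z x y (Ne.symm hzx) hxy
        · obtain ⟨k, hk | hk⟩ := helper G h2 x z y z (Ne.symm hzx) (Ne.symm hzy)
          · exact ⟨k, hk.1⟩
          · exact ⟨g * k, by rw [mul_smul, hk.1, hg.2]⟩
        · exact ⟨g, hg.1⟩
    apply MulAction.IsPreprimitive.mk
    intro B hB
    by_cases hsub : B.Subsingleton
    · left; exact hsub
    · right
      rw [Set.not_subsingleton_iff] at hsub
      obtain ⟨a, ha, b, hb, hab⟩ := hsub
      rw [Set.eq_univ_iff_forall]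
      intro c
      by_cases hca : c = a
      · rw [hca]; exact ha
      · obtain ⟨g, hg⟩ := helper G h2 a b a c hab (Ne.symm hca)
        rcases hg with ⟨h1, h2⟩ | ⟨h1, h2⟩
        · have : g • B = B :=
            (MulAction.isBlock_iff_smul_eq_of_mem.mp hB) ha (by rw [h1]; exact ha)
          rw [← this, ← h2]; exact Set.smul_mem_smul_set hb
        · have : g • B = B :=
            (MulAction.isBlock_iff_smul_eq_of_mem.mp hB) hb (by rw [h2]; exact ha)
          rw [← this, ← h1]; exact Set.smul_mem_smul_set ha

end Cfsg.Agent.S0735
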