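import Mathlib
import Cfsg.Statements.S0738
import Cfsg.Agent.S0744

set_option autoImplicit false
open Cfsg

namespace Cfsg.Agent.S0738

open Equiv Equiv.Perm in
/-- the number of solutions of `x ^ p = 1` is divisible by `p` when `p` divides the order -/
theorem mckay {F : Type*} [Group F] [Fintype F] (p : ℕ) [hp : Fact p.Prime]
    (hdvd : p ∣ Fintype.card F) : p ∣ Nat.card {x : F // x ^ p = 1} := by
  classical
  have hp' : p - 1 ≠ 0 := mt tsub_eq_zero_iff_le.mp (not_le_of_gt hp.out.one_lt)
  have Scard : p ∣ Fintype.card (vectorsProdEqOne F p) := by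
    rw [VectorsProdEqOne.card]
    exact hdvd.trans (dvd_pow (dvd_refl _) hp')
  let f : ℕ → vectorsProdEqOne F p → vectorsProdEqOne F p := fun k v =>
    VectorsProdEqOne.rotate v k
  have hf1 : ∀ v, f 0 v = v := VectorsProdEqOne.rotate_zero
  have hf2 : ∀ j k v, f k (f j v) = f (j + k) v := fun j k v =>
    VectorsProdEqOne.rotate_rotate v j k
  have hf3 : ∀ v, f p v = v := VectorsProdEqOne.rotate_length
  let σ : Perm (vectorsProdEqOne F p) :=
    Equiv.mk (f 1) (f (p - 1)) (fun s => by rw [hf2, add_tsub_cancel_of_le hp.out.one_lt.le, hf3])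
      fun s => by rw [hf2, tsub_add_cancel_of_le hp.out.one_lt.le, hf3]
  have hσ : ∀ k v, (σ ^ k) v = f k v := fun k =>
    Nat.rec (fun v => (hf1 v).symm) (fun k hk v => by
      rw [pow_succ, Perm.mul_apply, hk (σ v), Nat.succ_eq_one_add, ← hf2 1 k]
      simp only [σ, coe_fn_mk]) k
  replace hσ : σ ^ p ^ 1 = 1 := Perm.ext fun v => by rw [pow_one, hσ, hf3, one_apply]
  have h1 := card_compl_support_modEq hσ
  have h2 : p ∣ σ.supportᶜ.card :=
    (Nat.modEq_zero_iff_dvd).mp (h1.trans ((Nat.modEq_zero_iff_dvd).mpr Scard))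
  have hfix : ∀ v, v ∈ σ.supportᶜ ↔ σ v = v := fun v => by
    rw [Finset.mem_compl, mem_support, not_not]
  let φ : {x : F // x ^ p = 1} → {v // v ∈ σ.supportᶜ} := fun x =>
    ⟨⟨⟨List.replicate p x.1, List.length_replicate⟩, by
        change (List.replicate p x.1).prod = 1
        rw [List.prod_replicate]; exact x.2⟩, by
      rw [hfix]
      exact Subtype.ext (Subtype.ext (List.rotate_replicate x.1 p 1))⟩
  have hφ : Function.Bijective φ := by
    constructor
    · intro x y hxy
      have : List.replicate p x.1 = List.replicate p y.1 :=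
        congrArg (fun v : {v // v ∈ σ.supportᶜ} => v.1.1.1) hxy
      apply Subtype.ext
      exact (List.replicate_right_inj hp.out.pos.ne').mp this
    · intro v
      have hv : σ v.1 = v.1 := (hfix v.1).mp v.2
      obtain ⟨g, hg⟩ := List.rotate_one_eq_self_iff_eq_replicate.mp
        (Subtype.ext_iff.mp (Subtype.ext_iff.mp hv))
      refine ⟨⟨g, ?_⟩, ?_⟩
      · rw [← List.prod_replicate, ← v.1.1.2, ← hg]; exact v.1.2
      · apply Subtype.ext; apply Subtype.ext; apply Subtype.ext
        change List.replicate p g = v.1.1.1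
        rw [hg, v.1.1.2]
  rw [Nat.card_eq_fintype_card, Fintype.card_of_bijective hφ, Fintype.card_coe]
  exact h2

/-- Let a finite Zassenhaus group of degree `n + 1` have two-point stabilisers of order `d` with `2d ≥ n - 1`. Then a normal subgroup of a point stabiliser acting regularly on the remaining points is elementary abelian, and the degree is a prime power plus one. -/
theorem result {G Ω : Type*} [Group G] [Finite G] [MulAction G Ω] [Fintype Ω] (hZ : Cfsg.IsZassenhausGroup G Ω) {a b : Ω} (hab : a ≠ b) (hd : Fintype.card Ω - 2 ≤ 2 * Nat.card ↥(MulAction.stabilizer G a ⊓ MulAction.stabilizer G b)) (F : Subgroup G) (hFle : F ≤ MulAction.stabilizer G a) (hFn : (F.subgroupOf (MulAction.stabilizer G a)).Normal) (hreg : ∀ y z : Ω, y ≠ a → z ≠ a → ∃! u : F, (u : G) • y = z) : IsMulCommutative F ∧ ∃ p f : ℕ, p.Prime ∧ (∀ u ∈ F, u ^ p = 1) ∧ Fintype.card Ω = p ^ f + 1 := by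
  classical
  obtain ⟨hfaith, h2, h3, -, -⟩ := hZ
  set H := MulAction.stabilizer G a ⊓ MulAction.stabilizer G b with hH
  set d := Nat.card H with hd'
  have hdpos : 0 < d := Nat.card_pos
  have hHa : ∀ h ∈ H, h • a = a := fun h hh => (Subgroup.mem_inf.mp hh).1
  have hHb : ∀ h ∈ H, h • b = b := fun h hh => (Subgroup.mem_inf.mp hh).2
  have hFa : ∀ u ∈ F, u • a = a := fun u hu => hFle hu
  have hFnorm : ∀ g : G, g • a = a → ∀ u ∈ F, g * u * g⁻¹ ∈ F := by
    intro g hg u hu
    have hmem : (⟨u, hFle hu⟩ : MulAction.stabilizer G a) ∈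
        F.subgroupOf (MulAction.stabilizer G a) := hu
    have := hFn.conj_mem _ hmem ⟨g, hg⟩
    exact this
  have hFba : ∀ u ∈ F, u • b ≠ a := fun u hu h =>
    hab ((smul_left_cancel u (h.trans (hFa u hu).symm)).symm)
  have hFinj : ∀ u ∈ F, ∀ v ∈ F, u • b = v • b → u = v := by
    intro u hu v hv huv
    obtain ⟨w, -, hw⟩ := hreg b (v • b) (Ne.symm hab) (hFba v hv)
    have e1 := hw ⟨u, hu⟩ huv
    have e2 := hw ⟨v, hv⟩ rfl
    exact congrArg Subtype.val (e1.trans e2.symm)
  have hFb1 : ∀ u ∈ F, u • b = b → u = 1 := fun u hu h =>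
    hFinj u hu 1 F.one_mem (by rw [one_smul]; exact h)
  have hcardF : Nat.card F + 1 = Fintype.card Ω := by
    let ψ : F → ({x : Ω | x ≠ a} : Set Ω) := fun u => ⟨(u : G) • b, hFba u u.2⟩
    have hψ : Function.Bijective ψ := by
      constructor
      · intro u v huv
        exact Subtype.ext (hFinj u u.2 v v.2 (congrArg Subtype.val huv))
      · rintro ⟨y, hy⟩
        obtain ⟨u, hu, -⟩ := hreg b y (Ne.symm hab) hy
        exact ⟨u, Subtype.ext hu⟩
    have h1 : Nat.card F = Fintype.card ({x : Ω | x ≠ a} : Set Ω) := by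
      rw [← Nat.card_eq_fintype_card]; exact Nat.card_eq_of_bijective ψ hψ
    rw [h1, Set.card_ne_eq]
    have : 0 < Fintype.card Ω := Fintype.card_pos_iff.mpr ⟨a⟩
    omega
  -- the key divisibility for invariant sets
  have K : ∀ T : Set G, T ⊆ (F : Set G) → (1 : G) ∉ T →
      (∀ h ∈ H, ∀ u ∈ T, h * u * h⁻¹ ∈ T) → d ∣ T.ncard := by
    intro T hTF hT1 hTinv
    let S : SubMulAction H Ω :=
      { carrier := (fun u : G => u • b) '' T
        smul_mem' := by
          rintro h _ ⟨u, hu, rfl⟩
          refine ⟨(h : G) * u * (h : G)⁻¹, hTinv h h.2 u hu, ?_⟩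
          change ((h : G) * u * (h : G)⁻¹) • b = (h : G) • (u • b)
          rw [mul_smul, mul_smul, inv_smul_eq_iff.mpr (hHb h h.2).symm] }
    have hcardS : Nat.card S = T.ncard := by
      have : Nat.card S = ((fun u : G => u • b) '' T).ncard := by
        rw [← Nat.card_coe_set_eq]; rfl
      rw [this]
      exact Set.ncard_image_of_injOn (fun u hu v hv huv => hFinj u (hTF hu) v (hTF hv) huv)
    rw [← hcardS]
    apply S0744.lemA (K := H) (X := S)
    intro y
    have h1 := S0744.orbit_mul_stab (K := H) y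
    have h2' : MulAction.stabilizer H y = ⊥ := by
      rw [Subgroup.eq_bot_iff_forall]
      intro h hh
      obtain ⟨u, hu, huy⟩ := y.2
      have huy' : u • b = (y : Ω) := huy
      have hy : (h : G) • (y : Ω) = y := congrArg Subtype.val hh
      have hya : (y : Ω) ≠ a := by rw [← huy']; exact hFba u (hTF hu)
      have hyb : (y : Ω) ≠ b := by
        rw [← huy']
        intro e
        exact hT1 (hFb1 u (hTF hu) e ▸ hu)
      apply Subtype.ext
      exact h3 (h : G) a b y hab (Ne.symm hyb) (Ne.symm hya) (hHa h h.2) (hHb h h.2) hy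
    rw [h2', Subgroup.card_bot, mul_one] at h1
    exact h1
  have hFncard : (F : Set G).ncard = Nat.card F := (Nat.card_coe_set_eq (F : Set G)).symm
  have hconj1 : ∀ h u : G, h * u * h⁻¹ = 1 → u = 1 := by
    intro h u e
    have := congrArg (fun z => h⁻¹ * z * h) e
    simp only [mul_one, inv_mul_cancel] at this
    rw [← this]; group
  have hdN : d ∣ Nat.card F - 1 := by
    have := K ((F : Set G) \ {1}) Set.diff_subset (by simp) (by
      intro h hh u hu
      exact ⟨hFnorm h (hHa h hh) u hu.1, fun e => hu.2 (hconj1 h u e)⟩)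
    rwa [Set.ncard_diff_singleton_of_mem F.one_mem, hFncard] at this
  have hNle : Nat.card F - 1 ≤ 2 * d := by omega
  -- arithmetic helper
  have harith : ∀ t : ℕ, d ∣ t → 1 ≤ t → t ≤ Nat.card F - 1 → t ≠ Nat.card F - 1 →
      t = d ∧ Nat.card F - 1 = 2 * d := by
    intro t hdt ht1 htN hne
    obtain ⟨i, hi⟩ := hdt
    obtain ⟨j, hj⟩ := hdN
    have hj2 : j ≤ 2 := by
      by_contra hcon
      push_neg at hcon
      have : d * 3 ≤ d * j := Nat.mul_le_mul_left d hcon
      omega
    have hij : i < j := by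
      by_contra hcon
      push_neg at hcon
      have : d * j ≤ d * i := Nat.mul_le_mul_left d hcon
      omega
    have hi1 : 1 ≤ i := by
      by_contra hcon
      have : i = 0 := by omega
      rw [this, mul_zero] at hi
      omega
    have hi' : i = 1 := by omega
    have hj' : j = 2 := by omega
    rw [hi', mul_one] at hi
    rw [hj'] at hj
    exact ⟨hi, by rw [hj, mul_comm]⟩
  by_cases hn1 : Nat.card F = 1
  · have hFbot : ∀ u ∈ F, u = 1 := by
      intro u hu
      have hsub : Subsingleton F := (Nat.card_eq_one_iff_unique.mp hn1).1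
      exact congrArg Subtype.val (Subsingleton.elim (⟨u, hu⟩ : F) 1)
    refine ⟨isMulCommutative_iff.mpr (fun x y => ?_), 2, 0, Nat.prime_two, ?_, ?_⟩
    · have hx : x = 1 := Subtype.ext (hFbot x.1 x.2)
      rw [hx, one_mul, mul_one]
    · intro u hu
      rw [hFbot u hu, one_pow]
    · rw [← hcardF, hn1]; rfl
  · obtain ⟨p, hp, hpn⟩ := Nat.exists_prime_and_dvd hn1
    haveI : Fact p.Prime := ⟨hp⟩
    haveI := Fintype.ofFinite F
    have hn2 : 2 ≤ Nat.card F := by
      have : 0 < Nat.card F := Nat.card_pos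
      omega
    have hmk := mckay (F := F) p (by rw [← Nat.card_eq_fintype_card]; exact hpn)
    -- elements of order dividing p
    set Tp : Set G := {u : G | u ∈ F ∧ u ^ p = 1} with hTp
    have hTpcard : Tp.ncard = Nat.card {x : F // x ^ p = 1} := by
      rw [← Nat.card_coe_set_eq]
      apply Nat.card_congr
      exact
        { toFun := fun u => ⟨⟨u.1, u.2.1⟩, Subtype.ext u.2.2⟩
          invFun := fun x => ⟨x.1.1, x.1.2, congrArg Subtype.val x.2⟩
          left_inv := fun u => rfl
          right_inv := fun x => rfl }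
    have hTp1 : (1 : G) ∈ Tp := ⟨F.one_mem, one_pow p⟩
    have hTpF : Tp ⊆ (F : Set G) := fun u hu => hu.1
    have hK1 := K (Tp \ {1}) (Set.diff_subset.trans hTpF) (by simp) (by
      intro h hh u hu
      refine ⟨⟨hFnorm h (hHa h hh) u hu.1.1, ?_⟩, fun e => hu.2 (hconj1 h u e)⟩
      rw [conj_pow, hu.1.2, mul_one, mul_inv_cancel])
    rw [Set.ncard_diff_singleton_of_mem hTp1] at hK1
    have hTple : Tp.ncard ≤ Nat.card F := by
      rw [← hFncard]; exact Set.ncard_le_ncard hTpF (Set.toFinite _)
    have hpTp : p ∣ Tp.ncard := by rw [hTpcard]; exact hmk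
    have hTppos : 2 ≤ Tp.ncard := by
      have h0 : 0 < Tp.ncard := (Set.ncard_pos (Set.toFinite _)).mpr ⟨1, hTp1⟩
      have := Nat.le_of_dvd h0 hpTp
      have := hp.two_le
      omega
    have hTpall : Tp.ncard - 1 = Nat.card F - 1 := by
      by_contra hne
      obtain ⟨e1, e2⟩ := harith (Tp.ncard - 1) hK1 (by omega) (by omega) hne
      have h1 : p ∣ d + 1 := by
        have : Tp.ncard = d + 1 := by omega
        rw [← this]; exact hpTp
      have h2' : p ∣ 2 * d + 1 := by
        have : Nat.card F = 2 * d + 1 := by omega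
        rw [← this]; exact hpn
      have h3' : p ∣ 2 * (d + 1) - (2 * d + 1) := Nat.dvd_sub (dvd_mul_of_dvd_right h1 2) h2'
      have e : 2 * (d + 1) - (2 * d + 1) = 1 := by omega
      rw [e] at h3'
      exact hp.one_lt.ne' (Nat.dvd_one.mp h3')
    have hTpeq : Tp = (F : Set G) := by
      apply Set.eq_of_subset_of_ncard_le hTpF _ (Set.toFinite _)
      rw [hFncard]; omega
    have hexp : ∀ u ∈ F, u ^ p = 1 := by
      intro u hu
      have : u ∈ Tp := by rw [hTpeq]; exact hu
      exact this.2
    have hPG : IsPGroup p F := by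
      intro u
      refine ⟨1, ?_⟩
      rw [pow_one]
      exact Subtype.ext (hexp u.1 u.2)
    obtain ⟨f, hf⟩ := IsPGroup.iff_card.mp hPG
    refine ⟨?_, p, f, hp, hexp, by rw [← hcardF, hf]⟩
    -- commutativity via the centre
    haveI : Nontrivial F := by
      rw [← Finite.one_lt_card_iff_nontrivial]; omega
    have hcn := hPG.center_nontrivial
    set Zc : Subgroup G := (Subgroup.center F).map F.subtype with hZc
    have hZcmem : ∀ u : G, u ∈ Zc ↔ u ∈ F ∧ ∀ v ∈ F, v * u = u * v := by
      intro u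
      rw [hZc, Subgroup.mem_map]
      constructor
      · rintro ⟨z, hz, rfl⟩
        refine ⟨z.2, fun v hv => ?_⟩
        exact congrArg Subtype.val (Subgroup.mem_center_iff.mp hz ⟨v, hv⟩)
      · rintro ⟨hu, hc⟩
        refine ⟨⟨u, hu⟩, ?_, rfl⟩
        rw [Subgroup.mem_center_iff]
        intro v
        exact Subtype.ext (hc v.1 v.2)
    have hZcF : Zc ≤ F := fun u hu => ((hZcmem u).mp hu).1
    have hZccard : Nat.card Zc = Nat.card (Subgroup.center F) :=
      Subgroup.card_map_of_injective F.subtype_injective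
    have hZcdvd : Nat.card Zc ∣ Nat.card F := Subgroup.card_dvd_of_le hZcF
    have hZc2 : 2 ≤ Nat.card Zc := by
      rw [hZccard]
      have : 1 < Nat.card (Subgroup.center F) := Finite.one_lt_card_iff_nontrivial.mpr hcn
      omega
    have hZncard : (Zc : Set G).ncard = Nat.card Zc := (Nat.card_coe_set_eq (Zc : Set G)).symm
    have hK2 := K ((Zc : Set G) \ {1}) (Set.diff_subset.trans hZcF) (by simp) (by
      intro h hh u hu
      refine ⟨?_, fun e => hu.2 (hconj1 h u e)⟩
      have huZ := (hZcmem u).mp hu.1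
      apply (hZcmem _).mpr
      refine ⟨hFnorm h (hHa h hh) u huZ.1, fun v hv => ?_⟩
      have hv' : h⁻¹ * v * h ∈ F := by
        have := hFnorm h⁻¹ (by rw [inv_smul_eq_iff, hHa h hh]) v hv
        rwa [inv_inv] at this
      have hc := huZ.2 _ hv'
      calc v * (h * u * h⁻¹) = h * ((h⁻¹ * v * h) * u) * h⁻¹ := by group
        _ = h * (u * (h⁻¹ * v * h)) * h⁻¹ := by rw [hc]
        _ = h * u * h⁻¹ * v := by group)
    rw [Set.ncard_diff_singleton_of_mem Zc.one_mem, hZncard] at hK2
    have hZcle : Nat.card Zc ≤ Nat.card F := Nat.le_of_dvd Nat.card_pos hZcdvd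
    have hZall : Nat.card Zc - 1 = Nat.card F - 1 := by
      by_contra hne
      obtain ⟨e1, e2⟩ := harith (Nat.card Zc - 1) hK2 (by omega) (by omega) hne
      have h1 : d + 1 ∣ 2 * d + 1 := by
        have e3 : Nat.card Zc = d + 1 := by omega
        have e4 : Nat.card F = 2 * d + 1 := by omega
        rw [← e3, ← e4]; exact hZcdvd
      have h3' : d + 1 ∣ 2 * (d + 1) - (2 * d + 1) := Nat.dvd_sub (dvd_mul_left _ _) h1
      have e : 2 * (d + 1) - (2 * d + 1) = 1 := by omega
      rw [e] at h3'
      have := Nat.dvd_one.mp h3'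
      omega
    have hZeq : Zc = F := Subgroup.eq_of_le_of_card_ge hZcF (by omega)
    apply isMulCommutative_iff.mpr
    intro x y
    have hy : (y : G) ∈ Zc := by rw [hZeq]; exact y.2
    exact Subtype.ext (((hZcmem _).mp hy).2 x.1 x.2)

end Cfsg.Agent.S0738
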