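import Mathlib
import Cfsg.Statements.S0743

set_option autoImplicit false
open Cfsg

namespace Cfsg.Agent.S0743

theorem key {G α : Type*} [Group G] [MulAction G α] [Finite α] {p : ℕ} [Fact p.Prime] (a : α)
    (P : Subgroup G) (hP : IsPGroup p P) (s : Set α) (hs : MulAction.fixedPoints P α = s) :
    Nat.card (MulAction.orbit G a) ≡ (MulAction.orbit G a ∩ s).ncard [MOD p] := by
  subst hs
  have h1 := hP.card_modEq_card_fixedPoints (MulAction.orbit G a)
  have h2 : Nat.card (MulAction.fixedPoints P (MulAction.orbit G a)) =
      (MulAction.orbit G a ∩ MulAction.fixedPoints P α).ncard := by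
    rw [← Nat.card_coe_set_eq]
    apply Nat.card_congr
    exact
      { toFun := fun x => ⟨x.1.1, x.1.2, by
          intro g; have := x.2 g; exact congrArg Subtype.val this⟩
        invFun := fun y => ⟨⟨y.1, y.2.1⟩, fun g => Subtype.ext (y.2.2 g)⟩
        left_inv := fun x => rfl
        right_inv := fun y => rfl }
  rw [← h2]; exact h1

theorem gleason_trans {G α : Type*} [Group G] [MulAction G α] [Finite α] {p k : ℕ} [Fact p.Prime]
    (hkn : k + 1 < Nat.card α)
    (h : ∀ s : Set α, s.ncard = k + 1 →
      ∃ P : Subgroup G, IsPGroup p P ∧ MulAction.fixedPoints P α = s) :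
    MulAction.IsPretransitive G α := by
  refine ⟨fun a b => ?_⟩
  by_contra hb
  have hbO : b ∉ MulAction.orbit G a := hb
  have hab : a ≠ b := by rintro rfl; exact hbO (MulAction.mem_orbit_self a)
  obtain ⟨u, hu, huk⟩ : ∃ u : Set α, u ⊆ ({a, b} : Set α)ᶜ ∧ u.ncard = k := by
    apply Set.exists_subset_card_eq
    rw [Set.ncard_compl, Set.ncard_pair hab]
    omega
  have hau : a ∉ u := fun h => hu h (by simp)
  have hbu : b ∉ u := fun h => hu h (by simp)
  obtain ⟨P1, hP1, hf1⟩ := h (insert a u) (by rw [Set.ncard_insert_of_notMem hau, huk])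
  obtain ⟨P2, hP2, hf2⟩ := h (insert b u) (by rw [Set.ncard_insert_of_notMem hbu, huk])
  have k1 := key a P1 hP1 _ hf1
  have k2 := key a P2 hP2 _ hf2
  rw [Set.inter_insert_of_mem (MulAction.mem_orbit_self a),
    Set.ncard_insert_of_notMem (fun h => hau h.2)] at k1
  rw [Set.inter_insert_of_notMem hbO] at k2
  have k3 := k2.symm.trans k1
  have k4 := (Nat.modEq_iff_dvd' (Nat.le_succ _)).mp k3
  have hp := (Fact.out : p.Prime)
  have : p ∣ 1 := by simpa using k4
  exact hp.one_lt.ne' (Nat.dvd_one.mp this)

theorem gleason (p : ℕ) [Fact p.Prime] (k : ℕ) :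
    ∀ {G α : Type*} [Group G] [MulAction G α] [Finite α], k < Nat.card α →
    (∀ s : Set α, s.ncard = k →
      ∃ P : Subgroup G, IsPGroup p P ∧ MulAction.fixedPoints P α = s) →
    MulAction.IsMultiplyPretransitive G α k := by
  induction k with
  | zero => intros; exact MulAction.is_zero_pretransitive
  | succ k ih =>
    intro G α _ _ _ hkn h
    have htrans : MulAction.IsPretransitive G α := gleason_trans hkn h
    have hne : Nonempty α := by
      by_contra hcon
      rw [not_nonempty_iff] at hcon
      simp at hkn
    obtain ⟨a⟩ := hne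
    rw [SubMulAction.ofStabilizer.isMultiplyPretransitive (a := a)]
    apply ih
    · have := SubMulAction.nat_card_ofStabilizer_add_one_eq G a
      omega
    · intro s' hs'
      have ha' : a ∉ Subtype.val '' s' := by
        rintro ⟨x, _, hx⟩
        exact x.2 hx
      have hcard : (insert a (Subtype.val '' s')).ncard = k + 1 := by
        rw [Set.ncard_insert_of_notMem ha', Set.ncard_image_of_injective _ Subtype.val_injective,
          hs']
      obtain ⟨P, hP, hfix⟩ := h _ hcard
      have hPle : P ≤ MulAction.stabilizer G a := by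
        intro g hg
        have : a ∈ MulAction.fixedPoints P α := by rw [hfix]; exact Set.mem_insert _ _
        exact this ⟨g, hg⟩
      refine ⟨P.subgroupOf (MulAction.stabilizer G a), hP.comap_subtype, ?_⟩
      ext x
      constructor
      · intro hx
        have hx' : (x : α) ∈ MulAction.fixedPoints P α := by
          intro g
          have := hx ⟨⟨g.1, hPle g.2⟩, g.2⟩
          exact congrArg Subtype.val this
        rw [hfix] at hx'
        rcases hx' with hxa | ⟨y, hy, hyx⟩
        · exact absurd hxa x.2
        · have : y = x := Subtype.ext hyx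
          rw [← this]; exact hy
      · intro hx g
        apply Subtype.ext
        have hx' : (x : α) ∈ MulAction.fixedPoints P α := by
          rw [hfix]; exact Set.mem_insert_of_mem _ ⟨x, hx, rfl⟩
        exact hx' ⟨g.1.1, g.2⟩

/-- Gleason's Lemma: let `p` be a prime and `1 ≤ k < n`; if every `k`-subset of the `n` points is exactly the fixed-point set of some `p`-subgroup of `G`, then `G` is `k`-transitive. -/
theorem result {α : Type*} [Fintype α] [DecidableEq α] (G : Subgroup (Equiv.Perm α)) {p k : ℕ} (hp : p.Prime) (hk : 1 ≤ k) (hkn : k < Fintype.card α) (h : ∀ s : Finset α, s.card = k → ∃ P : Subgroup G, IsPGroup p P ∧ MulAction.fixedPoints P α = (s : Set α)) : MulAction.IsMultiplyPretransitive G α k := by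
  haveI : Fact p.Prime := ⟨hp⟩
  apply gleason p k
  · rw [Nat.card_eq_fintype_card]; exact hkn
  · intro s hs
    obtain ⟨P, hP, hfix⟩ := h (Set.toFinite s).toFinset
      (by rw [← Set.ncard_eq_toFinset_card s (Set.toFinite s)]; exact hs)
    exact ⟨P, hP, by rw [hfix]; simp⟩

end Cfsg.Agent.S0743
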