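import Mathlib
import Cfsg.Statements.S0749

set_option autoImplicit false
open Cfsg

namespace Cfsg.Agent.S0749

theorem ext_step {F V : Type*} [Field F] [AddCommGroup V] [Module F V] [FiniteDimensional F V]
    (B : LinearMap.BilinForm F V) (hB : B.Nondegenerate) (hA : B.IsAlt)
    (X : Submodule F V) (f : V →ₗ[F] V) (hinj : ∀ x ∈ X, f x = 0 → x = 0)
    (hiso : ∀ x ∈ X, ∀ x' ∈ X, B (f x) (f x') = B x x') (v : V) (hv : v ∉ X) :
    ∃ (X' : Submodule F V) (f' : V →ₗ[F] V), X < X' ∧ (∀ x ∈ X, f' x = f x) ∧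
      (∀ x ∈ X', f' x = 0 → x = 0) ∧ (∀ x ∈ X', ∀ x' ∈ X', B (f' x) (f' x') = B x x') := by
  classical
  obtain ⟨r, hr⟩ := LinearMap.exists_leftInverse_of_injective (f ∘ₗ X.subtype)
    (LinearMap.ker_eq_bot'.2 (fun x hx => Subtype.ext (hinj x x.2 hx)))
  have hr' : ∀ x : X, r (f x) = x := fun x => by
    have := LinearMap.congr_fun hr x
    simpa using this
  obtain ⟨w0, hw0⟩ : ∃ w0 : V, ∀ y : V, B y w0 = B (r y : V) v := by
    refine ⟨(B.flip.toDual hB.flip).symm ((B.flip v) ∘ₗ X.subtype ∘ₗ r), fun y => ?_⟩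
    have := LinearMap.BilinForm.apply_toDual_symm_apply (B := B.flip) (hB := hB.flip)
      ((B.flip v) ∘ₗ X.subtype ∘ₗ r) y
    simp only [LinearMap.flip_apply, LinearMap.comp_apply, Submodule.subtype_apply] at this
    exact this
  have hw0' : ∀ x ∈ X, B (f x) w0 = B x v := by
    intro x hx
    rw [hw0, hr' ⟨x, hx⟩]
  obtain ⟨w, hwY, hw⟩ : ∃ w : V, w ∉ X.map f ∧ ∀ x ∈ X, B (f x) w = B x v := by
    by_cases h1 : w0 ∈ X.map f
    · by_cases h2 : B.orthogonal (X.map f) ≤ X.map f
      · exfalso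
        obtain ⟨x0, hx0, hx0w⟩ := h1
        have hperp : v - x0 ∈ B.orthogonal X := by
          intro x hx
          change B x (v - x0) = 0
          rw [map_sub, ← hw0' x hx, ← hx0w, hiso x hx x0 hx0, sub_self]
        have hle : B.orthogonal X ≤ X := by
          have hj : ∀ u : B.orthogonal (X.map f),
              (X.subtype ∘ₗ r ∘ₗ (B.orthogonal (X.map f)).subtype) u ∈ X ⊓ B.orthogonal X := by
            intro u
            refine ⟨(r (u:V)).2, ?_⟩
            intro x hx
            change B x (r (u : V) : V) = 0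
            obtain ⟨xu, hxu, hxu'⟩ := h2 u.2
            have h3 : r (u : V) = ⟨xu, hxu⟩ := by rw [← hxu']; exact hr' ⟨xu, hxu⟩
            rw [h3]
            change B x xu = 0
            rw [← hiso x hx xu hxu, hxu']
            exact u.2 (f x) (Submodule.mem_map_of_mem hx)
          have hjinj : Function.Injective (LinearMap.codRestrict (X ⊓ B.orthogonal X)
              (X.subtype ∘ₗ r ∘ₗ (B.orthogonal (X.map f)).subtype) hj) := by
            rw [← LinearMap.ker_eq_bot, LinearMap.ker_eq_bot']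
            intro u hu
            have h0 : (r (u : V) : V) = 0 := congrArg Subtype.val hu
            obtain ⟨xu, hxu, hxu'⟩ := h2 u.2
            have h3 : r (u : V) = ⟨xu, hxu⟩ := by rw [← hxu']; exact hr' ⟨xu, hxu⟩
            rw [h3] at h0
            have h4 : xu = 0 := h0
            apply Subtype.ext
            rw [← hxu', h4, map_zero]; rfl
          have hfin1 := LinearMap.finrank_le_finrank_of_injective hjinj
          have hfin2 := LinearMap.BilinForm.finrank_orthogonal hB (X.map f)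
          have hfin3 := LinearMap.BilinForm.finrank_orthogonal hB X
          have hfin4 := Submodule.finrank_map_le f X
          have heq : X ⊓ B.orthogonal X = B.orthogonal X :=
            Submodule.eq_of_le_of_finrank_le inf_le_right (by omega)
          rw [← heq]; exact inf_le_left
        apply hv
        have := X.add_mem (hle hperp) hx0
        simpa using this
      · obtain ⟨u, hu, huY⟩ := Set.not_subset.1 h2
        refine ⟨w0 + u, fun h => huY ?_, fun x hx => ?_⟩
        · have := (X.map f).sub_mem h h1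
          simpa using this
        · rw [map_add, hw0' x hx, hu (f x) (Submodule.mem_map_of_mem hx), add_zero]
    · exact ⟨w0, h1, hw0'⟩
  obtain ⟨l, hl1, hl2⟩ := Submodule.exists_dual_map_eq_bot_of_notMem hv inferInstance
  have hlX : ∀ x ∈ X, l x = 0 := by
    intro x hx
    have : l x ∈ X.map l := Submodule.mem_map_of_mem hx
    rw [hl2] at this
    exact (Submodule.mem_bot F).1 this
  obtain ⟨f', hf'⟩ : ∃ f' : V →ₗ[F] V, f' = f + LinearMap.smulRight ((l v)⁻¹ • l) (w - f v) := ⟨_, rfl⟩
  have hf'X : ∀ x ∈ X, f' x = f x := by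
    intro x hx
    rw [hf']
    simp [hlX x hx]
  have hf'v : f' v = w := by
    rw [hf']
    simp [inv_mul_cancel₀ hl1]
  have hf'z : ∀ x ∈ X, ∀ a : F, f' (x + a • v) = f x + a • w := by
    intro x hx a
    rw [map_add, map_smul, hf'X x hx, hf'v]
  have hwf : ∀ x ∈ X, B w (f x) = B v x := by
    intro x hx
    rw [← hA.neg_eq, hw x hx, hA.neg_eq]
  refine ⟨X ⊔ F ∙ v, f', ?_, hf'X, ?_, ?_⟩
  · exact SetLike.lt_iff_le_and_exists.2 ⟨le_sup_left, v,
      Submodule.mem_sup_right (Submodule.mem_span_singleton_self v), hv⟩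
  · intro z hz h0
    obtain ⟨x, hx, y, hy, rfl⟩ := Submodule.mem_sup.1 hz
    obtain ⟨a, rfl⟩ := Submodule.mem_span_singleton.1 hy
    rw [hf'z x hx a] at h0
    have ha : a = 0 := by
      by_contra ha
      apply hwY
      refine ⟨-(a⁻¹ • x), X.neg_mem (X.smul_mem _ hx), ?_⟩
      have h1 : a • w = - f x := by
        rw [eq_neg_iff_add_eq_zero, add_comm]; exact h0
      rw [map_neg, map_smul, ← smul_neg, ← h1, smul_smul, inv_mul_cancel₀ ha, one_smul]
    rw [ha, zero_smul, add_zero] at h0 ⊢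
    exact hinj x hx h0
  · intro z hz z' hz'
    obtain ⟨x, hx, y, hy, rfl⟩ := Submodule.mem_sup.1 hz
    obtain ⟨a, rfl⟩ := Submodule.mem_span_singleton.1 hy
    obtain ⟨x', hx', y', hy', rfl⟩ := Submodule.mem_sup.1 hz'
    obtain ⟨a', rfl⟩ := Submodule.mem_span_singleton.1 hy'
    rw [hf'z x hx a, hf'z x' hx' a']
    simp only [map_add, map_smul, LinearMap.add_apply, LinearMap.smul_apply, smul_eq_mul]
    rw [hiso x hx x' hx', hw x hx, hwf x' hx', hA w, hA v]

theorem top_case {F V : Type*} [Field F] [AddCommGroup V] [Module F V] [FiniteDimensional F V]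
    (B : LinearMap.BilinForm F V) (f : V →ₗ[F] V) (hinj : ∀ x : V, f x = 0 → x = 0)
    (hiso : ∀ x x' : V, B (f x) (f x') = B x x') :
    ∃ g : V ≃ₗ[F] V, (∀ u v : V, B (g u) (g v) = B u v) ∧ ∀ x, g x = f x := by
  have hfi : Function.Injective f := by
    rw [← LinearMap.ker_eq_bot, LinearMap.ker_eq_bot']
    exact hinj
  refine ⟨LinearEquiv.ofInjectiveEndo f hfi, fun u v => ?_, fun x => ?_⟩
  · simp [hiso u v]
  · simp

theorem witt_aux {F V : Type*} [Field F] [AddCommGroup V] [Module F V] [FiniteDimensional F V]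
    (B : LinearMap.BilinForm F V) (hB : B.Nondegenerate) (hA : B.IsAlt) :
    ∀ (d : ℕ) (X : Submodule F V) (f : V →ₗ[F] V),
    Module.finrank F V - Module.finrank F X ≤ d → (∀ x ∈ X, f x = 0 → x = 0) →
    (∀ x ∈ X, ∀ x' ∈ X, B (f x) (f x') = B x x') →
    ∃ g : V ≃ₗ[F] V, (∀ u v : V, B (g u) (g v) = B u v) ∧ ∀ x ∈ X, g x = f x := by
  intro d
  induction d with
  | zero =>
    intro X f hd hinj hiso
    have hX : X = ⊤ := Submodule.eq_top_of_finrank_eq (by have := Submodule.finrank_le X; omega)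
    subst hX
    obtain ⟨g, hg1, hg2⟩ := top_case B f (fun x => hinj x trivial) (fun x x' => hiso x trivial x' trivial)
    exact ⟨g, hg1, fun x _ => hg2 x⟩
  | succ d ih =>
    intro X f hd hinj hiso
    by_cases hX : X = ⊤
    · subst hX
      obtain ⟨g, hg1, hg2⟩ := top_case B f (fun x => hinj x trivial) (fun x x' => hiso x trivial x' trivial)
      exact ⟨g, hg1, fun x _ => hg2 x⟩
    · obtain ⟨v, hv⟩ : ∃ v, v ∉ X := by
        by_contra h
        push Not at h
        exact hX (eq_top_iff.2 (fun x _ => h x))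
      obtain ⟨X', f', hlt, hff, hinj', hiso'⟩ := ext_step B hB hA X f hinj hiso v hv
      have h1 := Submodule.finrank_lt_finrank_of_lt hlt
      have h2 := Submodule.finrank_le X'
      obtain ⟨g, hg1, hg2⟩ := ih X' f' (by omega) hinj' hiso'
      exact ⟨g, hg1, fun x hx => by rw [hg2 x (hlt.le hx), hff x hx]⟩

/-- Witt's Lemma for alternating forms. If B is a non-degenerate alternating bilinear form on a finite-dimensional vector space V (over any field) and φ is a linear equivalence between subspaces X and Y of V preserving B, then φ extends to a B-preserving linear automorphism of V. -/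
theorem result {F V : Type*} [Field F] [AddCommGroup V] [Module F V] [FiniteDimensional F V] (B : LinearMap.BilinForm F V) (hB : B.Nondegenerate) (hA : B.IsAlt) (X Y : Submodule F V) (φ : X ≃ₗ[F] Y) (hφ : ∀ x x' : X, B (φ x : V) (φ x' : V) = B (x : V) (x' : V)) : ∃ g : V ≃ₗ[F] V, (∀ u v : V, B (g u) (g v) = B u v) ∧ ∀ x : X, g (x : V) = (φ x : V) := by
  obtain ⟨f, hf⟩ := LinearMap.exists_extend (Y.subtype ∘ₗ φ.toLinearMap)
  have hfx : ∀ x : X, f x = φ x := fun x => by
    have := LinearMap.congr_fun hf x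
    simpa using this
  have hinj : ∀ x ∈ X, f x = 0 → x = 0 := by
    intro x hx h0
    have := hfx ⟨x, hx⟩
    rw [h0] at this
    have h1 : φ ⟨x, hx⟩ = 0 := Subtype.ext this.symm
    have h2 := φ.map_eq_zero_iff.1 h1
    exact congrArg Subtype.val h2
  have hiso : ∀ x ∈ X, ∀ x' ∈ X, B (f x) (f x') = B x x' := by
    intro x hx x' hx'
    rw [hfx ⟨x, hx⟩, hfx ⟨x', hx'⟩]; exact hφ _ _
  obtain ⟨g, hg1, hg2⟩ := witt_aux B hB hA _ X f le_rfl hinj hiso
  exact ⟨g, hg1, fun x => by rw [hg2 x x.2, hfx]⟩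

end Cfsg.Agent.S0749
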