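import Cfsg.Statements.S0753

set_option autoImplicit false
open Cfsg

namespace Cfsg.Agent.S0753

/-- If σ is a ring endomorphism of the field F other than the identity and B is a σ-sesquilinear conjugate-symmetric form with B v v = 0 for every v, then B = 0. -/
theorem result {F V : Type*} [Field F] [AddCommGroup V] [Module F V] (σ : F →+* F) (hσ : σ ≠ RingHom.id F) (B : V →ₛₗ[σ] V →ₗ[F] F) (hS : B.IsSymm) (h0 : ∀ v : V, B v v = 0) : B = 0 := by
  have hc : ∃ c : F, σ c ≠ c := by
    by_contra hcon
    exact hσ (RingHom.ext fun x => by
      by_contra hx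
      exact hcon ⟨x, hx⟩)
  obtain ⟨c, hc⟩ := hc
  have key : ∀ u v : V, B u v + B v u = 0 := by
    intro u v
    have h := h0 (u + v)
    simp only [map_add, LinearMap.add_apply, h0, zero_add, add_zero] at h
    linear_combination h
  ext u v
  simp only [LinearMap.zero_apply]
  have h1 := key u v
  have h2 := key u (c • v)
  simp only [map_smulₛₗ, LinearMap.smul_apply, smul_eq_mul, RingHom.id_apply] at h2
  have h3 : B v u = - B u v := by linear_combination h1
  rw [h3] at h2
  have h4 : (c - σ c) * B u v = 0 := by linear_combination h2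
  rcases mul_eq_zero.mp h4 with h5 | h5
  · exact absurd (sub_eq_zero.mp h5).symm hc
  · exact h5

end Cfsg.Agent.S0753
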