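import Mathlib
import Cfsg.Statements.S0756

set_option autoImplicit false
open Cfsg

namespace Cfsg.Agent.S0756

universe u v

theorem nonsq_div {F : Type*} [Field F] [Fintype F] (hF : ringChar F ≠ 2) {d α : F} (hd0 : d ≠ 0)
    (hd : ¬ IsSquare d) (hα : ¬ IsSquare α) : ∃ c : F, c ≠ 0 ∧ d = α * (c * c) := by
  have hα0 : α ≠ 0 := by rintro rfl; exact hα ⟨0, by simp⟩
  have h1 : d ^ (Fintype.card F / 2) = -1 := by
    rcases FiniteField.pow_dichotomy hF hd0 with h | h
    · exact absurd ((FiniteField.isSquare_iff hF hd0).2 h) hd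
    · exact h
  have h2 : α ^ (Fintype.card F / 2) = -1 := by
    rcases FiniteField.pow_dichotomy hF hα0 with h | h
    · exact absurd ((FiniteField.isSquare_iff hF hα0).2 h) hα
    · exact h
  have h3 : IsSquare (d / α) := by
    rw [FiniteField.isSquare_iff hF (div_ne_zero hd0 hα0), div_pow, h1, h2]; simp
  obtain ⟨c, hc⟩ := h3
  refine ⟨c, ?_, ?_⟩
  · rintro rfl
    simp only [mul_zero] at hc
    exact (div_ne_zero hd0 hα0) hc
  · rw [← hc]; field_simp

theorem rep_one {F : Type*} [Field F] [Fintype F] (hF : ringChar F ≠ 2) {a c : F} (ha : a ≠ 0) (hc : c ≠ 0) :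
    ∃ x y : F, a * x ^ 2 + c * y ^ 2 = 1 := by
  obtain ⟨x, y, h⟩ := FiniteField.exists_root_sum_quadratic (R := F)
    (f := Polynomial.C a * Polynomial.X ^ 2 + Polynomial.C 0 * Polynomial.X + Polynomial.C 0)
    (g := Polynomial.C c * Polynomial.X ^ 2 + Polynomial.C 0 * Polynomial.X + Polynomial.C (-1))
    (Polynomial.degree_quadratic ha) (Polynomial.degree_quadratic hc) (FiniteField.odd_card_of_char_ne_two hF)
  refine ⟨x, y, ?_⟩
  simp only [Polynomial.eval_add, Polynomial.eval_mul, Polynomial.eval_C, Polynomial.eval_pow, Polynomial.eval_X] at h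
  linear_combination h

theorem fam {F : Type u} [Field F] [Fintype F] (h2 : (2 : F) ≠ 0) (α : F) (hα : ¬ IsSquare α) :
    ∀ (n : ℕ) (V : Type v) [AddCommGroup V] [Module F V] [FiniteDimensional F V]
      (B : LinearMap.BilinForm F V), B.IsSymm → B.Nondegenerate → Module.finrank F V = n + 1 →
      ∃ b : Fin (n + 1) → V, (∀ i j, i ≠ j → B (b i) (b j) = 0) ∧
        (∀ i, i ≠ Fin.last n → B (b i) (b i) = 1) ∧
        (B (b (Fin.last n)) (b (Fin.last n)) = 1 ∨ B (b (Fin.last n)) (b (Fin.last n)) = α) := by
  have hF : ringChar F ≠ 2 := by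
    intro h
    apply h2
    have := CharP.cast_eq_zero F (ringChar F)
    rw [h] at this
    exact_mod_cast this
  intro n
  induction n with
  | zero =>
    intro V _ _ _ B hS hB hn
    have hnt : Nontrivial V := Module.nontrivial_of_finrank_pos (R := F) (by omega)
    obtain ⟨v, hv⟩ := exists_ne (0 : V)
    have hspan := (finrank_eq_one_iff_of_nonzero' v hv).1 hn
    have hd : B v v ≠ 0 := by
      intro h0
      apply hv
      apply hB.1 v
      intro y
      obtain ⟨c, rfl⟩ := hspan y
      simp [h0]
    by_cases hsq : IsSquare (B v v)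
    · obtain ⟨c, hc⟩ := hsq
      have hc0 : c ≠ 0 := by rintro rfl; simp at hc; exact hd hc
      refine ⟨fun _ => c⁻¹ • v, ?_, ?_, ?_⟩
      · intro i j hij; exact absurd (Fin.ext (by omega)) hij
      · intro i hi; exact absurd (Fin.ext (by simp)) hi
      · left
        simp only [map_smul, LinearMap.smul_apply, smul_eq_mul, hc]
        field_simp
    · obtain ⟨c, hc0, hc⟩ := nonsq_div hF hd hsq hα
      refine ⟨fun _ => c⁻¹ • v, ?_, ?_, ?_⟩
      · intro i j hij; exact absurd (Fin.ext (by omega)) hij
      · intro i hi; exact absurd (Fin.ext (by simp)) hi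
      · right
        simp only [map_smul, LinearMap.smul_apply, smul_eq_mul, hc]
        field_simp
  | succ n ih =>
    intro V _ _ _ B hS hB hn
    haveI : Invertible (2 : F) := invertibleOfNonzero h2
    obtain ⟨e, he⟩ := LinearMap.BilinForm.exists_orthogonal_basis (LinearMap.BilinForm.isSymm_iff.1 hS)
    have he' : B.iIsOrtho e := he
    have hne := fun i => LinearMap.BilinForm.iIsOrtho.not_isOrtho_basis_self_of_nondegenerate he' hB i
    obtain ⟨i0, i1, h01⟩ : ∃ i0 i1 : Fin (Module.finrank F V), i0 ≠ i1 :=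
      ⟨⟨0, by omega⟩, ⟨1, by omega⟩, by simp [Fin.ext_iff]⟩
    obtain ⟨x, y, hxy⟩ := rep_one hF (hne i0) (hne i1)
    have ho1 : B (e i0) (e i1) = 0 := LinearMap.BilinForm.iIsOrtho_def.1 he' i0 i1 h01
    have ho2 : B (e i1) (e i0) = 0 := LinearMap.BilinForm.iIsOrtho_def.1 he' i1 i0 h01.symm
    obtain ⟨v, hvdef⟩ : ∃ v : V, v = x • e i0 + y • e i1 := ⟨_, rfl⟩
    have hvv : B v v = 1 := by
      simp only [hvdef, map_add, map_smul, LinearMap.add_apply, LinearMap.smul_apply, smul_eq_mul, ho1, ho2]
      linear_combination hxy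
    have hvv0 : B v v ≠ 0 := by rw [hvv]; exact one_ne_zero
    have hv0 : v ≠ 0 := by
      intro h; rw [h] at hvv; simp at hvv
    have hWnd := LinearMap.BilinForm.restrict_nondegenerate_orthogonal_spanSingleton B hB hS.isRefl hvv0
    have hWdim : Module.finrank F (B.orthogonal (F ∙ v)) = n + 1 := by
      have := Submodule.finrank_add_eq_of_isCompl (LinearMap.BilinForm.isCompl_span_singleton_orthogonal hvv0)
      rw [finrank_span_singleton hv0, hn] at this
      omega
    obtain ⟨bW, hb1, hb2, hb3⟩ := ih (B.orthogonal (F ∙ v)) (B.restrict (B.orthogonal (F ∙ v)))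
      (hS.restrict _) hWnd hWdim
    have hvW : ∀ w : B.orthogonal (F ∙ v), B v (w : V) = 0 := by
      intro w
      exact w.2 v (Submodule.mem_span_singleton_self v)
    refine ⟨Fin.cons v (fun i => (bW i : V)), ?_, ?_, ?_⟩
    · intro i j hij
      induction i using Fin.cases with
      | zero =>
        induction j using Fin.cases with
        | zero => exact absurd rfl hij
        | succ j => simp only [Fin.cons_zero, Fin.cons_succ]; exact hvW _
      | succ i =>
        induction j using Fin.cases with
        | zero => simp only [Fin.cons_zero, Fin.cons_succ]; rw [hS.eq]; exact hvW _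
        | succ j =>
          simp only [Fin.cons_succ]
          exact hb1 i j (fun h => hij (by rw [h]))
    · intro i hi
      induction i using Fin.cases with
      | zero => simpa using hvv
      | succ i =>
        simp only [Fin.cons_succ]
        exact hb2 i (fun h => hi (by rw [h, Fin.succ_last]))
    · rw [← Fin.succ_last]; simp only [Fin.cons_succ]; exact hb3

/-- Classification of symmetric bilinear forms over finite fields of odd characteristic: if B is non-degenerate symmetric on V of dimension n + 1 and α is a fixed non-square of F, there is an orthogonal basis b_0, ..., b_n with B(b_i, b_i) = 1 for i < n and B(b_n, b_n) ∈ {1, α}. -/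
theorem result {F V : Type*} [Field F] [Finite F] [AddCommGroup V] [Module F V] [FiniteDimensional F V] (h2 : (2 : F) ≠ 0) (B : LinearMap.BilinForm F V) (hS : B.IsSymm) (hB : B.Nondegenerate) {n : ℕ} (hn : Module.finrank F V = n + 1) (α : F) (hα : ¬ IsSquare α) : ∃ b : Module.Basis (Fin (n + 1)) F V, (∀ i j, i ≠ j → B (b i) (b j) = 0) ∧ (∀ i, i ≠ Fin.last n → B (b i) (b i) = 1) ∧ (B (b (Fin.last n)) (b (Fin.last n)) = 1 ∨ B (b (Fin.last n)) (b (Fin.last n)) = α) := by
  classical
  haveI : Fintype F := Fintype.ofFinite F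
  obtain ⟨b, hb1, hb2, hb3⟩ := fam h2 α hα n V B hS hB hn
  have hα0 : α ≠ 0 := by rintro rfl; exact hα ⟨0, by simp⟩
  have hne : ∀ i, B (b i) (b i) ≠ 0 := by
    intro i
    by_cases hi : i = Fin.last n
    · subst hi
      rcases hb3 with h | h
      · rw [h]; exact one_ne_zero
      · rw [h]; exact hα0
    · rw [hb2 i hi]; exact one_ne_zero
  have hli : LinearIndependent F b :=
    LinearMap.BilinForm.linearIndependent_of_iIsOrtho (LinearMap.BilinForm.iIsOrtho_def.2 hb1) hne
  refine ⟨basisOfLinearIndependentOfCardEqFinrank hli (by simp [hn]), ?_, ?_, ?_⟩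
  · intro i j hij
    simp only [coe_basisOfLinearIndependentOfCardEqFinrank]
    exact hb1 i j hij
  · intro i hi
    simp only [coe_basisOfLinearIndependentOfCardEqFinrank]
    exact hb2 i hi
  · simp only [coe_basisOfLinearIndependentOfCardEqFinrank]
    exact hb3

end Cfsg.Agent.S0756
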