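import Cfsg.Statements.S0757

set_option autoImplicit false
open Cfsg

namespace Cfsg.Agent.S0757

theorem toMatrix'_wss {F : Type*} [Field F] [Invertible (2 : F)] {ι : Type*} [Fintype ι] [DecidableEq ι]
    (w : ι → F) :
    QuadraticForm.toMatrix' (QuadraticMap.weightedSumSquares F w) = Matrix.diagonal w := by
  ext i j
  rw [QuadraticForm.toMatrix', LinearMap.toMatrix₂'_apply, QuadraticMap.associated_apply]
  simp only [QuadraticMap.weightedSumSquares_apply, Pi.add_apply, Pi.single_apply, smul_eq_mul]
  by_cases hij : i = j
  · subst hij
    rw [Matrix.diagonal_apply_eq]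
    have h1 : ∀ k : ι, w k * (((if k = i then (1 : F) else 0) + if k = i then 1 else 0) *
        ((if k = i then (1 : F) else 0) + if k = i then 1 else 0)) = if k = i then 4 * w k else 0 := by
      intro k
      split_ifs <;> ring
    have h2 : ∀ k : ι, w k * ((if k = i then (1 : F) else 0) * (if k = i then 1 else 0)) =
        if k = i then w k else 0 := by
      intro k
      split_ifs <;> ring
    simp only [h1, h2, Finset.sum_ite_eq', Finset.mem_univ, if_true]
    rw [invOf_smul_eq_iff]
    rw [two_smul]
    ring
  · rw [Matrix.diagonal_apply_ne _ hij]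
    have h1 : ∀ k : ι, w k * (((if k = i then (1 : F) else 0) + if k = j then 1 else 0) *
        ((if k = i then (1 : F) else 0) + if k = j then 1 else 0)) =
        (if k = i then w k else 0) + (if k = j then w k else 0) := by
      intro k
      by_cases hki : k = i
      · have hkj : k ≠ j := fun h => hij (hki.symm.trans h)
        simp [hki, hij]
      · by_cases hkj : k = j
        · simp [hkj, Ne.symm hij]
        · simp [hki, hkj]
    have h2 : ∀ (l : ι) (k : ι), w k * ((if k = l then (1 : F) else 0) * (if k = l then 1 else 0)) =
        if k = l then w k else 0 := by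
      intro l k
      split_ifs <;> ring
    simp only [h1, h2, Finset.sum_add_distrib, Finset.sum_ite_eq', Finset.mem_univ, if_true]
    simp

/-- The two diagonal forms Σ x_i^2 and Σ_(i<n) x_i^2 + α x_n^2 on F^(n+1), with α a non-square and 2 ≠ 0 in F, are inequivalent quadratic forms (so over a finite field of odd order there are exactly two classes of non-singular symmetric bilinear forms in each dimension). -/
theorem result {F : Type*} [Field F] (h2 : (2 : F) ≠ 0) (n : ℕ) (α : F) (hα : ¬ IsSquare α) : ¬ (QuadraticMap.weightedSumSquares F (fun _ : Fin (n + 1) => (1 : F))).Equivalent (QuadraticMap.weightedSumSquares F (fun i : Fin (n + 1) => if i = Fin.last n then α else (1 : F))) := by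
  classical
  haveI : Invertible (2 : F) := invertibleOfNonzero h2
  rintro ⟨e⟩
  have hcomp : (QuadraticMap.weightedSumSquares F (fun i : Fin (n + 1) => if i = Fin.last n then α else (1 : F))).comp
      (e.toLinearEquiv : (Fin (n + 1) → F) →ₗ[F] (Fin (n + 1) → F)) =
      QuadraticMap.weightedSumSquares F (fun _ : Fin (n + 1) => (1 : F)) := by
    ext x
    exact e.map_app x
  have hd := congrArg QuadraticForm.discr' hcomp
  rw [QuadraticForm.discr'_comp, QuadraticForm.discr', QuadraticForm.discr', toMatrix'_wss, toMatrix'_wss,
    Matrix.det_diagonal, Matrix.det_diagonal] at hd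
  have hprod : ∏ i : Fin (n + 1), (if i = Fin.last n then α else (1 : F)) = α := by
    rw [Finset.prod_ite_eq' Finset.univ (Fin.last n) (fun _ => α)]
    simp
  rw [hprod] at hd
  simp only [Finset.prod_const_one] at hd
  set d := (LinearMap.toMatrix' (e.toLinearEquiv : (Fin (n + 1) → F) →ₗ[F] (Fin (n + 1) → F))).det with hd'
  have hd0 : d ≠ 0 := by
    rintro h0
    rw [h0] at hd
    simp at hd
  apply hα
  refine ⟨d⁻¹, ?_⟩
  field_simp
  linear_combination hd

end Cfsg.Agent.S0757
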