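import Cfsg.Statements.S0758

set_option autoImplicit false
open Cfsg

namespace Cfsg.Agent.S0758

theorem ringChar_ne_two {F : Type*} [Field F] (h2 : (2 : F) ≠ 0) : ringChar F ≠ 2 := by
  intro h
  apply h2
  have := CharP.cast_eq_zero F (ringChar F)
  rw [h] at this
  exact_mod_cast this

theorem iso_iff {F : Type*} [Field F] (β : F) :
    (∃ x y : F, (x ≠ 0 ∨ y ≠ 0) ∧ x ^ 2 + β * y ^ 2 = 0) ↔ IsSquare (-β) := by
  constructor
  · rintro ⟨x, y, hxy, h⟩
    have hy : y ≠ 0 := by
      intro hy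
      rw [hy] at h
      simp only [ne_eq, OfNat.ofNat_ne_zero, not_false_eq_true, zero_pow, mul_zero, add_zero,
        pow_eq_zero_iff] at h
      rcases hxy with hx | hy'
      · exact hx h
      · exact hy' hy
    refine ⟨x / y, ?_⟩
    field_simp
    linear_combination -h
  · rintro ⟨r, hr⟩
    refine ⟨r, 1, Or.inr one_ne_zero, ?_⟩
    linear_combination -hr

/-- For a finite field F of odd order q and a non-square α: the form x² + y² is isotropic iff q ≡ 1 mod 4, and the form x² + α y² is isotropic iff q ≡ 3 mod 4. -/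
theorem result {F : Type*} [Field F] [Fintype F] (h2 : (2 : F) ≠ 0) (α : F) (hα : ¬ IsSquare α) : ((∃ x y : F, (x ≠ 0 ∨ y ≠ 0) ∧ x ^ 2 + y ^ 2 = 0) ↔ Fintype.card F % 4 = 1) ∧ ((∃ x y : F, (x ≠ 0 ∨ y ≠ 0) ∧ x ^ 2 + α * y ^ 2 = 0) ↔ Fintype.card F % 4 = 3) := by
  have hF := ringChar_ne_two h2
  have hodd := FiniteField.odd_card_of_char_ne_two hF
  have hα0 : α ≠ 0 := by
    rintro rfl
    exact hα ⟨0, by simp⟩
  have h11 : (-1 : F) ≠ 1 := Ring.neg_one_ne_one_of_char_ne_two hF
  have hm1 : (-1 : F) ≠ 0 := by simp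
  have hnα : -α ≠ 0 := by simpa using hα0
  have hαpow : α ^ (Fintype.card F / 2) = -1 := by
    rcases FiniteField.pow_dichotomy hF hα0 with h | h
    · exact absurd ((FiniteField.isSquare_iff hF hα0).mpr h) hα
    · exact h
  have hneg : IsSquare (-α) ↔ ¬ IsSquare (-1 : F) := by
    rw [FiniteField.isSquare_iff hF hnα, FiniteField.isSquare_iff hF hm1]
    have e : (-α) ^ (Fintype.card F / 2) = (-1) ^ (Fintype.card F / 2) * α ^ (Fintype.card F / 2) := by
      rw [← mul_pow]; simp
    rw [e, hαpow]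
    rcases FiniteField.pow_dichotomy hF hm1 with h | h
    · rw [h]; simp [h11]
    · rw [h]; simp [h11]
  refine ⟨?_, ?_⟩
  · have := iso_iff (1 : F)
    simp only [one_mul] at this
    rw [this, FiniteField.isSquare_neg_one_iff]
    omega
  · rw [iso_iff, hneg, FiniteField.isSquare_neg_one_iff]
    omega

end Cfsg.Agent.S0758
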