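import Mathlib
import Cfsg.Statements.S0759
import Cfsg.Agent.S0756

set_option autoImplicit false
open Cfsg

namespace Cfsg.Agent.S0759

theorem det_zero_block {F : Type*} [Field F] {m : ℕ} (A C : Matrix (Fin m) (Fin m) F) :
    (Matrix.fromBlocks 0 A A.transpose C).det = (-1) ^ m * A.det ^ 2 := by
  have h1 : Matrix.fromBlocks 0 A A.transpose C =
      Matrix.fromBlocks A 0 C A.transpose * Matrix.fromBlocks (0 : Matrix (Fin m) (Fin m) F)
        (1 : Matrix (Fin m) (Fin m) F) (1 : Matrix (Fin m) (Fin m) F) (0 : Matrix (Fin m) (Fin m) F) := by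
    rw [Matrix.fromBlocks_multiply]; simp
  have h2 : (Matrix.fromBlocks (0 : Matrix (Fin m) (Fin m) F) (1 : Matrix (Fin m) (Fin m) F)
        (1 : Matrix (Fin m) (Fin m) F) (0 : Matrix (Fin m) (Fin m) F)) =
      Matrix.fromBlocks (1 : Matrix (Fin m) (Fin m) F) (0 : Matrix (Fin m) (Fin m) F)
        (1 : Matrix (Fin m) (Fin m) F) (1 : Matrix (Fin m) (Fin m) F) *
      Matrix.fromBlocks (1 : Matrix (Fin m) (Fin m) F) (1 : Matrix (Fin m) (Fin m) F)
        (0 : Matrix (Fin m) (Fin m) F) (-1 : Matrix (Fin m) (Fin m) F) *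
      Matrix.fromBlocks (1 : Matrix (Fin m) (Fin m) F) (0 : Matrix (Fin m) (Fin m) F)
        (-1 : Matrix (Fin m) (Fin m) F) (1 : Matrix (Fin m) (Fin m) F) := by
    rw [Matrix.fromBlocks_multiply, Matrix.fromBlocks_multiply]; simp
  rw [h1, Matrix.det_mul, Matrix.det_fromBlocks_zero₁₂, h2, Matrix.det_mul, Matrix.det_mul,
    Matrix.det_fromBlocks_zero₁₂, Matrix.det_fromBlocks_zero₂₁, Matrix.det_fromBlocks_zero₁₂,
    Matrix.det_transpose]
  simp only [Matrix.det_one, Matrix.det_neg, Fintype.card_fin, one_mul, mul_one]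
  ring

theorem no_ti {F : Type*} [Field F] (h2 : (2 : F) ≠ 0) (m : ℕ)
    (W : Submodule F (Fin (2 * m) → F)) (hW : Module.finrank F W = m)
    (hQ : ∀ w ∈ W, ∑ i, w i ^ 2 = 0) : IsSquare ((-1 : F) ^ m) := by
  classical
  have hdot : ∀ w ∈ W, ∀ w' ∈ W, w ⬝ᵥ w' = 0 := by
    intro w hw w' hw'
    have h1 := hQ (w + w') (W.add_mem hw hw')
    have h3 := hQ w hw
    have h4 := hQ w' hw'
    have h5 : ∑ i, (w + w') i ^ 2 = ∑ i, w i ^ 2 + 2 * ∑ i, w i * w' i + ∑ i, w' i ^ 2 := by
      simp only [Pi.add_apply, Finset.mul_sum, ← Finset.sum_add_distrib]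
      apply Finset.sum_congr rfl
      intro i _
      ring
    rw [h5, h3, h4, zero_add, add_zero] at h1
    exact (mul_eq_zero.1 h1).resolve_left h2
  obtain ⟨K, hK⟩ := Submodule.exists_isCompl W
  have hKdim : Module.finrank F K = m := by
    have := Submodule.finrank_add_eq_of_isCompl hK
    rw [Module.finrank_fintype_fun_eq_card, Fintype.card_fin] at this
    omega
  obtain ⟨b, hb1⟩ : ∃ b : Module.Basis (Fin m ⊕ Fin m) F (Fin (2 * m) → F),
      ∀ i, b (Sum.inl i) ∈ W := by
    refine ⟨((Module.finBasisOfFinrankEq F W hW).prod (Module.finBasisOfFinrankEq F K hKdim)).map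
      (Submodule.prodEquivOfIsCompl W K hK), fun i => ?_⟩
    simp only [Module.Basis.map_apply, Submodule.coe_prodEquivOfIsCompl', Module.Basis.prod_apply,
      Sum.elim_inl, Function.comp_apply, LinearMap.inl_apply, Submodule.coe_zero, add_zero]
    exact Subtype.mem _
  obtain ⟨e, -⟩ : ∃ e : Fin m ⊕ Fin m ≃ Fin (2 * m), True :=
    ⟨finSumFinEquiv.trans (finCongr (by omega)), trivial⟩
  obtain ⟨P, hP⟩ : ∃ P : Matrix (Fin m ⊕ Fin m) (Fin m ⊕ Fin m) F, ∀ s t, P s t = b s (e t) :=
    ⟨Matrix.of (fun s t => b s (e t)), fun s t => rfl⟩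
  obtain ⟨G, hGdef⟩ : ∃ G : Matrix (Fin m ⊕ Fin m) (Fin m ⊕ Fin m) F, G = P * P.transpose := ⟨_, rfl⟩
  have hG : ∀ s t, G s t = b s ⬝ᵥ b t := by
    intro s t
    rw [hGdef, Matrix.mul_apply]
    simp only [Matrix.transpose_apply, hP, dotProduct]
    exact Fintype.sum_equiv e _ _ (fun _ => rfl)
  have hG11 : G.toBlocks₁₁ = 0 := by
    ext i j
    simp only [Matrix.toBlocks₁₁, Matrix.of_apply, hG, Matrix.zero_apply]
    exact hdot _ (hb1 i) _ (hb1 j)
  have hG21 : G.toBlocks₂₁ = G.toBlocks₁₂.transpose := by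
    ext i j
    simp only [Matrix.toBlocks₂₁, Matrix.toBlocks₁₂, Matrix.transpose_apply, Matrix.of_apply, hG]
    exact dotProduct_comm _ _
  have hGdet : G.det = (-1) ^ m * G.toBlocks₁₂.det ^ 2 := by
    rw [← det_zero_block G.toBlocks₁₂ G.toBlocks₂₂, ← hG21, ← hG11, Matrix.fromBlocks_toBlocks]
  have hPdet : G.det = P.det ^ 2 := by
    rw [hGdef, Matrix.det_mul, Matrix.det_transpose, sq]
  have hPunit : P.det ≠ 0 := by
    have hli : LinearIndependent F P.row := by
      have h1 := b.linearIndependent.map' (LinearMap.funLeft F F e)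
        (LinearMap.ker_eq_bot.2 (LinearMap.funLeft_injective_of_surjective F F _ e.surjective))
      have hrow : P.row = (LinearMap.funLeft F F e) ∘ b := by
        funext s t
        exact hP s t
      rw [hrow]
      exact h1
    have h3 := Matrix.linearIndependent_rows_iff_isUnit.1 hli
    exact ((Matrix.isUnit_iff_isUnit_det P).1 h3).ne_zero
  have hA : G.toBlocks₁₂.det ≠ 0 := by
    intro h0
    rw [hGdet, h0] at hPdet
    apply hPunit
    have : P.det ^ 2 = 0 := by rw [← hPdet]; ring
    exact pow_eq_zero_iff (two_ne_zero) |>.1 this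
  refine ⟨P.det / G.toBlocks₁₂.det, ?_⟩
  field_simp
  rw [← hPdet, hGdet]

theorem ti_of_blocks {F : Type*} [Field F] (m : ℕ) (κ : Type) [Fintype κ]
    (e : κ ≃ Fin (2 * m)) (n : Type) [Fintype n] (hn : Fintype.card n = m)
    (L : (n → F) →ₗ[F] (κ → F)) (hL : Function.Injective L)
    (hQ : ∀ c, ∑ k, L c k ^ 2 = 0) :
    ∃ W : Submodule F (Fin (2 * m) → F), Module.finrank F W = m ∧ ∀ w ∈ W, ∑ i, w i ^ 2 = 0 := by
  classical
  refine ⟨LinearMap.range ((LinearMap.funLeft F F e.symm) ∘ₗ L), ?_, ?_⟩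
  · rw [LinearMap.finrank_range_of_inj, Module.finrank_fintype_fun_eq_card, hn]
    exact (LinearMap.funLeft_injective_of_surjective F F _ e.symm.surjective).comp hL
  · rintro _ ⟨c, rfl⟩
    rw [← hQ c]
    exact Fintype.sum_equiv e.symm _ _ (fun i => rfl)

/-- Type of the orthonormal form: over a finite field of odd order q and for m ≥ 1, the quadratic form Σ_(i<2m) x_i² on F^(2m) admits an m-dimensional subspace on which it vanishes identically if and only if it is not the case that q ≡ 3 (mod 4) and m is odd. -/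
theorem result {F : Type*} [Field F] [Fintype F] (h2 : (2 : F) ≠ 0) (m : ℕ) (hm : 1 ≤ m) : (∃ W : Submodule F (Fin (2 * m) → F), Module.finrank F W = m ∧ ∀ w ∈ W, ∑ i, w i ^ 2 = 0) ↔ ¬ (Fintype.card F % 4 = 3 ∧ Odd m) := by
  classical
  have hF : ringChar F ≠ 2 := by
    intro h
    apply h2
    have := CharP.cast_eq_zero F (ringChar F)
    rw [h] at this
    exact_mod_cast this
  constructor
  · rintro ⟨W, hW, hQ⟩ ⟨h3, hodd⟩
    have hsq := no_ti h2 m W hW hQ
    rw [hodd.neg_one_pow] at hsq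
    exact (FiniteField.isSquare_neg_one_iff.1 hsq) h3
  · intro h
    by_cases h3 : Fintype.card F % 4 = 3
    · have heven : Even m := by
        rw [← Nat.not_odd_iff_even]
        exact fun ho => h ⟨h3, ho⟩
      obtain ⟨t, ht⟩ := heven
      obtain ⟨a, b, hab⟩ := Cfsg.Agent.S0756.rep_one hF (a := (-1 : F)) (c := (-1 : F))
        (by simp) (by simp)
      refine ti_of_blocks m (Fin t × Fin 4) (finProdFinEquiv.trans (finCongr (by omega)))
        (Fin t × Fin 2) (by simp; omega)
        (LinearMap.pi (fun k : Fin t × Fin 4 =>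
          (![1, 0, a, b] k.2) • LinearMap.proj (k.1, (0 : Fin 2)) +
          (![0, 1, -b, a] k.2) • LinearMap.proj (k.1, (1 : Fin 2)))) ?_ ?_
      · rw [injective_iff_map_eq_zero]
        intro c hc
        funext k
        obtain ⟨j, r⟩ := k
        have h0 := congrFun hc (j, 0)
        have h1 := congrFun hc (j, 1)
        simp at h0 h1
        fin_cases r
        · exact h0
        · exact h1
      · intro c
        rw [Fintype.sum_prod_type]
        apply Finset.sum_eq_zero
        intro j _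
        rw [Fin.sum_univ_four]
        simp
        linear_combination (-(c (j, 0)) ^ 2 - (c (j, 1)) ^ 2) * hab
    · obtain ⟨ι, hι⟩ := FiniteField.isSquare_neg_one_iff.2 h3
      refine ti_of_blocks m (Fin m × Fin 2) (finProdFinEquiv.trans (finCongr (by omega)))
        (Fin m) (by simp)
        (LinearMap.pi (fun k : Fin m × Fin 2 => (![1, ι] k.2) • LinearMap.proj k.1)) ?_ ?_
      · rw [injective_iff_map_eq_zero]
        intro c hc
        funext j
        have h0 := congrFun hc (j, 0)
        simp at h0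
        exact h0
      · intro c
        rw [Fintype.sum_prod_type]
        apply Finset.sum_eq_zero
        intro j _
        rw [Fin.sum_univ_two]
        simp
        linear_combination (-(c j) ^ 2) * hι

end Cfsg.Agent.S0759
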