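import Mathlib
import Cfsg.Statements.S0760

set_option autoImplicit false
open Cfsg

namespace Cfsg.Agent.S0760

theorem ts_polar {F V : Type*} [Field F] [AddCommGroup V] [Module F V] (Q : QuadraticForm F V)
    (W : Submodule F V) (h : ∀ w ∈ W, Q w = 0) :
    ∀ x ∈ W, ∀ y ∈ W, QuadraticMap.polarBilin Q x y = 0 := by
  intro x hx y hy
  rw [QuadraticMap.polarBilin_apply_apply, QuadraticMap.polar, h _ (W.add_mem hx hy), h x hx, h y hy]
  simp

theorem le_of_max {F V : Type*} [Field F] [AddCommGroup V] [Module F V] [FiniteDimensional F V]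
    (Q : QuadraticForm F V) (hQ : (QuadraticMap.polarBilin Q).Nondegenerate)
    (M N : Submodule F V) (hM : ∀ w ∈ M, Q w = 0) (hN : ∀ w ∈ N, Q w = 0)
    (hmax : ∀ W : Submodule F V, M ≤ W → (∀ w ∈ W, Q w = 0) → W = M) :
    Module.finrank F N ≤ Module.finrank F M := by
  have hK : N ⊓ (LinearMap.BilinForm.orthogonal (QuadraticMap.polarBilin Q) M) ≤ M ⊓ N := by
    have hsup : M ⊔ (N ⊓ (LinearMap.BilinForm.orthogonal (QuadraticMap.polarBilin Q) M)) = M := by
      apply hmax _ le_sup_left
      intro w hw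
      obtain ⟨m, hm, k, hk, rfl⟩ := Submodule.mem_sup.1 hw
      rw [QuadraticMap.map_add Q, hM m hm, hN k hk.1]
      have h0 : QuadraticMap.polar Q m k = 0 := hk.2 m hm
      rw [h0]; simp
    intro x hx
    refine ⟨?_, hx.1⟩
    rw [← hsup]
    exact Submodule.mem_sup_right hx
  have h1 : N ⊔ (LinearMap.BilinForm.orthogonal (QuadraticMap.polarBilin Q) M) ≤ (LinearMap.BilinForm.orthogonal (QuadraticMap.polarBilin Q) (M ⊓ N)) := by
    apply sup_le
    · intro n hn d hd
      exact ts_polar Q N hN d hd.2 n hn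
    · exact LinearMap.BilinForm.orthogonal_le inf_le_left
  have e1 := Submodule.finrank_sup_add_finrank_inf_eq N ((LinearMap.BilinForm.orthogonal (QuadraticMap.polarBilin Q) M))
  have e2 := LinearMap.BilinForm.finrank_orthogonal hQ M
  have e3 := LinearMap.BilinForm.finrank_orthogonal hQ (M ⊓ N)
  have e4 := Submodule.finrank_mono h1
  have e5 := Submodule.finrank_mono hK
  have e6 := Submodule.finrank_le M
  have e7 := Submodule.finrank_le (M ⊓ N)
  omega

/-- Witt index is well defined: if Q is a quadratic form on a finite-dimensional space V over a finite field with non-degenerate polar form, and W₁, W₂ are subspaces on which Q vanishes that are maximal with this property, then W₁ and W₂ have the same dimension, and twice this dimension is at most dim V. -/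
theorem result {F V : Type*} [Field F] [Finite F] [AddCommGroup V] [Module F V] [FiniteDimensional F V] (Q : QuadraticForm F V) (hQ : (QuadraticMap.polarBilin Q).Nondegenerate) (W₁ W₂ : Submodule F V) (h₁ : ∀ w ∈ W₁, Q w = 0) (h₂ : ∀ w ∈ W₂, Q w = 0) (hmax₁ : ∀ W : Submodule F V, W₁ ≤ W → (∀ w ∈ W, Q w = 0) → W = W₁) (hmax₂ : ∀ W : Submodule F V, W₂ ≤ W → (∀ w ∈ W, Q w = 0) → W = W₂) : Module.finrank F W₁ = Module.finrank F W₂ ∧ 2 * Module.finrank F W₁ ≤ Module.finrank F V := by
  refine ⟨le_antisymm (le_of_max Q hQ W₂ W₁ h₂ h₁ hmax₂) (le_of_max Q hQ W₁ W₂ h₁ h₂ hmax₁), ?_⟩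
  have h1 : W₁ ≤ (LinearMap.BilinForm.orthogonal (QuadraticMap.polarBilin Q) W₁) := by
    intro x hx y hy
    exact ts_polar Q W₁ h₁ y hy x hx
  have e1 := Submodule.finrank_mono h1
  have e2 := LinearMap.BilinForm.finrank_orthogonal hQ W₁
  have e3 := Submodule.finrank_le W₁
  omega

end Cfsg.Agent.S0760
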