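import Cfsg.Statements.S0761

set_option autoImplicit false
open Cfsg

namespace Cfsg.Agent.S0761

/-- Hyperbolic partners: let B be a non-degenerate bilinear form on a finite-dimensional space, either alternating, or symmetric with 2 ≠ 0. If Z is a subspace on which B vanishes, x ∉ Z is isotropic and orthogonal to Z, then there is an isotropic y with B x y = 1 which is orthogonal to Z. -/
theorem result {F V : Type*} [Field F] [AddCommGroup V] [Module F V] [FiniteDimensional F V] (B : LinearMap.BilinForm F V) (hB : B.Nondegenerate) (hform : B.IsAlt ∨ (B.IsSymm ∧ (2 : F) ≠ 0)) (x : V) (Z : Submodule F V) (hxZ : x ∉ Z) (hx : B x x = 0) (hxz : ∀ z ∈ Z, B x z = 0) (hZ : ∀ z ∈ Z, ∀ z' ∈ Z, B z z' = 0) : ∃ y : V, B y y = 0 ∧ B x y = 1 ∧ ∀ z ∈ Z, B z y = 0 := by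
  obtain ⟨φ, hφx, hφZ⟩ := Submodule.exists_dual_map_eq_bot_of_notMem hxZ inferInstance
  have hφz : ∀ z ∈ Z, φ z = 0 := by
    intro z hz
    have : φ z ∈ Z.map φ := Submodule.mem_map_of_mem hz
    rw [hφZ] at this
    simpa using this
  set f : Module.Dual F V := (φ x)⁻¹ • φ with hf
  have hfx : f x = 1 := by
    simp [hf, hφx]
  have hfz : ∀ z ∈ Z, f z = 0 := by
    intro z hz
    simp [hf, hφz z hz]
  set y0 : V := (B.toDual hB).symm f with hy0
  have hy0v : ∀ v, B y0 v = f v := fun v => LinearMap.BilinForm.apply_toDual_symm_apply f v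
  rcases hform with hA | ⟨hS, h2⟩
  · refine ⟨-y0, hA.self_eq_zero _, ?_, ?_⟩
    · rw [map_neg, hA.neg_eq, hy0v, hfx]
    · intro z hz
      rw [map_neg, hA.neg_eq, hy0v, hfz z hz]
  · have hsymm : ∀ u v, B u v = B v u := fun u v => hS.eq u v
    refine ⟨y0 - (B y0 y0 / 2) • x, ?_, ?_, ?_⟩
    · simp only [map_sub, map_smul, LinearMap.sub_apply, LinearMap.smul_apply, smul_eq_mul, hx, hy0v, hfx,
        hsymm x y0]
      field_simp
      ring
    · simp only [map_sub, map_smul, smul_eq_mul, hx, hsymm x y0, hy0v, hfx]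
      ring
    · intro z hz
      simp only [map_sub, map_smul, smul_eq_mul, hsymm z y0, hsymm z x, hxz z hz, hy0v, hfz z hz]
      ring

end Cfsg.Agent.S0761
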