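import Cfsg.Statements.S0762

set_option autoImplicit false
open Cfsg

namespace Cfsg.Agent.S0762

/-- In characteristic two over a finite field, a quadratic form on a space of dimension at least 3 vanishes on some non-zero vector. -/
theorem result {F V : Type*} [Field F] [Finite F] [CharP F 2] [AddCommGroup V] [Module F V] [FiniteDimensional F V] (Q : QuadraticForm F V) (h3 : 3 ≤ Module.finrank F V) : ∃ v : V, v ≠ 0 ∧ Q v = 0 := by
  have hnt : Nontrivial V := Module.nontrivial_of_finrank_pos (R := F) (by omega)
  obtain ⟨u, hu⟩ := exists_ne (0 : V)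
  by_cases hQu : Q u = 0
  · exact ⟨u, hu, hQu⟩
  set ℓ : V →ₗ[F] F := QuadraticMap.polarBilin Q u with hℓ
  have hrn := LinearMap.finrank_range_add_finrank_ker ℓ
  have hr : Module.finrank F (LinearMap.range ℓ) ≤ 1 := by
    have := Submodule.finrank_le (LinearMap.range ℓ)
    rwa [Module.finrank_self] at this
  have hk : 2 ≤ Module.finrank F (LinearMap.ker ℓ) := by omega
  have hnle : ¬ (LinearMap.ker ℓ ≤ Submodule.span F {u}) := by
    intro hle
    have h1 := Submodule.finrank_mono hle
    have h2 := finrank_span_singleton (K := F) hu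
    omega
  obtain ⟨w, hwk, hwu⟩ := SetLike.not_le_iff_exists.mp hnle
  have hpol : QuadraticMap.polar ⇑Q u w = 0 := by
    have := LinearMap.mem_ker.mp hwk
    rwa [hℓ, QuadraticMap.polarBilin_apply_apply] at this
  obtain ⟨a, ha⟩ := FiniteField.isSquare_of_char_two (ringChar.eq F 2) (Q w / Q u)
  refine ⟨a • u + w, ?_, ?_⟩
  · intro h0
    apply hwu
    have : w = (-a) • u := by
      rw [neg_smul]
      exact eq_neg_of_add_eq_zero_right h0
    rw [this]
    exact Submodule.smul_mem _ _ (Submodule.mem_span_singleton_self u)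
  · rw [QuadraticMap.map_add ⇑Q, QuadraticMap.map_smul, QuadraticMap.polar_smul_left, hpol, smul_eq_mul,
      smul_eq_mul, ← ha, mul_zero, add_zero, div_mul_cancel₀ _ hQu]
    exact CharTwo.add_self_eq_zero _

end Cfsg.Agent.S0762
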