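import Mathlib
import Cfsg.Statements.S0763

set_option autoImplicit false
open Cfsg

namespace Cfsg.Agent.S0763

/-- Binary quadratic forms in characteristic two over a finite field: if Q is a quadratic form on a 2-dimensional space whose polar form is non-degenerate, then either there are vectors v, w with Q v = Q w = 0 and polar value 1 (Q is xy in these coordinates), or there are v, w and μ with Q v = 1, Q w = μ, polar value 1 and x² + x + μ without roots in F (Q is x² + xy + μy²). -/
theorem result {F V : Type*} [Field F] [Finite F] [CharP F 2] [AddCommGroup V] [Module F V] (Q : QuadraticForm F V) (h2 : Module.finrank F V = 2) (hQ : (QuadraticMap.polarBilin Q).Nondegenerate) : (∃ v w : V, LinearIndependent F ![v, w] ∧ Q v = 0 ∧ Q w = 0 ∧ QuadraticMap.polar Q v w = 1) ∨ (∃ (v w : V) (μ : F), LinearIndependent F ![v, w] ∧ (∀ x : F, x ^ 2 + x + μ ≠ 0) ∧ Q v = 1 ∧ Q w = μ ∧ QuadraticMap.polar Q v w = 1) := by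
-----
  classical
  have hself : ∀ v : V, QuadraticMap.polar Q v v = 0 := by
    intro v
    rw [QuadraticMap.polar_self, two_smul]
    exact CharTwo.add_self_eq_zero _
  have hnt : Nontrivial V := by
    apply Module.nontrivial_of_finrank_pos (R := F); omega
  obtain ⟨v0, hv0⟩ := exists_ne (0 : V)
  have key : ∀ v : V, v ≠ 0 → ∃ w, QuadraticMap.polar Q v w = 1 := by
    intro v hv
    by_contra hcon
    push Not at hcon
    apply hv
    apply hQ.1 v
    intro y
    by_contra hy
    rw [QuadraticMap.polarBilin_apply_apply] at hy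
    apply hcon ((QuadraticMap.polar Q v y)⁻¹ • y)
    rw [QuadraticMap.polar_smul_right, smul_eq_mul, inv_mul_cancel₀ hy]
  have hli : ∀ v w : V, QuadraticMap.polar Q v w = 1 → LinearIndependent F ![v, w] := by
    intro v w h
    rw [LinearIndependent.pair_iff]
    intro s t hst
    have h1 : QuadraticMap.polar Q v (s • v + t • w) = 0 := by rw [hst]; simp
    rw [QuadraticMap.polar_add_right, QuadraticMap.polar_smul_right, QuadraticMap.polar_smul_right, hself, h] at h1
    simp only [smul_eq_mul, mul_zero, mul_one, zero_add] at h1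
    have h2 : QuadraticMap.polar Q (s • v + t • w) w = 0 := by rw [hst]; simp
    rw [QuadraticMap.polar_add_left, QuadraticMap.polar_smul_left, QuadraticMap.polar_smul_left, hself, h] at h2
    simp only [smul_eq_mul, mul_zero, mul_one, add_zero] at h2
    exact ⟨h2, h1⟩
  by_cases hiso : ∃ v : V, v ≠ 0 ∧ Q v = 0
  · left
    obtain ⟨v, hv, hQv⟩ := hiso
    obtain ⟨w, hw⟩ := key v hv
    have hp : QuadraticMap.polar Q v (w + Q w • v) = 1 := by
      rw [QuadraticMap.polar_add_right, QuadraticMap.polar_smul_right, hself, hw]; simp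
    refine ⟨v, w + Q w • v, hli _ _ hp, hQv, ?_, hp⟩
    rw [QuadraticMap.map_add Q, QuadraticMap.map_smul, hQv, QuadraticMap.polar_smul_right, QuadraticMap.polar_comm, hw]
    simp only [smul_eq_mul, mul_zero, mul_one, add_zero]
    exact CharTwo.add_self_eq_zero _
  · right
    push Not at hiso
    have hQv0 := hiso v0 hv0
    obtain ⟨c, hc⟩ := FiniteField.isSquare_of_char_two (F := F) (ringChar.eq F 2) (Q v0)
    have hc0 : c ≠ 0 := by
      rintro rfl
      simp at hc
      exact hQv0 hc
    have hv : c⁻¹ • v0 ≠ 0 := smul_ne_zero (inv_ne_zero hc0) hv0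
    have hQv : Q (c⁻¹ • v0) = 1 := by
      rw [QuadraticMap.map_smul, hc, smul_eq_mul]; field_simp
    obtain ⟨w, hw⟩ := key _ hv
    refine ⟨c⁻¹ • v0, w, Q w, hli _ w hw, ?_, hQv, rfl, hw⟩
    intro x hx
    have hli' := hli _ w hw
    have hne : x • (c⁻¹ • v0) + w ≠ 0 := by
      intro h0
      rw [LinearIndependent.pair_iff] at hli'
      have := hli' x 1 (by simpa using h0)
      exact one_ne_zero this.2
    apply hiso _ hne
    rw [QuadraticMap.map_add Q, QuadraticMap.map_smul, hQv, QuadraticMap.polar_smul_left, hw]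
    simp only [smul_eq_mul, mul_one]
    linear_combination hx

end Cfsg.Agent.S0763
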