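import Mathlib
import Cfsg.Statements.S0768
import Cfsg.Agent.Lib.Helper5.Symp

set_option autoImplicit false
open scoped LinearAlgebra.Projectivization
open Cfsg

namespace Cfsg.Agent.S0768

open Cfsg.Agent.Lib.Helper5 Matrix

section
variable {F : Type*} [Field F] (m : ℕ)

theorem toSp (A : Matrix.symplecticGroup (Fin m) F) :
    ∃ g : ↥(Cfsg.spGL m F), ∀ v : Fin m ⊕ Fin m → F,
      g • v = (A : Matrix (Fin m ⊕ Fin m) (Fin m ⊕ Fin m) F) *ᵥ v := by
  have h1 : (A : Matrix (Fin m ⊕ Fin m) (Fin m ⊕ Fin m) F) *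
      ((A⁻¹ : Matrix.symplecticGroup (Fin m) F) : Matrix (Fin m ⊕ Fin m) (Fin m ⊕ Fin m) F) = 1 := by
    have := congrArg Subtype.val (mul_inv_cancel A); exact this
  have h2 : ((A⁻¹ : Matrix.symplecticGroup (Fin m) F) : Matrix (Fin m ⊕ Fin m) (Fin m ⊕ Fin m) F) *
      (A : Matrix (Fin m ⊕ Fin m) (Fin m ⊕ Fin m) F) = 1 := by
    have := congrArg Subtype.val (inv_mul_cancel A); exact this
  refine ⟨⟨⟨A.1, (A⁻¹).1, h1, h2⟩, ?_⟩, fun v => rfl⟩
  intro u v
  exact sympForm_mulVec_of_mem m _ A.2 u v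

theorem mk_smul_eq (g : ↥(Cfsg.spGL m F)) (u u' : Fin m ⊕ Fin m → F) (hu : u ≠ 0) (hu' : u' ≠ 0) (a : F)
    (h : g • u = a • u') :
    g • Projectivization.mk F u hu = Projectivization.mk F u' hu' := by
  rw [Subgroup.smul_def, Projectivization.smul_mk, Projectivization.mk_eq_mk_iff']
  exact ⟨a, h.symm⟩

theorem blk {B : Set (ℙ F (Fin m ⊕ Fin m → F))} (hB : MulAction.IsBlock ↥(Cfsg.spGL m F) B)
    (g : ↥(Cfsg.spGL m F)) {x y : ℙ F (Fin m ⊕ Fin m → F)} (hx : x ∈ B) (hgx : g • x ∈ B) (hy : y ∈ B) :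
    g • y ∈ B := by
  have := hB.smul_eq_of_mem hx hgx
  rw [← this]
  exact Set.smul_mem_smul_set hy

theorem case1 {B : Set (ℙ F (Fin m ⊕ Fin m → F))} (hB : MulAction.IsBlock ↥(Cfsg.spGL m F) B)
    (p s : Fin m ⊕ Fin m → F) (hp : p ≠ 0) (hs : s ≠ 0) (hpB : Projectivization.mk F p hp ∈ B)
    (hsB : Projectivization.mk F s hs ∈ B) (hps : Cfsg.sympForm m F p s ≠ 0)
    (r : Fin m ⊕ Fin m → F) (hr : r ≠ 0) (hpr : Cfsg.sympForm m F p r ≠ 0) :
    Projectivization.mk F r hr ∈ B := by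
  obtain ⟨A, -, hAp, hAs⟩ := trans2 m p ((Cfsg.sympForm m F p s)⁻¹ • s) ((Cfsg.sympForm m F p r)⁻¹ • r)
    (by rw [sympForm_smul_right, inv_mul_cancel₀ hps]) (by rw [sympForm_smul_right, inv_mul_cancel₀ hpr])
  obtain ⟨g, hg⟩ := toSp m A
  have h1 : g • Projectivization.mk F p hp = Projectivization.mk F p hp :=
    mk_smul_eq m g p p hp hp 1 (by rw [hg, hAp, one_smul])
  have h2 : g • Projectivization.mk F s hs = Projectivization.mk F r hr := by
    apply mk_smul_eq m g s r hs hr ((Cfsg.sympForm m F p s) * (Cfsg.sympForm m F p r)⁻¹)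
    rw [hg]
    have h3 : (A : Matrix (Fin m ⊕ Fin m) (Fin m ⊕ Fin m) F) *ᵥ s = (Cfsg.sympForm m F p s) •
        ((A : Matrix (Fin m ⊕ Fin m) (Fin m ⊕ Fin m) F) *ᵥ ((Cfsg.sympForm m F p s)⁻¹ • s)) := by
      rw [Matrix.mulVec_smul, smul_smul, mul_inv_cancel₀ hps, one_smul]
    rw [h3, hAs, smul_smul]
  rw [← h2]
  exact blk m hB g hpB (by rw [h1]; exact hpB) hsB

theorem case1_univ {B : Set (ℙ F (Fin m ⊕ Fin m → F))} (hB : MulAction.IsBlock ↥(Cfsg.spGL m F) B)
    (p s : Fin m ⊕ Fin m → F) (hp : p ≠ 0) (hs : s ≠ 0) (hpB : Projectivization.mk F p hp ∈ B)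
    (hsB : Projectivization.mk F s hs ∈ B) (hps : Cfsg.sympForm m F p s ≠ 0) : B = Set.univ := by
  rw [Set.eq_univ_iff_forall]
  intro x
  obtain ⟨r, hr, rfl⟩ : ∃ (r : Fin m ⊕ Fin m → F) (hr : r ≠ 0), x = Projectivization.mk F r hr :=
    ⟨x.rep, x.rep_nonzero, (Projectivization.mk_rep x).symm⟩
  by_cases hpr : Cfsg.sympForm m F p r = 0
  · obtain ⟨a, ha⟩ := exists_sympForm_ne_zero m p hp
    obtain ⟨b, hb⟩ := exists_sympForm_ne_zero m r hr
    obtain ⟨z, hz1, hz2⟩ : ∃ z, Cfsg.sympForm m F p z ≠ 0 ∧ Cfsg.sympForm m F r z ≠ 0 := by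
      by_cases h1 : Cfsg.sympForm m F r a = 0
      · by_cases h2 : Cfsg.sympForm m F p b = 0
        · exact ⟨a + b, by rw [sympForm_add_right, h2, add_zero]; exact ha,
            by rw [sympForm_add_right, h1, zero_add]; exact hb⟩
        · exact ⟨b, h2, hb⟩
      · exact ⟨a, ha, h1⟩
    have hz0 : z ≠ 0 := by
      rintro rfl; exact hz1 (sympForm_zero_right m p)
    have hzB := case1 m hB p s hp hs hpB hsB hps z hz0 hz1
    have hzp : Cfsg.sympForm m F z p ≠ 0 := by
      rw [sympForm_swap]; exact neg_ne_zero.2 hz1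
    have hzr : Cfsg.sympForm m F z r ≠ 0 := by
      rw [sympForm_swap]; exact neg_ne_zero.2 hz2
    exact case1 m hB z p hz0 hp hzB hpB hzp r hr hzr
  · exact case1 m hB p s hp hs hpB hsB hps r hr hpr

end

/-- Primitivity: for m ≥ 1 and F finite, the symplectic group of the form sympForm (as a subgroup of the general linear group) acts primitively on the projective space of F^(2m). -/
theorem result {F : Type*} [Field F] [Finite F] (m : ℕ) (hm : 1 ≤ m) : MulAction.IsPreprimitive ↥(Cfsg.spGL m F) (ℙ F (Fin m ⊕ Fin m → F)) := by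
  classical
  haveI : MulAction.IsPretransitive ↥(Cfsg.spGL m F) (ℙ F (Fin m ⊕ Fin m → F)) := by
    constructor
    intro x y
    obtain ⟨u, hu, rfl⟩ : ∃ (r : Fin m ⊕ Fin m → F) (hr : r ≠ 0), x = Projectivization.mk F r hr :=
      ⟨x.rep, x.rep_nonzero, (Projectivization.mk_rep x).symm⟩
    obtain ⟨u', hu', rfl⟩ : ∃ (r : Fin m ⊕ Fin m → F) (hr : r ≠ 0), y = Projectivization.mk F r hr :=
      ⟨y.rep, y.rep_nonzero, (Projectivization.mk_rep y).symm⟩
    obtain ⟨A, -, hA⟩ := trans_vec m u u' hu hu'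
    obtain ⟨g, hg⟩ := toSp m A
    exact ⟨g, mk_smul_eq m g u u' hu hu' 1 (by rw [hg, hA, one_smul])⟩
  constructor
  intro B hB
  by_cases hsub : B.Subsingleton
  · exact Or.inl hsub
  · right
    rw [Set.not_subsingleton_iff] at hsub
    obtain ⟨x, hx, y, hy, hxy⟩ := hsub
    obtain ⟨p, hp, rfl⟩ : ∃ (r : Fin m ⊕ Fin m → F) (hr : r ≠ 0), x = Projectivization.mk F r hr :=
      ⟨x.rep, x.rep_nonzero, (Projectivization.mk_rep x).symm⟩
    obtain ⟨q, hq, rfl⟩ : ∃ (r : Fin m ⊕ Fin m → F) (hr : r ≠ 0), y = Projectivization.mk F r hr :=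
      ⟨y.rep, y.rep_nonzero, (Projectivization.mk_rep y).symm⟩
    by_cases hpq : Cfsg.sympForm m F p q = 0
    · obtain ⟨v, hv1, hv2⟩ : ∃ v, Cfsg.sympForm m F q v = 0 ∧ Cfsg.sympForm m F p v ≠ 0 := by
        by_contra hcon
        push Not at hcon
        obtain ⟨a, ha⟩ := exists_sympForm_ne_zero m q hq
        apply hxy
        rw [Projectivization.mk_eq_mk_iff']
        refine ⟨Cfsg.sympForm m F p a / Cfsg.sympForm m F q a, ?_⟩
        by_contra hne
        have hne' : p - (Cfsg.sympForm m F p a / Cfsg.sympForm m F q a) • q ≠ 0 :=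
          fun h => hne (sub_eq_zero.1 h).symm
        obtain ⟨w, hw⟩ := exists_sympForm_ne_zero m _ hne'
        apply hw
        have h1 := hcon (w - (Cfsg.sympForm m F q w / Cfsg.sympForm m F q a) • a) (by
          rw [sympForm_sub_right, sympForm_smul_right]; field_simp; ring)
        rw [sympForm_sub_right, sympForm_smul_right] at h1
        rw [sympForm_sub_left, sympForm_smul_left]
        field_simp at h1 ⊢
        linear_combination h1
      obtain ⟨g, hg⟩ := toSp m ⟨Cfsg.sympTransvection m v (Cfsg.sympForm m F p v)⁻¹,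
        Cfsg.Agent.S0764.result m v _⟩
      have hgq : g • q = q := by
        rw [hg]
        change Cfsg.sympTransvection m v _ *ᵥ q = q
        rw [sympTransvection_mulVec, hv1, mul_zero, zero_smul, add_zero]
      have hgp : g • p = p + v := by
        rw [hg]
        change Cfsg.sympTransvection m v _ *ᵥ p = p + v
        rw [sympTransvection_mulVec, inv_mul_cancel₀ hv2, one_smul]
      have hpv : Cfsg.sympForm m F p (p + v) ≠ 0 := by
        rw [sympForm_add_right, sympForm_self, zero_add]; exact hv2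
      have hpv0 : p + v ≠ 0 := by
        intro h
        rw [h, sympForm_zero_right] at hpv
        exact hpv rfl
      have h1 : g • Projectivization.mk F q hq = Projectivization.mk F q hq :=
        mk_smul_eq m g q q hq hq 1 (by rw [hgq, one_smul])
      have h2 : g • Projectivization.mk F p hp = Projectivization.mk F (p + v) hpv0 :=
        mk_smul_eq m g p (p + v) hp hpv0 1 (by rw [hgp, one_smul])
      have h3 : Projectivization.mk F (p + v) hpv0 ∈ B := by
        rw [← h2]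
        exact blk m hB g hy (by rw [h1]; exact hy) hx
      exact case1_univ m hB p (p + v) hp hpv0 hx h3 hpv
    · exact case1_univ m hB p q hp hq hx hy hpq

end Cfsg.Agent.S0768
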