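import Mathlib
import Cfsg.Statements.S0769

set_option autoImplicit false
open Cfsg

namespace Cfsg.Agent.S0769

open Matrix

theorem cardP {F : Type*} [Field F] [Fintype F] {q : ℕ} (hF : Fintype.card F = q) (n : ℕ)
    (i j : Fin n) :
    Nat.card {x : F // (i < j → x = 0) ∧ (i = j → x ≠ 0)} =
      (if j < i then q else 1) * (if j = i then q - 1 else 1) := by
  classical
  rcases lt_trichotomy i j with h | h | h
  · rw [if_neg (not_lt.2 h.le), if_neg h.ne', mul_one]
    rw [Nat.card_congr (Equiv.subtypeEquivRight (q := fun x : F => x = 0) (fun x => by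
      constructor
      · intro hx; exact hx.1 h
      · intro hx; exact ⟨fun _ => hx, fun h' => absurd h' h.ne⟩))]
    rw [Nat.card_eq_fintype_card, Fintype.card_subtype_eq]
  · subst h
    rw [if_neg (lt_irrefl _), if_pos rfl, one_mul]
    rw [Nat.card_congr (Equiv.subtypeEquivRight (q := fun x : F => ¬ x = 0) (fun x => by
      constructor
      · intro hx; exact hx.2 rfl
      · intro hx; exact ⟨fun h' => absurd h' (lt_irrefl _), fun _ => hx⟩))]
    rw [Nat.card_eq_fintype_card, Fintype.card_subtype_compl, Fintype.card_subtype_eq, hF]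
  · rw [if_pos h, if_neg h.ne, mul_one]
    rw [Nat.card_congr (Equiv.subtypeEquivRight (q := fun _ : F => True) (fun x => by
      constructor
      · intro _; trivial
      · intro _; exact ⟨fun h' => absurd h' (not_lt.2 h.le), fun h' => absurd h' h.ne'⟩))]
    rw [Nat.card_congr (Equiv.subtypeUnivEquiv (fun _ => trivial)), Nat.card_eq_fintype_card, hF]

theorem prod_inner (q n : ℕ) (i : Fin n) :
    ∏ j : Fin n, ((if j < i then q else 1) * (if j = i then q - 1 else 1)) =
      q ^ (i : ℕ) * (q - 1) := by
  classical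
  rw [Finset.prod_mul_distrib, Finset.prod_ite_eq' Finset.univ i (fun _ => q - 1),
    if_pos (Finset.mem_univ _), Finset.prod_ite, Finset.prod_const_one, mul_one,
    Finset.prod_const]
  congr 2
  have : (Finset.univ.filter (fun j : Fin n => j < i)) = Finset.Iio i := by
    ext j; simp
  rw [this, Fin.card_Iio]

/-- Order of the Borel subgroup of GL_n(q): the invertible lower-triangular n × n matrices over a field with q elements number q^(n(n-1)/2) (q-1)^n (unitriangular part times the diagonal torus). -/
theorem result {F : Type*} [Field F] [Fintype F] {q : ℕ} (hF : Fintype.card F = q) (n : ℕ) : Nat.card {g : Matrix.GeneralLinearGroup (Fin n) F // ∀ i j : Fin n, i < j → (g : Matrix (Fin n) (Fin n) F) i j = 0} = q ^ (n * (n - 1) / 2) * (q - 1) ^ n := by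
  classical
  have hdet : ∀ M : Matrix (Fin n) (Fin n) F, (∀ i j : Fin n, i < j → M i j = 0) →
      M.det = ∏ i, M i i := by
    intro M hM
    apply Matrix.det_of_isLowerTriangular
    intro i j hij
    exact hM i j hij
  have e1 : {g : Matrix.GeneralLinearGroup (Fin n) F //
        ∀ i j : Fin n, i < j → (g : Matrix (Fin n) (Fin n) F) i j = 0} ≃
      {M : Fin n → Fin n → F // ∀ i, ∀ j, (i < j → M i j = 0) ∧ (i = j → M i j ≠ 0)} := by
    refine Equiv.ofBijective (fun g => ⟨fun i j => (g.1 : Matrix (Fin n) (Fin n) F) i j, ?_⟩)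
      ⟨?_, ?_⟩
    · intro i j
      refine ⟨g.2 i j, ?_⟩
      rintro rfl
      have h1 : (g.1 : Matrix (Fin n) (Fin n) F).det ≠ 0 := by
        rw [← Matrix.GeneralLinearGroup.val_det_apply]
        exact Units.ne_zero _
      rw [hdet _ g.2] at h1
      exact (Finset.prod_ne_zero_iff.1 h1) i (Finset.mem_univ _)
    · intro g h hgh
      apply Subtype.ext
      apply Units.ext
      have := congrArg Subtype.val hgh
      exact this
    · rintro ⟨M, hM⟩
      have h1 : (Matrix.of M).det ≠ 0 := by
        rw [hdet (Matrix.of M) (fun i j hij => (hM i j).1 hij)]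
        exact Finset.prod_ne_zero_iff.2 (fun i _ => (hM i i).2 rfl)
      refine ⟨⟨Matrix.GeneralLinearGroup.mkOfDetNeZero (Matrix.of M) h1,
        fun i j hij => (hM i j).1 hij⟩, ?_⟩
      rfl
  have e2 : {M : Fin n → Fin n → F // ∀ i, ∀ j, (i < j → M i j = 0) ∧ (i = j → M i j ≠ 0)} ≃
      ∀ i : Fin n, ∀ j : Fin n, {x : F // (i < j → x = 0) ∧ (i = j → x ≠ 0)} :=
    (Equiv.subtypePiEquivPi (β := fun _ : Fin n => Fin n → F)
      (p := fun i r => ∀ j, (i < j → r j = 0) ∧ (i = j → r j ≠ 0))).trans
      (Equiv.piCongrRight fun i => Equiv.subtypePiEquivPi (β := fun _ : Fin n => F)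
      (p := fun j x => (i < j → x = 0) ∧ (i = j → x ≠ 0)))
  rw [Nat.card_congr (e1.trans e2), Nat.card_pi]
  simp only [Nat.card_pi, cardP hF, prod_inner]
  rw [Finset.prod_mul_distrib, Finset.prod_const, Finset.card_univ, Fintype.card_fin,
    Finset.prod_pow_eq_pow_sum, Fin.sum_univ_eq_sum_range (fun i => i) n, Finset.sum_range_id]

end Cfsg.Agent.S0769
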