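import Cfsg.Statements.S0770
-- import your own Cfsg.Agent.* helpers here

set_option autoImplicit false
open Cfsg

namespace Cfsg.Agent.S0770

/-- For a field with at least 3 elements, an invertible matrix normalises the subgroup of invertible diagonal matrices of GL_n if and only if it is monomial (exactly one non-zero entry in each row). -/
theorem result {F : Type*} [Field F] (hF : ∃ a : F, a ≠ 0 ∧ a ≠ 1) (n : ℕ) (g : Matrix.GeneralLinearGroup (Fin n) F) : g ∈ Subgroup.normalizer ((Units.map (Matrix.diagonalRingHom (Fin n) F).toMonoidHom).range : Subgroup (Matrix.GeneralLinearGroup (Fin n) F)) ↔ ∀ i : Fin n, ∃! j : Fin n, (g : Matrix (Fin n) (Fin n) F) i j ≠ 0 := by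
  classical
  obtain ⟨a, ha0, ha1⟩ := hF
  have mem_iff : ∀ h : Matrix.GeneralLinearGroup (Fin n) F,
      h ∈ ((Units.map (Matrix.diagonalRingHom (Fin n) F).toMonoidHom).range :
        Subgroup (Matrix.GeneralLinearGroup (Fin n) F)) ↔
      ∃ δ : Fin n → F, (∀ i, δ i ≠ 0) ∧ (h : Matrix (Fin n) (Fin n) F) = Matrix.diagonal δ := by
    intro h
    constructor
    · rintro ⟨u, rfl⟩
      refine ⟨(u : Fin n → F), fun i hi => ?_, rfl⟩
      have h1 : (u : Fin n → F) i * ((u⁻¹ : (Fin n → F)ˣ) : Fin n → F) i = 1 := by
        have := congrFun (Units.mul_inv u) i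
        simpa using this
      rw [hi, zero_mul] at h1
      exact zero_ne_one h1
    · rintro ⟨δ, hδ, hh⟩
      refine ⟨⟨δ, fun i => (δ i)⁻¹, ?_, ?_⟩, ?_⟩
      · ext i; simp [hδ i]
      · ext i; simp [hδ i]
      · apply Units.ext
        rw [hh]
        rfl
  have hG1 : (g : Matrix (Fin n) (Fin n) F) * ((g⁻¹ : Matrix.GeneralLinearGroup (Fin n) F) :
      Matrix (Fin n) (Fin n) F) = 1 := by
    rw [← Units.val_mul, mul_inv_cancel, Units.val_one]
  have hG2 : ((g⁻¹ : Matrix.GeneralLinearGroup (Fin n) F) : Matrix (Fin n) (Fin n) F) *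
      (g : Matrix (Fin n) (Fin n) F) = 1 := by
    rw [← Units.val_mul, inv_mul_cancel, Units.val_one]
  rw [Subgroup.mem_normalizer_iff]
  constructor
  · intro hnorm
    have claim : ∀ i k : Fin n, (g : Matrix (Fin n) (Fin n) F) i k ≠ 0 → ∀ j, j ≠ k →
        (g : Matrix (Fin n) (Fin n) F) i j = 0 := by
      intro i k hik j hjk
      have hd : ∃ d : Matrix.GeneralLinearGroup (Fin n) F,
          (d : Matrix (Fin n) (Fin n) F) = Matrix.diagonal (fun l => if l = k then a else 1) ∧
          d ∈ ((Units.map (Matrix.diagonalRingHom (Fin n) F).toMonoidHom).range :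
            Subgroup (Matrix.GeneralLinearGroup (Fin n) F)) := by
        have hne : ∀ l : Fin n, (fun l => if l = k then a else (1 : F)) l ≠ 0 := by
          intro l
          by_cases hl : l = k
          · simp [hl, ha0]
          · simp [hl]
        refine ⟨Units.map (Matrix.diagonalRingHom (Fin n) F).toMonoidHom
          ⟨fun l => if l = k then a else 1, fun l => (if l = k then a else 1)⁻¹, ?_, ?_⟩, rfl, ⟨_, rfl⟩⟩
        · ext l; exact mul_inv_cancel₀ (hne l)
        · ext l; exact inv_mul_cancel₀ (hne l)
      obtain ⟨d, hd, hdD⟩ := hd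
      obtain ⟨δ', _, hδ'⟩ := (mem_iff _).mp ((hnorm d).mp hdD)
      have e : (g : Matrix (Fin n) (Fin n) F) * Matrix.diagonal (fun l => if l = k then a else 1) =
          Matrix.diagonal δ' * (g : Matrix (Fin n) (Fin n) F) := by
        rw [← hδ', Units.val_mul, Units.val_mul, hd, Matrix.mul_assoc, hG2, Matrix.mul_one]
      have e1 := congrFun (congrFun e i) k
      have e2 := congrFun (congrFun e i) j
      rw [Matrix.mul_diagonal, Matrix.diagonal_mul] at e1 e2
      simp only [if_true] at e1
      rw [if_neg hjk, mul_one] at e2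
      have h3 : δ' i = a := by
        have : (g : Matrix (Fin n) (Fin n) F) i k * a = (g : Matrix (Fin n) (Fin n) F) i k * δ' i := by
          rw [e1, mul_comm]
        exact (mul_left_cancel₀ hik this).symm
      rw [h3] at e2
      by_contra hij
      have : (1 : F) * (g : Matrix (Fin n) (Fin n) F) i j = a * (g : Matrix (Fin n) (Fin n) F) i j := by
        rw [one_mul]; exact e2
      exact ha1 (mul_right_cancel₀ hij this).symm
    intro i
    have hex : ∃ j, (g : Matrix (Fin n) (Fin n) F) i j ≠ 0 := by
      by_contra hcon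
      push_neg at hcon
      have h1 := congrFun (congrFun hG1 i) i
      rw [Matrix.mul_apply, Matrix.one_apply_eq] at h1
      rw [Finset.sum_eq_zero (fun j _ => by rw [hcon j, zero_mul])] at h1
      exact zero_ne_one h1
    obtain ⟨j, hj⟩ := hex
    refine ⟨j, hj, fun j' hj' => ?_⟩
    by_contra hne
    exact hj' (claim i j hj j' hne)
  · intro hmono
    choose σ hσ hσu using hmono
    have hsum : ∀ i l : Fin n, (g : Matrix (Fin n) (Fin n) F) i (σ i) *
        ((g⁻¹ : Matrix.GeneralLinearGroup (Fin n) F) : Matrix (Fin n) (Fin n) F) (σ i) l =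
        (1 : Matrix (Fin n) (Fin n) F) i l := by
      intro i l
      rw [← hG1, Matrix.mul_apply]
      symm
      apply Finset.sum_eq_single (σ i)
      · intro j _ hj
        have : (g : Matrix (Fin n) (Fin n) F) i j = 0 := by
          by_contra h
          exact hj (hσu i j h)
        rw [this, zero_mul]
      · intro h; exact absurd (Finset.mem_univ _) h
    have hinj : Function.Injective σ := by
      intro i i' hii
      by_contra hne
      have h1 := hsum i' i'
      rw [Matrix.one_apply_eq] at h1
      have h2 := hsum i i'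
      rw [Matrix.one_apply_ne hne] at h2
      rw [hii] at h2
      rcases mul_eq_zero.mp h2 with h3 | h3
      · rw [← hii] at h3; exact hσ i h3
      · rw [h3, mul_zero] at h1
        exact zero_ne_one h1
    have hbij : Function.Bijective σ := Finite.injective_iff_bijective.mp hinj
    have key : ∀ δ δ' : Fin n → F, (∀ i, δ (σ i) = δ' i) →
        (g : Matrix (Fin n) (Fin n) F) * Matrix.diagonal δ =
          Matrix.diagonal δ' * (g : Matrix (Fin n) (Fin n) F) := by
      intro δ δ' h
      ext i j
      rw [Matrix.mul_diagonal, Matrix.diagonal_mul]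
      by_cases hij : (g : Matrix (Fin n) (Fin n) F) i j = 0
      · rw [hij, zero_mul, mul_zero]
      · rw [hσu i j hij, h i, mul_comm]
    intro h
    constructor
    · intro hh
      obtain ⟨δ, hδ, hhδ⟩ := (mem_iff h).mp hh
      refine (mem_iff _).mpr ⟨fun i => δ (σ i), fun i => hδ _, ?_⟩
      rw [Units.val_mul, Units.val_mul, hhδ, key δ (fun i => δ (σ i)) (fun i => rfl), Matrix.mul_assoc,
        hG1, Matrix.mul_one]
    · intro hh
      obtain ⟨δ', hδ', hhδ'⟩ := (mem_iff _).mp hh
      refine (mem_iff h).mpr ⟨fun j => δ' ((Equiv.ofBijective σ hbij).symm j), fun j => hδ' _, ?_⟩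
      have e1 : (g : Matrix (Fin n) (Fin n) F) * (h : Matrix (Fin n) (Fin n) F) =
          Matrix.diagonal δ' * (g : Matrix (Fin n) (Fin n) F) := by
        rw [← hhδ', Units.val_mul, Units.val_mul, Matrix.mul_assoc, hG2, Matrix.mul_one]
      have e2 := key (fun j => δ' ((Equiv.ofBijective σ hbij).symm j)) δ' (fun i => by
        show δ' ((Equiv.ofBijective σ hbij).symm (σ i)) = δ' i
        rw [Equiv.ofBijective_symm_apply_apply])
      have e3 : (g : Matrix (Fin n) (Fin n) F) * (h : Matrix (Fin n) (Fin n) F) =
          (g : Matrix (Fin n) (Fin n) F) *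
            Matrix.diagonal (fun j => δ' ((Equiv.ofBijective σ hbij).symm j)) := by
        rw [e1, e2]
      have e4 := congrArg (fun X => ((g⁻¹ : Matrix.GeneralLinearGroup (Fin n) F) :
        Matrix (Fin n) (Fin n) F) * X) e3
      simp only [← Matrix.mul_assoc, hG2, Matrix.one_mul] at e4
      exact e4

end Cfsg.Agent.S0770
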