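import Mathlib
import Cfsg.Statements.S0771

set_option autoImplicit false
open Cfsg

namespace Cfsg.Agent.S0771

open Matrix

section
variable {F : Type*} [Field F] (n k : ℕ)

/-- index equivalence `Fin k ⊕ Fin (n - k) ≃ Fin n` -/
def eqv (hk : k ≤ n) : Fin k ⊕ Fin (n - k) ≃ Fin n :=
  finSumFinEquiv.trans (finCongr (by omega))

theorem eqv_inl (hk : k ≤ n) (a : Fin k) : ((eqv n k hk (Sum.inl a) : Fin n) : ℕ) = a := by
  simp [eqv]

theorem eqv_inr (hk : k ≤ n) (b : Fin (n - k)) : ((eqv n k hk (Sum.inr b) : Fin n) : ℕ) = k + b := by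
  simp [eqv]

theorem mem_S_iff (hk : k ≤ n) (v : Fin n → F) :
    v ∈ {v : Fin n → F | ∀ i : Fin n, k ≤ (i : ℕ) → v i = 0} ↔
      ∀ b : Fin (n - k), v (eqv n k hk (Sum.inr b)) = 0 := by
  constructor
  · intro h b
    apply h
    rw [eqv_inr]; omega
  · intro h i hi
    obtain ⟨x, rfl⟩ := (eqv n k hk).surjective i
    rcases x with a | b
    · rw [eqv_inl] at hi
      exact absurd hi (by have := a.2; omega)
    · exact h b

/-- the block upper triangular matrix -/
def blk (hk : k ≤ n) (A : Matrix (Fin k) (Fin k) F) (B : Matrix (Fin k) (Fin (n - k)) F)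
    (D : Matrix (Fin (n - k)) (Fin (n - k)) F) : Matrix (Fin n) (Fin n) F :=
  (fromBlocks A B 0 D).submatrix (eqv n k hk).symm (eqv n k hk).symm

theorem det_blk (hk : k ≤ n) (A : Matrix (Fin k) (Fin k) F) (B : Matrix (Fin k) (Fin (n - k)) F)
    (D : Matrix (Fin (n - k)) (Fin (n - k)) F) : (blk n k hk A B D).det = A.det * D.det := by
  unfold blk
  rw [det_submatrix_equiv_self, det_fromBlocks_zero₂₁]

theorem blk_mulVec_inr (hk : k ≤ n) (A : Matrix (Fin k) (Fin k) F) (B : Matrix (Fin k) (Fin (n - k)) F)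
    (D : Matrix (Fin (n - k)) (Fin (n - k)) F) (v : Fin n → F) (b : Fin (n - k)) :
    (blk n k hk A B D *ᵥ v) (eqv n k hk (Sum.inr b)) =
      (D *ᵥ (fun b' => v (eqv n k hk (Sum.inr b')))) b := by
  unfold blk
  rw [submatrix_mulVec_equiv]
  simp only [Function.comp_apply, Equiv.symm_apply_apply, Equiv.symm_symm]
  have hv : (v ∘ (eqv n k hk)) = Sum.elim (fun a => v (eqv n k hk (Sum.inl a)))
      (fun b' => v (eqv n k hk (Sum.inr b'))) := by
    ext x
    rcases x with a | b' <;> rfl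
  rw [hv, fromBlocks_mulVec]
  simp

theorem blk_mem (hk : k ≤ n) (A : Matrix (Fin k) (Fin k) F) (B : Matrix (Fin k) (Fin (n - k)) F)
    (D : Matrix (Fin (n - k)) (Fin (n - k)) F) (hD : IsUnit D) (v : Fin n → F) :
    v ∈ {v : Fin n → F | ∀ i : Fin n, k ≤ (i : ℕ) → v i = 0} ↔
    blk n k hk A B D *ᵥ v ∈ {v : Fin n → F | ∀ i : Fin n, k ≤ (i : ℕ) → v i = 0} := by
  rw [mem_S_iff n k hk, mem_S_iff n k hk]
  have hinj := Matrix.mulVec_injective_iff_isUnit.2 hD
  constructor
  · intro h b
    rw [blk_mulVec_inr]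
    have : (fun b' => v (eqv n k hk (Sum.inr b'))) = 0 := funext h
    rw [this, mulVec_zero]; rfl
  · intro h b
    have h2 : D *ᵥ (fun b' => v (eqv n k hk (Sum.inr b'))) = D *ᵥ 0 := by
      rw [mulVec_zero]
      ext b'
      rw [← blk_mulVec_inr n k hk A B D v b']
      exact h b'
    exact congrFun (hinj h2) b

end

/-- Maximal parabolic of GL_n(q): the stabiliser of the coordinate subspace spanned by the first k basis vectors has order q^(k(n-k)) · |GL_k(q)| · |GL_(n-k)(q)| (unipotent radical of order q^(k(n-k)) and Levi complement GL_k × GL_(n-k)). -/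
theorem result {F : Type*} [Field F] [Fintype F] {q : ℕ} (hF : Fintype.card F = q) (n k : ℕ) (hk : k ≤ n) : Nat.card ↥(Cfsg.stabilizing (Cfsg.glToMat (Fin n) F) {v : Fin n → F | ∀ i : Fin n, k ≤ (i : ℕ) → v i = 0}) = q ^ (k * (n - k)) * (∏ i : Fin k, (q ^ k - q ^ (i : ℕ))) * ∏ i : Fin (n - k), (q ^ (n - k) - q ^ (i : ℕ)) := by
  classical
  subst hF
  have hcard : Nat.card ↥(Cfsg.stabilizing (Cfsg.glToMat (Fin n) F)
      {v : Fin n → F | ∀ i : Fin n, k ≤ (i : ℕ) → v i = 0}) =
      Nat.card (GL (Fin k) F × GL (Fin (n - k)) F × Matrix (Fin k) (Fin (n - k)) F) := by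
    have hunit : ∀ x : GL (Fin k) F × GL (Fin (n - k)) F × Matrix (Fin k) (Fin (n - k)) F,
        IsUnit (blk n k hk (x.1 : Matrix (Fin k) (Fin k) F) x.2.2
          (x.2.1 : Matrix (Fin (n - k)) (Fin (n - k)) F)).det := by
      intro x
      rw [det_blk]
      exact ((Matrix.isUnit_iff_isUnit_det _).1 x.1.isUnit).mul
        ((Matrix.isUnit_iff_isUnit_det _).1 x.2.1.isUnit)
    have hval : ∀ x : GL (Fin k) F × GL (Fin (n - k)) F × Matrix (Fin k) (Fin (n - k)) F,
        ((Matrix.GeneralLinearGroup.mk'' _ (hunit x) : GL (Fin n) F) : Matrix (Fin n) (Fin n) F) =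
          blk n k hk (x.1 : Matrix (Fin k) (Fin k) F) x.2.2
          (x.2.1 : Matrix (Fin (n - k)) (Fin (n - k)) F) := fun x => rfl
    have hmem : ∀ x : GL (Fin k) F × GL (Fin (n - k)) F × Matrix (Fin k) (Fin (n - k)) F,
        (Matrix.GeneralLinearGroup.mk'' _ (hunit x) : GL (Fin n) F) ∈
          Cfsg.stabilizing (Cfsg.glToMat (Fin n) F)
            {v : Fin n → F | ∀ i : Fin n, k ≤ (i : ℕ) → v i = 0} := by
      intro x v
      show _ ↔ ((Matrix.GeneralLinearGroup.mk'' _ (hunit x) : GL (Fin n) F) :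
        Matrix (Fin n) (Fin n) F) *ᵥ v ∈ _
      rw [hval]
      exact blk_mem n k hk _ _ _ x.2.1.isUnit v
    symm
    apply Nat.card_congr
    apply Equiv.ofBijective (fun x => (⟨Matrix.GeneralLinearGroup.mk'' _ (hunit x), hmem x⟩ :
      ↥(Cfsg.stabilizing (Cfsg.glToMat (Fin n) F)
        {v : Fin n → F | ∀ i : Fin n, k ≤ (i : ℕ) → v i = 0})))
    constructor
    · rintro ⟨A, D, B⟩ ⟨A', D', B'⟩ h
      have h1 : blk n k hk (A : Matrix (Fin k) (Fin k) F) B (D : Matrix (Fin (n - k)) (Fin (n - k)) F) =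
          blk n k hk (A' : Matrix (Fin k) (Fin k) F) B' (D' : Matrix (Fin (n - k)) (Fin (n - k)) F) :=
        congrArg (fun g : ↥(Cfsg.stabilizing (Cfsg.glToMat (Fin n) F)
          {v : Fin n → F | ∀ i : Fin n, k ≤ (i : ℕ) → v i = 0}) =>
            ((g : GL (Fin n) F) : Matrix (Fin n) (Fin n) F)) h
      have h2 := congrArg (fun M : Matrix (Fin n) (Fin n) F => M.submatrix (eqv n k hk) (eqv n k hk)) h1
      simp only [blk, submatrix_submatrix, Equiv.symm_comp_self, submatrix_id_id] at h2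
      rw [fromBlocks_inj] at h2
      obtain ⟨hA, hB, -, hD⟩ := h2
      have hA' : A = A' := Units.ext hA
      have hD' : D = D' := Units.ext hD
      rw [hA', hB, hD']
    · rintro ⟨g, hg⟩
      -- blocks of g
      have hM : (g : Matrix (Fin n) (Fin n) F).submatrix (eqv n k hk) (eqv n k hk) =
          fromBlocks ((g : Matrix (Fin n) (Fin n) F).submatrix (eqv n k hk) (eqv n k hk)).toBlocks₁₁
            ((g : Matrix (Fin n) (Fin n) F).submatrix (eqv n k hk) (eqv n k hk)).toBlocks₁₂ 0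
            ((g : Matrix (Fin n) (Fin n) F).submatrix (eqv n k hk) (eqv n k hk)).toBlocks₂₂ := by
        conv_lhs => rw [← fromBlocks_toBlocks ((g : Matrix (Fin n) (Fin n) F).submatrix (eqv n k hk) (eqv n k hk))]
        congr 1
        ext b a
        simp only [toBlocks₂₁, submatrix_apply, of_apply, Matrix.zero_apply]
        have hv : (Pi.single (eqv n k hk (Sum.inl a)) 1 : Fin n → F) ∈
            {v : Fin n → F | ∀ i : Fin n, k ≤ (i : ℕ) → v i = 0} := by
          intro i hi
          apply Pi.single_eq_of_ne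
          intro hcon
          rw [hcon, eqv_inl] at hi
          have := a.2
          omega
        have h3 := (hg _).1 hv
        have h4 := h3 (eqv n k hk (Sum.inr b)) (by rw [eqv_inr]; omega)
        have h5 : ((g : GL (Fin n) F) : Matrix (Fin n) (Fin n) F) *ᵥ
            (Pi.single (eqv n k hk (Sum.inl a)) 1) = _ := mulVec_single_one _ _
        have h6 : (((g : GL (Fin n) F) : Matrix (Fin n) (Fin n) F) *ᵥ
            (Pi.single (eqv n k hk (Sum.inl a)) 1)) (eqv n k hk (Sum.inr b)) = 0 := h4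
        rw [h5] at h6
        exact h6
      have hdet : ((g : Matrix (Fin n) (Fin n) F).submatrix (eqv n k hk) (eqv n k hk)).det =
          (g : Matrix (Fin n) (Fin n) F).det := det_submatrix_equiv_self _ _
      have hgu : IsUnit (g : Matrix (Fin n) (Fin n) F).det :=
        (Matrix.isUnit_iff_isUnit_det _).1 g.isUnit
      rw [← hdet, hM, det_fromBlocks_zero₂₁, IsUnit.mul_iff] at hgu
      refine ⟨(Matrix.GeneralLinearGroup.mk'' _ hgu.1, Matrix.GeneralLinearGroup.mk'' _ hgu.2,
        ((g : Matrix (Fin n) (Fin n) F).submatrix (eqv n k hk) (eqv n k hk)).toBlocks₁₂), ?_⟩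
      apply Subtype.ext
      apply Units.ext
      show blk n k hk _ _ _ = (g : Matrix (Fin n) (Fin n) F)
      unfold blk
      have h7 : (fromBlocks ((g : Matrix (Fin n) (Fin n) F).submatrix (eqv n k hk) (eqv n k hk)).toBlocks₁₁
            ((g : Matrix (Fin n) (Fin n) F).submatrix (eqv n k hk) (eqv n k hk)).toBlocks₁₂ 0
            ((g : Matrix (Fin n) (Fin n) F).submatrix (eqv n k hk) (eqv n k hk)).toBlocks₂₂) =
            (g : Matrix (Fin n) (Fin n) F).submatrix (eqv n k hk) (eqv n k hk) := hM.symm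
      show (fromBlocks _ _ 0 _).submatrix _ _ = _
      erw [h7]
      simp only [submatrix_submatrix, Equiv.self_comp_symm, submatrix_id_id]
  rw [hcard, Nat.card_prod, Nat.card_prod, Matrix.card_GL_field, Matrix.card_GL_field]
  have hmat : Nat.card (Matrix (Fin k) (Fin (n - k)) F) = Fintype.card F ^ (k * (n - k)) := by
    show Nat.card (Fin k → Fin (n - k) → F) = _
    rw [Nat.card_fun, Nat.card_fun, Nat.card_eq_fintype_card, Nat.card_eq_fintype_card,
      Nat.card_eq_fintype_card, Fintype.card_fin, Fintype.card_fin, ← pow_mul, mul_comm]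
  rw [hmat]
  ring

end Cfsg.Agent.S0771
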