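import Mathlib
import Cfsg.Statements.S0773
import Cfsg.Agent.S0771
import Cfsg.Agent.S0839

set_option autoImplicit false
open Cfsg

namespace Cfsg.Agent.S0773

open Matrix

section
variable {F : Type*} [Field F] (n k : ℕ)

theorem mem_stab_iff (hk : k ≤ n) (g : GL (Fin n) F) :
    g ∈ Cfsg.stabilizing (Cfsg.glToMat (Fin n) F)
      {v : Fin n → F | ∀ i : Fin n, k ≤ (i : ℕ) → v i = 0} ↔
    ∀ i j : Fin n, k ≤ (i : ℕ) → (j : ℕ) < k → (g : Matrix (Fin n) (Fin n) F) i j = 0 := by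
  constructor
  · intro hg i j hi hj
    have hv : (Pi.single j 1 : Fin n → F) ∈
        {v : Fin n → F | ∀ i : Fin n, k ≤ (i : ℕ) → v i = 0} := by
      intro i' hi'
      apply Pi.single_eq_of_ne
      intro hcon
      rw [hcon] at hi'
      omega
    have h3 := (hg _).1 hv
    have h6 : (((g : GL (Fin n) F) : Matrix (Fin n) (Fin n) F) *ᵥ (Pi.single j 1)) i = 0 := h3 i hi
    rw [mulVec_single_one] at h6
    exact h6
  · intro h
    have hM : (g : Matrix (Fin n) (Fin n) F).submatrix (Cfsg.Agent.S0771.eqv n k hk) (Cfsg.Agent.S0771.eqv n k hk) =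
        fromBlocks ((g : Matrix (Fin n) (Fin n) F).submatrix (Cfsg.Agent.S0771.eqv n k hk) (Cfsg.Agent.S0771.eqv n k hk)).toBlocks₁₁
          ((g : Matrix (Fin n) (Fin n) F).submatrix (Cfsg.Agent.S0771.eqv n k hk) (Cfsg.Agent.S0771.eqv n k hk)).toBlocks₁₂ 0
          ((g : Matrix (Fin n) (Fin n) F).submatrix (Cfsg.Agent.S0771.eqv n k hk) (Cfsg.Agent.S0771.eqv n k hk)).toBlocks₂₂ := by
      conv_lhs => rw [← fromBlocks_toBlocks ((g : Matrix (Fin n) (Fin n) F).submatrix (Cfsg.Agent.S0771.eqv n k hk) (Cfsg.Agent.S0771.eqv n k hk))]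
      congr 1
      ext b a
      simp only [toBlocks₂₁, submatrix_apply, of_apply, Matrix.zero_apply]
      apply h
      · rw [Cfsg.Agent.S0771.eqv_inr]; omega
      · rw [Cfsg.Agent.S0771.eqv_inl]; exact a.2
    have hdet : ((g : Matrix (Fin n) (Fin n) F).submatrix (Cfsg.Agent.S0771.eqv n k hk) (Cfsg.Agent.S0771.eqv n k hk)).det =
        (g : Matrix (Fin n) (Fin n) F).det := det_submatrix_equiv_self _ _
    have hgu : IsUnit (g : Matrix (Fin n) (Fin n) F).det :=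
      (Matrix.isUnit_iff_isUnit_det _).1 g.isUnit
    rw [← hdet, hM, det_fromBlocks_zero₂₁, IsUnit.mul_iff] at hgu
    have hD := (Matrix.isUnit_iff_isUnit_det _).2 hgu.2
    have hg : (g : Matrix (Fin n) (Fin n) F) = Cfsg.Agent.S0771.blk n k hk
        ((g : Matrix (Fin n) (Fin n) F).submatrix (Cfsg.Agent.S0771.eqv n k hk) (Cfsg.Agent.S0771.eqv n k hk)).toBlocks₁₁
        ((g : Matrix (Fin n) (Fin n) F).submatrix (Cfsg.Agent.S0771.eqv n k hk) (Cfsg.Agent.S0771.eqv n k hk)).toBlocks₁₂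
        ((g : Matrix (Fin n) (Fin n) F).submatrix (Cfsg.Agent.S0771.eqv n k hk) (Cfsg.Agent.S0771.eqv n k hk)).toBlocks₂₂ := by
      unfold Cfsg.Agent.S0771.blk
      rw [← hM]
      simp only [submatrix_submatrix, Equiv.self_comp_symm, submatrix_id_id]
    intro v
    show _ ↔ (g : Matrix (Fin n) (Fin n) F) *ᵥ v ∈ _
    rw [hg]
    exact Cfsg.Agent.S0771.blk_mem n k hk _ _ _ hD v

/-- inverse transpose as an automorphism of the general linear group -/
def invT : GL (Fin n) F ≃* GL (Fin n) F where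
  toFun g := ⟨((g⁻¹ : GL (Fin n) F) : Matrix (Fin n) (Fin n) F)ᵀ, (g : Matrix (Fin n) (Fin n) F)ᵀ,
    by rw [← transpose_mul, Units.mul_inv, transpose_one],
    by rw [← transpose_mul, Units.inv_mul, transpose_one]⟩
  invFun g := ⟨((g⁻¹ : GL (Fin n) F) : Matrix (Fin n) (Fin n) F)ᵀ, (g : Matrix (Fin n) (Fin n) F)ᵀ,
    by rw [← transpose_mul, Units.mul_inv, transpose_one],
    by rw [← transpose_mul, Units.inv_mul, transpose_one]⟩
  left_inv g := by
    apply Units.ext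
    show (((g : Matrix (Fin n) (Fin n) F)ᵀ)ᵀ) = _
    rw [transpose_transpose]
  right_inv g := by
    apply Units.ext
    show (((g : Matrix (Fin n) (Fin n) F)ᵀ)ᵀ) = _
    rw [transpose_transpose]
  map_mul' g h := by
    apply Units.ext
    show (((g * h)⁻¹ : GL (Fin n) F) : Matrix (Fin n) (Fin n) F)ᵀ =
      ((g⁻¹ : GL (Fin n) F) : Matrix (Fin n) (Fin n) F)ᵀ * ((h⁻¹ : GL (Fin n) F) : Matrix (Fin n) (Fin n) F)ᵀ
    rw [_root_.mul_inv_rev, Units.val_mul, transpose_mul]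

theorem invT_apply (g : GL (Fin n) F) (i j : Fin n) :
    ((invT n g : GL (Fin n) F) : Matrix (Fin n) (Fin n) F) i j =
      ((g⁻¹ : GL (Fin n) F) : Matrix (Fin n) (Fin n) F) j i := rfl

/-- conjugation by the reversal permutation -/
def rv : GL (Fin n) F ≃* GL (Fin n) F :=
  Units.mapEquiv (Matrix.reindexAlgEquiv F F (Fin.revPerm (n := n))).toMulEquiv

theorem rv_apply (g : GL (Fin n) F) (i j : Fin n) :
    ((rv n g : GL (Fin n) F) : Matrix (Fin n) (Fin n) F) i j =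
      (g : Matrix (Fin n) (Fin n) F) (Fin.rev i) (Fin.rev j) := rfl

theorem theta_mem (hk : k ≤ n) (g : GL (Fin n) F) :
    g ∈ Cfsg.stabilizing (Cfsg.glToMat (Fin n) F)
      {v : Fin n → F | ∀ i : Fin n, k ≤ (i : ℕ) → v i = 0} ↔
    rv n (invT n g) ∈ Cfsg.stabilizing (Cfsg.glToMat (Fin n) F)
      {v : Fin n → F | ∀ i : Fin n, n - k ≤ (i : ℕ) → v i = 0} := by
  rw [← inv_mem_iff, mem_stab_iff n k hk, mem_stab_iff n (n - k) (Nat.sub_le n k)]
  constructor
  · intro h i j hi hj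
    rw [rv_apply, invT_apply]
    apply h
    · rw [Fin.val_rev]; have := j.2; omega
    · rw [Fin.val_rev]; have := i.2; omega
  · intro h i j hi hj
    have := h (Fin.rev j) (Fin.rev i) (by rw [Fin.val_rev]; have := j.2; omega)
      (by rw [Fin.val_rev]; have := i.2; omega)
    rw [rv_apply, invT_apply, Fin.rev_rev, Fin.rev_rev] at this
    exact this

/-- the coordinate subspace as a submodule -/
def SkSub (k : ℕ) : Submodule F (Fin n → F) where
  carrier := {v : Fin n → F | ∀ i : Fin n, k ≤ (i : ℕ) → v i = 0}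
  add_mem' := by
    intro a b ha hb i hi
    show a i + b i = 0
    rw [ha i hi, hb i hi, add_zero]
  zero_mem' := by intro i hi; rfl
  smul_mem' := by
    intro c a ha i hi
    show c * a i = 0
    rw [ha i hi, mul_zero]

theorem card_SkSub [Fintype F] (hk : k ≤ n) :
    Nat.card (SkSub (F := F) n k) = Fintype.card F ^ k := by
  have e : SkSub (F := F) n k ≃ (Fin k → F) :=
    { toFun := fun v a => v.1 (Fin.castLE hk a)
      invFun := fun w => ⟨fun i => if h : (i : ℕ) < k then w ⟨i, h⟩ else 0, by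
        intro i hi
        have : ¬ (i : ℕ) < k := by omega
        show (if h : (i : ℕ) < k then w ⟨i, h⟩ else 0) = 0
        rw [dif_neg this]⟩
      left_inv := by
        rintro ⟨v, hv⟩
        apply Subtype.ext
        funext i
        by_cases h : (i : ℕ) < k
        · show (if h : (i : ℕ) < k then v (Fin.castLE hk ⟨i, h⟩) else 0) = v i
          rw [dif_pos h]
          rfl
        · show (if h : (i : ℕ) < k then v (Fin.castLE hk ⟨i, h⟩) else 0) = v i
          rw [dif_neg h]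
          exact (hv i (by omega)).symm
      right_inv := by
        intro w
        funext a
        show (if h : ((Fin.castLE hk a : Fin n) : ℕ) < k then w ⟨(Fin.castLE hk a : Fin n), h⟩ else 0) = w a
        have : ((Fin.castLE hk a : Fin n) : ℕ) < k := a.2
        rw [dif_pos this]
        rfl }
  rw [Nat.card_congr e, Nat.card_fun, Nat.card_eq_fintype_card, Nat.card_eq_fintype_card,
    Fintype.card_fin]

theorem moving (U W : Submodule F (Fin n → F)) (hU : U ≠ ⊤) (u : Fin n → F) (hu : u ∈ U)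
    (huW : u ∉ W) :
    ∃ h : GL (Fin n) F, (∀ v, v ∈ W ↔ (h : Matrix (Fin n) (Fin n) F) *ᵥ v ∈ W) ∧
      ∃ v ∈ U, (h : Matrix (Fin n) (Fin n) F) *ᵥ v ∉ U := by
  obtain ⟨f, hfu, hfW⟩ := Submodule.exists_dual_map_eq_bot_of_notMem huW inferInstance
  obtain ⟨b, hb⟩ : ∃ b : Fin n → F, ∀ x, f x = b ⬝ᵥ x := by
    refine ⟨fun i => f (Pi.single i 1), fun x => ?_⟩
    rw [LinearMap.pi_apply_eq_sum_univ f x]
    unfold dotProduct
    apply Finset.sum_congr rfl
    intro i _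
    rw [smul_eq_mul, mul_comm]
    congr 2
    ext j
    simp [Pi.single_apply, eq_comm]
  have hbW : ∀ x ∈ W, b ⬝ᵥ x = 0 := by
    intro x hx
    rw [← hb]
    have : f x ∈ W.map f := Submodule.mem_map_of_mem hx
    rw [hfW] at this
    exact (Submodule.mem_bot _).1 this
  have hbu : b ⬝ᵥ u ≠ 0 := by rw [← hb]; exact hfu
  obtain ⟨y0, hy0⟩ : ∃ y0, y0 ∉ U := by
    by_contra hcon
    push Not at hcon
    exact hU (eq_top_iff.2 fun x _ => hcon x)
  have hu'U : (b ⬝ᵥ u)⁻¹ • u ∈ U := U.smul_mem _ hu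
  have hbu' : b ⬝ᵥ ((b ⬝ᵥ u)⁻¹ • u) = 1 := by
    rw [dotProduct_smul, smul_eq_mul, inv_mul_cancel₀ hbu]
  have hyU : y0 - (b ⬝ᵥ y0) • ((b ⬝ᵥ u)⁻¹ • u) ∉ U := by
    intro h
    apply hy0
    have : y0 = (y0 - (b ⬝ᵥ y0) • ((b ⬝ᵥ u)⁻¹ • u)) + (b ⬝ᵥ y0) • ((b ⬝ᵥ u)⁻¹ • u) := by abel
    rw [this]
    exact U.add_mem h (U.smul_mem _ hu'U)
  have hby : b ⬝ᵥ (y0 - (b ⬝ᵥ y0) • ((b ⬝ᵥ u)⁻¹ • u)) = 0 := by
    rw [dotProduct_sub, dotProduct_smul, hbu', smul_eq_mul, mul_one, sub_self]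
  refine ⟨Matrix.SpecialLinearGroup.toGL (Cfsg.Agent.S0839.elemSL _ b hby), ?_,
    (b ⬝ᵥ u)⁻¹ • u, hu'U, ?_⟩
  · intro v
    show _ ↔ ((Cfsg.Agent.S0839.elemSL _ b hby : SpecialLinearGroup (Fin n) F) :
      Matrix (Fin n) (Fin n) F) *ᵥ v ∈ W
    rw [Cfsg.Agent.S0839.elemSL_mulVec]
    constructor
    · intro hv
      rw [hbW v hv, zero_smul, add_zero]; exact hv
    · intro hv
      have h1 := hbW _ hv
      rw [dotProduct_add, dotProduct_smul, hby, smul_eq_mul, mul_zero, add_zero] at h1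
      rw [h1, zero_smul, add_zero] at hv
      exact hv
  · show ((Cfsg.Agent.S0839.elemSL _ b hby : SpecialLinearGroup (Fin n) F) :
      Matrix (Fin n) (Fin n) F) *ᵥ ((b ⬝ᵥ u)⁻¹ • u) ∉ U
    rw [Cfsg.Agent.S0839.elemSL_mulVec, hbu', one_smul]
    intro h
    apply hyU
    have : y0 - (b ⬝ᵥ y0) • ((b ⬝ᵥ u)⁻¹ • u) =
        ((b ⬝ᵥ u)⁻¹ • u + (y0 - (b ⬝ᵥ y0) • ((b ⬝ᵥ u)⁻¹ • u))) - (b ⬝ᵥ u)⁻¹ • u := by abel
    rw [this]
    exact U.sub_mem h hu'U

end

/-- The stabilisers in GL_n(F), F finite, of the coordinate subspaces of dimensions k and n − k are isomorphic groups, but when 2k ≠ n (and 0 < k < n) no element of GL_n conjugates one onto the other. -/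
theorem result {F : Type*} [Field F] [Finite F] (n k : ℕ) (hk0 : 0 < k) (hkn : k < n) (h2 : 2 * k ≠ n) : Nonempty (↥(Cfsg.stabilizing (Cfsg.glToMat (Fin n) F) {v : Fin n → F | ∀ i : Fin n, k ≤ (i : ℕ) → v i = 0}) ≃* ↥(Cfsg.stabilizing (Cfsg.glToMat (Fin n) F) {v : Fin n → F | ∀ i : Fin n, n - k ≤ (i : ℕ) → v i = 0})) ∧ ∀ g : Matrix.GeneralLinearGroup (Fin n) F, (Cfsg.stabilizing (Cfsg.glToMat (Fin n) F) {v : Fin n → F | ∀ i : Fin n, k ≤ (i : ℕ) → v i = 0}).map (MulAut.conj g).toMonoidHom ≠ Cfsg.stabilizing (Cfsg.glToMat (Fin n) F) {v : Fin n → F | ∀ i : Fin n, n - k ≤ (i : ℕ) → v i = 0} := by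
  classical
  have hkn' : k ≤ n := hkn.le
  refine ⟨⟨?_⟩, ?_⟩
  · exact
    { toFun := fun x => ⟨rv n (invT n x.1), (theta_mem n k hkn' x.1).1 x.2⟩
      invFun := fun y => ⟨(invT n).symm ((rv n).symm y.1), by
        rw [theta_mem n k hkn', MulEquiv.apply_symm_apply, MulEquiv.apply_symm_apply]
        exact y.2⟩
      left_inv := by intro x; apply Subtype.ext; simp
      right_inv := by intro y; apply Subtype.ext; simp
      map_mul' := by intro x y; apply Subtype.ext; simp }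
  · intro g hmap
    haveI := Fintype.ofFinite F
    have hn1 : n - 1 < n := by omega
    have hgg : ((g⁻¹ : GL (Fin n) F) : Matrix (Fin n) (Fin n) F) * (g : Matrix (Fin n) (Fin n) F) = 1 :=
      Units.inv_mul g
    have hgg' : (g : Matrix (Fin n) (Fin n) F) * ((g⁻¹ : GL (Fin n) F) : Matrix (Fin n) (Fin n) F) = 1 :=
      Units.mul_inv g
    -- U = g S_k
    obtain ⟨U, hUdef⟩ : ∃ U : Submodule F (Fin n → F), ∀ v, v ∈ U ↔
        ((g⁻¹ : GL (Fin n) F) : Matrix (Fin n) (Fin n) F) *ᵥ v ∈ SkSub (F := F) n k :=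
      ⟨(SkSub (F := F) n k).comap (Matrix.toLin' ((g⁻¹ : GL (Fin n) F) : Matrix (Fin n) (Fin n) F)),
        fun v => by rw [Submodule.mem_comap, Matrix.toLin'_apply]⟩
    have hUtop : U ≠ ⊤ := by
      intro h
      have h1 : (g : Matrix (Fin n) (Fin n) F) *ᵥ (Pi.single ⟨n - 1, hn1⟩ 1) ∈ U := by
        rw [h]; trivial
      rw [hUdef, mulVec_mulVec, hgg, one_mulVec] at h1
      have h2 := h1 ⟨n - 1, hn1⟩ (by show k ≤ n - 1; omega)
      rw [Pi.single_eq_same] at h2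
      exact one_ne_zero h2
    have hWtop : SkSub (F := F) n (n - k) ≠ ⊤ := by
      intro h
      have h1 : (Pi.single ⟨n - 1, hn1⟩ 1 : Fin n → F) ∈ SkSub (F := F) n (n - k) := by
        rw [h]; trivial
      have h2 := h1 ⟨n - 1, hn1⟩ (by show n - k ≤ n - 1; omega)
      rw [Pi.single_eq_same] at h2
      exact one_ne_zero h2
    have hUW : U ≠ SkSub (F := F) n (n - k) := by
      intro h
      have e : U ≃ SkSub (F := F) n k :=
        { toFun := fun v => ⟨((g⁻¹ : GL (Fin n) F) : Matrix (Fin n) (Fin n) F) *ᵥ v.1, (hUdef _).1 v.2⟩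
          invFun := fun w => ⟨(g : Matrix (Fin n) (Fin n) F) *ᵥ w.1, by
            rw [hUdef, mulVec_mulVec, hgg, one_mulVec]; exact w.2⟩
          left_inv := by
            intro v; apply Subtype.ext
            show (g : Matrix (Fin n) (Fin n) F) *ᵥ (((g⁻¹ : GL (Fin n) F) : Matrix (Fin n) (Fin n) F) *ᵥ v.1) = v.1
            rw [mulVec_mulVec, hgg', one_mulVec]
          right_inv := by
            intro w; apply Subtype.ext
            show ((g⁻¹ : GL (Fin n) F) : Matrix (Fin n) (Fin n) F) *ᵥ ((g : Matrix (Fin n) (Fin n) F) *ᵥ w.1) = w.1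
            rw [mulVec_mulVec, hgg, one_mulVec] }
      have h1 : Nat.card U = Fintype.card F ^ k := by
        rw [Nat.card_congr e, card_SkSub n k hkn']
      have h2 : Nat.card U = Fintype.card F ^ (n - k) := by
        rw [h, card_SkSub n (n - k) (Nat.sub_le n k)]
      have h3 : k = n - k :=
        Nat.pow_right_injective (Fintype.one_lt_card : 1 < Fintype.card F) (h1.symm.trans h2)
      omega
    have hcase : (∃ u ∈ U, u ∉ SkSub (F := F) n (n - k)) ∨
        (∃ w ∈ SkSub (F := F) n (n - k), w ∉ U) := by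
      by_contra hcon
      push Not at hcon
      exact hUW (le_antisymm (fun u hu => hcon.1 u hu) (fun w hw => hcon.2 w hw))
    rcases hcase with ⟨u, hu, huW⟩ | ⟨w, hw, hwU⟩
    · obtain ⟨h, hhW, v, hvU, hhv⟩ := moving n U (SkSub (F := F) n (n - k)) hUtop u hu huW
      have hmem : h ∈ Cfsg.stabilizing (Cfsg.glToMat (Fin n) F)
          {v : Fin n → F | ∀ i : Fin n, n - k ≤ (i : ℕ) → v i = 0} := hhW
      rw [← hmap] at hmem
      obtain ⟨p, hp, hph⟩ := Subgroup.mem_map.1 hmem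
      apply hhv
      rw [hUdef]
      have hph' : g * p * g⁻¹ = h := hph
      have hpv := (hp (((g⁻¹ : GL (Fin n) F) : Matrix (Fin n) (Fin n) F) *ᵥ v)).1 ((hUdef v).1 hvU)
      have e1 : ((g⁻¹ : GL (Fin n) F) : Matrix (Fin n) (Fin n) F) *ᵥ ((h : Matrix (Fin n) (Fin n) F) *ᵥ v) =
          (p : Matrix (Fin n) (Fin n) F) *ᵥ (((g⁻¹ : GL (Fin n) F) : Matrix (Fin n) (Fin n) F) *ᵥ v) := by
        rw [← hph', mulVec_mulVec, mulVec_mulVec, Units.val_mul, Units.val_mul, ← Matrix.mul_assoc,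
          ← Matrix.mul_assoc, hgg, Matrix.one_mul]
      rw [e1]
      exact hpv
    · obtain ⟨h, hhU, v, hvW, hhv⟩ := moving n (SkSub (F := F) n (n - k)) U hWtop w hw hwU
      have hp : g⁻¹ * h * g ∈ Cfsg.stabilizing (Cfsg.glToMat (Fin n) F)
          {v : Fin n → F | ∀ i : Fin n, k ≤ (i : ℕ) → v i = 0} := by
        intro x
        show x ∈ SkSub (F := F) n k ↔
          ((g⁻¹ * h * g : GL (Fin n) F) : Matrix (Fin n) (Fin n) F) *ᵥ x ∈ SkSub (F := F) n k
        have e1 : ((g⁻¹ * h * g : GL (Fin n) F) : Matrix (Fin n) (Fin n) F) *ᵥ x =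
            ((g⁻¹ : GL (Fin n) F) : Matrix (Fin n) (Fin n) F) *ᵥ
              ((h : Matrix (Fin n) (Fin n) F) *ᵥ ((g : Matrix (Fin n) (Fin n) F) *ᵥ x)) := by
          rw [mulVec_mulVec, mulVec_mulVec, Units.val_mul, Units.val_mul, Matrix.mul_assoc]
        rw [e1, ← hUdef, ← hhU, hUdef, mulVec_mulVec, hgg, one_mulVec]
      have hmem : g * (g⁻¹ * h * g) * g⁻¹ ∈ (Cfsg.stabilizing (Cfsg.glToMat (Fin n) F)
          {v : Fin n → F | ∀ i : Fin n, k ≤ (i : ℕ) → v i = 0}).map (MulAut.conj g).toMonoidHom :=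
        Subgroup.mem_map.2 ⟨_, hp, rfl⟩
      rw [hmap] at hmem
      have e2 : g * (g⁻¹ * h * g) * g⁻¹ = h := by group
      rw [e2] at hmem
      exact hhv ((hmem v).1 hvW)

end Cfsg.Agent.S0773
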