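import Mathlib
import Cfsg.Statements.S0772
import Cfsg.Agent.S0839
import Cfsg.Agent.S0773

set_option autoImplicit false
open Cfsg

namespace Cfsg.Agent.S0772

open Matrix

section
variable {F : Type*} [Field F] {n : ℕ}

/-- the element `1 + a bᵀ` of GL, for `b ⬝ᵥ a = 0` -/
def trv (a b : Fin n → F) (h : b ⬝ᵥ a = 0) : GL (Fin n) F :=
  Matrix.SpecialLinearGroup.toGL (Cfsg.Agent.S0839.elemSL a b h)

theorem trv_val (a b : Fin n → F) (h : b ⬝ᵥ a = 0) :
    ((trv a b h : GL (Fin n) F) : Matrix (Fin n) (Fin n) F) = 1 + vecMulVec a b := rfl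

theorem trv_mulVec (a b : Fin n → F) (h : b ⬝ᵥ a = 0) (x : Fin n → F) :
    ((trv a b h : GL (Fin n) F) : Matrix (Fin n) (Fin n) F) *ᵥ x = x + (b ⬝ᵥ x) • a := by
  rw [trv_val, add_mulVec, one_mulVec, vecMulVec_mulVec, op_smul_eq_smul]

theorem conj_trv (g : GL (Fin n) F) (a b : Fin n → F)
    (h : b ⬝ᵥ ((g : Matrix (Fin n) (Fin n) F) *ᵥ a) = 0) :
    trv ((g : Matrix (Fin n) (Fin n) F) *ᵥ a) b h =
      g * trv a (b ᵥ* (g : Matrix (Fin n) (Fin n) F))
        (by rw [← Matrix.dotProduct_mulVec]; exact h) * g⁻¹ := by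
  rw [eq_mul_inv_iff_mul_eq]
  apply Units.ext
  rw [Units.val_mul, Units.val_mul, trv_val, trv_val, Matrix.add_mul, Matrix.mul_add, Matrix.one_mul,
    Matrix.mul_one, Matrix.vecMulVec_mul, Matrix.mul_vecMulVec]

/-- all transvections with centre `a` lie in `H` -/
def Good (H : Subgroup (GL (Fin n) F)) (a : Fin n → F) : Prop :=
  ∀ (b : Fin n → F) (h : b ⬝ᵥ a = 0), trv a b h ∈ H

theorem good_mulVec (H : Subgroup (GL (Fin n) F)) (g : GL (Fin n) F) (hg : g ∈ H) (a : Fin n → F)
    (ha : Good H a) : Good H ((g : Matrix (Fin n) (Fin n) F) *ᵥ a) := by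
  intro b h
  rw [conj_trv]
  exact H.mul_mem (H.mul_mem hg (ha _ _)) (H.inv_mem hg)

theorem good_scale (H : Subgroup (GL (Fin n) F)) (c : F) (hc : c ≠ 0) (a : Fin n → F)
    (ha : Good H (c • a)) : Good H a := by
  intro b h
  have h' : (c⁻¹ • b) ⬝ᵥ (c • a) = 0 := by
    rw [smul_dotProduct, dotProduct_smul, h, smul_zero, smul_zero]
  have e : trv a b h = trv (c • a) (c⁻¹ • b) h' := by
    apply Units.ext
    rw [trv_val, trv_val]
    congr 1
    ext i j
    simp only [vecMulVec_apply, Pi.smul_apply, smul_eq_mul]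
    field_simp
  rw [e]
  exact ha _ _

theorem trv_mem_P (k : ℕ) (hk : k ≤ n) (a b : Fin n → F) (h : b ⬝ᵥ a = 0)
    (hab : (∀ i : Fin n, k ≤ (i : ℕ) → a i = 0) ∨ (∀ j : Fin n, (j : ℕ) < k → b j = 0)) :
    trv a b h ∈ Cfsg.stabilizing (Cfsg.glToMat (Fin n) F)
      {v : Fin n → F | ∀ i : Fin n, k ≤ (i : ℕ) → v i = 0} := by
  rw [Cfsg.Agent.S0773.mem_stab_iff n k hk]
  intro i j hi hj
  have hij : i ≠ j := by
    intro e
    rw [e] at hi
    omega
  rw [trv_val, Matrix.add_apply, Matrix.one_apply_ne hij, zero_add, vecMulVec_apply]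
  rcases hab with h1 | h1
  · rw [h1 i hi, zero_mul]
  · rw [h1 j hj, mul_zero]

theorem good_single (k : ℕ) (hk : k ≤ n) (H : Subgroup (GL (Fin n) F))
    (hPH : Cfsg.stabilizing (Cfsg.glToMat (Fin n) F)
      {v : Fin n → F | ∀ i : Fin n, k ≤ (i : ℕ) → v i = 0} ≤ H)
    (a : Fin n → F) (ha : Good H a) (i0 : Fin n) (hi0 : k ≤ (i0 : ℕ)) (hai0 : a i0 ≠ 0)
    (i1 : Fin n) (hi1 : k ≤ (i1 : ℕ)) : Good H (Pi.single i1 1) := by
  -- reduce to the case `a i1 ≠ 0`
  have main : ∀ a : Fin n → F, Good H a → a i1 ≠ 0 → Good H (Pi.single i1 1) := by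
    intro a ha ha1
    have hvu : ((a i1)⁻¹ • (Pi.single i1 1 : Fin n → F)) ⬝ᵥ ((a i1) • (Pi.single i1 1 : Fin n → F) - a) = 0 := by
      rw [smul_dotProduct, single_dotProduct, one_mul, Pi.sub_apply, Pi.smul_apply, Pi.single_eq_same]
      simp
    have hp : trv ((a i1) • (Pi.single i1 1 : Fin n → F) - a) ((a i1)⁻¹ • (Pi.single i1 1 : Fin n → F)) hvu ∈ H := by
      apply hPH
      apply trv_mem_P k hk
      right
      intro j hj
      have hne : j ≠ i1 := by
        intro e
        rw [e] at hj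
        omega
      rw [Pi.smul_apply, Pi.single_eq_of_ne hne, smul_zero]
    have h2 := good_mulVec H _ hp a ha
    rw [trv_mulVec, smul_dotProduct, single_dotProduct, one_mul, smul_eq_mul, inv_mul_cancel₀ ha1,
      one_smul, add_sub_cancel] at h2
    exact good_scale H (a i1) ha1 _ h2
  by_cases ha1 : a i1 = 0
  · have hne : i0 ≠ i1 := by
      intro e
      rw [e] at hai0
      exact hai0 ha1
    have hvu : (Pi.single i0 1 : Fin n → F) ⬝ᵥ (Pi.single i1 1 : Fin n → F) = 0 := by
      rw [single_dotProduct, one_mul, Pi.single_eq_of_ne hne]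
    have hp : trv (Pi.single i1 1 : Fin n → F) (Pi.single i0 1) hvu ∈ H := by
      apply hPH
      apply trv_mem_P k hk
      right
      intro j hj
      have hne' : j ≠ i0 := by
        intro e
        rw [e] at hj
        omega
      rw [Pi.single_eq_of_ne hne']
    have h2 := good_mulVec H _ hp a ha
    apply main _ h2
    rw [trv_mulVec, single_dotProduct, one_mul, Pi.add_apply, Pi.smul_apply, Pi.single_eq_same, ha1,
      zero_add, smul_eq_mul, mul_one]
    exact hai0
  · exact main a ha ha1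

end

/-- Maximal parabolics are maximal: over a finite field, for 0 < k < n the stabiliser in GL_n of the span of the first k coordinate vectors is a maximal proper subgroup. -/
theorem result {F : Type*} [Field F] [Finite F] (n k : ℕ) (hk0 : 0 < k) (hkn : k < n) : IsCoatom (Cfsg.stabilizing (Cfsg.glToMat (Fin n) F) {v : Fin n → F | ∀ i : Fin n, k ≤ (i : ℕ) → v i = 0}) := by
  classical
  haveI := Fintype.ofFinite F
  have hk : k ≤ n := hkn.le
  obtain ⟨P, hP⟩ : ∃ P, P = Cfsg.stabilizing (Cfsg.glToMat (Fin n) F)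
      {v : Fin n → F | ∀ i : Fin n, k ≤ (i : ℕ) → v i = 0} := ⟨_, rfl⟩
  rw [← hP]
  have hmem : ∀ g : GL (Fin n) F, g ∈ P ↔
      ∀ i j : Fin n, k ≤ (i : ℕ) → (j : ℕ) < k → (g : Matrix (Fin n) (Fin n) F) i j = 0 := by
    intro g
    rw [hP]
    exact Cfsg.Agent.S0773.mem_stab_iff n k hk g
  constructor
  · -- P ≠ ⊤
    intro htop
    have hvu : (Pi.single (⟨0, by omega⟩ : Fin n) 1 : Fin n → F) ⬝ᵥ
        (Pi.single (⟨k, hkn⟩ : Fin n) 1 : Fin n → F) = 0 := by
      rw [single_dotProduct, one_mul, Pi.single_eq_of_ne (by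
        intro e
        have := congrArg Fin.val e
        simp at this
        omega)]
    have h1 : trv (Pi.single (⟨k, hkn⟩ : Fin n) 1 : Fin n → F) (Pi.single (⟨0, by omega⟩ : Fin n) 1) hvu ∈ P := by
      rw [htop]
      exact Subgroup.mem_top _
    have h2 := (hmem _).1 h1 ⟨k, hkn⟩ ⟨0, by omega⟩ (le_refl k) hk0
    rw [trv_val, Matrix.add_apply, vecMulVec_apply, Pi.single_eq_same, Pi.single_eq_same,
      Matrix.one_apply_ne (by
        intro e
        have := congrArg Fin.val e
        simp at this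
        omega), zero_add, mul_one] at h2
    exact one_ne_zero h2
  · intro H hPH
    obtain ⟨h, hhH, hhP⟩ := SetLike.exists_of_lt hPH
    have hle : P ≤ H := hPH.le
    have hle' : Cfsg.stabilizing (Cfsg.glToMat (Fin n) F)
        {v : Fin n → F | ∀ i : Fin n, k ≤ (i : ℕ) → v i = 0} ≤ H := hP ▸ hle
    rw [hmem] at hhP
    push Not at hhP
    obtain ⟨i0, j0, hi0, hj0, hne⟩ := hhP
    have hgj : Good H (Pi.single j0 1 : Fin n → F) := by
      intro b hb
      apply hle'
      apply trv_mem_P k hk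
      left
      intro i hi
      have hne' : i ≠ j0 := by
        intro e
        rw [e] at hi
        omega
      rw [Pi.single_eq_of_ne hne']
    have hga := good_mulVec H h hhH _ hgj
    have hcol : ((h : Matrix (Fin n) (Fin n) F) *ᵥ (Pi.single j0 1 : Fin n → F)) i0 ≠ 0 := by
      rw [Matrix.mulVec_single_one]
      exact hne
    have hgood : ∀ i1 : Fin n, k ≤ (i1 : ℕ) → Good H (Pi.single i1 1 : Fin n → F) :=
      fun i1 hi1 => good_single k hk H hle' _ hga i0 hi0 hcol i1 hi1
    rw [eq_top_iff]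
    intro g _
    have key : ∀ M : Matrix (Fin n) (Fin n) F, M.det ≠ 0 →
        ∀ g : GL (Fin n) F, (g : Matrix (Fin n) (Fin n) F) = M → g ∈ H := by
      intro M hM
      refine Matrix.diagonal_transvection_induction_of_det_ne_zero
        (fun M => ∀ g : GL (Fin n) F, (g : Matrix (Fin n) (Fin n) F) = M → g ∈ H) M hM ?_ ?_ ?_
      · intro D _ g hg
        apply hle
        rw [hmem]
        intro i j hi hj
        rw [hg, Matrix.diagonal_apply_ne]
        intro e
        rw [e] at hi
        omega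
      · intro t g hg
        have hvu : (t.c • (Pi.single t.j 1 : Fin n → F)) ⬝ᵥ (Pi.single t.i 1 : Fin n → F) = 0 := by
          rw [smul_dotProduct, single_dotProduct, one_mul, Pi.single_eq_of_ne t.hij.symm, smul_zero]
        have e : g = trv (Pi.single t.i 1 : Fin n → F) (t.c • (Pi.single t.j 1 : Fin n → F)) hvu := by
          apply Units.ext
          rw [hg, trv_val]
          show Matrix.transvection t.i t.j t.c = _
          unfold Matrix.transvection
          congr 1
          ext i j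
          simp only [Matrix.single_apply, vecMulVec_apply, Pi.smul_apply, smul_eq_mul, Pi.single_apply]
          by_cases hi : i = t.i <;> by_cases hj : j = t.j <;> simp [hi, hj, eq_comm]
        rw [e]
        by_cases hi : k ≤ (t.i : ℕ)
        · exact hgood t.i hi _ _
        · apply hle'
          apply trv_mem_P k hk
          left
          intro i hi'
          have hne' : i ≠ t.i := by
            intro e'
            rw [e'] at hi'
            exact hi hi'
          rw [Pi.single_eq_of_ne hne']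
      · intro A B hA hB QA QB g hg
        have e : g = Matrix.GeneralLinearGroup.mkOfDetNeZero A hA *
            Matrix.GeneralLinearGroup.mkOfDetNeZero B hB := by
          apply Units.ext
          rw [hg]
          rfl
        rw [e]
        exact H.mul_mem (QA _ rfl) (QB _ rfl)
    refine key _ ?_ g rfl
    have := (Matrix.isUnit_iff_isUnit_det _).1 g.isUnit
    exact this.ne_zero

end Cfsg.Agent.S0772
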