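import Mathlib
import Cfsg.Statements.S0774
import Cfsg.Agent.S0769

set_option autoImplicit false
open Cfsg

namespace Cfsg.Agent.S0774

open Matrix

variable {F : Type*} [Field F]

/-- The flag members. -/
def Wk (m : ℕ) (F : Type*) [Field F] (k : Fin m) : Set (Fin m ⊕ Fin m → F) :=
  {v : Fin m ⊕ Fin m → F | (∀ i : Fin m, (k : ℕ) < (i : ℕ) → v (Sum.inl i) = 0) ∧
    ∀ i : Fin m, v (Sum.inr i) = 0}

theorem gl_mul_inv (m : ℕ) (X : Matrix.GeneralLinearGroup (Fin m) F) :
    (X : Matrix (Fin m) (Fin m) F) * ((X⁻¹ : Matrix.GeneralLinearGroup (Fin m) F) :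
      Matrix (Fin m) (Fin m) F) = 1 := by
  rw [← Units.val_mul, mul_inv_cancel, Units.val_one]

theorem gl_inv_mul (m : ℕ) (X : Matrix.GeneralLinearGroup (Fin m) F) :
    ((X⁻¹ : Matrix.GeneralLinearGroup (Fin m) F) : Matrix (Fin m) (Fin m) F) *
      (X : Matrix (Fin m) (Fin m) F) = 1 := by
  rw [← Units.val_mul, inv_mul_cancel, Units.val_one]

theorem pow_stab (m : ℕ) (g : Matrix.symplecticGroup (Fin m) F)
    (h : ∀ k : Fin m, ∀ v ∈ Wk m F k,
      (g : Matrix (Fin m ⊕ Fin m) (Fin m ⊕ Fin m) F) *ᵥ v ∈ Wk m F k) (n : ℕ) :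
    ∀ k : Fin m, ∀ v ∈ Wk m F k,
      ((g ^ n : Matrix.symplecticGroup (Fin m) F) : Matrix (Fin m ⊕ Fin m) (Fin m ⊕ Fin m) F) *ᵥ v
        ∈ Wk m F k := by
  induction n with
  | zero =>
    intro k v hv
    rw [pow_zero, Submonoid.coe_one, Matrix.one_mulVec]
    exact hv
  | succ n ih =>
    intro k v hv
    rw [pow_succ, Submonoid.coe_mul, ← Matrix.mulVec_mulVec]
    exact ih k _ (h k v hv)

theorem stab_iff [Fintype F] (m : ℕ) (g : Matrix.symplecticGroup (Fin m) F) :
    g ∈ (⨅ k : Fin m, Cfsg.stabilizing (Cfsg.spToMat m F) (Wk m F k)) ↔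
      ∀ k : Fin m, ∀ v ∈ Wk m F k,
        (g : Matrix (Fin m ⊕ Fin m) (Fin m ⊕ Fin m) F) *ᵥ v ∈ Wk m F k := by
  classical
  rw [Subgroup.mem_iInf]
  constructor
  · intro h k v hv; exact (h k v).1 hv
  · intro h k v
    refine ⟨h k v, fun hv => ?_⟩
    have hfin : IsOfFinOrder g := isOfFinOrder_of_finite g
    have hpos := hfin.orderOf_pos
    have h1 : g ^ (orderOf g - 1) * g = 1 := by
      rw [← pow_succ, Nat.sub_add_cancel hpos, pow_orderOf_eq_one]
    have h2 := pow_stab m g h (orderOf g - 1) k _ hv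
    have h3 : ((g ^ (orderOf g - 1) : Matrix.symplecticGroup (Fin m) F) :
        Matrix (Fin m ⊕ Fin m) (Fin m ⊕ Fin m) F) *
        (g : Matrix (Fin m ⊕ Fin m) (Fin m ⊕ Fin m) F) = 1 := by
      rw [← Submonoid.coe_mul, h1, Submonoid.coe_one]
    change ((g ^ (orderOf g - 1) : Matrix.symplecticGroup (Fin m) F) :
        Matrix (Fin m ⊕ Fin m) (Fin m ⊕ Fin m) F) *ᵥ
        ((g : Matrix (Fin m ⊕ Fin m) (Fin m ⊕ Fin m) F) *ᵥ v) ∈ _ at h2
    rwa [Matrix.mulVec_mulVec, h3, Matrix.one_mulVec] at h2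

theorem flag_iff (m : ℕ) (M : Matrix (Fin m ⊕ Fin m) (Fin m ⊕ Fin m) F) :
    (∀ k : Fin m, ∀ v ∈ Wk m F k, M *ᵥ v ∈ Wk m F k) ↔
      (∀ i j : Fin m, M (Sum.inr i) (Sum.inl j) = 0) ∧
        ∀ i j : Fin m, j < i → M (Sum.inl i) (Sum.inl j) = 0 := by
  classical
  constructor
  · intro h
    have key : ∀ j : Fin m, M *ᵥ Pi.single (Sum.inl j) 1 ∈ Wk m F j := fun j => h j _ (by
      refine ⟨fun i hi => ?_, fun i => ?_⟩
      · rw [Pi.single_apply, if_neg]
        intro h'
        have := Sum.inl.inj h'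
        subst this
        exact lt_irrefl _ hi
      · simp)
    refine ⟨fun i j => ?_, fun i j hij => ?_⟩
    · have := (key j).2 i
      rwa [Matrix.mulVec_single_one] at this
    · have := (key j).1 i hij
      rwa [Matrix.mulVec_single_one] at this
  · rintro ⟨hC, hA⟩ k v ⟨hv1, hv2⟩
    refine ⟨fun i hi => ?_, fun i => ?_⟩
    · simp only [Matrix.mulVec, dotProduct, Fintype.sum_sum_type]
      rw [Finset.sum_eq_zero, Finset.sum_eq_zero, add_zero]
      · intro j _; rw [hv2 j, mul_zero]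
      · intro j _
        by_cases hj : (k : ℕ) < (j : ℕ)
        · rw [hv1 j hj, mul_zero]
        · rw [hA i j (by rw [Fin.lt_def]; omega), zero_mul]
    · simp only [Matrix.mulVec, dotProduct, Fintype.sum_sum_type]
      rw [Finset.sum_eq_zero, Finset.sum_eq_zero, add_zero]
      · intro j _; rw [hv2 j, mul_zero]
      · intro j _
        rw [hC i j, zero_mul]

theorem phi_mem (m : ℕ) (L : Matrix.GeneralLinearGroup (Fin m) F)
    (S : Matrix (Fin m) (Fin m) F) (hS : Sᵀ = S) :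
    Matrix.fromBlocks (L : Matrix (Fin m) (Fin m) F)ᵀ ((L : Matrix (Fin m) (Fin m) F)ᵀ * S) 0
      ((L⁻¹ : Matrix.GeneralLinearGroup (Fin m) F) : Matrix (Fin m) (Fin m) F) ∈
      Matrix.symplecticGroup (Fin m) F := by
  rw [SymplecticGroup.mem_iff, Matrix.J, Matrix.fromBlocks_transpose,
    Matrix.fromBlocks_multiply, Matrix.fromBlocks_multiply]
  simp only [Matrix.transpose_zero, Matrix.zero_mul, Matrix.mul_zero, add_zero, zero_add,
    Matrix.transpose_transpose, Matrix.mul_one, Matrix.mul_neg, Matrix.neg_mul,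
    Matrix.transpose_mul, hS, gl_inv_mul]
  rw [← Matrix.transpose_mul, gl_inv_mul, Matrix.transpose_one, Matrix.mul_assoc, add_neg_cancel,
    neg_zero, add_zero]

/-- Symmetric matrices correspond to lower triangular arrays. -/
def symEquiv (m : ℕ) (F : Type*) [Field F] :
    {S : Matrix (Fin m) (Fin m) F // Sᵀ = S} ≃
      {N : Fin m → Fin m → F // ∀ i, ∀ j, i < j → N i j = 0} where
  toFun S := ⟨fun i j => if i < j then 0 else S.1 i j, fun i j hij => if_pos hij⟩
  invFun N := ⟨Matrix.of fun i j => if i < j then N.1 j i else N.1 i j, by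
    ext i j
    rw [Matrix.transpose_apply, Matrix.of_apply, Matrix.of_apply]
    rcases lt_trichotomy i j with h | h | h
    · rw [if_pos h, if_neg (not_lt.2 h.le)]
    · subst h; rfl
    · rw [if_pos h, if_neg (not_lt.2 h.le)]⟩
  left_inv S := by
    apply Subtype.ext
    ext i j
    show (if i < j then (if j < i then 0 else S.1 j i) else (if i < j then 0 else S.1 i j)) = S.1 i j
    by_cases h : i < j
    · rw [if_pos h, if_neg (not_lt.2 h.le)]
      have := congrFun (congrFun S.2 i) j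
      rw [Matrix.transpose_apply] at this
      exact this
    · rw [if_neg h, if_neg h]
  right_inv N := by
    apply Subtype.ext
    funext i j
    show (if i < j then 0 else (if i < j then N.1 j i else N.1 i j)) = N.1 i j
    by_cases h : i < j
    · rw [if_pos h, N.2 i j h]
    · rw [if_neg h, if_neg h]

theorem cardQ {F : Type*} [Field F] [Fintype F] {q : ℕ} (hF : Fintype.card F = q) (n : ℕ)
    (i j : Fin n) :
    Nat.card {x : F // i < j → x = 0} = if j ≤ i then q else 1 := by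
  classical
  by_cases h : i < j
  · rw [if_neg (not_le.2 h)]
    rw [Nat.card_congr (Equiv.subtypeEquivRight (q := fun x : F => x = 0) (fun x => by
      constructor
      · intro hx; exact hx h
      · intro hx _; exact hx))]
    rw [Nat.card_eq_fintype_card, Fintype.card_subtype_eq]
  · rw [if_pos (not_lt.1 h)]
    rw [Nat.card_congr (Equiv.subtypeUnivEquiv (fun _ h' => absurd h' h)),
      Nat.card_eq_fintype_card, hF]

theorem prod_innerQ (q n : ℕ) (i : Fin n) :
    ∏ j : Fin n, (if j ≤ i then q else 1) = q ^ ((i : ℕ) + 1) := by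
  classical
  rw [Finset.prod_ite, Finset.prod_const_one, mul_one, Finset.prod_const]
  congr 1
  have : (Finset.univ.filter (fun j : Fin n => j ≤ i)) = Finset.Iic i := by
    ext j; simp
  rw [this, Fin.card_Iic]

theorem card_sym {F : Type*} [Field F] [Fintype F] {q : ℕ} (hF : Fintype.card F = q) (m : ℕ) :
    Nat.card {S : Matrix (Fin m) (Fin m) F // Sᵀ = S} = q ^ (m * (m - 1) / 2 + m) := by
  classical
  have e2 : {N : Fin m → Fin m → F // ∀ i, ∀ j, i < j → N i j = 0} ≃
      ∀ i : Fin m, ∀ j : Fin m, {x : F // i < j → x = 0} :=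
    (Equiv.subtypePiEquivPi (β := fun _ : Fin m => Fin m → F)
      (p := fun i r => ∀ j, i < j → r j = 0)).trans
      (Equiv.piCongrRight fun i => Equiv.subtypePiEquivPi (β := fun _ : Fin m => F)
      (p := fun j x => i < j → x = 0))
  rw [Nat.card_congr ((symEquiv m F).trans e2), Nat.card_pi]
  simp only [Nat.card_pi, cardQ hF, prod_innerQ]
  rw [Finset.prod_pow_eq_pow_sum, Finset.sum_add_distrib, Finset.sum_const, Finset.card_univ,
    Fintype.card_fin, Fin.sum_univ_eq_sum_range (fun i => i) m, Finset.sum_range_id, smul_eq_mul,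
    mul_one]

theorem sq_split (m : ℕ) : m * (m - 1) / 2 + (m * (m - 1) / 2 + m) = m ^ 2 := by
  have h1 : m * (m - 1) / 2 * 2 = m * (m - 1) :=
    Nat.div_mul_cancel (Nat.even_mul_pred_self m).two_dvd
  have h2 : m * (m - 1) + m = m ^ 2 := by
    cases m with
    | zero => rfl
    | succ k => simp only [Nat.add_sub_cancel]; ring
  omega

/-- Borel subgroup of the symplectic group: the elements of Sp_2m(q) stabilising each of the totally isotropic coordinate subspaces ⟨e_0, ..., e_k⟩ (k < m) form a subgroup of order q^(m²) (q − 1)^m. -/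
theorem result {F : Type*} [Field F] [Fintype F] {q : ℕ} (hF : Fintype.card F = q) (m : ℕ) : Nat.card ↥(⨅ k : Fin m, Cfsg.stabilizing (Cfsg.spToMat m F) {v : Fin m ⊕ Fin m → F | (∀ i : Fin m, (k : ℕ) < (i : ℕ) → v (Sum.inl i) = 0) ∧ ∀ i : Fin m, v (Sum.inr i) = 0}) = q ^ (m ^ 2) * (q - 1) ^ m := by
  classical
  have key : Nat.card ↥(⨅ k : Fin m, Cfsg.stabilizing (Cfsg.spToMat m F) (Wk m F k)) =
      q ^ (m ^ 2) * (q - 1) ^ m := by
    have hT := Cfsg.Agent.S0769.result hF m
    have hS := card_sym hF m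
    rw [← sq_split m, pow_add, mul_right_comm, ← hT, ← hS, ← Nat.card_prod]
    symm
    have hmemB : ∀ (L : {g : Matrix.GeneralLinearGroup (Fin m) F //
        ∀ i j : Fin m, i < j → (g : Matrix (Fin m) (Fin m) F) i j = 0})
        (S : {S : Matrix (Fin m) (Fin m) F // Sᵀ = S}),
        (⟨_, phi_mem m L.1 S.1 S.2⟩ : Matrix.symplecticGroup (Fin m) F) ∈
          (⨅ k : Fin m, Cfsg.stabilizing (Cfsg.spToMat m F) (Wk m F k)) := by
      intro L S
      rw [stab_iff, flag_iff]
      refine ⟨fun i j => rfl, fun i j hij => ?_⟩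
      exact L.2 j i hij
    refine Nat.card_congr (Equiv.ofBijective
      (fun p : {g : Matrix.GeneralLinearGroup (Fin m) F //
        ∀ i j : Fin m, i < j → (g : Matrix (Fin m) (Fin m) F) i j = 0} ×
        {S : Matrix (Fin m) (Fin m) F // Sᵀ = S} =>
        (⟨⟨_, phi_mem m p.1.1 p.2.1 p.2.2⟩, hmemB p.1 p.2⟩ :
          ↥(⨅ k : Fin m, Cfsg.stabilizing (Cfsg.spToMat m F) (Wk m F k)))) ⟨?_, ?_⟩)
    · rintro ⟨L, S⟩ ⟨L', S'⟩ h
      have h1 := congrArg (fun g : ↥(⨅ k : Fin m, Cfsg.stabilizing (Cfsg.spToMat m F) (Wk m F k)) =>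
        ((g : Matrix.symplecticGroup (Fin m) F) : Matrix (Fin m ⊕ Fin m) (Fin m ⊕ Fin m) F)) h
      simp only [Matrix.fromBlocks_inj] at h1
      obtain ⟨h11, h12, -, -⟩ := h1
      have hL : L.1 = L'.1 := Units.ext (Matrix.transpose_injective h11)
      have hL' : L = L' := Subtype.ext hL
      subst hL'
      have hS : S.1 = S'.1 := by
        have h3 : ((L.1⁻¹ : Matrix.GeneralLinearGroup (Fin m) F) : Matrix (Fin m) (Fin m) F)ᵀ *
            (L.1 : Matrix (Fin m) (Fin m) F)ᵀ = 1 := by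
          rw [← Matrix.transpose_mul, gl_mul_inv, Matrix.transpose_one]
        calc S.1 = ((L.1⁻¹ : Matrix.GeneralLinearGroup (Fin m) F) : Matrix (Fin m) (Fin m) F)ᵀ *
              ((L.1 : Matrix (Fin m) (Fin m) F)ᵀ * S.1) := by
              rw [← Matrix.mul_assoc, h3, Matrix.one_mul]
          _ = ((L.1⁻¹ : Matrix.GeneralLinearGroup (Fin m) F) : Matrix (Fin m) (Fin m) F)ᵀ *
              ((L.1 : Matrix (Fin m) (Fin m) F)ᵀ * S'.1) := by rw [h12]
          _ = S'.1 := by rw [← Matrix.mul_assoc, h3, Matrix.one_mul]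
      rw [Subtype.ext hS]
    · rintro ⟨g, hg⟩
      have hg' := hg
      rw [stab_iff, flag_iff] at hg'
      obtain ⟨hC0, hA0⟩ := hg'
      obtain ⟨M, hM⟩ : ∃ M : Matrix (Fin m ⊕ Fin m) (Fin m ⊕ Fin m) F, M = (g : Matrix _ _ F) :=
        ⟨_, rfl⟩
      have hC : M.toBlocks₂₁ = 0 := by
        ext i j
        rw [hM]; exact hC0 i j
      obtain ⟨A, hA⟩ : ∃ A, A = M.toBlocks₁₁ := ⟨_, rfl⟩
      obtain ⟨B, hB⟩ : ∃ B, B = M.toBlocks₁₂ := ⟨_, rfl⟩
      obtain ⟨D, hD⟩ : ∃ D, D = M.toBlocks₂₂ := ⟨_, rfl⟩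
      have hMb : M = Matrix.fromBlocks A B 0 D := by
        rw [hA, hB, hD]
        conv_lhs => rw [← Matrix.fromBlocks_toBlocks M, hC]
      have hgs := (SymplecticGroup.mem_iff).1 g.2
      rw [← hM, hMb, Matrix.J, Matrix.fromBlocks_transpose, Matrix.fromBlocks_multiply,
        Matrix.fromBlocks_multiply, Matrix.fromBlocks_inj] at hgs
      simp only [Matrix.transpose_zero, Matrix.zero_mul, Matrix.mul_zero, add_zero, zero_add,
        Matrix.mul_one, Matrix.mul_neg, Matrix.neg_mul, neg_inj] at hgs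
      obtain ⟨h11, h12, h21, -⟩ := hgs
      rw [neg_zero, add_zero] at h21
      have h12' : Dᵀ * A = 1 := mul_eq_one_comm.1 h12
      have h21' : Aᵀ * D = 1 := mul_eq_one_comm.1 h21
      have hsym : (Dᵀ * B)ᵀ = Dᵀ * B := by
        rw [Matrix.transpose_mul, Matrix.transpose_transpose]
        have e1 : B * Aᵀ = A * Bᵀ := by
          rw [← sub_eq_zero, sub_eq_add_neg]; exact h11
        calc Bᵀ * D = (Dᵀ * A) * Bᵀ * D := by rw [h12', Matrix.one_mul]
          _ = Dᵀ * (A * Bᵀ) * D := by simp only [Matrix.mul_assoc]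
          _ = Dᵀ * (B * Aᵀ) * D := by rw [e1]
          _ = Dᵀ * B * (Aᵀ * D) := by simp only [Matrix.mul_assoc]
          _ = Dᵀ * B := by rw [h21', Matrix.mul_one]
      have hLow : ∀ i j : Fin m, i < j → Aᵀ i j = 0 := by
        intro i j hij
        rw [Matrix.transpose_apply, hA, hM]
        exact hA0 j i hij
      refine ⟨(⟨⟨⟨Aᵀ, D, h21', h21⟩, hLow⟩, ⟨Dᵀ * B, hsym⟩⟩ :
        {g : Matrix.GeneralLinearGroup (Fin m) F //
          ∀ i j : Fin m, i < j → (g : Matrix (Fin m) (Fin m) F) i j = 0} ×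
        {S : Matrix (Fin m) (Fin m) F // Sᵀ = S}), ?_⟩
      apply Subtype.ext
      apply Subtype.ext
      show Matrix.fromBlocks Aᵀᵀ (Aᵀᵀ * (Dᵀ * B)) 0 D = (g : Matrix _ _ F)
      rw [← hM, hMb, Matrix.transpose_transpose, ← Matrix.mul_assoc, h12, Matrix.one_mul]
  exact key

end Cfsg.Agent.S0774
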