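import Mathlib
import Cfsg.Statements.S0776
import Cfsg.Agent.S0752
import Cfsg.Agent.Lib.Helper5.Symp

set_option autoImplicit false
open Cfsg

namespace Cfsg.Agent.S0776

open Matrix Cfsg.Agent.Lib.Helper5

variable {F : Type*} [Field F]

/-- The block form of `J`. -/
def Jb (k l : ℕ) (F : Type*) [Field F] :
    Matrix ((Fin k ⊕ Fin k) ⊕ (Fin l ⊕ Fin l)) ((Fin k ⊕ Fin k) ⊕ (Fin l ⊕ Fin l)) F :=
  Matrix.fromBlocks (Matrix.J (Fin k) F) 0 0 (Matrix.J (Fin l) F)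

theorem Jb_sq (k l : ℕ) : Jb k l F * Jb k l F = -1 := by
  rw [Jb, Matrix.fromBlocks_multiply]
  simp only [Matrix.mul_zero, Matrix.zero_mul, add_zero, zero_add, Matrix.J_squared]
  ext a b
  rcases a with a | a <;> rcases b with b | b <;> simp [Matrix.one_apply]

theorem fb_mem (k l : ℕ) (A : Matrix (Fin k ⊕ Fin k) (Fin k ⊕ Fin k) F)
    (D : Matrix (Fin l ⊕ Fin l) (Fin l ⊕ Fin l) F)
    (hA : Aᵀ * Matrix.J (Fin k) F * A = Matrix.J (Fin k) F)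
    (hD : Dᵀ * Matrix.J (Fin l) F * D = Matrix.J (Fin l) F) :
    (Matrix.fromBlocks A 0 0 D)ᵀ * Jb k l F * Matrix.fromBlocks A 0 0 D = Jb k l F := by
  rw [Jb, Matrix.fromBlocks_transpose, Matrix.fromBlocks_multiply, Matrix.fromBlocks_multiply]
  simp [hA, hD]

theorem blocks_sp (k l : ℕ)
    (M : Matrix ((Fin k ⊕ Fin k) ⊕ (Fin l ⊕ Fin l)) ((Fin k ⊕ Fin k) ⊕ (Fin l ⊕ Fin l)) F)
    (hM : Mᵀ * Jb k l F * M = Jb k l F) (hC : M.toBlocks₂₁ = 0) :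
    M.toBlocks₁₂ = 0 ∧ M.toBlocks₁₁ᵀ * Matrix.J (Fin k) F * M.toBlocks₁₁ = Matrix.J (Fin k) F ∧
      M.toBlocks₂₂ᵀ * Matrix.J (Fin l) F * M.toBlocks₂₂ = Matrix.J (Fin l) F := by
  obtain ⟨A, hA⟩ : ∃ A, A = M.toBlocks₁₁ := ⟨_, rfl⟩
  obtain ⟨B, hB⟩ : ∃ B, B = M.toBlocks₁₂ := ⟨_, rfl⟩
  obtain ⟨D, hD⟩ : ∃ D, D = M.toBlocks₂₂ := ⟨_, rfl⟩
  have hMb : M = Matrix.fromBlocks A B 0 D := by
    rw [hA, hB, hD, ← hC]; exact (Matrix.fromBlocks_toBlocks M).symm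
  rw [← hA, ← hB, ← hD]
  rw [hMb, Jb, Matrix.fromBlocks_transpose, Matrix.fromBlocks_multiply, Matrix.fromBlocks_multiply,
    Matrix.fromBlocks_inj] at hM
  simp only [Matrix.transpose_zero, Matrix.zero_mul, Matrix.mul_zero, add_zero, zero_add] at hM
  obtain ⟨h11, h12, h21, h22⟩ := hM
  have hB0 : B = 0 := by
    have hX : (Aᵀ * Matrix.J (Fin k) F) * (A * -Matrix.J (Fin k) F) = 1 := by
      rw [← Matrix.mul_assoc, h11, Matrix.mul_neg, Matrix.J_squared, neg_neg]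
    have hX' : (A * -Matrix.J (Fin k) F) * (Aᵀ * Matrix.J (Fin k) F) = 1 :=
      mul_eq_one_comm.1 hX
    calc B = (A * -Matrix.J (Fin k) F) * (Aᵀ * Matrix.J (Fin k) F) * B := by
          rw [hX', Matrix.one_mul]
      _ = (A * -Matrix.J (Fin k) F) * (Aᵀ * Matrix.J (Fin k) F * B) := by
          simp only [Matrix.mul_assoc]
      _ = 0 := by rw [h12, Matrix.mul_zero]
  refine ⟨hB0, h11, ?_⟩
  rw [hB0] at h22
  simpa using h22

theorem fb_mulVec (k l : ℕ) (A : Matrix (Fin k ⊕ Fin k) (Fin k ⊕ Fin k) F)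
    (D : Matrix (Fin l ⊕ Fin l) (Fin l ⊕ Fin l) F)
    (x : (Fin k ⊕ Fin k) ⊕ (Fin l ⊕ Fin l) → F) :
    Matrix.fromBlocks A 0 0 D *ᵥ x = Sum.elim (A *ᵥ (x ∘ Sum.inl)) (D *ᵥ (x ∘ Sum.inr)) := by
  rw [Matrix.fromBlocks_mulVec]; simp

theorem main_of_P (m k l : ℕ) (W : Submodule F (Fin m ⊕ Fin m → F))
    (P : Matrix (Fin m ⊕ Fin m) ((Fin k ⊕ Fin k) ⊕ (Fin l ⊕ Fin l)) F)
    (P' : Matrix ((Fin k ⊕ Fin k) ⊕ (Fin l ⊕ Fin l)) (Fin m ⊕ Fin m) F)
    (h1 : P' * P = 1) (h2 : P * P' = 1)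
    (h3 : Pᵀ * Matrix.J (Fin m) F * P = Jb k l F)
    (h4 : ∀ v, v ∈ W ↔ ∀ j, (P' *ᵥ v) (Sum.inr j) = 0) :
    Nonempty (↥(Cfsg.stabilizing (Cfsg.spToMat m F) (W : Set (Fin m ⊕ Fin m → F))) ≃*
      Matrix.symplecticGroup (Fin k) F × Matrix.symplecticGroup (Fin l) F) := by
  classical
  have h3' : P'ᵀ * Jb k l F * P' = Matrix.J (Fin m) F := by
    rw [← h3]
    calc P'ᵀ * (Pᵀ * Matrix.J (Fin m) F * P) * P'
        = (P * P')ᵀ * Matrix.J (Fin m) F * (P * P') := by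
          rw [Matrix.transpose_mul]; simp only [Matrix.mul_assoc]
      _ = _ := by rw [h2, Matrix.transpose_one, Matrix.one_mul, Matrix.mul_one]
  have e3 : ∀ (M : Matrix ((Fin k ⊕ Fin k) ⊕ (Fin l ⊕ Fin l)) ((Fin k ⊕ Fin k) ⊕ (Fin l ⊕ Fin l)) F)
      (v : Fin m ⊕ Fin m → F), (P * M * P') *ᵥ v = P *ᵥ (M *ᵥ (P' *ᵥ v)) := by
    intro M v
    rw [Matrix.mulVec_mulVec, Matrix.mulVec_mulVec, Matrix.mul_assoc]
  have hSp : ∀ (a : Matrix.symplecticGroup (Fin k) F) (d : Matrix.symplecticGroup (Fin l) F),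
      P * Matrix.fromBlocks (a : Matrix (Fin k ⊕ Fin k) (Fin k ⊕ Fin k) F) 0 0
        (d : Matrix (Fin l ⊕ Fin l) (Fin l ⊕ Fin l) F) * P' ∈ Matrix.symplecticGroup (Fin m) F := by
    intro a d
    rw [SymplecticGroup.mem_iff']
    have ha := SymplecticGroup.mem_iff'.1 a.2
    have hd := SymplecticGroup.mem_iff'.1 d.2
    have hfb := fb_mem k l _ _ ha hd
    calc (P * Matrix.fromBlocks (a : Matrix (Fin k ⊕ Fin k) (Fin k ⊕ Fin k) F) 0 0
          (d : Matrix (Fin l ⊕ Fin l) (Fin l ⊕ Fin l) F) * P')ᵀ * Matrix.J (Fin m) F *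
          (P * Matrix.fromBlocks (a : Matrix (Fin k ⊕ Fin k) (Fin k ⊕ Fin k) F) 0 0
          (d : Matrix (Fin l ⊕ Fin l) (Fin l ⊕ Fin l) F) * P')
        = P'ᵀ * ((Matrix.fromBlocks (a : Matrix (Fin k ⊕ Fin k) (Fin k ⊕ Fin k) F) 0 0
          (d : Matrix (Fin l ⊕ Fin l) (Fin l ⊕ Fin l) F))ᵀ * (Pᵀ * Matrix.J (Fin m) F * P) *
          Matrix.fromBlocks (a : Matrix (Fin k ⊕ Fin k) (Fin k ⊕ Fin k) F) 0 0
          (d : Matrix (Fin l ⊕ Fin l) (Fin l ⊕ Fin l) F)) * P' := by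
          rw [Matrix.transpose_mul, Matrix.transpose_mul]; simp only [Matrix.mul_assoc]
      _ = _ := by rw [h3, hfb, h3']
  have hSt : ∀ (a : Matrix.symplecticGroup (Fin k) F) (d : Matrix.symplecticGroup (Fin l) F),
      (⟨_, hSp a d⟩ : Matrix.symplecticGroup (Fin m) F) ∈
        Cfsg.stabilizing (Cfsg.spToMat m F) (W : Set (Fin m ⊕ Fin m → F)) := by
    intro a d v
    show v ∈ W ↔ (P * Matrix.fromBlocks (a : Matrix (Fin k ⊕ Fin k) (Fin k ⊕ Fin k) F) 0 0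
        (d : Matrix (Fin l ⊕ Fin l) (Fin l ⊕ Fin l) F) * P') *ᵥ v ∈ W
    rw [h4, h4, e3, Matrix.mulVec_mulVec _ P' P, h1, Matrix.one_mulVec, fb_mulVec]
    simp only [Sum.elim_inr]
    constructor
    · intro h j
      have : (P' *ᵥ v) ∘ Sum.inr = 0 := funext h
      rw [this, Matrix.mulVec_zero]; rfl
    · intro h j
      have h5 : (d : Matrix (Fin l ⊕ Fin l) (Fin l ⊕ Fin l) F) *ᵥ ((P' *ᵥ v) ∘ Sum.inr) = 0 :=
        funext h
      have hdd : ((d⁻¹ : Matrix.symplecticGroup (Fin l) F) :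
          Matrix (Fin l ⊕ Fin l) (Fin l ⊕ Fin l) F) *
          (d : Matrix (Fin l ⊕ Fin l) (Fin l ⊕ Fin l) F) = 1 :=
        congrArg Subtype.val (inv_mul_cancel d)
      have h6 := congrArg (fun w => ((d⁻¹ : Matrix.symplecticGroup (Fin l) F) :
          Matrix (Fin l ⊕ Fin l) (Fin l ⊕ Fin l) F) *ᵥ w) h5
      simp only [Matrix.mulVec_mulVec, Matrix.mulVec_zero] at h6
      rw [hdd, Matrix.one_mulVec] at h6
      exact congrFun h6 j
  let Ψ' : Matrix.symplecticGroup (Fin k) F × Matrix.symplecticGroup (Fin l) F →*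
      ↥(Cfsg.stabilizing (Cfsg.spToMat m F) (W : Set (Fin m ⊕ Fin m → F))) :=
    MonoidHom.mk' (fun p => ⟨⟨_, hSp p.1 p.2⟩, hSt p.1 p.2⟩) (by
      intro p p'
      apply Subtype.ext
      apply Subtype.ext
      show P * Matrix.fromBlocks ((p.1 * p'.1 : Matrix.symplecticGroup (Fin k) F) :
          Matrix (Fin k ⊕ Fin k) (Fin k ⊕ Fin k) F) 0 0
          ((p.2 * p'.2 : Matrix.symplecticGroup (Fin l) F) :
          Matrix (Fin l ⊕ Fin l) (Fin l ⊕ Fin l) F) * P' =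
        (P * Matrix.fromBlocks (p.1 : Matrix (Fin k ⊕ Fin k) (Fin k ⊕ Fin k) F) 0 0
          (p.2 : Matrix (Fin l ⊕ Fin l) (Fin l ⊕ Fin l) F) * P') *
        (P * Matrix.fromBlocks (p'.1 : Matrix (Fin k ⊕ Fin k) (Fin k ⊕ Fin k) F) 0 0
          (p'.2 : Matrix (Fin l ⊕ Fin l) (Fin l ⊕ Fin l) F) * P')
      have : Matrix.fromBlocks ((p.1 * p'.1 : Matrix.symplecticGroup (Fin k) F) :
          Matrix (Fin k ⊕ Fin k) (Fin k ⊕ Fin k) F) 0 0
          ((p.2 * p'.2 : Matrix.symplecticGroup (Fin l) F) :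
          Matrix (Fin l ⊕ Fin l) (Fin l ⊕ Fin l) F) =
          Matrix.fromBlocks (p.1 : Matrix (Fin k ⊕ Fin k) (Fin k ⊕ Fin k) F) 0 0
            (p.2 : Matrix (Fin l ⊕ Fin l) (Fin l ⊕ Fin l) F) *
          Matrix.fromBlocks (p'.1 : Matrix (Fin k ⊕ Fin k) (Fin k ⊕ Fin k) F) 0 0
            (p'.2 : Matrix (Fin l ⊕ Fin l) (Fin l ⊕ Fin l) F) := by
        rw [Matrix.fromBlocks_multiply]; simp
      rw [this]
      calc P * (Matrix.fromBlocks (p.1 : Matrix (Fin k ⊕ Fin k) (Fin k ⊕ Fin k) F) 0 0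
            (p.2 : Matrix (Fin l ⊕ Fin l) (Fin l ⊕ Fin l) F) *
          Matrix.fromBlocks (p'.1 : Matrix (Fin k ⊕ Fin k) (Fin k ⊕ Fin k) F) 0 0
            (p'.2 : Matrix (Fin l ⊕ Fin l) (Fin l ⊕ Fin l) F)) * P'
          = P * Matrix.fromBlocks (p.1 : Matrix (Fin k ⊕ Fin k) (Fin k ⊕ Fin k) F) 0 0
            (p.2 : Matrix (Fin l ⊕ Fin l) (Fin l ⊕ Fin l) F) * (P' * P) *
          Matrix.fromBlocks (p'.1 : Matrix (Fin k ⊕ Fin k) (Fin k ⊕ Fin k) F) 0 0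
            (p'.2 : Matrix (Fin l ⊕ Fin l) (Fin l ⊕ Fin l) F) * P' := by
            rw [h1, Matrix.mul_one]; simp only [Matrix.mul_assoc]
        _ = _ := by simp only [Matrix.mul_assoc])
  have hΨ' : ∀ p, (((Ψ' p : ↥(Cfsg.stabilizing (Cfsg.spToMat m F)
      (W : Set (Fin m ⊕ Fin m → F)))) : Matrix.symplecticGroup (Fin m) F) :
      Matrix (Fin m ⊕ Fin m) (Fin m ⊕ Fin m) F) =
      P * Matrix.fromBlocks (p.1 : Matrix (Fin k ⊕ Fin k) (Fin k ⊕ Fin k) F) 0 0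
        (p.2 : Matrix (Fin l ⊕ Fin l) (Fin l ⊕ Fin l) F) * P' := fun p => rfl
  have h7 : ∀ M : Matrix ((Fin k ⊕ Fin k) ⊕ (Fin l ⊕ Fin l)) ((Fin k ⊕ Fin k) ⊕ (Fin l ⊕ Fin l)) F,
      P' * (P * M * P') * P = M := by
    intro M
    calc P' * (P * M * P') * P = (P' * P) * M * (P' * P) := by simp only [Matrix.mul_assoc]
      _ = M := by rw [h1, Matrix.one_mul, Matrix.mul_one]
  have hinj : Function.Injective Ψ' := by
    intro p p' h
    have h5 := congrArg (fun g : ↥(Cfsg.stabilizing (Cfsg.spToMat m F)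
      (W : Set (Fin m ⊕ Fin m → F))) => P' * ((g : Matrix.symplecticGroup (Fin m) F) :
      Matrix (Fin m ⊕ Fin m) (Fin m ⊕ Fin m) F) * P) h
    simp only [hΨ'] at h5
    rw [h7, h7, Matrix.fromBlocks_inj] at h5
    apply Prod.ext
    · apply Subtype.ext
      exact h5.1
    · apply Subtype.ext
      exact h5.2.2.2
  have hsurj : Function.Surjective Ψ' := by
    intro g
    have hgS : (g.1 : Matrix (Fin m ⊕ Fin m) (Fin m ⊕ Fin m) F) ∈
        Matrix.symplecticGroup (Fin m) F := g.1.2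
    have hgW : ∀ v, v ∈ W ↔ (g.1 : Matrix (Fin m ⊕ Fin m) (Fin m ⊕ Fin m) F) *ᵥ v ∈ W := g.2
    obtain ⟨M, hM⟩ : ∃ M, M = P' * (g.1 : Matrix (Fin m ⊕ Fin m) (Fin m ⊕ Fin m) F) * P :=
      ⟨_, rfl⟩
    have hMJ : Mᵀ * Jb k l F * M = Jb k l F := by
      rw [hM]
      calc (P' * (g.1 : Matrix (Fin m ⊕ Fin m) (Fin m ⊕ Fin m) F) * P)ᵀ * Jb k l F *
            (P' * (g.1 : Matrix (Fin m ⊕ Fin m) (Fin m ⊕ Fin m) F) * P)
          = Pᵀ * ((g.1 : Matrix (Fin m ⊕ Fin m) (Fin m ⊕ Fin m) F)ᵀ * (P'ᵀ * Jb k l F * P') *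
            (g.1 : Matrix (Fin m ⊕ Fin m) (Fin m ⊕ Fin m) F)) * P := by
            rw [Matrix.transpose_mul, Matrix.transpose_mul]; simp only [Matrix.mul_assoc]
        _ = _ := by rw [h3', SymplecticGroup.mem_iff'.1 hgS, h3]
    have hC : M.toBlocks₂₁ = 0 := by
      ext j i
      have h5 : P *ᵥ (Pi.single (Sum.inl i) 1) ∈ W := by
        rw [h4, Matrix.mulVec_mulVec, h1, Matrix.one_mulVec]
        intro j; simp
      have h6 := (h4 _).1 ((hgW _).1 h5) j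
      rw [Matrix.mulVec_mulVec, Matrix.mulVec_mulVec, ← hM,
        Matrix.mulVec_single_one] at h6
      exact h6
    obtain ⟨hB, hA, hD⟩ := blocks_sp k l M hMJ hC
    have hMb : M = Matrix.fromBlocks M.toBlocks₁₁ 0 0 M.toBlocks₂₂ := by
      have := Matrix.fromBlocks_toBlocks M
      rw [hC, hB] at this
      exact this.symm
    refine ⟨(⟨M.toBlocks₁₁, SymplecticGroup.mem_iff'.2 hA⟩,
      ⟨M.toBlocks₂₂, SymplecticGroup.mem_iff'.2 hD⟩), ?_⟩
    apply Subtype.ext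
    apply Subtype.ext
    rw [hΨ']
    show P * Matrix.fromBlocks M.toBlocks₁₁ 0 0 M.toBlocks₂₂ * P' = _
    rw [← hMb, hM]
    calc P * (P' * (g.1 : Matrix (Fin m ⊕ Fin m) (Fin m ⊕ Fin m) F) * P) * P'
        = (P * P') * (g.1 : Matrix (Fin m ⊕ Fin m) (Fin m ⊕ Fin m) F) * (P * P') := by
          simp only [Matrix.mul_assoc]
      _ = _ := by rw [h2, Matrix.one_mul, Matrix.mul_one]
  exact ⟨(MulEquiv.ofBijective Ψ' ⟨hinj, hsurj⟩).symm⟩

/-- The symplectic form as a bilinear form. -/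
noncomputable def Bs (m : ℕ) (F : Type*) [Field F] : LinearMap.BilinForm F (Fin m ⊕ Fin m → F) :=
  Matrix.toBilin' (Matrix.J (Fin m) F)

theorem Bs_apply (m : ℕ) (u v : Fin m ⊕ Fin m → F) : Bs m F u v = Cfsg.sympForm m F u v := by
  rw [Bs, Matrix.toBilin'_apply']; rfl

theorem Bs_nondeg (m : ℕ) : (Bs m F).Nondegenerate := by
  constructor
  · intro u hu
    by_contra hne
    obtain ⟨a, ha⟩ := exists_sympForm_ne_zero m u hne
    exact ha (by rw [← Bs_apply]; exact hu a)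
  · intro v hv
    by_contra hne
    obtain ⟨a, ha⟩ := exists_sympForm_ne_zero m v hne
    apply ha
    rw [sympForm_swap, ← Bs_apply, hv a, neg_zero]

theorem Bs_refl (m : ℕ) : (Bs m F).IsRefl := by
  intro u v h
  rw [Bs_apply] at h ⊢
  rw [sympForm_swap, h, neg_zero]

theorem sbasis (m k : ℕ) (X : Submodule F (Fin m ⊕ Fin m → F))
    (hXk : Module.finrank F X = 2 * k)
    (hX : ∀ u ∈ X, (∀ v ∈ X, Cfsg.sympForm m F u v = 0) → u = 0) :
    ∃ e f : Fin k → (Fin m ⊕ Fin m → F), (∀ i, e i ∈ X) ∧ (∀ i, f i ∈ X) ∧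
      (∀ i j, Cfsg.sympForm m F (e i) (f j) = if i = j then 1 else 0) ∧
      (∀ i j, Cfsg.sympForm m F (e i) (e j) = 0) ∧ (∀ i j, Cfsg.sympForm m F (f i) (f j) = 0) := by
  classical
  obtain ⟨BX, hBXdef⟩ : ∃ BX : LinearMap.BilinForm F X, BX = (Bs m F).restrict X := ⟨_, rfl⟩
  have hBX : ∀ x y : X, BX x y = Cfsg.sympForm m F (x : Fin m ⊕ Fin m → F) (y : Fin m ⊕ Fin m → F) :=
    fun x y => by rw [hBXdef]; exact Bs_apply m _ _
  have hA : BX.IsAlt := fun x => by rw [hBX]; exact sympForm_self m _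
  obtain ⟨m', k', b, h1, h2, h3, h4⟩ := Cfsg.Agent.S0752.result BX hA
  have hk' : k' = 0 := by
    by_contra hne
    have hj := h4 ⟨0, Nat.pos_of_ne_zero hne⟩
    apply b.ne_zero (Sum.inr ⟨0, Nat.pos_of_ne_zero hne⟩)
    apply Subtype.ext
    apply hX _ (b _).2
    intro v hv
    have := hj ⟨v, hv⟩
    rw [hBX] at this
    exact this
  have hcard := Module.finrank_eq_card_basis b
  simp only [Fintype.card_sum, Fintype.card_fin] at hcard
  have hm : m' = k := by omega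
  subst hm
  refine ⟨fun i => (b (Sum.inl (Sum.inl i)) : Fin m ⊕ Fin m → F),
    fun i => (b (Sum.inl (Sum.inr i)) : Fin m ⊕ Fin m → F), fun i => (b _).2, fun i => (b _).2,
    ?_, ?_, ?_⟩
  · intro i j; rw [← hBX]; exact h1 i j
  · intro i j; rw [← hBX]; exact h2 i j
  · intro i j; rw [← hBX]; exact h3 i j

theorem exists_P (m k : ℕ) (hk : k ≤ m) (W : Submodule F (Fin m ⊕ Fin m → F))
    (hWk : Module.finrank F W = 2 * k)
    (hW : ∀ u ∈ W, (∀ v ∈ W, Cfsg.sympForm m F u v = 0) → u = 0) :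
    ∃ (P : Matrix (Fin m ⊕ Fin m) ((Fin k ⊕ Fin k) ⊕ (Fin (m - k) ⊕ Fin (m - k))) F)
      (P' : Matrix ((Fin k ⊕ Fin k) ⊕ (Fin (m - k) ⊕ Fin (m - k))) (Fin m ⊕ Fin m) F),
      P' * P = 1 ∧ P * P' = 1 ∧ Pᵀ * Matrix.J (Fin m) F * P = Jb k (m - k) F ∧
      (∀ v, v ∈ W ↔ ∀ j, (P' *ᵥ v) (Sum.inr j) = 0) := by
  classical
  obtain ⟨W', hW'def⟩ : ∃ W', W' = (Bs m F).orthogonal W := ⟨_, rfl⟩
  have hW'mem : ∀ x, x ∈ W' ↔ ∀ w ∈ W, Cfsg.sympForm m F w x = 0 := by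
    intro x
    rw [hW'def, LinearMap.BilinForm.mem_orthogonal_iff]
    constructor
    · intro h w hw; rw [← Bs_apply]; exact h w hw
    · intro h w hw; rw [Bs_apply]; exact h w hw
  have hfin : Module.finrank F W' = 2 * (m - k) := by
    rw [hW'def, LinearMap.BilinForm.finrank_orthogonal (Bs_nondeg m), hWk,
      Module.finrank_fintype_fun_eq_card]
    simp only [Fintype.card_sum, Fintype.card_fin]
    omega
  have hW' : ∀ u ∈ W', (∀ v ∈ W', Cfsg.sympForm m F u v = 0) → u = 0 := by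
    intro u hu h
    have h1 : u ∈ (Bs m F).orthogonal W' := by
      rw [LinearMap.BilinForm.mem_orthogonal_iff]
      intro x hx
      show (Bs m F) x u = 0
      rw [Bs_apply, sympForm_swap, h x hx, neg_zero]
    rw [hW'def, LinearMap.BilinForm.orthogonal_orthogonal (Bs_nondeg m) (Bs_refl m)] at h1
    apply hW u h1
    intro v hv
    rw [sympForm_swap, (hW'mem u).1 hu v hv, neg_zero]
  obtain ⟨e, f, heW, hfW, hef, hee, hff⟩ := sbasis m k W hWk hW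
  obtain ⟨e', f', heW', hfW', hef', hee', hff'⟩ := sbasis m (m - k) W' hfin hW'
  obtain ⟨c, hcdef⟩ : ∃ c : (Fin k ⊕ Fin k) ⊕ (Fin (m - k) ⊕ Fin (m - k)) → (Fin m ⊕ Fin m → F),
      c = Sum.elim (Sum.elim f e) (Sum.elim f' e') := ⟨_, rfl⟩
  have hcW : ∀ a, c (Sum.inl a) ∈ W := by
    rintro (i | i)
    · rw [hcdef]; exact hfW i
    · rw [hcdef]; exact heW i
  have hcW' : ∀ a, c (Sum.inr a) ∈ W' := by
    rintro (i | i)
    · rw [hcdef]; exact hfW' i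
    · rw [hcdef]; exact heW' i
  have hc : ∀ a b, Cfsg.sympForm m F (c a) (c b) = Jb k (m - k) F a b := by
    rintro (a | a) (b | b)
    · rcases a with i | i <;> rcases b with j | j
      · rw [hcdef]; simp only [Sum.elim_inl]; rw [hff]; simp [Jb, Matrix.J]
      · rw [hcdef]; simp only [Sum.elim_inl, Sum.elim_inr]; rw [sympForm_swap, hef]
        simp [Jb, Matrix.J, Matrix.one_apply, eq_comm]
      · rw [hcdef]; simp only [Sum.elim_inl, Sum.elim_inr]; rw [hef]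
        simp [Jb, Matrix.J, Matrix.one_apply]
      · rw [hcdef]; simp only [Sum.elim_inl, Sum.elim_inr]; rw [hee]; simp [Jb, Matrix.J]
    · rw [(hW'mem _).1 (hcW' b) _ (hcW a)]; simp [Jb]
    · rw [sympForm_swap, (hW'mem _).1 (hcW' a) _ (hcW b)]; simp [Jb]
    · rcases a with i | i <;> rcases b with j | j
      · rw [hcdef]; simp only [Sum.elim_inl, Sum.elim_inr]; rw [hff']; simp [Jb, Matrix.J]
      · rw [hcdef]; simp only [Sum.elim_inl, Sum.elim_inr]; rw [sympForm_swap, hef']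
        simp [Jb, Matrix.J, Matrix.one_apply, eq_comm]
      · rw [hcdef]; simp only [Sum.elim_inl, Sum.elim_inr]; rw [hef']
        simp [Jb, Matrix.J, Matrix.one_apply]
      · rw [hcdef]; simp only [Sum.elim_inl, Sum.elim_inr]; rw [hee']; simp [Jb, Matrix.J]
  obtain ⟨P, hPdef⟩ : ∃ P : Matrix (Fin m ⊕ Fin m) ((Fin k ⊕ Fin k) ⊕ (Fin (m - k) ⊕ Fin (m - k))) F,
      P = Matrix.of (fun i a => c a i) := ⟨_, rfl⟩
  obtain ⟨P', hP'def⟩ : ∃ P' : Matrix ((Fin k ⊕ Fin k) ⊕ (Fin (m - k) ⊕ Fin (m - k))) (Fin m ⊕ Fin m) F,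
      P' = -Jb k (m - k) F * Pᵀ * Matrix.J (Fin m) F := ⟨_, rfl⟩
  have hs : ∀ (a : (Fin k ⊕ Fin k) ⊕ (Fin (m - k) ⊕ Fin (m - k))) (v : Fin m ⊕ Fin m → F),
      (Pᵀ *ᵥ (Matrix.J (Fin m) F *ᵥ v)) a = Cfsg.sympForm m F (c a) v := by
    intro a v
    rw [hPdef]
    rfl
  have hPJ : Pᵀ * Matrix.J (Fin m) F * P = Jb k (m - k) F := by
    ext a b
    rw [← hc a b, ← hs a (c b)]
    have : c b = P *ᵥ Pi.single b 1 := by
      rw [Matrix.mulVec_single_one, hPdef]; rfl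
    rw [this, Matrix.mulVec_mulVec, Matrix.mulVec_mulVec, Matrix.mulVec_single_one]
    simp only [Matrix.mul_assoc]
    rfl
  have h1 : P' * P = 1 := by
    rw [hP'def, Matrix.mul_assoc, Matrix.mul_assoc, ← Matrix.mul_assoc Pᵀ, hPJ, Matrix.neg_mul,
      Jb_sq, neg_neg]
  have h2 : P * P' = 1 :=
    (Matrix.mul_eq_one_comm_of_equiv (Fintype.equivOfCardEq (by
      simp only [Fintype.card_sum, Fintype.card_fin]; omega))).1 h1
  refine ⟨P, P', h1, h2, hPJ, ?_⟩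
  intro v
  have e5 : P' *ᵥ v = -(Jb k (m - k) F *ᵥ (Pᵀ *ᵥ (Matrix.J (Fin m) F *ᵥ v))) := by
    rw [hP'def, Matrix.mulVec_mulVec, Matrix.mulVec_mulVec, Matrix.neg_mul,
      Matrix.neg_mul, Matrix.neg_mulVec]
  constructor
  · intro hv j
    rw [e5, Jb, fb_mulVec]
    have h0 : (Pᵀ *ᵥ (Matrix.J (Fin m) F *ᵥ v)) ∘ Sum.inr = 0 := by
      funext b
      show (Pᵀ *ᵥ (Matrix.J (Fin m) F *ᵥ v)) (Sum.inr b) = 0
      rw [hs, sympForm_swap, (hW'mem _).1 (hcW' b) v hv, neg_zero]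
    rw [h0, Matrix.mulVec_zero]
    simp
  · intro h
    have hv : v = P *ᵥ (P' *ᵥ v) := by rw [Matrix.mulVec_mulVec, h2, Matrix.one_mulVec]
    have hsum : P *ᵥ (P' *ᵥ v) = ∑ a, (P' *ᵥ v) a • c a := by
      funext i'
      rw [hPdef]
      simp only [Matrix.mulVec, dotProduct, Matrix.of_apply, Finset.sum_apply, Pi.smul_apply,
        smul_eq_mul]
      exact Finset.sum_congr rfl fun i _ => mul_comm _ _
    rw [hv, hsum, Fintype.sum_sum_type]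
    apply Submodule.add_mem
    · apply Submodule.sum_mem
      intro a _
      exact Submodule.smul_mem _ _ (hcW a)
    · apply Submodule.sum_mem
      intro j _
      rw [h j, zero_smul]
      exact Submodule.zero_mem _

/-- If W ≤ F^(2m) is a 2k-dimensional subspace on which the symplectic form is non-degenerate, then the stabiliser of W in Sp_2m(F) is isomorphic to Sp_2k(F) × Sp_(2m−2k)(F). -/
theorem result {F : Type*} [Field F] (m k : ℕ) (hk : k ≤ m) (W : Submodule F (Fin m ⊕ Fin m → F)) (hWk : Module.finrank F W = 2 * k) (hW : ∀ u ∈ W, (∀ v ∈ W, Cfsg.sympForm m F u v = 0) → u = 0) : Nonempty (↥(Cfsg.stabilizing (Cfsg.spToMat m F) (W : Set (Fin m ⊕ Fin m → F))) ≃* Matrix.symplecticGroup (Fin k) F × Matrix.symplecticGroup (Fin (m - k)) F) := by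
  obtain ⟨P, P', h1, h2, h3, h4⟩ := exists_P m k hk W hWk hW
  exact main_of_P m k (m - k) W P P' h1 h2 h3 h4

end Cfsg.Agent.S0776
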