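import Mathlib
import Cfsg.Statements.S0777

set_option autoImplicit false
open Cfsg

namespace Cfsg.Agent.S0777

open Matrix

theorem card_fib {A B : Type*} [Finite A] [Finite B] (f : A → B) (c : ℕ)
    (h : ∀ b : B, Nat.card {a : A // f a = b} = c) : Nat.card A = Nat.card B * c := by
  classical
  have := Fintype.ofFinite B
  rw [← Nat.card_congr (Equiv.sigmaFiberEquiv f), Nat.card_sigma]
  simp [h, Nat.card_eq_fintype_card]

section basic

variable {F : Type*} [Field F] (m : ℕ)

/-- The pairing of coordinates. -/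
def tau : Equiv.Perm (Fin m ⊕ Fin m) := Equiv.sumComm (Fin m) (Fin m)

theorem tau_tau (i : Fin m ⊕ Fin m) : tau m (tau m i) = i := by cases i <;> rfl

theorem tau_ne (i : Fin m ⊕ Fin m) : tau m i ≠ i := by cases i <;> simp [tau]

/-- The signs of the entries of `J`. -/
def sg (F : Type*) [Field F] : Fin m ⊕ Fin m → F := Sum.elim (fun _ => -1) (fun _ => 1)

theorem sg_sq (i : Fin m ⊕ Fin m) : sg m F i * sg m F i = 1 := by cases i <;> simp [sg]

theorem sg_tau (i : Fin m ⊕ Fin m) : sg m F (tau m i) = - sg m F i := by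
  cases i <;> simp [sg, tau]

theorem sg_ne (i : Fin m ⊕ Fin m) : sg m F i ≠ 0 := by cases i <;> simp [sg]

theorem J_eq (i k : Fin m ⊕ Fin m) :
    Matrix.J (Fin m) F i k = if k = tau m i then sg m F i else 0 := by
  rcases i with a | a <;> rcases k with b | b <;>
    simp [Matrix.J, tau, sg, Matrix.one_apply, eq_comm]
  split_ifs <;> simp

/-- Monomial matrices. -/
def Mn (σ : Equiv.Perm (Fin m ⊕ Fin m)) (c : Fin m ⊕ Fin m → F) :
    Matrix (Fin m ⊕ Fin m) (Fin m ⊕ Fin m) F :=
  Matrix.of fun i j => if j = σ i then c i else 0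

theorem Mn_apply (σ : Equiv.Perm (Fin m ⊕ Fin m)) (c : Fin m ⊕ Fin m → F) (i j : Fin m ⊕ Fin m) :
    Mn m σ c i j = if j = σ i then c i else 0 := rfl

theorem Mn_J (σ : Equiv.Perm (Fin m ⊕ Fin m)) (c : Fin m ⊕ Fin m → F) (i k : Fin m ⊕ Fin m) :
    (Mn m σ c * Matrix.J (Fin m) F * (Mn m σ c)ᵀ) i k =
      c i * c k * Matrix.J (Fin m) F (σ i) (σ k) := by
  simp only [Matrix.mul_apply, Matrix.transpose_apply, Mn_apply, ite_mul, zero_mul, mul_ite,
    mul_zero, Finset.sum_ite_eq', Finset.sum_ite_eq, Finset.mem_univ, if_true]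
  ring

theorem mem_line (i : Fin m ⊕ Fin m) (v : Fin m ⊕ Fin m → F) :
    v ∈ (Submodule.span F {(Pi.single i (1 : F) : Fin m ⊕ Fin m → F)} :
      Submodule F (Fin m ⊕ Fin m → F)) ↔ ∀ k, k ≠ i → v k = 0 := by
  rw [Submodule.mem_span_singleton]
  constructor
  · rintro ⟨a, rfl⟩ k hk
    simp [Pi.single_apply, hk]
  · intro h
    refine ⟨v i, ?_⟩
    ext k
    by_cases hk : k = i
    · subst hk; simp
    · simp [Pi.single_apply, hk, h k hk]

theorem stab_of_subset [Fintype F] (g : Matrix.symplecticGroup (Fin m) F)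
    (S : Set (Fin m ⊕ Fin m → F))
    (h : ∀ v ∈ S, (g : Matrix (Fin m ⊕ Fin m) (Fin m ⊕ Fin m) F) *ᵥ v ∈ S) :
    g ∈ Cfsg.stabilizing (Cfsg.spToMat m F) S := by
  classical
  have hpow : ∀ n : ℕ, ∀ v ∈ S, ((g ^ n : Matrix.symplecticGroup (Fin m) F) :
      Matrix (Fin m ⊕ Fin m) (Fin m ⊕ Fin m) F) *ᵥ v ∈ S := by
    intro n
    induction n with
    | zero =>
      intro v hv
      rw [pow_zero, Submonoid.coe_one, Matrix.one_mulVec]
      exact hv
    | succ n ih =>
      intro v hv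
      rw [pow_succ, Submonoid.coe_mul, ← Matrix.mulVec_mulVec]
      exact ih _ (h v hv)
  intro v
  refine ⟨h v, fun hv => ?_⟩
  have hfin : IsOfFinOrder g := isOfFinOrder_of_finite g
  have hpos := hfin.orderOf_pos
  have h1 : g ^ (orderOf g - 1) * g = 1 := by
    rw [← pow_succ, Nat.sub_add_cancel hpos, pow_orderOf_eq_one]
  have h2 := hpow (orderOf g - 1) _ hv
  have h3 : ((g ^ (orderOf g - 1) : Matrix.symplecticGroup (Fin m) F) :
      Matrix (Fin m ⊕ Fin m) (Fin m ⊕ Fin m) F) *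
      (g : Matrix (Fin m ⊕ Fin m) (Fin m ⊕ Fin m) F) = 1 := by
    rw [← Submonoid.coe_mul, h1, Submonoid.coe_one]
  change ((g ^ (orderOf g - 1) : Matrix.symplecticGroup (Fin m) F) :
      Matrix (Fin m ⊕ Fin m) (Fin m ⊕ Fin m) F) *ᵥ
      ((g : Matrix (Fin m ⊕ Fin m) (Fin m ⊕ Fin m) F) *ᵥ v) ∈ _ at h2
  rwa [Matrix.mulVec_mulVec, h3, Matrix.one_mulVec] at h2

theorem mem_T [Fintype F] (g : Matrix.symplecticGroup (Fin m) F) :
    g ∈ (⨅ i : Fin m ⊕ Fin m, Cfsg.stabilizing (Cfsg.spToMat m F) ((Submodule.span F {(Pi.single i (1 : F) : Fin m ⊕ Fin m → F)} : Submodule F (Fin m ⊕ Fin m → F)) : Set (Fin m ⊕ Fin m → F))) ↔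
      ∀ i j, i ≠ j → (g : Matrix (Fin m ⊕ Fin m) (Fin m ⊕ Fin m) F) i j = 0 := by
  classical
  rw [Subgroup.mem_iInf]
  constructor
  · intro h i j hij
    have h1 := (h j (Pi.single j 1)).1 (Submodule.mem_span_singleton_self _)
    have h2 := (mem_line m j _).1 h1 i hij
    change ((g : Matrix (Fin m ⊕ Fin m) (Fin m ⊕ Fin m) F) *ᵥ Pi.single j 1) i = 0 at h2
    rw [Matrix.mulVec_single_one] at h2
    exact h2
  · intro h i
    apply stab_of_subset
    intro v hv
    rw [SetLike.mem_coe, mem_line] at hv ⊢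
    intro k hk
    rw [Matrix.mulVec, dotProduct]
    apply Finset.sum_eq_zero
    intro j _
    by_cases hjk : j = k
    · subst hjk; rw [hv j hk, mul_zero]
    · rw [h k j (Ne.symm hjk), zero_mul]

theorem diag_mem (d : Fin m ⊕ Fin m → F) (hd : ∀ i, d i * d (tau m i) = 1) :
    Matrix.diagonal d ∈ Matrix.symplecticGroup (Fin m) F := by
  rw [SymplecticGroup.mem_iff]
  ext i k
  rw [Matrix.diagonal_transpose, Matrix.mul_diagonal, Matrix.diagonal_mul, J_eq]
  split_ifs with h
  · subst h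
    linear_combination sg m F i * hd i
  · simp

theorem exists_a [Fintype F] (hq : 4 ≤ Fintype.card F) : ∃ a : F, a ≠ 0 ∧ a * a ≠ 1 := by
  classical
  by_contra hcon
  push Not at hcon
  have hsub : (Finset.univ : Finset F) ⊆ {0, 1, -1} := by
    intro a _
    by_cases ha : a = 0
    · simp [ha]
    · have := hcon a ha
      have h' : (a - 1) * (a + 1) = 0 := by linear_combination this
      rcases mul_eq_zero.1 h' with h | h
      · simp [sub_eq_zero.1 h]
      · have : a = -1 := by linear_combination h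
        simp [this]
  have := Finset.card_le_card hsub
  have h3 : ({0, 1, -1} : Finset F).card ≤ 3 := Finset.card_le_three
  rw [Finset.card_univ] at this
  omega

theorem coe_mul_inv (g : Matrix.symplecticGroup (Fin m) F) :
    (g : Matrix (Fin m ⊕ Fin m) (Fin m ⊕ Fin m) F) *
      ((g⁻¹ : Matrix.symplecticGroup (Fin m) F) : Matrix (Fin m ⊕ Fin m) (Fin m ⊕ Fin m) F) = 1 := by
  rw [← Submonoid.coe_mul, mul_inv_cancel, Submonoid.coe_one]

theorem coe_inv_mul (g : Matrix.symplecticGroup (Fin m) F) :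
    ((g⁻¹ : Matrix.symplecticGroup (Fin m) F) : Matrix (Fin m ⊕ Fin m) (Fin m ⊕ Fin m) F) *
      (g : Matrix (Fin m ⊕ Fin m) (Fin m ⊕ Fin m) F) = 1 := by
  rw [← Submonoid.coe_mul, inv_mul_cancel, Submonoid.coe_one]

theorem mono_mem_N [Fintype F] (T : Subgroup (Matrix.symplecticGroup (Fin m) F))
    (hmem : ∀ g : Matrix.symplecticGroup (Fin m) F, g ∈ T ↔
      ∀ i j, i ≠ j → (g : Matrix (Fin m ⊕ Fin m) (Fin m ⊕ Fin m) F) i j = 0)
    (g : Matrix.symplecticGroup (Fin m) F) (σ : Equiv.Perm (Fin m ⊕ Fin m))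
    (hg : ∀ i j, j ≠ σ i → (g : Matrix (Fin m ⊕ Fin m) (Fin m ⊕ Fin m) F) i j = 0) :
    g ∈ Subgroup.normalizer (T : Set (Matrix.symplecticGroup (Fin m) F)) := by
  classical
  have hfwd : ∀ t ∈ T, g * t * g⁻¹ ∈ T := by
    intro t ht
    rw [hmem] at ht ⊢
    have e1 : ((g * t * g⁻¹ : Matrix.symplecticGroup (Fin m) F) :
        Matrix (Fin m ⊕ Fin m) (Fin m ⊕ Fin m) F) =
        Matrix.diagonal (fun i => (t : Matrix (Fin m ⊕ Fin m) (Fin m ⊕ Fin m) F) (σ i) (σ i)) := by
      have e2 : (g : Matrix (Fin m ⊕ Fin m) (Fin m ⊕ Fin m) F) *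
          (t : Matrix (Fin m ⊕ Fin m) (Fin m ⊕ Fin m) F) =
          Matrix.diagonal (fun i => (t : Matrix (Fin m ⊕ Fin m) (Fin m ⊕ Fin m) F) (σ i) (σ i)) *
            (g : Matrix (Fin m ⊕ Fin m) (Fin m ⊕ Fin m) F) := by
        ext i j
        rw [Matrix.diagonal_mul, Matrix.mul_apply]
        by_cases hj : j = σ i
        · subst hj
          rw [Finset.sum_eq_single (σ i)]
          · ring
          · intro l _ hl
            rw [ht l (σ i) hl, mul_zero]
          · intro h; exact absurd (Finset.mem_univ _) h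
        · rw [hg i j hj, mul_zero]
          apply Finset.sum_eq_zero
          intro l _
          by_cases hl : l = j
          · subst hl; rw [hg i l hj, zero_mul]
          · rw [ht l j hl, mul_zero]
      rw [Submonoid.coe_mul, Submonoid.coe_mul, e2, Matrix.mul_assoc, coe_mul_inv, Matrix.mul_one]
    intro i j hij
    rw [e1, Matrix.diagonal_apply_ne _ hij]
  rw [Subgroup.mem_normalizer_iff]
  intro t
  refine ⟨hfwd t, fun ht => ?_⟩
  obtain ⟨φ, hφ⟩ : ∃ φ : T → T, ∀ t : T, (φ t : Matrix.symplecticGroup (Fin m) F) = g * t.1 * g⁻¹ :=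
    ⟨fun t => ⟨g * t.1 * g⁻¹, hfwd t.1 t.2⟩, fun t => rfl⟩
  have hinj : Function.Injective φ := by
    intro a b hab
    have h1 : g * a.1 * g⁻¹ = g * b.1 * g⁻¹ := by rw [← hφ a, ← hφ b, hab]
    exact Subtype.ext (mul_left_cancel (mul_right_cancel h1))
  obtain ⟨t₁, ht₁⟩ := (Finite.injective_iff_surjective.1 hinj) ⟨g * t * g⁻¹, ht⟩
  have h2 : g * t₁.1 * g⁻¹ = g * t * g⁻¹ := by rw [← hφ t₁, ht₁]
  have h3 : t₁.1 = t := mul_left_cancel (mul_right_cancel h2)
  rw [← h3]; exact t₁.2

theorem N_mono [Fintype F] (hq : 4 ≤ Fintype.card F)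
    (T : Subgroup (Matrix.symplecticGroup (Fin m) F))
    (hmem : ∀ g : Matrix.symplecticGroup (Fin m) F, g ∈ T ↔
      ∀ i j, i ≠ j → (g : Matrix (Fin m ⊕ Fin m) (Fin m ⊕ Fin m) F) i j = 0)
    (g : Matrix.symplecticGroup (Fin m) F)
    (hg : g ∈ Subgroup.normalizer (T : Set (Matrix.symplecticGroup (Fin m) F))) :
    ∃ σ : Equiv.Perm (Fin m ⊕ Fin m),
      ∀ i j, j ≠ σ i → (g : Matrix (Fin m ⊕ Fin m) (Fin m ⊕ Fin m) F) i j = 0 := by
  classical
  obtain ⟨a, ha0, ha1⟩ := exists_a hq
  rw [Subgroup.mem_normalizer_iff] at hg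
  have huniq : ∀ i j k, j ≠ k → (g : Matrix (Fin m ⊕ Fin m) (Fin m ⊕ Fin m) F) i j ≠ 0 →
      (g : Matrix (Fin m ⊕ Fin m) (Fin m ⊕ Fin m) F) i k = 0 := by
    intro i j k hjk hij
    by_contra hik
    obtain ⟨d, hd⟩ : ∃ d : Fin m ⊕ Fin m → F, d = fun l => if l = j then a else
        if l = tau m j then a⁻¹ else 1 := ⟨_, rfl⟩
    have hdj : d j = a := by rw [hd]; simp
    have hdk : d k ≠ a := by
      rw [hd]
      simp only [if_neg (Ne.symm hjk)]
      split_ifs
      · intro h
        apply ha1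
        have h' : a * a⁻¹ = a * a := by rw [h]
        rw [mul_inv_cancel₀ ha0] at h'
        exact h'.symm
      · intro h
        apply ha1
        rw [← h]; ring
    have hdd : ∀ l, d l * d (tau m l) = 1 := by
      intro l
      rw [hd]
      by_cases h1 : l = j
      · subst h1
        simp only [if_true, if_neg (tau_ne m l)]
        field_simp
      · by_cases h2 : l = tau m j
        · subst h2
          simp only [if_neg h1, tau_tau, if_true]
          field_simp
        · have h3 : tau m l ≠ j := by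
            intro h; apply h2; rw [← h, tau_tau]
          have h4 : tau m l ≠ tau m j := by
            intro h; exact h1 ((tau m).injective h)
          simp only [if_neg h1, if_neg h2, if_neg h3, if_neg h4, mul_one]
    obtain ⟨t, ht⟩ : ∃ t : Matrix.symplecticGroup (Fin m) F,
        (t : Matrix (Fin m ⊕ Fin m) (Fin m ⊕ Fin m) F) = Matrix.diagonal d :=
      ⟨⟨_, diag_mem m d hdd⟩, rfl⟩
    have htT : t ∈ T := by
      rw [hmem]
      intro i j hij
      rw [ht, Matrix.diagonal_apply_ne _ hij]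
    have hs := (hg t).1 htT
    rw [hmem] at hs
    have e : ((g * t * g⁻¹ : Matrix.symplecticGroup (Fin m) F) :
        Matrix (Fin m ⊕ Fin m) (Fin m ⊕ Fin m) F) *
        (g : Matrix (Fin m ⊕ Fin m) (Fin m ⊕ Fin m) F) =
        (g : Matrix (Fin m ⊕ Fin m) (Fin m ⊕ Fin m) F) * Matrix.diagonal d := by
      rw [← ht, ← Submonoid.coe_mul, ← Submonoid.coe_mul]
      congr 1
      group
    have key : ∀ l, (g : Matrix (Fin m ⊕ Fin m) (Fin m ⊕ Fin m) F) i l ≠ 0 →
        ((g * t * g⁻¹ : Matrix.symplecticGroup (Fin m) F) :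
        Matrix (Fin m ⊕ Fin m) (Fin m ⊕ Fin m) F) i i = d l := by
      intro l hl
      have e1 := congrFun (congrFun e i) l
      rw [Matrix.mul_diagonal, Matrix.mul_apply, Finset.sum_eq_single i] at e1
      · have e2 : (((g * t * g⁻¹ : Matrix.symplecticGroup (Fin m) F) :
          Matrix (Fin m ⊕ Fin m) (Fin m ⊕ Fin m) F) i i - d l) *
          (g : Matrix (Fin m ⊕ Fin m) (Fin m ⊕ Fin m) F) i l = 0 := by linear_combination e1
        rcases mul_eq_zero.1 e2 with h | h
        · exact sub_eq_zero.1 h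
        · exact absurd h hl
      · intro b _ hb
        rw [hs i b (Ne.symm hb), zero_mul]
      · intro h; exact absurd (Finset.mem_univ _) h
    have k1 := key j hij
    have k2 := key k hik
    rw [k1, hdj] at k2
    exact hdk k2.symm
  have hex : ∀ i, ∃ j, (g : Matrix (Fin m ⊕ Fin m) (Fin m ⊕ Fin m) F) i j ≠ 0 := by
    intro i
    by_contra hcon
    push Not at hcon
    have := congrFun (congrFun (coe_mul_inv m g) i) i
    rw [Matrix.mul_apply, Matrix.one_apply_eq] at this
    rw [Finset.sum_eq_zero (fun l _ => by rw [hcon l, zero_mul])] at this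
    exact zero_ne_one this
  choose f hf using hex
  have hf' : ∀ i j, j ≠ f i → (g : Matrix (Fin m ⊕ Fin m) (Fin m ⊕ Fin m) F) i j = 0 :=
    fun i j hj => huniq i (f i) j (Ne.symm hj) (hf i)
  have hsurj : Function.Surjective f := by
    intro j
    by_contra hcon
    push Not at hcon
    have := congrFun (congrFun (coe_inv_mul m g) j) j
    rw [Matrix.mul_apply, Matrix.one_apply_eq] at this
    rw [Finset.sum_eq_zero (fun l _ => by rw [hf' l j (Ne.symm (hcon l)), mul_zero])] at this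
    exact zero_ne_one this
  have hinj : Function.Injective f := Finite.injective_iff_surjective.2 hsurj
  exact ⟨Equiv.ofBijective f ⟨hinj, hsurj⟩, fun i j hj => hf' i j hj⟩

/-- The parameters of the monomial symplectic matrices. -/
abbrev NP (F : Type*) [Field F] : Type _ :=
  {p : Equiv.Perm (Fin m ⊕ Fin m) × (Fin m ⊕ Fin m → F) //
    ∀ i k, p.2 i * p.2 k * Matrix.J (Fin m) F (p.1 i) (p.1 k) = Matrix.J (Fin m) F i k}

theorem NP_aux (p : NP m F) (i : Fin m ⊕ Fin m) :
    p.1.2 i ≠ 0 ∧ p.1.1 (tau m i) = tau m (p.1.1 i) := by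
  have h := p.2 i (tau m i)
  rw [J_eq, J_eq, if_pos rfl] at h
  have hs := sg_ne m (F := F) i
  constructor
  · intro h0; rw [h0, zero_mul, zero_mul] at h; exact hs h.symm
  · by_contra hne
    rw [if_neg hne, mul_zero] at h; exact hs h.symm

theorem Phi_bij [Fintype F] (hq : 4 ≤ Fintype.card F)
    (T : Subgroup (Matrix.symplecticGroup (Fin m) F))
    (hmem : ∀ g : Matrix.symplecticGroup (Fin m) F, g ∈ T ↔
      ∀ i j, i ≠ j → (g : Matrix (Fin m ⊕ Fin m) (Fin m ⊕ Fin m) F) i j = 0) :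
    Nat.card (Subgroup.normalizer (T : Set (Matrix.symplecticGroup (Fin m) F))) =
      Nat.card (NP m F) := by
  classical
  symm
  apply Nat.card_eq_of_bijective (fun p : NP m F => (⟨⟨Mn m p.1.1 p.1.2, by
      rw [SymplecticGroup.mem_iff]; ext i k; rw [Mn_J]; exact p.2 i k⟩,
      mono_mem_N m T hmem _ p.1.1 (fun i j hj => by
        show Mn m p.1.1 p.1.2 i j = 0
        rw [Mn_apply, if_neg hj])⟩ :
      Subgroup.normalizer (T : Set (Matrix.symplecticGroup (Fin m) F))))
  constructor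
  · rintro ⟨⟨σ, c⟩, h⟩ ⟨⟨σ', c'⟩, h'⟩ heq
    have hM : Mn m σ c = Mn m σ' c' :=
      congrArg (fun x : Subgroup.normalizer (T : Set (Matrix.symplecticGroup (Fin m) F)) =>
        ((x : Matrix.symplecticGroup (Fin m) F) : Matrix (Fin m ⊕ Fin m) (Fin m ⊕ Fin m) F)) heq
    have hc : ∀ i, c i ≠ 0 := fun i => (NP_aux m (⟨(σ, c), h⟩ : NP m F) i).1
    have key : ∀ i, σ i = σ' i ∧ c i = c' i := by
      intro i
      have e := congrFun (congrFun hM i) (σ i)
      rw [Mn_apply, Mn_apply, if_pos rfl] at e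
      by_cases hs : σ i = σ' i
      · rw [if_pos hs] at e; exact ⟨hs, e⟩
      · rw [if_neg hs] at e; exact absurd e (hc i)
    have hσ : σ = σ' := Equiv.ext (fun i => (key i).1)
    have hc' : c = c' := funext (fun i => (key i).2)
    subst hσ hc'
    rfl
  · rintro ⟨g, hg⟩
    obtain ⟨σ, hσ⟩ := N_mono m hq T hmem g hg
    have hgM : (g : Matrix (Fin m ⊕ Fin m) (Fin m ⊕ Fin m) F) =
        Mn m σ (fun i => (g : Matrix (Fin m ⊕ Fin m) (Fin m ⊕ Fin m) F) i (σ i)) := by
      ext i j
      rw [Mn_apply]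
      by_cases hj : j = σ i
      · rw [if_pos hj, hj]
      · rw [if_neg hj, hσ i j hj]
    have hJ := SymplecticGroup.mem_iff.1 g.2
    refine ⟨⟨(σ, fun i => (g : Matrix (Fin m ⊕ Fin m) (Fin m ⊕ Fin m) F) i (σ i)), ?_⟩, ?_⟩
    · intro i k
      have := congrFun (congrFun hJ i) k
      rw [hgM, Mn_J] at this
      exact this
    · apply Subtype.ext; apply Subtype.ext
      exact hgM.symm

theorem NP_card [Fintype F] :
    Nat.card (NP m F) = Nat.card {σ : Equiv.Perm (Fin m ⊕ Fin m) //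
      ∀ i, σ (tau m i) = tau m (σ i)} * (Fintype.card F - 1) ^ m := by
  classical
  apply card_fib (fun p : NP m F => (⟨p.1.1, fun i => (NP_aux m p i).2⟩ :
    {σ : Equiv.Perm (Fin m ⊕ Fin m) // ∀ i, σ (tau m i) = tau m (σ i)}))
  rintro ⟨σ, hσ⟩
  have hcard : Nat.card (Fin m → Fˣ) = (Fintype.card F - 1) ^ m := by
    rw [Nat.card_eq_fintype_card, Fintype.card_fun, Fintype.card_units, Fintype.card_fin]
  rw [← hcard]
  apply Nat.card_eq_of_bijective (fun x : {p : NP m F // (⟨p.1.1, fun i => (NP_aux m p i).2⟩ :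
      {σ : Equiv.Perm (Fin m ⊕ Fin m) // ∀ i, σ (tau m i) = tau m (σ i)}) = ⟨σ, hσ⟩} =>
    (fun a : Fin m => Units.mk0 (x.1.1.2 (Sum.inl a)) (NP_aux m x.1 (Sum.inl a)).1))
  constructor
  · rintro ⟨⟨⟨σ₁, c₁⟩, h₁⟩, e₁⟩ ⟨⟨⟨σ₂, c₂⟩, h₂⟩, e₂⟩ heq
    have hσ₁ : σ₁ = σ := congrArg Subtype.val e₁
    have hσ₂ : σ₂ = σ := congrArg Subtype.val e₂
    subst hσ₁ hσ₂
    have hl : ∀ a, c₁ (Sum.inl a) = c₂ (Sum.inl a) := fun a => by
      have := congrFun heq a
      exact congrArg Units.val this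
    have hr : ∀ a, c₁ (Sum.inr a) = c₂ (Sum.inr a) := by
      intro a
      have k1 := h₁ (Sum.inl a) (Sum.inr a)
      have k2 := h₂ (Sum.inl a) (Sum.inr a)
      simp only at k1 k2
      rw [← hl a] at k2
      have hJ : Matrix.J (Fin m) F (Sum.inl a) (Sum.inr a) ≠ 0 := by
        rw [J_eq]; simp [tau, sg]
      have hX : Matrix.J (Fin m) F (σ₂ (Sum.inl a)) (σ₂ (Sum.inr a)) ≠ 0 := by
        intro h0; rw [h0, mul_zero] at k1; exact hJ k1.symm
      have hc : c₁ (Sum.inl a) ≠ 0 := by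
        intro h0; rw [h0, zero_mul, zero_mul] at k1; exact hJ k1.symm
      have : c₁ (Sum.inl a) * Matrix.J (Fin m) F (σ₂ (Sum.inl a)) (σ₂ (Sum.inr a)) *
          (c₁ (Sum.inr a) - c₂ (Sum.inr a)) = 0 := by linear_combination k1 - k2
      rcases mul_eq_zero.1 this with h | h
      · rcases mul_eq_zero.1 h with h | h
        · exact absurd h hc
        · exact absurd h hX
      · exact sub_eq_zero.1 h
    have hc : c₁ = c₂ := by
      funext i
      cases i with
      | inl a => exact hl a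
      | inr a => exact hr a
    subst hc
    rfl
  · intro u
    obtain ⟨c, hc⟩ : ∃ c : Fin m ⊕ Fin m → F, c = Sum.elim (fun a => (u a : F))
        (fun a => -((u a : F))⁻¹ * sg m F (σ (Sum.inl a))) := ⟨_, rfl⟩
    have hcond : ∀ i k, c i * c k * Matrix.J (Fin m) F (σ i) (σ k) = Matrix.J (Fin m) F i k := by
      intro i k
      rw [J_eq, J_eq]
      by_cases hk : k = tau m i
      · subst hk
        rw [if_pos (hσ i), if_pos rfl]
        rcases i with a | a
        · have hu : (u a : F) ≠ 0 := (u a).ne_zero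
          have e1 : c (Sum.inl a) = (u a : F) := by rw [hc]; rfl
          have e2 : c (tau m (Sum.inl a)) = -((u a : F))⁻¹ * sg m F (σ (Sum.inl a)) := by
            rw [hc]; rfl
          have e3 : sg m F (Sum.inl a) = -1 := rfl
          rw [e1, e2, e3]
          calc (u a : F) * (-((u a : F))⁻¹ * sg m F (σ (Sum.inl a))) * sg m F (σ (Sum.inl a))
              = -(((u a : F)) * ((u a : F))⁻¹) *
                (sg m F (σ (Sum.inl a)) * sg m F (σ (Sum.inl a))) := by ring
            _ = -1 := by rw [mul_inv_cancel₀ hu, sg_sq]; ring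
        · have hu : (u a : F) ≠ 0 := (u a).ne_zero
          have e1 : c (Sum.inr a) = -((u a : F))⁻¹ * sg m F (σ (Sum.inl a)) := by rw [hc]; rfl
          have e2 : c (tau m (Sum.inr a)) = (u a : F) := by rw [hc]; rfl
          have e3 : sg m F (Sum.inr a) = 1 := rfl
          have e4 : sg m F (σ (Sum.inr a)) = - sg m F (σ (Sum.inl a)) := by
            have : σ (Sum.inr a) = tau m (σ (Sum.inl a)) := hσ (Sum.inl a)
            rw [this, sg_tau]
          rw [e1, e2, e3, e4]
          calc -((u a : F))⁻¹ * sg m F (σ (Sum.inl a)) * (u a : F) * -sg m F (σ (Sum.inl a))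
              = (((u a : F)) * ((u a : F))⁻¹) *
                (sg m F (σ (Sum.inl a)) * sg m F (σ (Sum.inl a))) := by ring
            _ = 1 := by rw [mul_inv_cancel₀ hu, sg_sq]; ring
      · rw [if_neg, if_neg hk, mul_zero]
        intro h
        apply hk
        rw [← hσ i] at h
        exact σ.injective h
    refine ⟨⟨⟨(σ, c), hcond⟩, rfl⟩, ?_⟩
    funext a
    apply Units.ext
    show c (Sum.inl a) = (u a : F)
    rw [hc]; rfl

theorem tau_cycleType : (tau m).cycleType = Multiset.replicate m 2 := by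
  classical
  rcases Nat.eq_zero_or_pos m with rfl | hm
  · have : tau 0 = 1 := Subsingleton.elim _ _
    rw [this]; simp
  · have ho : orderOf (tau m) = 2 := by
      apply orderOf_eq_prime
      · ext i; simp [pow_two, tau_tau]
      · intro h
        have := congrArg (fun f : Equiv.Perm (Fin m ⊕ Fin m) => f (Sum.inl ⟨0, hm⟩)) h
        simp [tau] at this
    obtain ⟨n, hn⟩ := Equiv.Perm.cycleType_prime_order (σ := tau m) (by rw [ho]; exact Nat.prime_two)
    rw [ho] at hn
    have hs := Equiv.Perm.sum_cycleType (tau m)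
    have hsupp : (tau m).support = Finset.univ := by
      ext i; simp [Equiv.Perm.mem_support, tau_ne]
    rw [hn, hsupp, Multiset.sum_replicate, Finset.card_univ, Fintype.card_sum, Fintype.card_fin,
      smul_eq_mul] at hs
    have : n + 1 = m := by omega
    rw [hn, this]

theorem cent_card : Nat.card {σ : Equiv.Perm (Fin m ⊕ Fin m) //
    ∀ i, σ (tau m i) = tau m (σ i)} = 2 ^ m * Nat.factorial m := by
  classical
  have e : {σ : Equiv.Perm (Fin m ⊕ Fin m) // ∀ i, σ (tau m i) = tau m (σ i)} ≃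
      (Subgroup.centralizer {tau m} : Subgroup (Equiv.Perm (Fin m ⊕ Fin m))) :=
    Equiv.subtypeEquivRight (fun σ => by
      rw [Subgroup.mem_centralizer_iff]
      constructor
      · intro h t ht
        rw [Set.mem_singleton_iff] at ht
        subst ht
        ext i
        simp only [Equiv.Perm.mul_apply]
        exact (h i).symm
      · intro h i
        have h1 := h (tau m) rfl
        have h2 := congrArg (fun f : Equiv.Perm (Fin m ⊕ Fin m) => f i) h1
        simp only [Equiv.Perm.mul_apply] at h2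
        exact h2.symm)
  rw [Nat.card_congr e, Equiv.Perm.nat_card_centralizer, tau_cycleType]
  rcases Nat.eq_zero_or_pos m with rfl | hm
  · simp
  · have hfs : (Multiset.replicate m 2).toFinset = {2} := by
      ext x
      simp only [Multiset.mem_toFinset, Multiset.mem_replicate, Finset.mem_singleton]
      constructor
      · rintro ⟨_, h⟩; exact h
      · intro h; exact ⟨by omega, h⟩
    rw [hfs, Finset.prod_singleton, Multiset.count_replicate_self, Multiset.sum_replicate,
      Multiset.prod_replicate, Fintype.card_sum, Fintype.card_fin, smul_eq_mul]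
    have : m + m - m * 2 = 0 := by omega
    rw [this]; simp

end basic

/-- Weyl group of type C_m: for q ≥ 4 the diagonal matrices of Sp_2m(q) form a torus T ≅ (C_(q−1))^m (the elements stabilising every coordinate axis), and the normaliser of T in Sp_2m(q) has order 2^m · m! · (q − 1)^m. -/
theorem result {F : Type*} [Field F] [Fintype F] {q : ℕ} (hF : Fintype.card F = q) (hq : 4 ≤ q) (m : ℕ) : Nat.card ↥(Subgroup.normalizer (⨅ i : Fin m ⊕ Fin m, Cfsg.stabilizing (Cfsg.spToMat m F) ((Submodule.span F {(Pi.single i (1 : F) : Fin m ⊕ Fin m → F)} : Submodule F (Fin m ⊕ Fin m → F)) : Set (Fin m ⊕ Fin m → F)) : Set (Matrix.symplecticGroup (Fin m) F))) = 2 ^ m * Nat.factorial m * (q - 1) ^ m := by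
  classical
  obtain ⟨T, hT⟩ : ∃ T : Subgroup (Matrix.symplecticGroup (Fin m) F), T = ⨅ i : Fin m ⊕ Fin m, Cfsg.stabilizing (Cfsg.spToMat m F) ((Submodule.span F {(Pi.single i (1 : F) : Fin m ⊕ Fin m → F)} : Submodule F (Fin m ⊕ Fin m → F)) : Set (Fin m ⊕ Fin m → F)) := ⟨_, rfl⟩
  rw [Set.iInf_eq_iInter, ← Subgroup.coe_iInf, ← hT]
  have hmem : ∀ g : Matrix.symplecticGroup (Fin m) F, g ∈ T ↔
      ∀ i j, i ≠ j → (g : Matrix (Fin m ⊕ Fin m) (Fin m ⊕ Fin m) F) i j = 0 :=
    fun g => by rw [hT]; exact mem_T m g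
  rw [Phi_bij m (by rw [hF]; exact hq) T hmem, NP_card, cent_card, hF]

end Cfsg.Agent.S0777
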