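import Mathlib
import Cfsg.Statements.S0778

set_option autoImplicit false
open Cfsg

namespace Cfsg.Agent.S0778

open Matrix

variable {F : Type*} [Field F]

theorem gl_mul_inv (m : ℕ) (X : Matrix.GeneralLinearGroup (Fin m) F) :
    (X : Matrix (Fin m) (Fin m) F) * ((X⁻¹ : Matrix.GeneralLinearGroup (Fin m) F) :
      Matrix (Fin m) (Fin m) F) = 1 := by
  rw [← Units.val_mul, mul_inv_cancel, Units.val_one]

theorem gl_inv_mul (m : ℕ) (X : Matrix.GeneralLinearGroup (Fin m) F) :
    ((X⁻¹ : Matrix.GeneralLinearGroup (Fin m) F) : Matrix (Fin m) (Fin m) F) *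
      (X : Matrix (Fin m) (Fin m) F) = 1 := by
  rw [← Units.val_mul, inv_mul_cancel, Units.val_one]

theorem psi_mem (m : ℕ) (X : Matrix.GeneralLinearGroup (Fin m) F) :
    Matrix.fromBlocks (X : Matrix (Fin m) (Fin m) F) 0 0
      ((X⁻¹ : Matrix.GeneralLinearGroup (Fin m) F) : Matrix (Fin m) (Fin m) F)ᵀ ∈
      Matrix.symplecticGroup (Fin m) F := by
  rw [SymplecticGroup.mem_iff, Matrix.J, Matrix.fromBlocks_transpose,
    Matrix.fromBlocks_multiply, Matrix.fromBlocks_multiply]
  simp only [Matrix.transpose_zero, Matrix.zero_mul, Matrix.mul_zero, add_zero, zero_add,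
    Matrix.transpose_transpose, Matrix.mul_one, Matrix.mul_neg, Matrix.neg_mul, gl_mul_inv]
  rw [← Matrix.transpose_mul, gl_mul_inv, Matrix.transpose_one, neg_zero]

noncomputable def psi (m : ℕ) :
    Matrix.GeneralLinearGroup (Fin m) F →* Matrix.symplecticGroup (Fin m) F where
  toFun X := ⟨Matrix.fromBlocks (X : Matrix (Fin m) (Fin m) F) 0 0
      ((X⁻¹ : Matrix.GeneralLinearGroup (Fin m) F) : Matrix (Fin m) (Fin m) F)ᵀ, psi_mem m X⟩
  map_one' := by
    apply Subtype.ext
    show Matrix.fromBlocks _ _ _ _ = (1 : Matrix _ _ F)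
    rw [inv_one, Units.val_one, Matrix.transpose_one, Matrix.fromBlocks_one]
  map_mul' X Y := by
    apply Subtype.ext
    show Matrix.fromBlocks _ _ _ _ = Matrix.fromBlocks _ _ _ _ * Matrix.fromBlocks _ _ _ _
    rw [Matrix.fromBlocks_multiply]
    simp only [Matrix.zero_mul, Matrix.mul_zero, add_zero, zero_add, _root_.mul_inv_rev,
      Units.val_mul, Matrix.transpose_mul]

theorem psi_val (m : ℕ) (X : Matrix.GeneralLinearGroup (Fin m) F) :
    ((psi m X : Matrix.symplecticGroup (Fin m) F) : Matrix (Fin m ⊕ Fin m) (Fin m ⊕ Fin m) F) =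
      Matrix.fromBlocks (X : Matrix (Fin m) (Fin m) F) 0 0
      ((X⁻¹ : Matrix.GeneralLinearGroup (Fin m) F) : Matrix (Fin m) (Fin m) F)ᵀ := rfl

theorem zero_iff (m : ℕ) (P Q : Matrix (Fin m) (Fin m) F) (h : Q * P = 1) (w : Fin m → F) :
    w = 0 ↔ P *ᵥ w = 0 := by
  constructor
  · intro hw; rw [hw, Matrix.mulVec_zero]
  · intro hw
    have : Q *ᵥ (P *ᵥ w) = w := by rw [Matrix.mulVec_mulVec, h, Matrix.one_mulVec]
    rw [← this, hw, Matrix.mulVec_zero]

theorem psi_mulVec (m : ℕ) (X : Matrix.GeneralLinearGroup (Fin m) F) (v : Fin m ⊕ Fin m → F) :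
    ((psi m X : Matrix.symplecticGroup (Fin m) F) : Matrix (Fin m ⊕ Fin m) (Fin m ⊕ Fin m) F) *ᵥ v =
      Sum.elim ((X : Matrix (Fin m) (Fin m) F) *ᵥ (v ∘ Sum.inl))
        (((X⁻¹ : Matrix.GeneralLinearGroup (Fin m) F) : Matrix (Fin m) (Fin m) F)ᵀ *ᵥ
          (v ∘ Sum.inr)) := by
  rw [psi_val]
  conv_lhs => rw [← Sum.elim_comp_inl_inr v]
  rw [Matrix.fromBlocks_mulVec]
  simp

/-- The elements of Sp_2m(F) stabilising both W = ⟨e_1..e_m⟩ and U = ⟨f_1..f_m⟩ form a subgroup isomorphic to GL_m(F) (block-diagonal matrices diag(X, X^(−ᵀ)) up to the sign convention of J), for m ≥ 1 or m = 0 alike. -/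
theorem result {F : Type*} [Field F] (m : ℕ) : Nonempty (↥(Cfsg.stabilizing (Cfsg.spToMat m F) {v : Fin m ⊕ Fin m → F | ∀ i : Fin m, v (Sum.inr i) = 0} ⊓ Cfsg.stabilizing (Cfsg.spToMat m F) {v : Fin m ⊕ Fin m → F | ∀ i : Fin m, v (Sum.inl i) = 0}) ≃* Matrix.GeneralLinearGroup (Fin m) F) := by
  classical
  have hinj : Function.Injective (psi m (F := F)) := by
    intro X Y h
    have h' := congrArg (fun g : Matrix.symplecticGroup (Fin m) F =>
      (g : Matrix (Fin m ⊕ Fin m) (Fin m ⊕ Fin m) F).toBlocks₁₁) h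
    apply Units.ext
    simpa only [psi_val, Matrix.toBlocks_fromBlocks₁₁] using h'
  have hrange : (psi m (F := F)).range =
      Cfsg.stabilizing (Cfsg.spToMat m F) {v : Fin m ⊕ Fin m → F | ∀ i : Fin m, v (Sum.inr i) = 0} ⊓
      Cfsg.stabilizing (Cfsg.spToMat m F) {v : Fin m ⊕ Fin m → F | ∀ i : Fin m, v (Sum.inl i) = 0} := by
    ext g
    constructor
    · rintro ⟨X, rfl⟩
      constructor
      · intro v
        show (∀ i : Fin m, v (Sum.inr i) = 0) ↔ ∀ i : Fin m,
          (((psi m X : Matrix.symplecticGroup (Fin m) F) :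
            Matrix (Fin m ⊕ Fin m) (Fin m ⊕ Fin m) F) *ᵥ v) (Sum.inr i) = 0
        rw [psi_mulVec]
        have := zero_iff m ((X⁻¹ : Matrix.GeneralLinearGroup (Fin m) F) :
          Matrix (Fin m) (Fin m) F)ᵀ (X : Matrix (Fin m) (Fin m) F)ᵀ
          (by rw [← Matrix.transpose_mul, gl_inv_mul, Matrix.transpose_one]) (v ∘ Sum.inr)
        simp only [Sum.elim_inr]
        constructor
        · intro h i
          have h2 := this.1 (funext h)
          exact congrFun h2 i
        · intro h i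
          have h2 := this.2 (funext h)
          exact congrFun h2 i
      · intro v
        show (∀ i : Fin m, v (Sum.inl i) = 0) ↔ ∀ i : Fin m,
          (((psi m X : Matrix.symplecticGroup (Fin m) F) :
            Matrix (Fin m ⊕ Fin m) (Fin m ⊕ Fin m) F) *ᵥ v) (Sum.inl i) = 0
        rw [psi_mulVec]
        have := zero_iff m (X : Matrix (Fin m) (Fin m) F)
          ((X⁻¹ : Matrix.GeneralLinearGroup (Fin m) F) : Matrix (Fin m) (Fin m) F)
          (gl_inv_mul m X) (v ∘ Sum.inl)
        simp only [Sum.elim_inl]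
        constructor
        · intro h i
          have h2 := this.1 (funext h)
          exact congrFun h2 i
        · intro h i
          have h2 := this.2 (funext h)
          exact congrFun h2 i
    · rintro ⟨hW, hU⟩
      obtain ⟨M, hM⟩ : ∃ M : Matrix (Fin m ⊕ Fin m) (Fin m ⊕ Fin m) F, M = (g : Matrix _ _ F) :=
        ⟨_, rfl⟩
      have hC : M.toBlocks₂₁ = 0 := by
        ext i j
        have h1 := (hW (Pi.single (Sum.inl j) 1)).1 (by
          intro i'
          simp) i
        change ((g : Matrix (Fin m ⊕ Fin m) (Fin m ⊕ Fin m) F) *ᵥ Pi.single (Sum.inl j) 1)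
          (Sum.inr i) = 0 at h1
        rw [Matrix.mulVec_single_one] at h1
        rw [hM]
        exact h1
      have hB : M.toBlocks₁₂ = 0 := by
        ext i j
        have h1 := (hU (Pi.single (Sum.inr j) 1)).1 (by
          intro i'
          simp) i
        change ((g : Matrix (Fin m ⊕ Fin m) (Fin m ⊕ Fin m) F) *ᵥ Pi.single (Sum.inr j) 1)
          (Sum.inl i) = 0 at h1
        rw [Matrix.mulVec_single_one] at h1
        rw [hM]
        exact h1
      obtain ⟨A, hA⟩ : ∃ A, A = M.toBlocks₁₁ := ⟨_, rfl⟩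
      obtain ⟨D, hD⟩ : ∃ D, D = M.toBlocks₂₂ := ⟨_, rfl⟩
      have hMb : M = Matrix.fromBlocks A 0 0 D := by
        rw [hA, hD]
        conv_lhs => rw [← Matrix.fromBlocks_toBlocks M, hC, hB]
      have hg := (SymplecticGroup.mem_iff).1 g.2
      rw [← hM, hMb, Matrix.J, Matrix.fromBlocks_transpose, Matrix.fromBlocks_multiply,
        Matrix.fromBlocks_multiply, Matrix.fromBlocks_inj] at hg
      simp only [Matrix.transpose_zero, Matrix.zero_mul, Matrix.mul_zero, add_zero, zero_add,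
        Matrix.mul_one, Matrix.mul_neg, Matrix.neg_mul, neg_inj] at hg
      obtain ⟨-, h12, -, -⟩ := hg
      have h21 : Dᵀ * A = 1 := mul_eq_one_comm.1 h12
      refine ⟨⟨A, Dᵀ, h12, h21⟩, ?_⟩
      apply Subtype.ext
      rw [psi_val, ← hM, hMb]
      simp
  exact ⟨(MulEquiv.subgroupCongr hrange.symm).trans (MonoidHom.ofInjective hinj).symm⟩

end Cfsg.Agent.S0778
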