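import Mathlib
import Cfsg.Statements.S0783
import Cfsg.Agent.S0279

set_option autoImplicit false
open Cfsg

namespace Cfsg.Agent.S0783

open Matrix Cfsg.Agent.Lib.Helper5.Herm Cfsg.Agent.S0277 Cfsg.Agent.S0279

variable {F : Type*} [Field F] [Fintype F] {q : ℕ}

/-- An element of `SL_n` commuting with all unitary transvections of `SU_n` fixes every isotropic
line. -/
theorem eigen_of_central' (hF : Fintype.card F = q ^ 2) (n : ℕ)
    (g : Matrix (Fin n) (Fin n) F)
    (hc : ∀ s ∈ Cfsg.SU n F q, (s : Matrix (Fin n) (Fin n) F) * g = g * (s : Matrix (Fin n) (Fin n) F)) (v : Fin n → F) (hv : v ≠ 0)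
    (hv0 : Cfsg.hermForm n F q v v = 0) :
    ∃ l : F, g *ᵥ v = l • v := by
  classical
  obtain ⟨φ, hφ, hφφ, hq2⟩ := frob_setup hF
  obtain ⟨c, hc0, hcq⟩ := exists_trace_zero hF
  have hdot : (fun j => v j ^ q) ⬝ᵥ (c • v) = 0 := by
    have : (fun j => v j ^ q) ⬝ᵥ (c • v) = c * Cfsg.hermForm n F q v v := by
      simp only [dotProduct, Cfsg.hermForm, Pi.smul_apply, smul_eq_mul, Finset.mul_sum]
      exact Finset.sum_congr rfl fun i _ => by ring
    rw [this, hv0, mul_zero]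
  obtain ⟨T, hT⟩ : ∃ T : Matrix.SpecialLinearGroup (Fin n) F,
      T = Cfsg.Agent.S0839.elemSL (c • v) (fun j => v j ^ q) hdot := ⟨_, rfl⟩
  have hTval : (T : Matrix (Fin n) (Fin n) F) = Cfsg.unitaryTransvection n q v c := by
    rw [hT]
    show 1 + vecMulVec (c • v) (fun j => v j ^ q) = _
    rw [Cfsg.unitaryTransvection, Matrix.smul_vecMulVec]
  have hTmv : ∀ x : Fin n → F, (T : Matrix (Fin n) (Fin n) F) *ᵥ x =
      x + (c * Cfsg.hermForm n F q x v) • v := by
    intro x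
    rw [hT, Cfsg.Agent.S0839.elemSL_mulVec, smul_smul]
    congr 2
    simp only [dotProduct, Cfsg.hermForm]
    rw [mul_comm]
    congr 1
    exact Finset.sum_congr rfl fun i _ => by ring
  have hTmem : T ∈ Cfsg.SU n F q := by
    rw [mem_SU]
    intro x y
    rw [hTval]
    refine (Cfsg.Agent.S0779.result hF n v hv hv0 c).2 (Or.inr ?_) x y
    have h1 : c ^ (q - 1) * c = (-1) * c := by
      rw [← pow_succ]
      have : q - 1 + 1 = q := by omega
      rw [this, hcq]; ring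
    exact mul_right_cancel₀ hc0 h1
  have hcomm' : (T : Matrix (Fin n) (Fin n) F) * g = g * (T : Matrix (Fin n) (Fin n) F) :=
    hc T hTmem
  obtain ⟨i, hi⟩ : ∃ i, v i ≠ 0 := by
    by_contra h
    push Not at h
    exact hv (funext h)
  obtain ⟨x, hx⟩ : ∃ x : Fin n → F, Cfsg.hermForm n F q x v = 1 := by
    refine ⟨(v i ^ q)⁻¹ • Pi.single i 1, ?_⟩
    simp only [Cfsg.hermForm, Pi.smul_apply, smul_eq_mul]
    rw [Finset.sum_eq_single i]
    · simp [inv_mul_cancel₀ (pow_ne_zero q hi)]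
    · intro j _ hj
      simp [hj]
    · intro hi'; exact absurd (Finset.mem_univ i) hi'
  have h2 := congrArg (fun M : Matrix (Fin n) (Fin n) F => M *ᵥ x) hcomm'
  simp only [← Matrix.mulVec_mulVec] at h2
  rw [hTmv, hTmv, Matrix.mulVec_add, Matrix.mulVec_smul, hx, mul_one] at h2
  have h3 : (c * Cfsg.hermForm n F q (g *ᵥ x) v) • v =
      c • (g *ᵥ v) := add_left_cancel h2
  refine ⟨Cfsg.hermForm n F q (g *ᵥ x) v, ?_⟩
  have h4 := congrArg (fun w : Fin n → F => c⁻¹ • w) h3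
  simp only [smul_smul] at h4
  rw [inv_mul_cancel₀ hc0, one_smul, ← mul_assoc, inv_mul_cancel₀ hc0, one_mul] at h4
  exact h4.symm

theorem center_scalar' (hF : Fintype.card F = q ^ 2) (n : ℕ)
    g
    (hc : ∀ s ∈ Cfsg.SU n F q, (s : Matrix (Fin n) (Fin n) F) * g = g * (s : Matrix (Fin n) (Fin n) F)) (i₀ : Fin n) :
    g = (g i₀ i₀) • 1 := by
  classical
  obtain ⟨φ, hφ, hφφ, hq2⟩ := frob_setup hF
  obtain ⟨a₁, a₂, a₃, h12, h13, h23, n1, n2, n3⟩ := three_norm hF
  have key : ∀ i j : Fin n, i ≠ j → ∀ a : F, a ^ (q + 1) = -1 →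
      g i j * a ^ 2 +
        (g i i - g j j) * a -
        g j i = 0 := by
    intro i j hij a ha
    have hv0 : Cfsg.hermForm n F q (Pi.single i 1 + a • Pi.single j 1)
        (Pi.single i 1 + a • Pi.single j 1) = 0 := by
      simp only [Cfsg.hermForm, Pi.add_apply, Pi.smul_apply, smul_eq_mul, Pi.single_apply]
      rw [Finset.sum_eq_add_of_mem i j (Finset.mem_univ _) (Finset.mem_univ _) hij]
      · simp [hij, Ne.symm hij]
        rw [← pow_succ', ha]; ring
      · intro k _ hk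
        simp [hk.1, hk.2]
    have hv : (Pi.single i 1 + a • Pi.single j 1 : Fin n → F) ≠ 0 := by
      intro h
      have := congrFun h i
      simp [hij] at this
    obtain ⟨l, hl⟩ := eigen_of_central' hF n g hc _ hv hv0
    rw [Matrix.mulVec_add, Matrix.mulVec_smul, Matrix.mulVec_single_one, Matrix.mulVec_single_one] at hl
    have ei := congrFun hl i
    have ej := congrFun hl j
    simp [hij, Ne.symm hij] at ei ej
    linear_combination a * ei - ej
  have hoff : ∀ i j : Fin n, i ≠ j → g i j = 0 ∧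
      g i i = g j j := by
    intro i j hij
    obtain ⟨hr, hd, hs⟩ := quad_three _ _ _ a₁ a₂ a₃ h12 h13 h23 (key i j hij a₁ n1)
      (key i j hij a₂ n2) (key i j hij a₃ n3)
    exact ⟨hr, sub_eq_zero.1 hd⟩
  ext i j
  by_cases hij : i = j
  · subst hij
    by_cases hi : i = i₀
    · subst hi; simp
    · rw [(hoff i i₀ hi).2]; simp
  · rw [(hoff i j hij).1]; simp [hij]


/-- In a finite cyclic group, an element killed by `N / gcd(N, k)` is a `k`-th power. -/
theorem cyc_pow {C : Type*} [CommGroup C] [Finite C] [IsCyclic C] (k : ℕ) (y : C)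
    (hy : y ^ (Nat.card C / Nat.gcd (Nat.card C) k) = 1) : ∃ x : C, x ^ k = y := by
  obtain ⟨ζ, hζ⟩ := IsCyclic.exists_generator (α := C)
  have hord : orderOf ζ = Nat.card C := orderOf_eq_card_of_forall_mem_zpowers hζ
  obtain ⟨j, rfl⟩ := Subgroup.mem_zpowers_iff.1 (hζ y)
  have hN : 0 < Nat.card C := Nat.card_pos
  have hg : 0 < Nat.gcd (Nat.card C) k := Nat.gcd_pos_of_pos_left _ hN
  obtain ⟨c, hc⟩ : Nat.gcd (Nat.card C) k ∣ Nat.card C := Nat.gcd_dvd_left _ _
  have hdiv : Nat.card C / Nat.gcd (Nat.card C) k = c := by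
    exact Nat.div_eq_of_eq_mul_right hg hc
  have hc0 : c ≠ 0 := by
    rintro rfl
    rw [mul_zero] at hc
    omega
  have h1 : (Nat.card C : ℤ) ∣ j * c := by
    rw [← hord]
    apply orderOf_dvd_iff_zpow_eq_one.2
    rw [_root_.zpow_mul, zpow_natCast]
    rw [hdiv] at hy
    exact hy
  have h2 : (Nat.gcd (Nat.card C) k : ℤ) ∣ j := by
    have h3 : ((Nat.gcd (Nat.card C) k : ℕ) : ℤ) * (c : ℤ) ∣ j * c := by
      have : ((Nat.gcd (Nat.card C) k : ℕ) : ℤ) * (c : ℤ) = (Nat.card C : ℤ) := by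
        rw [← Nat.cast_mul, ← hc]
      rw [this]; exact h1
    exact Int.dvd_of_mul_dvd_mul_right (by exact_mod_cast hc0) h3
  obtain ⟨j', rfl⟩ := h2
  have hb := Nat.gcd_eq_gcd_ab (Nat.card C) k
  refine ⟨ζ ^ (Nat.gcdB (Nat.card C) k * j'), ?_⟩
  rw [← zpow_natCast, ← _root_.zpow_mul]
  have : (Nat.gcd (Nat.card C) k : ℤ) * j' = Nat.gcdB (Nat.card C) k * j' * k +
      (Nat.card C : ℤ) * (Nat.gcdA (Nat.card C) k * j') := by rw [hb]; ring
  have h5 : ζ ^ Nat.card C = 1 := by rw [← hord]; exact pow_orderOf_eq_one ζ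
  rw [this, _root_.zpow_add, _root_.zpow_mul ζ (Nat.card C : ℤ), zpow_natCast ζ (Nat.card C), h5,
    _root_.one_zpow, mul_one]

theorem roots_pow (hF : Fintype.card F = q ^ 2) (hq : 1 ≤ q) (k : ℕ) (y : Fˣ) (hy1 : y ^ (q + 1) = 1)
    (hy : y ^ ((q + 1) / Nat.gcd (q + 1) k) = 1) : ∃ x : Fˣ, x ^ (q + 1) = 1 ∧ x ^ k = y := by
  have hcard : Nat.card (rootsOfUnity (q + 1) F) = q + 1 := by
    rw [Cfsg.Agent.S0243.card_rootsOfUnity_field, hF]
    apply Nat.gcd_eq_left
    refine ⟨q - 1, ?_⟩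
    obtain ⟨r, rfl⟩ : ∃ r, q = r + 1 := ⟨q - 1, by omega⟩
    simp only [Nat.add_sub_cancel]
    apply Nat.sub_eq_of_eq_add; ring
  have hmem : y ∈ rootsOfUnity (q + 1) F := by rw [mem_rootsOfUnity]; exact hy1
  obtain ⟨x, hx⟩ := cyc_pow (C := rootsOfUnity (q + 1) F) k ⟨y, hmem⟩ (by
    rw [hcard]
    apply Subtype.ext
    exact hy)
  refine ⟨x.1, ?_, ?_⟩
  · have := x.2
    rwa [mem_rootsOfUnity] at this
  · exact congrArg Subtype.val hx

/-- Scalar matrices as elements of `GL`. -/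
noncomputable def scal (n : ℕ) (u : Fˣ) : GL (Fin n) F :=
  Units.map (Matrix.scalar (Fin n)).toMonoidHom u

omit [Fintype F] in
theorem scal_val (n : ℕ) (u : Fˣ) :
    ((scal n u : GL (Fin n) F) : Matrix (Fin n) (Fin n) F) = (u : F) • 1 := by
  show Matrix.scalar (Fin n) (u : F) = _
  rw [Matrix.scalar_apply, Matrix.smul_one_eq_diagonal]

omit [Fintype F] in
theorem scal_mem (n : ℕ) (u : Fˣ) (hu : (u : F) ^ (q + 1) = 1) : scal n u ∈ Cfsg.GU n F q := by
  rw [mem_GU]
  intro x y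
  rw [scal_val, Matrix.smul_mulVec, Matrix.smul_mulVec, Matrix.one_mulVec, Matrix.one_mulVec,
    herm_smul, hu, one_mul]

omit [Fintype F] in
theorem scal_det (n : ℕ) (u : Fˣ) : Matrix.GeneralLinearGroup.det (scal n u) = u ^ n := by
  apply Units.ext
  rw [Matrix.GeneralLinearGroup.val_det_apply, scal_val, Matrix.det_smul, Matrix.det_one, mul_one,
    Fintype.card_fin, Units.val_pow_eq_pow_val]

omit [Fintype F] in
theorem scal_comm (n : ℕ) (u : Fˣ) (g : GL (Fin n) F) : g * scal n u = scal n u * g := by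
  apply Units.ext
  rw [Units.val_mul, Units.val_mul, scal_val, Matrix.mul_smul, Matrix.smul_mul, Matrix.mul_one,
    Matrix.one_mul]

/-- The determinant maps `GU_n` onto the elements of norm one. -/
theorem det_surj (hF : Fintype.card F = q ^ 2) (n : ℕ) (hn : 1 ≤ n) (u : Fˣ)
    (hu : u ^ (q + 1) = 1) :
    ∃ g : GL (Fin n) F, g ∈ Cfsg.GU n F q ∧ Matrix.GeneralLinearGroup.det g = u := by
  classical
  obtain ⟨m, rfl⟩ : ∃ m, n = m + 1 := ⟨n - 1, by omega⟩
  have hu' : (u : F) ^ (q + 1) = 1 := by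
    have := congrArg Units.val hu
    rwa [Units.val_pow_eq_pow_val] at this
  have hDdet : (Matrix.diagonal (Fin.cons (u : F) (fun _ => 1) : Fin (m + 1) → F)).det = u := by
    rw [Matrix.det_diagonal, Fin.prod_univ_succ]; simp
  have hDmv : ∀ v : Fin (m + 1) → F,
      (Matrix.diagonal (Fin.cons (u : F) (fun _ => 1) : Fin (m + 1) → F)) *ᵥ v =
        fun i => (Fin.cons (u : F) (fun _ => 1) : Fin (m + 1) → F) i * v i := by
    intro v; ext i; simp [Matrix.mulVec_diagonal]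
  have hG : Matrix.GeneralLinearGroup.mkOfDetNeZero
      (Matrix.diagonal (Fin.cons (u : F) (fun _ => 1) : Fin (m + 1) → F))
      (by rw [hDdet]; exact u.ne_zero) ∈ Cfsg.GU (m + 1) F q := by
    rw [mem_GU]
    intro x y
    show Cfsg.hermForm (m + 1) F q
      ((Matrix.diagonal (Fin.cons (u : F) (fun _ => 1) : Fin (m + 1) → F)) *ᵥ x)
      ((Matrix.diagonal (Fin.cons (u : F) (fun _ => 1) : Fin (m + 1) → F)) *ᵥ y) = _
    rw [hDmv, hDmv]
    simp only [Cfsg.hermForm, Fin.sum_univ_succ, Fin.cons_zero, Fin.cons_succ, one_mul]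
    congr 1
    rw [mul_pow]
    have : (u : F) * (u : F) ^ q = 1 := by rw [← pow_succ']; exact hu'
    linear_combination (x 0 * y 0 ^ q) * this
  refine ⟨_, hG, ?_⟩
  apply Units.ext
  rw [Matrix.GeneralLinearGroup.val_det_apply]
  exact hDdet

/-- Central elements of `GU_n` are scalar. -/
theorem central_scalar (hF : Fintype.card F = q ^ 2) (n : ℕ) (g : ↥(Cfsg.GU n F q))
    (hg : g ∈ Subgroup.center ↥(Cfsg.GU n F q)) :
    ∃ l : Fˣ, l ^ (q + 1) = 1 ∧ (g : GL (Fin n) F) = scal n l := by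
  classical
  rcases Nat.eq_zero_or_pos n with hn | hn
  · subst hn
    refine ⟨1, one_pow _, ?_⟩
    apply Units.ext
    ext i
    exact i.elim0
  obtain ⟨m, rfl⟩ : ∃ m, n = m + 1 := ⟨n - 1, by omega⟩
  have hc : ∀ s ∈ Cfsg.SU (m + 1) F q, (s : Matrix (Fin (m + 1)) (Fin (m + 1)) F) *
      ((g : GL (Fin (m + 1)) F) : Matrix (Fin (m + 1)) (Fin (m + 1)) F) =
      ((g : GL (Fin (m + 1)) F) : Matrix (Fin (m + 1)) (Fin (m + 1)) F) *
        (s : Matrix (Fin (m + 1)) (Fin (m + 1)) F) := by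
    intro s hs
    rw [Subgroup.mem_center_iff] at hg
    have hmem : Matrix.SpecialLinearGroup.toGL s ∈ Cfsg.GU (m + 1) F q := hs
    have := hg ⟨Matrix.SpecialLinearGroup.toGL s, hmem⟩
    exact congrArg (fun z : ↥(Cfsg.GU (m + 1) F q) =>
      ((z : GL (Fin (m + 1)) F) : Matrix (Fin (m + 1)) (Fin (m + 1)) F)) this
  have hsc := center_scalar' hF (m + 1) _ hc 0
  obtain ⟨l, hl⟩ : ∃ l, l = ((g : GL (Fin (m + 1)) F) : Matrix (Fin (m + 1)) (Fin (m + 1)) F) 0 0 :=
    ⟨_, rfl⟩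
  rw [← hl] at hsc
  have hlq : l ^ (q + 1) = 1 := by
    have h1 := (mem_GU (m + 1) g.1).1 g.2 (Pi.single 0 1) (Pi.single 0 1)
    rw [hsc, Matrix.smul_mulVec, Matrix.one_mulVec, herm_smul] at h1
    have h2 : Cfsg.hermForm (m + 1) F q (Pi.single 0 1) (Pi.single 0 1) = 1 := by
      simp only [Cfsg.hermForm]
      rw [Finset.sum_eq_single 0]
      · simp
      · intro j _ hj
        simp [hj]
      · intro h0; exact absurd (Finset.mem_univ _) h0
    rw [h2, mul_one] at h1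
    exact h1
  have hl0 : l ≠ 0 := by
    rintro rfl
    rw [zero_pow (by omega)] at hlq
    exact zero_ne_one hlq
  refine ⟨Units.mk0 l hl0, ?_, ?_⟩
  · apply Units.ext
    rw [Units.val_pow_eq_pow_val, Units.val_mk0, hlq]; rfl
  · apply Units.ext
    rw [scal_val, Units.val_mk0]
    exact hsc

/-- PGU_n(q)/PSU_n(q) is cyclic of order (n, q+1): for n ≥ 2 and |F| = q² there is a surjective homomorphism from GU_n(q) onto the cyclic group of order gcd(n, q + 1) whose kernel is generated by the determinant-one elements together with the centre. -/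
theorem result {F : Type*} [Field F] [Fintype F] {q : ℕ} (hF : Fintype.card F = q ^ 2) (n : ℕ) (hn : 2 ≤ n) : ∃ φ : ↥(Cfsg.GU n F q) →* Multiplicative (ZMod (Nat.gcd n (q + 1))), Function.Surjective φ ∧ φ.ker = (Matrix.GeneralLinearGroup.det : Matrix.GeneralLinearGroup (Fin n) F →* Fˣ).ker.subgroupOf (Cfsg.GU n F q) ⊔ Subgroup.center ↥(Cfsg.GU n F q) := by
  classical
  obtain ⟨φ0, hφ, hφφ, hq2⟩ := frob_setup hF
  obtain ⟨d, hd⟩ : ∃ d, d = Nat.gcd n (q + 1) := ⟨_, rfl⟩
  rw [← hd]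
  have hdpos : 0 < d := by rw [hd]; exact Nat.gcd_pos_of_pos_left _ (by omega)
  obtain ⟨c, hc⟩ : d ∣ q + 1 := by rw [hd]; exact Nat.gcd_dvd_right _ _
  obtain ⟨n', hn'⟩ : d ∣ n := by rw [hd]; exact Nat.gcd_dvd_left _ _
  have hcpos : 0 < c := by
    rcases Nat.eq_zero_or_pos c with h | h
    · rw [h, mul_zero] at hc; omega
    · exact h
  let f : ↥(Cfsg.GU n F q) →* Fˣ := Matrix.GeneralLinearGroup.det.comp (Cfsg.GU n F q).subtype
  have hf : ∀ g, (f g) ^ (q + 1) = 1 := by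
    intro g
    apply Units.ext
    rw [Units.val_pow_eq_pow_val]
    show (Matrix.GeneralLinearGroup.det (g : GL (Fin n) F) : F) ^ (q + 1) = 1
    rw [Matrix.GeneralLinearGroup.val_det_apply]
    exact Cfsg.Agent.S0278.det_pow hF n g.1 g.2
  let χ0 : ↥(Cfsg.GU n F q) →* Fˣ := (powMonoidHom c).comp f
  have hχ0 : ∀ g, χ0 g ∈ rootsOfUnity d F := by
    intro g
    rw [mem_rootsOfUnity]
    show ((f g) ^ c) ^ d = 1
    rw [← pow_mul, mul_comm, ← hc]
    exact hf g
  let χ : ↥(Cfsg.GU n F q) →* rootsOfUnity d F := χ0.codRestrict _ hχ0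
  have hcard : Nat.card (rootsOfUnity d F) = d := by
    rw [Cfsg.Agent.S0243.card_rootsOfUnity_field, hF]
    apply Nat.gcd_eq_left
    have h1 : d ∣ q + 1 := ⟨c, hc⟩
    have h2 : q + 1 ∣ q ^ 2 - 1 := by
      refine ⟨q - 1, ?_⟩
      obtain ⟨r, rfl⟩ : ∃ r, q = r + 1 := ⟨q - 1, by omega⟩
      simp only [Nat.add_sub_cancel]
      apply Nat.sub_eq_of_eq_add; ring
    exact h1.trans h2
  have : NeZero d := ⟨hdpos.ne'⟩
  have e := zmodCyclicMulEquiv (G := rootsOfUnity d F) inferInstance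
  rw [hcard] at e
  have hker : (e.symm.toMonoidHom.comp χ).ker = χ0.ker := by
    ext g
    rw [MonoidHom.mem_ker, MonoidHom.mem_ker]
    show e.symm (χ g) = 1 ↔ _
    rw [map_eq_one_iff e.symm e.symm.injective]
    constructor
    · intro h
      exact congrArg Subtype.val h
    · intro h
      exact Subtype.ext h
  refine ⟨e.symm.toMonoidHom.comp χ, ?_, ?_⟩
  · apply e.symm.surjective.comp
    intro y
    have hy : (y : Fˣ) ^ d = 1 := by
      have := y.2
      rwa [mem_rootsOfUnity] at this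
    have hy1 : (y : Fˣ) ^ (q + 1) = 1 := by rw [hc, pow_mul, hy, one_pow]
    have hgcd : Nat.gcd (q + 1) c = c := Nat.gcd_eq_right ⟨d, by rw [hc, mul_comm]⟩
    have hdiv : (q + 1) / c = d := Nat.div_eq_of_eq_mul_right hcpos (by rw [hc, mul_comm])
    obtain ⟨x, hx1, hxc⟩ := roots_pow hF (by omega) c (y : Fˣ) hy1 (by rw [hgcd, hdiv]; exact hy)
    obtain ⟨g, hg, hdet⟩ := det_surj hF n (by omega) x hx1
    refine ⟨⟨g, hg⟩, Subtype.ext ?_⟩
    show (Matrix.GeneralLinearGroup.det g) ^ c = (y : Fˣ)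
    rw [hdet, hxc]
  · rw [hker]
    apply le_antisymm
    · intro g hg
      rw [MonoidHom.mem_ker] at hg
      have hg' : (f g) ^ c = 1 := hg
      have hgcd : Nat.gcd (q + 1) n = d := by rw [hd, Nat.gcd_comm]
      have hdiv : (q + 1) / d = c := Nat.div_eq_of_eq_mul_right hdpos hc
      obtain ⟨x, hx1, hxn⟩ := roots_pow hF (by omega) n (f g) (hf g) (by rw [hgcd, hdiv]; exact hg')
      have hx1' : (x : F) ^ (q + 1) = 1 := by
        have := congrArg Units.val hx1
        rwa [Units.val_pow_eq_pow_val] at this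
      have hz : scal n x ∈ Cfsg.GU n F q := scal_mem n x hx1'
      have hzc : (⟨scal n x, hz⟩ : ↥(Cfsg.GU n F q)) ∈ Subgroup.center ↥(Cfsg.GU n F q) := by
        rw [Subgroup.mem_center_iff]
        intro h
        apply Subtype.ext
        exact scal_comm n x h.1
      have hsplit : g = (g * (⟨scal n x, hz⟩ : ↥(Cfsg.GU n F q))⁻¹) * ⟨scal n x, hz⟩ := by group
      rw [hsplit]
      apply Subgroup.mul_mem_sup
      · rw [Subgroup.mem_subgroupOf, MonoidHom.mem_ker]
        show Matrix.GeneralLinearGroup.det ((g : GL (Fin n) F) * (scal n x)⁻¹) = 1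
        rw [map_mul, map_inv, scal_det, hxn]
        exact mul_inv_cancel _
      · exact hzc
    · apply sup_le
      · intro g hg
        rw [Subgroup.mem_subgroupOf, MonoidHom.mem_ker] at hg
        rw [MonoidHom.mem_ker]
        show (f g) ^ c = 1
        have : f g = 1 := hg
        rw [this, one_pow]
      · intro g hg
        obtain ⟨l, hl, hgl⟩ := central_scalar hF n g hg
        rw [MonoidHom.mem_ker]
        show (Matrix.GeneralLinearGroup.det (g : GL (Fin n) F)) ^ c = 1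
        rw [hgl, scal_det, ← pow_mul, hn', mul_comm d n', mul_assoc, ← hc, mul_comm, pow_mul, hl,
          one_pow]

end Cfsg.Agent.S0783
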