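import Cfsg.Statements.S0800
-- import your own Cfsg.Agent.* helpers here
import Mathlib

set_option autoImplicit false
open Cfsg

namespace Cfsg.Agent.S0800

/-- Tori of SL_2(q): if g ∈ SL_2(q) has order coprime to the characteristic p, then the order of g divides q − 1 or q + 1. -/
theorem result {F : Type*} [Field F] [Fintype F] {q : ℕ} (hF : Fintype.card F = q) (p : ℕ) [Fact p.Prime] [CharP F p] (g : Matrix.SpecialLinearGroup (Fin 2) F) (hg : Nat.Coprime (orderOf g) p) : orderOf g ∣ q - 1 ∨ orderOf g ∣ q + 1 := by
  classical
  subst hF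
  set A : Matrix (Fin 2) (Fin 2) F := g.1 with hA
  have hdet : A.det = 1 := g.2
  set t : F := A.trace with ht
  set f : Polynomial F := Polynomial.X ^ 2 - Polynomial.C t * Polynomial.X + 1 with hf
  have hchar : A.charpoly = f := by
    rw [Matrix.charpoly_fin_two, hdet, hf, ← ht]; simp
  have hCH : Polynomial.aeval A f = 0 := by
    rw [← hchar]; exact Matrix.aeval_self_charpoly A
  have hdeg : f.natDegree = 2 := by
    rw [← hchar, Matrix.charpoly_natDegree_eq_dim]; simp
  have key0 : ∀ n : ℕ, A ^ n = 1 → orderOf g ∣ n := by
    intro n h2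
    apply orderOf_dvd_of_pow_eq_one
    apply Subtype.ext
    rw [Matrix.SpecialLinearGroup.coe_pow]
    exact h2
  have key : ∀ n : ℕ, f ∣ (Polynomial.X ^ n - 1) → orderOf g ∣ n := by
    rintro n ⟨c, hc⟩
    apply key0
    have h1 : Polynomial.aeval A (Polynomial.X ^ n - 1 : Polynomial F) = 0 := by
      rw [hc, map_mul, hCH, zero_mul]
    simpa [sub_eq_zero] using h1
  by_cases hroot : ∃ l, f.IsRoot l
  · left
    obtain ⟨l, hl⟩ := hroot
    have hl' : l ^ 2 - t * l + 1 = 0 := by
      simpa [hf, Polynomial.IsRoot] using hl
    set m : F := t - l with hm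
    have hlm : l * m = 1 := by rw [hm]; linear_combination -hl'
    have hl0 : l ≠ 0 := left_ne_zero_of_mul_eq_one hlm
    have hm0 : m ≠ 0 := right_ne_zero_of_mul_eq_one hlm
    have hfac : f = (Polynomial.X - Polynomial.C l) * (Polynomial.X - Polynomial.C m) := by
      have h1 : (Polynomial.C l * Polynomial.C m : Polynomial F) = 1 := by
        rw [← Polynomial.C_mul, hlm, Polynomial.C_1]
      have h2 : (Polynomial.C t : Polynomial F) = Polynomial.C l + Polynomial.C m := by
        rw [← Polynomial.C_add]; congr 1; rw [hm]; ring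
      rw [hf, h2]; linear_combination (-1 : Polynomial F) * h1
    have hd : ∀ a : F, a ≠ 0 → (Polynomial.X - Polynomial.C a) ∣
        (Polynomial.X ^ (Fintype.card F - 1) - 1 : Polynomial F) := by
      intro a ha
      rw [Polynomial.dvd_iff_isRoot]
      simp [Polynomial.IsRoot, FiniteField.pow_card_sub_one_eq_one a ha]
    have hdvd : f ∣ (Polynomial.X ^ (Fintype.card F - 1) - 1 : Polynomial F) ^ 2 := by
      rw [hfac, sq]; exact mul_dvd_mul (hd l hl0) (hd m hm0)
    obtain ⟨c, hc⟩ := hdvd
    have h1 : Polynomial.aeval A ((Polynomial.X ^ (Fintype.card F - 1) - 1 : Polynomial F) ^ 2) = 0 := by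
      rw [hc, map_mul, hCH, zero_mul]
    have h2 : (A ^ (Fintype.card F - 1) - 1) ^ 2 = 0 := by
      simpa using h1
    have hp2 : 2 ≤ p := (Fact.out : p.Prime).two_le
    have h3 : (A ^ (Fintype.card F - 1) - 1) ^ p = 0 := by
      obtain ⟨k, rfl⟩ := Nat.exists_eq_add_of_le hp2
      rw [pow_add, h2, zero_mul]
    have h4 : (A ^ (Fintype.card F - 1)) ^ p = 1 := by
      have hcm : Commute (A ^ (Fintype.card F - 1)) (1 : Matrix (Fin 2) (Fin 2) F) := Commute.one_right _
      have := sub_pow_char_of_commute (p := p) hcm
      rw [h3, one_pow] at this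
      exact (sub_eq_zero.mp this.symm)
    rw [← pow_mul] at h4
    exact Nat.Coprime.dvd_of_dvd_mul_right hg (key0 _ h4)
  · right
    simp only [not_exists] at hroot
    have hirr : Irreducible f := by
      apply Polynomial.irreducible_of_degree_le_three_of_not_isRoot
      · rw [hdeg]; decide
      · exact hroot
    have hprime : Prime f := hirr.prime
    have hq0 : Fintype.card F ≠ 0 := Fintype.card_ne_zero
    have hexp : f ∣ Polynomial.expand F (Fintype.card F) f := by
      rw [FiniteField.expand_card]; exact dvd_pow_self f hq0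
    have hexp2 : Polynomial.expand F (Fintype.card F) f =
        (Polynomial.X ^ Fintype.card F) ^ 2 - Polynomial.C t * Polynomial.X ^ Fintype.card F + 1 := by
      simp [hf]
    have hprod : f ∣ (Polynomial.X ^ Fintype.card F - Polynomial.X) *
        (Polynomial.X ^ Fintype.card F + Polynomial.X - Polynomial.C t) := by
      have := dvd_sub hexp (dvd_refl f)
      rw [hexp2] at this
      convert this using 1
      rw [hf]; ring
    rcases hprime.dvd_or_dvd hprod with h | h
    · exfalso
      obtain ⟨c, hc⟩ := h
      have hne : (Polynomial.X ^ Fintype.card F - Polynomial.X : Polynomial F) ≠ 0 :=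
        FiniteField.X_pow_card_sub_X_ne_zero F Fintype.one_lt_card
      have hc0 : c ≠ 0 := by
        rintro rfl; rw [mul_zero] at hc; exact hne hc
      have hf0 : f ≠ 0 := hprime.ne_zero
      have hev : ∀ a : F, c.eval a = 0 := by
        intro a
        have h1 := congrArg (Polynomial.eval a) hc
        simp only [Polynomial.eval_sub, Polynomial.eval_pow, Polynomial.eval_X, Polynomial.eval_mul,
          FiniteField.pow_card, sub_self] at h1
        rcases mul_eq_zero.mp h1.symm with h2 | h2
        · exact absurd h2 (hroot a)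
        · exact h2
      have hdq : (Polynomial.X ^ Fintype.card F - Polynomial.X : Polynomial F).natDegree = Fintype.card F :=
        FiniteField.X_pow_card_sub_X_natDegree_eq F Fintype.one_lt_card
      have hdc : c.natDegree < Fintype.card F := by
        rw [hc, Polynomial.natDegree_mul hf0 hc0, hdeg] at hdq
        omega
      apply hc0
      apply Polynomial.eq_zero_of_natDegree_lt_card_of_eval_eq_zero' c Finset.univ (fun a _ => hev a)
      rwa [Finset.card_univ]
    · apply key
      have : (Polynomial.X ^ (Fintype.card F + 1) - 1 : Polynomial F) =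
          Polynomial.X * (Polynomial.X ^ Fintype.card F + Polynomial.X - Polynomial.C t) - f := by
        rw [hf]; ring
      rw [this]
      exact dvd_sub (Dvd.dvd.mul_left h _) (dvd_refl f)

end Cfsg.Agent.S0800
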