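import Mathlib
import Cfsg.Statements.S0809

set_option autoImplicit false
open Cfsg

namespace Cfsg.Agent.S0809

open Matrix

variable {F : Type*} [Field F]

/-- The standard element of order 4. -/
def J0 (F : Type*) [Field F] : Matrix.SpecialLinearGroup (Fin 2) F :=
  ⟨!![0, -1; 1, 0], by simp [Matrix.det_fin_two]⟩

theorem J0_val : ((J0 F : Matrix.SpecialLinearGroup (Fin 2) F) : Matrix (Fin 2) (Fin 2) F) =
    !![0, -1; 1, 0] := rfl

theorem entries (M N : Matrix (Fin 2) (Fin 2) F) :
    M * N = !![M 0 0 * N 0 0 + M 0 1 * N 1 0, M 0 0 * N 0 1 + M 0 1 * N 1 1;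
      M 1 0 * N 0 0 + M 1 1 * N 1 0, M 1 0 * N 0 1 + M 1 1 * N 1 1] := by
  ext i j
  fin_cases i <;> fin_cases j <;> simp [Matrix.mul_apply, Fin.sum_univ_two]

theorem mat_eq (M N : Matrix (Fin 2) (Fin 2) F) (h00 : M 0 0 = N 0 0) (h01 : M 0 1 = N 0 1)
    (h10 : M 1 0 = N 1 0) (h11 : M 1 1 = N 1 1) : M = N := by
  ext i j
  fin_cases i <;> fin_cases j <;> assumption

theorem sq_one (h2 : (2 : F) ≠ 0) (g : Matrix.SpecialLinearGroup (Fin 2) F)
    (hg : (g : Matrix (Fin 2) (Fin 2) F) * (g : Matrix (Fin 2) (Fin 2) F) = 1) :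
    (g : Matrix (Fin 2) (Fin 2) F) = 1 ∨ (g : Matrix (Fin 2) (Fin 2) F) = -1 := by
  obtain ⟨M, hM⟩ : ∃ M : Matrix (Fin 2) (Fin 2) F, M = (g : Matrix (Fin 2) (Fin 2) F) := ⟨_, rfl⟩
  have hdet : M 0 0 * M 1 1 - M 0 1 * M 1 0 = 1 := by
    rw [← Matrix.det_fin_two, hM]; exact g.2
  rw [← hM, entries] at hg
  have e00 := congrFun (congrFun hg 0) 0
  have e01 := congrFun (congrFun hg 0) 1
  have e10 := congrFun (congrFun hg 1) 0
  have e11 := congrFun (congrFun hg 1) 1
  simp only [Matrix.of_apply, Matrix.cons_val', Matrix.cons_val_zero, Matrix.cons_val_one,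
    Matrix.one_apply_eq, Matrix.one_apply_ne, ne_eq, zero_ne_one, one_ne_zero,
    not_false_eq_true, Matrix.cons_val_fin_one] at e00 e01 e10 e11
  rw [← hM]
  have hs : M 0 0 + M 1 1 ≠ 0 := by
    intro h0
    apply h2
    have hd : M 1 1 = -M 0 0 := by linear_combination h0
    rw [hd] at hdet
    linear_combination -(e00 + hdet)
  have hb : M 0 1 = 0 := by
    have : M 0 1 * (M 0 0 + M 1 1) = 0 := by linear_combination e01
    rcases mul_eq_zero.1 this with h | h
    · exact h
    · exact absurd h hs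
  have hc : M 1 0 = 0 := by
    have : M 1 0 * (M 0 0 + M 1 1) = 0 := by linear_combination e10
    rcases mul_eq_zero.1 this with h | h
    · exact h
    · exact absurd h hs
  rw [hb, hc] at hdet e00
  have ha : (M 0 0 - 1) * (M 0 0 + 1) = 0 := by linear_combination e00
  rcases mul_eq_zero.1 ha with h | h
  · left
    have ha1 : M 0 0 = 1 := by linear_combination h
    have hd1 : M 1 1 = 1 := by rw [ha1] at hdet; linear_combination hdet
    exact mat_eq _ _ (by simpa using ha1) (by simpa using hb) (by simpa using hc)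
      (by simpa using hd1)
  · right
    have ha1 : M 0 0 = -1 := by linear_combination h
    have hd1 : M 1 1 = -1 := by rw [ha1] at hdet; linear_combination -hdet
    exact mat_eq _ _ (by simpa using ha1) (by simpa using hb) (by simpa using hc)
      (by simpa using hd1)

theorem sum_two_sq [Fintype F] (hodd : Fintype.card F % 2 = 1) (c : F) :
    ∃ a b : F, a ^ 2 + b ^ 2 = c := by
  classical
  obtain ⟨a, b, hab⟩ := FiniteField.exists_root_sum_quadratic (R := F)
    (f := Polynomial.X ^ 2) (g := Polynomial.X ^ 2 - Polynomial.C c)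
    (Polynomial.degree_X_pow 2) (Polynomial.degree_X_pow_sub_C (by norm_num) c) hodd
  refine ⟨a, b, ?_⟩
  simp only [Polynomial.eval_pow, Polynomial.eval_X, Polynomial.eval_sub, Polynomial.eval_C] at hab
  linear_combination hab

theorem conj_J0 [Fintype F] (hodd : Fintype.card F % 2 = 1) (h2 : (2 : F) ≠ 0)
    (g : Matrix.SpecialLinearGroup (Fin 2) F)
    (hg : (g : Matrix (Fin 2) (Fin 2) F) * (g : Matrix (Fin 2) (Fin 2) F) = -1) :
    ∃ P : Matrix.SpecialLinearGroup (Fin 2) F, P * J0 F * P⁻¹ = g := by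
  obtain ⟨M, hM⟩ : ∃ M : Matrix (Fin 2) (Fin 2) F, M = (g : Matrix (Fin 2) (Fin 2) F) := ⟨_, rfl⟩
  have hdet : M 0 0 * M 1 1 - M 0 1 * M 1 0 = 1 := by
    rw [← Matrix.det_fin_two, hM]; exact g.2
  rw [← hM, entries] at hg
  have e00 := congrFun (congrFun hg 0) 0
  have e01 := congrFun (congrFun hg 0) 1
  have e10 := congrFun (congrFun hg 1) 0
  have e11 := congrFun (congrFun hg 1) 1
  simp only [Matrix.of_apply, Matrix.cons_val', Matrix.cons_val_zero, Matrix.cons_val_one,
    Matrix.neg_apply, Matrix.one_apply_eq, Matrix.one_apply_ne, ne_eq, zero_ne_one, one_ne_zero,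
    not_false_eq_true, Matrix.cons_val_fin_one, neg_zero] at e00 e01 e10 e11
  obtain ⟨a, ha⟩ : ∃ a, a = M 0 0 := ⟨_, rfl⟩
  obtain ⟨b, hb⟩ : ∃ b, b = M 0 1 := ⟨_, rfl⟩
  obtain ⟨c, hc⟩ : ∃ c, c = M 1 0 := ⟨_, rfl⟩
  obtain ⟨d, hd⟩ : ∃ d, d = M 1 1 := ⟨_, rfl⟩
  simp only [← ha, ← hb, ← hc, ← hd] at hdet e00 e01 e10 e11
  have hda : d = -a := by
    by_contra hne
    have hs : a + d ≠ 0 := fun h0 => hne (by linear_combination h0)
    have hb0 : b = 0 := by
      have : b * (a + d) = 0 := by linear_combination e01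
      rcases mul_eq_zero.1 this with h | h
      · exact h
      · exact absurd h hs
    have hc0 : c = 0 := by
      have : c * (a + d) = 0 := by linear_combination e10
      rcases mul_eq_zero.1 this with h | h
      · exact h
      · exact absurd h hs
    rw [hb0, hc0] at hdet e00 e11
    have had : (a - d) * (a + d) = 0 := by linear_combination e00 - e11
    have had' : a = d := by
      rcases mul_eq_zero.1 had with h | h
      · linear_combination h
      · exact absurd h hs
    apply h2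
    rw [← had'] at hdet
    linear_combination e00 - hdet
  subst hda
  have hkey : a * a + b * c = -1 := e00
  obtain ⟨x, y, hxy⟩ : ∃ x y : F, c * x ^ 2 - 2 * a * x * y - b * y ^ 2 = 1 := by
    by_cases hc0 : c = 0
    · have ha0 : a ≠ 0 := by
        rintro rfl
        rw [hc0] at hkey
        simp at hkey
      refine ⟨-(1 + b) / (2 * a), 1, ?_⟩
      rw [hc0]
      field_simp
      ring
    · obtain ⟨X, y, hXy⟩ := sum_two_sq hodd c
      refine ⟨(X + a * y) / c, y, ?_⟩
      field_simp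
      linear_combination hXy - y ^ 2 * hkey
  have hPdet : (!![x, a * x + b * y; y, c * x - a * y] : Matrix (Fin 2) (Fin 2) F).det = 1 := by
    rw [Matrix.det_fin_two_of]
    linear_combination hxy
  obtain ⟨P, hP⟩ : ∃ P : Matrix.SpecialLinearGroup (Fin 2) F,
      (P : Matrix (Fin 2) (Fin 2) F) = !![x, a * x + b * y; y, c * x - a * y] :=
    ⟨⟨_, hPdet⟩, rfl⟩
  refine ⟨P, ?_⟩
  rw [mul_inv_eq_iff_eq_mul]
  apply Subtype.ext
  rw [Matrix.SpecialLinearGroup.coe_mul, Matrix.SpecialLinearGroup.coe_mul, hP, ← hM, J0_val]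
  rw [entries, entries]
  apply mat_eq
  · simp only [Matrix.of_apply, Matrix.cons_val', Matrix.cons_val_zero, Matrix.cons_val_one,
      Matrix.cons_val_fin_one]
    rw [← ha, ← hb]; ring
  · simp only [Matrix.of_apply, Matrix.cons_val', Matrix.cons_val_zero, Matrix.cons_val_one,
      Matrix.cons_val_fin_one]
    rw [← ha, ← hb]; linear_combination -x * hkey
  · simp only [Matrix.of_apply, Matrix.cons_val', Matrix.cons_val_zero, Matrix.cons_val_one,
      Matrix.cons_val_fin_one]
    rw [← hc, ← hd]; ring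
  · simp only [Matrix.of_apply, Matrix.cons_val', Matrix.cons_val_zero, Matrix.cons_val_one,
      Matrix.cons_val_fin_one]
    rw [← hc, ← hd]; linear_combination -y * hkey

theorem scalar_neg_one : (Matrix.scalar (Fin 2) (-1 : F)) = -1 := by
  ext i j
  fin_cases i <;> fin_cases j <;> simp [Matrix.scalar_apply]

theorem sq_val (x : Matrix.SpecialLinearGroup (Fin 2) F) :
    ((x ^ 2 : Matrix.SpecialLinearGroup (Fin 2) F) : Matrix (Fin 2) (Fin 2) F) =
      (x : Matrix (Fin 2) (Fin 2) F) * (x : Matrix (Fin 2) (Fin 2) F) := by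
  rw [pow_two, Matrix.SpecialLinearGroup.coe_mul]

theorem neg_one_ne (h2 : (2 : F) ≠ 0) : (-1 : Matrix (Fin 2) (Fin 2) F) ≠ 1 := by
  intro h
  have := congrFun (congrFun h 0) 0
  simp only [Matrix.neg_apply, Matrix.one_apply_eq] at this
  apply h2
  linear_combination -this

theorem order_four (h2 : (2 : F) ≠ 0) (x : Matrix.SpecialLinearGroup (Fin 2) F)
    (hx : (x : Matrix (Fin 2) (Fin 2) F) * (x : Matrix (Fin 2) (Fin 2) F) = -1) :
    orderOf x = 4 := by
  have h1 : ¬ x ^ 2 ^ 1 = 1 := by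
    intro h
    have := congrArg (fun y : Matrix.SpecialLinearGroup (Fin 2) F =>
      (y : Matrix (Fin 2) (Fin 2) F)) h
    simp only [pow_one] at this
    rw [sq_val, hx] at this
    exact neg_one_ne h2 this
  have h3 : x ^ 2 ^ (1 + 1) = 1 := by
    apply Subtype.ext
    have : x ^ 2 ^ (1 + 1) = (x ^ 2) ^ 2 := by rw [← pow_mul]; norm_num
    rw [this, sq_val, sq_val, hx]
    simp
  exact orderOf_eq_prime_pow h1 h3

theorem exists_gen [Fintype F] (h2 : (2 : F) ≠ 0) (A : Subgroup (Matrix.SpecialLinearGroup (Fin 2) F))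
    (hA : Nat.card A = 4) :
    ∃ x : Matrix.SpecialLinearGroup (Fin 2) F,
      (x : Matrix (Fin 2) (Fin 2) F) * (x : Matrix (Fin 2) (Fin 2) F) = -1 ∧
        A = Subgroup.zpowers x := by
  classical
  obtain ⟨x, hxA, hx1, hx2⟩ : ∃ x ∈ A, (x : Matrix (Fin 2) (Fin 2) F) ≠ 1 ∧
      (x : Matrix (Fin 2) (Fin 2) F) ≠ -1 := by
    by_contra hcon
    push Not at hcon
    have hinj : Function.Injective (fun y : A =>
        decide (((y : Matrix.SpecialLinearGroup (Fin 2) F) : Matrix (Fin 2) (Fin 2) F) = 1)) := by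
      intro y z hyz
      apply Subtype.ext; apply Subtype.ext
      by_cases hy : ((y : Matrix.SpecialLinearGroup (Fin 2) F) : Matrix (Fin 2) (Fin 2) F) = 1
      · have hz : ((z : Matrix.SpecialLinearGroup (Fin 2) F) : Matrix (Fin 2) (Fin 2) F) = 1 := by
          simpa [hy] using hyz.symm
        rw [hy, hz]
      · have hz : ((z : Matrix.SpecialLinearGroup (Fin 2) F) : Matrix (Fin 2) (Fin 2) F) ≠ 1 := by
          intro hz; simp [hy, hz] at hyz
        rw [hcon y y.2 hy, hcon z z.2 hz]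
    have := Nat.card_le_card_of_injective _ hinj
    rw [hA, Nat.card_eq_fintype_card, Fintype.card_bool] at this
    omega
  have hx4 : x ^ 4 = 1 := by
    have h := pow_card_eq_one' (G := A) (x := ⟨x, hxA⟩)
    rw [hA] at h
    have := congrArg (fun y : A => (y : Matrix.SpecialLinearGroup (Fin 2) F)) h
    simpa using this
  have hxx : (x : Matrix (Fin 2) (Fin 2) F) * (x : Matrix (Fin 2) (Fin 2) F) = -1 := by
    have h4 : ((x ^ 2 : Matrix.SpecialLinearGroup (Fin 2) F) : Matrix (Fin 2) (Fin 2) F) *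
        ((x ^ 2 : Matrix.SpecialLinearGroup (Fin 2) F) : Matrix (Fin 2) (Fin 2) F) = 1 := by
      rw [← sq_val, ← pow_mul, hx4]; rfl
    rcases sq_one h2 (x ^ 2) h4 with h | h
    · rw [sq_val] at h
      rcases sq_one h2 x h with h' | h'
      · exact absurd h' hx1
      · exact absurd h' hx2
    · rw [sq_val] at h; exact h
  refine ⟨x, hxx, ?_⟩
  have : Finite (Matrix.SpecialLinearGroup (Fin 2) F) := Finite.of_injective
    (fun g : Matrix.SpecialLinearGroup (Fin 2) F => (g : Matrix (Fin 2) (Fin 2) F))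
    Subtype.val_injective
  symm
  apply Subgroup.eq_of_le_of_card_ge
  · rw [Subgroup.zpowers_le]; exact hxA
  · rw [hA, Nat.card_zpowers, order_four h2 x hxx]

theorem part1 [Fintype F] (hodd : Fintype.card F % 2 = 1) (h2 : (2 : F) ≠ 0)
    (A B : Subgroup (Matrix.SpecialLinearGroup (Fin 2) F)) (hA : Nat.card A = 4)
    (hB : Nat.card B = 4) :
    ∃ g : Matrix.SpecialLinearGroup (Fin 2) F, B = A.map (MulAut.conj g).toMonoidHom := by
  obtain ⟨x, hx, rfl⟩ := exists_gen h2 A hA
  obtain ⟨y, hy, rfl⟩ := exists_gen h2 B hB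
  obtain ⟨P, hP⟩ := conj_J0 hodd h2 x hx
  obtain ⟨R, hR⟩ := conj_J0 hodd h2 y hy
  refine ⟨R * P⁻¹, ?_⟩
  rw [MonoidHom.map_zpowers]
  congr 1
  rw [← hP, ← hR]
  simp [MulAut.conj_apply, mul_assoc]

theorem part4 [Fintype F] (hodd : Fintype.card F % 2 = 1) (h2 : (2 : F) ≠ 0)
    (x y : Matrix.ProjectiveSpecialLinearGroup (Fin 2) F) (hx : orderOf x = 2)
    (hy : orderOf y = 2) : IsConj x y := by
  have key : ∀ z : Matrix.ProjectiveSpecialLinearGroup (Fin 2) F, orderOf z = 2 →
      IsConj z (QuotientGroup.mk (J0 F)) := by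
    intro z hz
    obtain ⟨g, rfl⟩ := QuotientGroup.mk_surjective z
    have hz2 : (QuotientGroup.mk g : Matrix.ProjectiveSpecialLinearGroup (Fin 2) F) ^ 2 = 1 := by
      have := pow_orderOf_eq_one (QuotientGroup.mk g : Matrix.ProjectiveSpecialLinearGroup (Fin 2) F)
      rw [hz] at this
      exact this
    have hz1 : (QuotientGroup.mk g : Matrix.ProjectiveSpecialLinearGroup (Fin 2) F) ≠ 1 := by
      intro h; rw [h, orderOf_one] at hz; omega
    rw [← QuotientGroup.mk_pow, QuotientGroup.eq_one_iff,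
      Matrix.SpecialLinearGroup.mem_center_iff] at hz2
    obtain ⟨r, hr, hrg⟩ := hz2
    rw [Fintype.card_fin] at hr
    rw [sq_val] at hrg
    have hr' : r = 1 ∨ r = -1 := by
      have : (r - 1) * (r + 1) = 0 := by linear_combination hr
      rcases mul_eq_zero.1 this with h | h
      · left; linear_combination h
      · right; linear_combination h
    rcases hr' with rfl | rfl
    · exfalso; apply hz1
      rcases sq_one h2 g (by rw [← hrg]; simp) with h | h
      · have : g = 1 := Subtype.ext h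
        rw [this]; rfl
      · rw [QuotientGroup.eq_one_iff, Matrix.SpecialLinearGroup.mem_center_iff]
        exact ⟨-1, by simp, by rw [h]; exact scalar_neg_one⟩
    · obtain ⟨P, hP⟩ := conj_J0 hodd h2 g (by rw [← hrg]; exact scalar_neg_one)
      rw [isConj_iff]
      refine ⟨QuotientGroup.mk P⁻¹, ?_⟩
      rw [← hP]
      simp [mul_assoc]
  exact (key x hx).trans (key y hy).symm

theorem J0_inv_val : (((J0 F)⁻¹ : Matrix.SpecialLinearGroup (Fin 2) F) :
    Matrix (Fin 2) (Fin 2) F) = !![0, 1; -1, 0] := by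
  rw [Matrix.SpecialLinearGroup.coe_inv, J0_val, Matrix.adjugate_fin_two_of]
  simp

theorem J0_sq : (J0 F : Matrix (Fin 2) (Fin 2) F) * (J0 F : Matrix (Fin 2) (Fin 2) F) = -1 := by
  rw [J0_val, entries]
  apply mat_eq <;> simp

theorem comm_iff (g : Matrix.SpecialLinearGroup (Fin 2) F) :
    g * J0 F = J0 F * g ↔ ((g : Matrix (Fin 2) (Fin 2) F) 0 1 = -(1 : F) * g 1 0 ∧
      (g : Matrix (Fin 2) (Fin 2) F) 1 1 = (1 : F) * g 0 0) := by
  constructor
  · intro h
    have h' := congrArg (fun y : Matrix.SpecialLinearGroup (Fin 2) F =>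
      (y : Matrix (Fin 2) (Fin 2) F)) h
    simp only [Matrix.SpecialLinearGroup.coe_mul, J0_val] at h'
    rw [entries, entries] at h'
    have e00 := congrFun (congrFun h' 0) 0
    have e10 := congrFun (congrFun h' 1) 0
    simp only [Matrix.of_apply, Matrix.cons_val', Matrix.cons_val_zero, Matrix.cons_val_one,
      Matrix.cons_val_fin_one] at e00 e10
    constructor
    · linear_combination e00
    · linear_combination e10
  · rintro ⟨h1, h2⟩
    apply Subtype.ext
    rw [Matrix.SpecialLinearGroup.coe_mul, Matrix.SpecialLinearGroup.coe_mul, J0_val, entries,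
      entries]
    apply mat_eq
    all_goals simp only [Matrix.of_apply, Matrix.cons_val', Matrix.cons_val_zero,
      Matrix.cons_val_one, Matrix.cons_val_fin_one]
    · linear_combination h1
    · linear_combination h2
    · linear_combination h2
    · linear_combination -h1

theorem anti_iff (g : Matrix.SpecialLinearGroup (Fin 2) F) :
    g * J0 F = (J0 F)⁻¹ * g ↔ ((g : Matrix (Fin 2) (Fin 2) F) 0 1 = -(-1 : F) * g 1 0 ∧
      (g : Matrix (Fin 2) (Fin 2) F) 1 1 = (-1 : F) * g 0 0) := by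
  constructor
  · intro h
    have h' := congrArg (fun y : Matrix.SpecialLinearGroup (Fin 2) F =>
      (y : Matrix (Fin 2) (Fin 2) F)) h
    simp only [Matrix.SpecialLinearGroup.coe_mul, J0_val, J0_inv_val] at h'
    rw [entries, entries] at h'
    have e00 := congrFun (congrFun h' 0) 0
    have e10 := congrFun (congrFun h' 1) 0
    simp only [Matrix.of_apply, Matrix.cons_val', Matrix.cons_val_zero, Matrix.cons_val_one,
      Matrix.cons_val_fin_one] at e00 e10
    constructor
    · linear_combination e00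
    · linear_combination e10
  · rintro ⟨h1, h2⟩
    apply Subtype.ext
    rw [Matrix.SpecialLinearGroup.coe_mul, Matrix.SpecialLinearGroup.coe_mul, J0_val, J0_inv_val,
      entries, entries]
    apply mat_eq
    all_goals simp only [Matrix.of_apply, Matrix.cons_val', Matrix.cons_val_zero,
      Matrix.cons_val_one, Matrix.cons_val_fin_one]
    · linear_combination h1
    · linear_combination -h2
    · linear_combination h2
    · linear_combination h1

theorem shape_card (ε : F) (hε : ε * ε = 1) :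
    Nat.card {g : Matrix.SpecialLinearGroup (Fin 2) F //
      (g : Matrix (Fin 2) (Fin 2) F) 0 1 = -ε * g 1 0 ∧
      (g : Matrix (Fin 2) (Fin 2) F) 1 1 = ε * g 0 0} =
    Nat.card {p : F × F // p.1 ^ 2 + p.2 ^ 2 = ε} := by
  refine Nat.card_congr
    { toFun := fun g => ⟨((g.1 : Matrix (Fin 2) (Fin 2) F) 0 0,
        (g.1 : Matrix (Fin 2) (Fin 2) F) 1 0), ?_⟩
      invFun := fun p => ⟨⟨!![p.1.1, -ε * p.1.2; p.1.2, ε * p.1.1], ?_⟩, ?_⟩
      left_inv := ?_
      right_inv := ?_ }
  · have hdet : (g.1 : Matrix (Fin 2) (Fin 2) F) 0 0 * (g.1 : Matrix (Fin 2) (Fin 2) F) 1 1 -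
        (g.1 : Matrix (Fin 2) (Fin 2) F) 0 1 * (g.1 : Matrix (Fin 2) (Fin 2) F) 1 0 = 1 := by
      rw [← Matrix.det_fin_two]; exact g.1.2
    obtain ⟨h1, h2⟩ := g.2
    rw [h1, h2] at hdet
    show (g.1 : Matrix (Fin 2) (Fin 2) F) 0 0 ^ 2 + (g.1 : Matrix (Fin 2) (Fin 2) F) 1 0 ^ 2 = ε
    linear_combination ε * hdet - ((g.1 : Matrix (Fin 2) (Fin 2) F) 0 0 ^ 2 +
      (g.1 : Matrix (Fin 2) (Fin 2) F) 1 0 ^ 2) * hε
  · rw [Matrix.det_fin_two_of]
    have := p.2
    linear_combination ε * this + hε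
  · constructor <;> simp
  · intro g
    apply Subtype.ext
    apply Subtype.ext
    obtain ⟨h1, h2⟩ := g.2
    apply mat_eq
    · simp
    · simp [h1]
    · simp
    · simp [h2]
  · intro p
    apply Subtype.ext
    simp

theorem J0_order (h2 : (2 : F) ≠ 0) : orderOf (J0 F) = 4 := order_four h2 _ J0_sq

theorem mem_norm (h2 : (2 : F) ≠ 0) (g : Matrix.SpecialLinearGroup (Fin 2) F) :
    g ∈ Subgroup.normalizer (Subgroup.zpowers (J0 F) :
      Set (Matrix.SpecialLinearGroup (Fin 2) F)) ↔
      (g * J0 F = J0 F * g ∨ g * J0 F = (J0 F)⁻¹ * g) := by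
  constructor
  · intro hg
    have h1 := (Subgroup.mem_normalizer_iff.1 hg (J0 F)).1 (Subgroup.mem_zpowers _)
    obtain ⟨n, hn⟩ := Subgroup.mem_zpowers_iff.1 h1
    have hmod : J0 F ^ (n % 4) = J0 F ^ n := by
      have := zpow_mod_orderOf (J0 F) n
      rw [J0_order h2] at this
      exact this
    have hsq : ¬ (g * J0 F * g⁻¹) ^ 2 = 1 := by
      rw [conj_pow]
      intro h
      have h' : J0 F ^ 2 = 1 := by
        have : J0 F ^ 2 = g⁻¹ * (g * J0 F ^ 2 * g⁻¹) * g := by group
        rw [this, h]; group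
      have := orderOf_dvd_of_pow_eq_one h'
      rw [J0_order h2] at this
      omega
    have hb : 0 ≤ n % 4 ∧ n % 4 < 4 :=
      ⟨Int.emod_nonneg _ (by norm_num), Int.emod_lt_of_pos _ (by norm_num)⟩
    obtain ⟨k, hk⟩ : ∃ k : ℤ, k = n % 4 := ⟨_, rfl⟩
    rw [← hk] at hmod hb
    obtain ⟨hb1, hb2⟩ := hb
    rw [← hn, ← hmod] at hsq
    interval_cases k
    · exfalso; apply hsq; simp
    · left
      rw [zpow_one] at hmod
      have : g * J0 F * g⁻¹ = J0 F := by rw [← hn, ← hmod]
      rw [mul_inv_eq_iff_eq_mul] at this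
      exact this
    · exfalso; apply hsq
      have h4 : J0 F ^ 4 = 1 := by rw [← J0_order h2]; exact pow_orderOf_eq_one _
      have e : (J0 F ^ (2 : ℤ)) ^ 2 = J0 F ^ 4 := by
        rw [show (2 : ℤ) = ((2 : ℕ) : ℤ) from rfl, zpow_natCast, ← pow_mul]
      rw [e, h4]
    · right
      have h4 : J0 F ^ 4 = 1 := by rw [← J0_order h2]; exact pow_orderOf_eq_one _
      have h3 : J0 F ^ (3 : ℤ) = (J0 F)⁻¹ := by
        rw [eq_inv_iff_mul_eq_one]
        have : J0 F ^ (3 : ℤ) * J0 F = J0 F ^ 4 := by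
          rw [show (3 : ℤ) = ((3 : ℕ) : ℤ) from rfl, zpow_natCast, ← pow_succ]
        rw [this, h4]
      rw [h3] at hmod
      have : g * J0 F * g⁻¹ = (J0 F)⁻¹ := by rw [← hn, ← hmod]
      rw [mul_inv_eq_iff_eq_mul] at this
      exact this
  · intro h
    have hmap : (Subgroup.zpowers (J0 F)).map (MulAut.conj g).toMonoidHom =
        Subgroup.zpowers (J0 F) := by
      rw [MonoidHom.map_zpowers]
      rcases h with h | h
      · congr 1
        show g * J0 F * g⁻¹ = J0 F
        rw [mul_inv_eq_iff_eq_mul]; exact h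
      · rw [← Subgroup.zpowers_inv (g := J0 F)]
        congr 1
        show g * J0 F * g⁻¹ = (J0 F)⁻¹
        rw [mul_inv_eq_iff_eq_mul]; exact h
    rw [Subgroup.mem_normalizer_iff]
    intro x
    constructor
    · intro hx
      have : (MulAut.conj g).toMonoidHom x ∈
          (Subgroup.zpowers (J0 F)).map (MulAut.conj g).toMonoidHom :=
        Subgroup.mem_map_of_mem _ hx
      rw [hmap] at this
      exact this
    · intro hx
      rw [← hmap] at hx
      obtain ⟨y, hy, hyx⟩ := Subgroup.mem_map.1 hx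
      have : y = x := (MulAut.conj g).injective hyx
      rw [← this]; exact hy

theorem cnt_eq [Fintype F] (hodd : Fintype.card F % 2 = 1) (c : F) (hc : c ≠ 0) :
    Nat.card {p : F × F // p.1 ^ 2 + p.2 ^ 2 = c} =
      Nat.card {p : F × F // p.1 ^ 2 + p.2 ^ 2 = 1} := by
  obtain ⟨s, t, hst⟩ := sum_two_sq hodd c
  symm
  refine Nat.card_congr
    { toFun := fun p => ⟨(s * p.1.1 - t * p.1.2, t * p.1.1 + s * p.1.2), ?_⟩
      invFun := fun p => ⟨((s * p.1.1 + t * p.1.2) / c, (s * p.1.2 - t * p.1.1) / c), ?_⟩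
      left_inv := ?_
      right_inv := ?_ }
  · have := p.2
    show (s * p.1.1 - t * p.1.2) ^ 2 + (t * p.1.1 + s * p.1.2) ^ 2 = c
    linear_combination (s ^ 2 + t ^ 2) * this + hst
  · have := p.2
    show ((s * p.1.1 + t * p.1.2) / c) ^ 2 + ((s * p.1.2 - t * p.1.1) / c) ^ 2 = 1
    field_simp
    linear_combination (s ^ 2 + t ^ 2) * this + c * hst
  · intro p
    apply Subtype.ext
    apply Prod.ext
    · show (s * (s * p.1.1 - t * p.1.2) + t * (t * p.1.1 + s * p.1.2)) / c = p.1.1
      field_simp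
      linear_combination p.1.1 * hst
    · show (s * (t * p.1.1 + s * p.1.2) - t * (s * p.1.1 - t * p.1.2)) / c = p.1.2
      field_simp
      linear_combination p.1.2 * hst
  · intro p
    apply Subtype.ext
    apply Prod.ext
    · show s * ((s * p.1.1 + t * p.1.2) / c) - t * ((s * p.1.2 - t * p.1.1) / c) = p.1.1
      field_simp
      linear_combination p.1.1 * hst
    · show t * ((s * p.1.1 + t * p.1.2) / c) + s * ((s * p.1.2 - t * p.1.1) / c) = p.1.2
      field_simp
      linear_combination p.1.2 * hst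

theorem total [Fintype F] (hodd : Fintype.card F % 2 = 1) :
    Nat.card {p : F × F // p.1 ^ 2 + p.2 ^ 2 = 0} +
      (Fintype.card F - 1) * Nat.card {p : F × F // p.1 ^ 2 + p.2 ^ 2 = 1} =
      Fintype.card F ^ 2 := by
  classical
  have h1 : Nat.card (F × F) = ∑ c : F, Nat.card {p : F × F // p.1 ^ 2 + p.2 ^ 2 = c} := by
    rw [← Nat.card_congr (Equiv.sigmaFiberEquiv (fun p : F × F => p.1 ^ 2 + p.2 ^ 2)),
      Nat.card_sigma]
  rw [Nat.card_prod, Nat.card_eq_fintype_card, ← Finset.add_sum_erase _ _ (Finset.mem_univ (0 : F)),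
    Finset.sum_congr rfl (fun c hc => cnt_eq hodd c (Finset.ne_of_mem_erase hc)),
    Finset.sum_const, Finset.card_erase_of_mem (Finset.mem_univ _), Finset.card_univ,
    smul_eq_mul] at h1
  rw [← h1]; ring

theorem N0_nonsq (hns : ¬ IsSquare (-1 : F)) :
    Nat.card {p : F × F // p.1 ^ 2 + p.2 ^ 2 = 0} = 1 := by
  rw [Nat.card_eq_one_iff_exists]
  refine ⟨⟨(0, 0), by simp⟩, ?_⟩
  rintro ⟨⟨a, b⟩, hab⟩
  apply Subtype.ext
  have hab' : a ^ 2 + b ^ 2 = 0 := hab
  have hb : b = 0 := by
    by_contra hb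
    apply hns
    refine ⟨a / b, ?_⟩
    field_simp
    linear_combination -hab'
  subst hb
  have ha : a = 0 := by
    have : a ^ 2 = 0 := by linear_combination hab'
    exact pow_eq_zero_iff (by norm_num) |>.1 this
  subst ha
  rfl

theorem N0_sq [Fintype F] (h2 : (2 : F) ≠ 0) (i : F) (hi : -1 = i * i) :
    Nat.card {p : F × F // p.1 ^ 2 + p.2 ^ 2 = 0} = 2 * Fintype.card F - 1 := by
  classical
  have hi0 : i ≠ 0 := by
    rintro rfl
    simp at hi
  have e1 : {p : F × F // p.1 ^ 2 + p.2 ^ 2 = 0} ≃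
      {p : F × F // p.1 = i * p.2 ∨ (p.1 = -i * p.2 ∧ p.2 ≠ 0)} := by
    refine Equiv.subtypeEquivRight (fun p => ?_)
    constructor
    · intro h
      have hf : (p.1 - i * p.2) * (p.1 + i * p.2) = 0 := by
        linear_combination h + p.2 ^ 2 * hi
      rcases mul_eq_zero.1 hf with h' | h'
      · left; linear_combination h'
      · by_cases hp : p.2 = 0
        · left
          rw [hp] at h' ⊢
          linear_combination h'
        · right
          exact ⟨by linear_combination h', hp⟩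
    · rintro (h | ⟨h, -⟩)
      · rw [h]; linear_combination -p.2 ^ 2 * hi
      · rw [h]; linear_combination -p.2 ^ 2 * hi
  have hdisj : Disjoint (fun p : F × F => p.1 = i * p.2)
      (fun p : F × F => p.1 = -i * p.2 ∧ p.2 ≠ 0) := by
    intro r hr1 hr2 p hp
    have h1 : p.1 = i * p.2 := hr1 p hp
    obtain ⟨h3, h4⟩ : p.1 = -i * p.2 ∧ p.2 ≠ 0 := hr2 p hp
    apply h4
    have : 2 * i * p.2 = 0 := by linear_combination h3 - h1
    rcases mul_eq_zero.1 this with h | h
    · rcases mul_eq_zero.1 h with h | h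
      · exact absurd h h2
      · exact absurd h hi0
    · exact h
  have e2 : {p : F × F // p.1 = i * p.2} ≃ F :=
    { toFun := fun p => p.1.2
      invFun := fun b => ⟨(i * b, b), rfl⟩
      left_inv := by
        intro p
        apply Subtype.ext
        apply Prod.ext
        · exact p.2.symm
        · rfl
      right_inv := fun b => rfl }
  have e3 : {p : F × F // p.1 = -i * p.2 ∧ p.2 ≠ 0} ≃ {b : F // ¬ b = 0} :=
    { toFun := fun p => ⟨p.1.2, p.2.2⟩
      invFun := fun b => ⟨(-i * b.1, b.1), rfl, b.2⟩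
      left_inv := by
        intro p
        apply Subtype.ext
        apply Prod.ext
        · exact p.2.1.symm
        · rfl
      right_inv := fun b => rfl }
  rw [Nat.card_congr e1, Nat.card_congr (subtypeOrEquiv _ _ hdisj), Nat.card_sum,
    Nat.card_congr e2, Nat.card_congr e3, Nat.card_eq_fintype_card, Nat.card_eq_fintype_card,
    Fintype.card_subtype_compl, Fintype.card_subtype_eq]
  have := Fintype.card_pos (α := F)
  omega

theorem norm_J0 [Fintype F] (h2 : (2 : F) ≠ 0) (hodd : Fintype.card F % 2 = 1) :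
    Nat.card ↥(Subgroup.normalizer (Subgroup.zpowers (J0 F) :
      Set (Matrix.SpecialLinearGroup (Fin 2) F))) =
      2 * Nat.card {p : F × F // p.1 ^ 2 + p.2 ^ 2 = 1} := by
  classical
  have hdisj : Disjoint (fun g : Matrix.SpecialLinearGroup (Fin 2) F => g * J0 F = J0 F * g)
      (fun g : Matrix.SpecialLinearGroup (Fin 2) F => g * J0 F = (J0 F)⁻¹ * g) := by
    intro r hr1 hr2 g hg
    have h1 : g * J0 F = J0 F * g := hr1 g hg
    have h3 : g * J0 F = (J0 F)⁻¹ * g := hr2 g hg
    have h4 : J0 F = (J0 F)⁻¹ := mul_right_cancel (h1.symm.trans h3)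
    have h5 : J0 F ^ 2 = 1 := by
      rw [pow_two]
      nth_rewrite 1 [h4]
      exact inv_mul_cancel _
    have := orderOf_dvd_of_pow_eq_one h5
    rw [J0_order h2] at this
    omega
  have e1 : ↥(Subgroup.normalizer (Subgroup.zpowers (J0 F) :
      Set (Matrix.SpecialLinearGroup (Fin 2) F))) ≃
      {g : Matrix.SpecialLinearGroup (Fin 2) F //
        g * J0 F = J0 F * g ∨ g * J0 F = (J0 F)⁻¹ * g} :=
    Equiv.subtypeEquivRight (fun g => mem_norm h2 g)
  rw [Nat.card_congr e1, Nat.card_congr (subtypeOrEquiv _ _ hdisj), Nat.card_sum,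
    Nat.card_congr (Equiv.subtypeEquivRight (fun g => comm_iff g)),
    Nat.card_congr (Equiv.subtypeEquivRight (fun g => anti_iff g)),
    shape_card (1 : F) (by ring), shape_card (-1 : F) (by ring),
    cnt_eq hodd (-1) (by simp)]
  ring

theorem norm_card [Fintype F] (h2 : (2 : F) ≠ 0) (hodd : Fintype.card F % 2 = 1)
    (A : Subgroup (Matrix.SpecialLinearGroup (Fin 2) F)) (hA : Nat.card A = 4) :
    Nat.card ↥(Subgroup.normalizer (A : Set (Matrix.SpecialLinearGroup (Fin 2) F))) =
      2 * Nat.card {p : F × F // p.1 ^ 2 + p.2 ^ 2 = 1} := by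
  obtain ⟨x, hx, rfl⟩ := exists_gen h2 A hA
  obtain ⟨P, hP⟩ := conj_J0 hodd h2 x hx
  have : Subgroup.zpowers x =
      (Subgroup.zpowers (J0 F)).map (MulAut.conj P).toMonoidHom := by
    rw [MonoidHom.map_zpowers]
    congr 1
    rw [← hP]
    rfl
  rw [this, ← Subgroup.map_equiv_normalizer_eq,
    Subgroup.card_map_of_injective (MulAut.conj P).injective, norm_J0 h2 hodd]

/-- In SL_2(q), q odd: any two subgroups of order 4 are conjugate, and the normaliser of a subgroup of order 4 has order 2(q − 1) if q ≡ 1 (mod 4) and 2(q + 1) if q ≡ 3 (mod 4); consequently all involutions of PSL_2(q) are conjugate. -/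
theorem result {F : Type*} [Field F] [Fintype F] {q : ℕ} (hF : Fintype.card F = q) (hodd : Odd q) (A : Subgroup (Matrix.SpecialLinearGroup (Fin 2) F)) (hA : Nat.card A = 4) : (∀ B : Subgroup (Matrix.SpecialLinearGroup (Fin 2) F), Nat.card B = 4 → ∃ g : Matrix.SpecialLinearGroup (Fin 2) F, B = A.map (MulAut.conj g).toMonoidHom) ∧ (q % 4 = 1 → Nat.card ↥(Subgroup.normalizer (A : Set (Matrix.SpecialLinearGroup (Fin 2) F))) = 2 * (q - 1)) ∧ (q % 4 = 3 → Nat.card ↥(Subgroup.normalizer (A : Set (Matrix.SpecialLinearGroup (Fin 2) F))) = 2 * (q + 1)) ∧ (∀ x y : Matrix.ProjectiveSpecialLinearGroup (Fin 2) F, orderOf x = 2 → orderOf y = 2 → IsConj x y) := by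
  classical
  have hodd' : Fintype.card F % 2 = 1 := by rw [hF]; exact Nat.odd_iff.1 hodd
  have h2 : (2 : F) ≠ 0 := by
    intro h
    have hchar : ringChar F = 2 := by
      have : ringChar F ∣ 2 := by
        apply (ringChar.spec F 2).1
        exact_mod_cast h
      rcases (Nat.dvd_prime Nat.prime_two).1 this with h1 | h1
      · exfalso
        have := CharP.ringChar_ne_one (R := F)
        exact this h1
      · exact h1
    have := FiniteField.even_card_of_char_two hchar
    omega
  have hq1 : 1 < q := by rw [← hF]; exact Fintype.one_lt_card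
  have htot := total (F := F) hodd'
  rw [hF] at htot
  refine ⟨fun B hB => part1 hodd' h2 A B hA hB, ?_, ?_, fun x y hx hy => part4 hodd' h2 x y hx hy⟩
  · intro hq4
    rw [norm_card h2 hodd' A hA]
    have hsq : IsSquare (-1 : F) := by
      rw [FiniteField.isSquare_neg_one_iff, hF]; omega
    obtain ⟨i, hi⟩ := hsq
    have h0 := N0_sq h2 i hi
    rw [hF] at h0
    rw [h0] at htot
    congr 1
    have h3 : (q - 1) * Nat.card {p : F × F // p.1 ^ 2 + p.2 ^ 2 = 1} = (q - 1) * (q - 1) := by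
      obtain ⟨k, rfl⟩ : ∃ k, q = k + 2 := ⟨q - 2, by omega⟩
      have e : (k + 2) ^ 2 = (2 * (k + 2) - 1) + (k + 2 - 1) * (k + 2 - 1) := by
        have : k + 2 - 1 = k + 1 := by omega
        rw [this]
        have : 2 * (k + 2) - 1 = 2 * k + 3 := by omega
        rw [this]; ring
      omega
    exact Nat.eq_of_mul_eq_mul_left (by omega) h3
  · intro hq4
    rw [norm_card h2 hodd' A hA]
    have hns : ¬ IsSquare (-1 : F) := by
      rw [FiniteField.isSquare_neg_one_iff, hF]; omega
    have h0 := N0_nonsq hns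
    rw [h0] at htot
    congr 1
    have h3 : (q - 1) * Nat.card {p : F × F // p.1 ^ 2 + p.2 ^ 2 = 1} = (q - 1) * (q + 1) := by
      obtain ⟨k, rfl⟩ : ∃ k, q = k + 2 := ⟨q - 2, by omega⟩
      have e : (k + 2) ^ 2 = 1 + (k + 2 - 1) * (k + 2 + 1) := by
        have : k + 2 - 1 = k + 1 := by omega
        rw [this]; ring
      omega
    exact Nat.eq_of_mul_eq_mul_left (by omega) h3

end Cfsg.Agent.S0809
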