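import Mathlib
import Cfsg.Statements.S0807
import Cfsg.Agent.S0809

set_option autoImplicit false
open Cfsg

namespace Cfsg.Agent.S0807

section abs

variable {G : Type*} [Group G]

/-- The four-group generated by two distinct commuting involutions. -/
def VV (s t : G) (hs : s * s = 1) (ht : t * t = 1) (hst : s * t = t * s) : Subgroup G where
  carrier := {x | x = 1 ∨ x = s ∨ x = t ∨ x = s * t}
  one_mem' := Or.inl rfl
  mul_mem' := by
    have e1 : s * (s * t) = t := by rw [← mul_assoc, hs, one_mul]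
    have e2 : t * (s * t) = s := by rw [hst, ← mul_assoc, ht, one_mul]
    have e3 : s * t * s = t := by rw [hst, mul_assoc, hs, mul_one]
    have e4 : s * t * t = s := by rw [mul_assoc, ht, mul_one]
    have e5 : s * t * (s * t) = 1 := by rw [mul_assoc, e2, hs]
    rintro a b (rfl | rfl | rfl | rfl) (rfl | rfl | rfl | rfl)
    · simp
    · simp
    · simp
    · simp
    · simp
    · simp [hs]
    · simp
    · simp [e1]
    · simp
    · simp [← hst]
    · simp [ht]
    · simp [e2]
    · simp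
    · simp [e3]
    · simp [e4]
    · simp [e5]
  inv_mem' := by
    have i1 : s⁻¹ = s := inv_eq_of_mul_eq_one_left hs
    have i2 : t⁻¹ = t := inv_eq_of_mul_eq_one_left ht
    rintro a (rfl | rfl | rfl | rfl)
    · simp
    · simp [i1]
    · simp [i2]
    · right; right; right
      rw [mul_inv_rev, i1, i2, hst]

theorem mem_VV (s t : G) (hs : s * s = 1) (ht : t * t = 1) (hst : s * t = t * s) (x : G) :
    x ∈ VV s t hs ht hst ↔ x = 1 ∨ x = s ∨ x = t ∨ x = s * t := Iff.rfl

theorem sq_of_order_two (x : G) (hx : orderOf x = 2) : x * x = 1 := by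
  rw [← pow_two, ← hx]; exact pow_orderOf_eq_one x

theorem ne_one_of_order_two (x : G) (hx : orderOf x = 2) : x ≠ 1 := by
  rintro rfl
  rw [orderOf_one] at hx
  omega

theorem order_two_of (x : G) (hx : x * x = 1) (hx1 : x ≠ 1) : orderOf x = 2 := by
  apply orderOf_eq_prime
  · rw [pow_two]; exact hx
  · exact hx1

theorem VV_card (s t : G) (hs : s * s = 1) (ht : t * t = 1) (hst : s * t = t * s)
    (hs1 : s ≠ 1) (ht1 : t ≠ 1) (hne : s ≠ t) : Nat.card (VV s t hs ht hst) = 4 := by
  classical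
  have hst1 : s * t ≠ 1 := by
    intro h
    apply hne
    have : s = t⁻¹ := eq_inv_of_mul_eq_one_left h
    rw [this]; exact inv_eq_of_mul_eq_one_left ht
  have hsts : s * t ≠ s := by
    intro h; apply ht1; exact mul_left_cancel (a := s) (by rw [h, mul_one])
  have hstt : s * t ≠ t := by
    intro h; apply hs1; exact mul_right_cancel (b := t) (by rw [h, one_mul])
  have h0 : ((VV s t hs ht hst : Subgroup G) : Set G) = (({1, s, t, s * t} : Finset G) : Set G) := by
    ext x; simp [mem_VV]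
  rw [← SetLike.coe_sort_coe, Nat.card_coe_set_eq, h0, Set.ncard_coe_finset]
  rw [Finset.card_insert_of_notMem (by
      simp only [Finset.mem_insert, Finset.mem_singleton, not_or]
      exact ⟨Ne.symm hs1, Ne.symm ht1, Ne.symm hst1⟩),
    Finset.card_insert_of_notMem (by
      simp only [Finset.mem_insert, Finset.mem_singleton, not_or]
      exact ⟨hne, Ne.symm hsts⟩),
    Finset.card_pair (Ne.symm hstt)]

theorem VV_klein (s t : G) (hs : s * s = 1) (ht : t * t = 1) (hst : s * t = t * s)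
    (hs1 : s ≠ 1) (ht1 : t ≠ 1) (hne : s ≠ t) : IsKleinFour (VV s t hs ht hst) := by
  refine ⟨VV_card s t hs ht hst hs1 ht1 hne, ?_⟩
  have : Nontrivial (VV s t hs ht hst) :=
    ⟨⟨⟨s, Or.inr (Or.inl rfl)⟩, 1, fun h => hs1 (congrArg Subtype.val h)⟩⟩
  rw [Monoid.exponent_eq_prime_iff Nat.prime_two]
  rintro ⟨x, hx⟩ hx1
  apply order_two_of _ _ hx1
  apply Subtype.ext
  have e2 : t * (s * t) = s := by rw [hst, ← mul_assoc, ht, one_mul]
  rcases hx with rfl | rfl | rfl | rfl
  · simp
  · exact hs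
  · exact ht
  · show s * t * (s * t) = 1
    rw [mul_assoc, e2, hs]

theorem card_fib {A B : Type*} [Finite A] [Finite B] (f : A → B) (c : ℕ)
    (h : ∀ b : B, Nat.card {a : A // f a = b} = c) : Nat.card A = Nat.card B * c := by
  classical
  have := Fintype.ofFinite B
  rw [← Nat.card_congr (Equiv.sigmaFiberEquiv f), Nat.card_sigma]
  simp [h, Nat.card_eq_fintype_card]

/-- Ordered pairs of distinct commuting involutions. -/
def PP (G : Type*) [Group G] : Type _ :=
  {p : G × G // orderOf p.1 = 2 ∧ orderOf p.2 = 2 ∧ p.1 ≠ p.2 ∧ p.1 * p.2 = p.2 * p.1}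

instance [Finite G] : Finite (PP G) := by unfold PP; infer_instance

theorem cnt1 [Finite G] (t₀ : G)
    (H1 : ∀ s : G, orderOf s = 2 → ∃ g : G, g * t₀ * g⁻¹ = s) :
    Nat.card (PP G) = Nat.card {t : G // orderOf t = 2} *
      Nat.card {s : G // orderOf s = 2 ∧ s ≠ t₀ ∧ s * t₀ = t₀ * s} := by
  apply card_fib (fun p : PP G => (⟨p.1.2, p.2.2.1⟩ : {t : G // orderOf t = 2}))
  rintro ⟨t, ht⟩
  obtain ⟨g, hg⟩ := H1 t ht
  have hφ : ∀ x : G, orderOf (g⁻¹ * x * g) = orderOf x := by
    intro x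
    have := (MulAut.conj g⁻¹).orderOf_eq x
    rw [MulAut.conj_apply, inv_inv] at this
    exact this
  have ht0 : g⁻¹ * t * g = t₀ := by rw [← hg]; group
  apply Nat.card_eq_of_bijective
    (fun p : {a : PP G // (⟨a.1.2, a.2.2.1⟩ : {t : G // orderOf t = 2}) = ⟨t, ht⟩} =>
      (⟨g⁻¹ * p.1.1.1 * g, by
        obtain ⟨⟨⟨a, b⟩, h1, h2, h3, h4⟩, h5⟩ := p
        have hb : b = t := congrArg Subtype.val h5
        subst hb
        refine ⟨by rw [hφ]; exact h1, ?_, ?_⟩
        · intro h
          apply h3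
          show a = b
          have : g⁻¹ * a * g = g⁻¹ * b * g := by rw [h, ht0]
          exact mul_left_cancel (mul_right_cancel this)
        · show g⁻¹ * a * g * t₀ = t₀ * (g⁻¹ * a * g)
          rw [← ht0]
          have h4' : a * b = b * a := h4
          calc g⁻¹ * a * g * (g⁻¹ * b * g) = g⁻¹ * (a * b) * g := by group
            _ = g⁻¹ * (b * a) * g := by rw [h4']
            _ = g⁻¹ * b * g * (g⁻¹ * a * g) := by group⟩ :
        {s : G // orderOf s = 2 ∧ s ≠ t₀ ∧ s * t₀ = t₀ * s}))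
  constructor
  · rintro ⟨⟨⟨a, b⟩, h1, h2, h3, h4⟩, h5⟩ ⟨⟨⟨a', b'⟩, h1', h2', h3', h4'⟩, h5'⟩ h
    have hb : b = t := congrArg Subtype.val h5
    have hb' : b' = t := congrArg Subtype.val h5'
    have ha : g⁻¹ * a * g = g⁻¹ * a' * g := congrArg Subtype.val h
    have ha' : a = a' := mul_left_cancel (mul_right_cancel ha)
    subst hb hb' ha'
    rfl
  · rintro ⟨s, hs1, hs2, hs3⟩
    have e1 : orderOf (g * s * g⁻¹) = 2 := by
      have := (MulAut.conj g).orderOf_eq s
      rw [MulAut.conj_apply] at this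
      rw [this]; exact hs1
    have e2 : g * s * g⁻¹ ≠ t := by
      intro h
      apply hs2
      rw [← ht0, ← h]; group
    have e3 : g * s * g⁻¹ * t = t * (g * s * g⁻¹) := by
      rw [← hg]
      calc g * s * g⁻¹ * (g * t₀ * g⁻¹) = g * (s * t₀) * g⁻¹ := by group
        _ = g * (t₀ * s) * g⁻¹ := by rw [hs3]
        _ = g * t₀ * g⁻¹ * (g * s * g⁻¹) := by group
    refine ⟨⟨⟨(g * s * g⁻¹, t), e1, ht, e2, e3⟩, rfl⟩, ?_⟩
    apply Subtype.ext
    show g⁻¹ * (g * s * g⁻¹) * g = s
    group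

theorem cnt2 [Finite G] (t₀ : G) (ht₀ : orderOf t₀ = 2)
    (H1 : ∀ s : G, orderOf s = 2 → ∃ g : G, g * t₀ * g⁻¹ = s) :
    Nat.card G = Nat.card {t : G // orderOf t = 2} *
      Nat.card (Subgroup.centralizer {t₀} : Subgroup G) := by
  have hφ : ∀ g : G, orderOf (g * t₀ * g⁻¹) = 2 := by
    intro g
    have := (MulAut.conj g).orderOf_eq t₀
    rw [MulAut.conj_apply] at this
    rw [this]; exact ht₀
  apply card_fib (fun g : G => (⟨g * t₀ * g⁻¹, hφ g⟩ : {t : G // orderOf t = 2}))
  rintro ⟨t, ht⟩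
  obtain ⟨g, hg⟩ := H1 t ht
  apply Nat.card_eq_of_bijective
    (fun p : {a : G // (⟨a * t₀ * a⁻¹, hφ a⟩ : {t : G // orderOf t = 2}) = ⟨t, ht⟩} =>
      (⟨g⁻¹ * p.1, by
        obtain ⟨a, ha⟩ := p
        have ha' : a * t₀ * a⁻¹ = t := congrArg Subtype.val ha
        rw [Subgroup.mem_centralizer_iff]
        intro h hh
        rw [Set.mem_singleton_iff] at hh
        subst hh
        show h * (g⁻¹ * a) = g⁻¹ * a * h
        have e : g * h * g⁻¹ = a * h * a⁻¹ := by rw [hg, ha']
        calc h * (g⁻¹ * a) = g⁻¹ * (g * h * g⁻¹) * a := by group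
          _ = g⁻¹ * (a * h * a⁻¹) * a := by rw [e]
          _ = g⁻¹ * a * h := by group⟩ : (Subgroup.centralizer {t₀} : Subgroup G)))
  constructor
  · rintro ⟨a, ha⟩ ⟨a', ha'⟩ h
    have : g⁻¹ * a = g⁻¹ * a' := congrArg Subtype.val h
    have : a = a' := mul_left_cancel this
    subst this
    rfl
  · rintro ⟨c, hc⟩
    rw [Subgroup.mem_centralizer_iff] at hc
    have hc' := hc t₀ rfl
    refine ⟨⟨g * c, ?_⟩, ?_⟩
    · apply Subtype.ext
      show g * c * t₀ * (g * c)⁻¹ = t
      rw [← hg]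
      calc g * c * t₀ * (g * c)⁻¹ = g * (c * t₀) * c⁻¹ * g⁻¹ := by group
        _ = g * (t₀ * c) * c⁻¹ * g⁻¹ := by rw [hc']
        _ = g * t₀ * g⁻¹ := by group
    · apply Subtype.ext
      show g⁻¹ * (g * c) = c
      group

theorem klein_sq (V : Subgroup G) (hV : IsKleinFour V) (x : G) (hx : x ∈ V) : x * x = 1 := by
  have := hV
  exact congrArg Subtype.val (IsKleinFour.mul_self (⟨x, hx⟩ : V))

theorem klein_comm (V : Subgroup G) (hV : IsKleinFour V) (x y : G) (hx : x ∈ V) (hy : y ∈ V) :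
    x * y = y * x :=
  congrArg Subtype.val (mul_comm_of_exponent_two hV.exponent_two (⟨x, hx⟩ : V) ⟨y, hy⟩)

/-- The four-group spanned by a pair. -/
def f3 (p : PP G) : {V : Subgroup G // IsKleinFour V} :=
  ⟨VV p.1.1 p.1.2 (sq_of_order_two _ p.2.1) (sq_of_order_two _ p.2.2.1) p.2.2.2.2,
   VV_klein _ _ _ _ _ (ne_one_of_order_two _ p.2.1) (ne_one_of_order_two _ p.2.2.1) p.2.2.2.1⟩

theorem cnt3 [Finite G] : Nat.card (PP G) = Nat.card {V : Subgroup G // IsKleinFour V} * 6 := by
  classical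
  apply card_fib (f3 (G := G))
  rintro ⟨V, hV⟩
  have := Fintype.ofFinite G
  obtain ⟨S, hS⟩ : ∃ S : Finset G, S = (Finset.univ.filter (fun x => x ∈ V)).erase 1 := ⟨_, rfl⟩
  have hScard : S.card = 3 := by
    rw [hS, Finset.card_erase_of_mem (by simp [V.one_mem])]
    have : (Finset.univ.filter (fun x => x ∈ V)).card = 4 := by
      rw [← Fintype.card_subtype, ← Nat.card_eq_fintype_card]
      exact hV.card_four
    rw [this]
  have hmem : ∀ x, x ∈ S ↔ x ∈ V ∧ x ≠ 1 := by
    intro x; rw [hS]; simp [and_comm]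
  have h6 : Nat.card {x : G × G // x ∈ S.offDiag} = 6 := by
    rw [Nat.card_eq_fintype_card, Fintype.card_coe, Finset.offDiag_card, hScard]
  rw [← h6]
  apply Nat.card_eq_of_bijective
    (fun p : {a : PP G // f3 a = ⟨V, hV⟩} =>
      (⟨p.1.1, by
        obtain ⟨⟨⟨a, b⟩, h1, h2, h3, h4⟩, h5⟩ := p
        have hV' : (f3 ⟨(a, b), h1, h2, h3, h4⟩).1 = V := congrArg Subtype.val h5
        rw [Finset.mem_offDiag, hmem, hmem]
        refine ⟨⟨?_, ne_one_of_order_two _ h1⟩, ⟨?_, ne_one_of_order_two _ h2⟩, h3⟩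
        · exact (le_of_eq hV') (Or.inr (Or.inl rfl))
        · exact (le_of_eq hV') (Or.inr (Or.inr (Or.inl rfl)))⟩ : {x : G × G // x ∈ S.offDiag}))
  constructor
  · rintro ⟨⟨⟨a, b⟩, h1, h2, h3, h4⟩, h5⟩ ⟨⟨⟨a', b'⟩, h1', h2', h3', h4'⟩, h5'⟩ h
    have hh : (a, b) = (a', b') := congrArg Subtype.val h
    obtain ⟨rfl, rfl⟩ := Prod.mk.inj hh
    rfl
  · rintro ⟨⟨a, b⟩, hab⟩
    rw [Finset.mem_offDiag, hmem, hmem] at hab
    obtain ⟨⟨ha, ha1⟩, ⟨hb, hb1⟩, hne⟩ := hab
    have oa := order_two_of a (klein_sq V hV a ha) ha1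
    have ob := order_two_of b (klein_sq V hV b hb) hb1
    refine ⟨⟨⟨(a, b), oa, ob, hne, klein_comm V hV a b ha hb⟩, ?_⟩, rfl⟩
    apply Subtype.ext
    show VV a b (klein_sq V hV a ha) (klein_sq V hV b hb) (klein_comm V hV a b ha hb) = V
    apply Subgroup.eq_of_le_of_card_ge
    · intro x hx
      rcases hx with rfl | rfl | rfl | rfl
      · exact V.one_mem
      · exact ha
      · exact hb
      · exact V.mul_mem ha hb
    · rw [VV_card _ _ _ _ _ ha1 hb1 hne, hV.card_four]

theorem KF [Finite G] (t₀ : G) (ht₀ : orderOf t₀ = 2)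
    (H1 : ∀ s : G, orderOf s = 2 → ∃ g : G, g * t₀ * g⁻¹ = s)
    (H2 : 2 * Nat.card {s : G // orderOf s = 2 ∧ s ≠ t₀ ∧ s * t₀ = t₀ * s} =
      Nat.card (Subgroup.centralizer {t₀} : Subgroup G)) :
    12 * Nat.card {V : Subgroup G // IsKleinFour V} = Nat.card G := by
  have h1 := cnt1 t₀ H1
  have h2 := cnt2 t₀ ht₀ H1
  have h3 := cnt3 (G := G)
  rw [h2, ← H2]
  calc 12 * Nat.card {V : Subgroup G // IsKleinFour V}
      = 2 * (Nat.card {V : Subgroup G // IsKleinFour V} * 6) := by ring
    _ = 2 * (Nat.card {t : G // orderOf t = 2} *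
          Nat.card {s : G // orderOf s = 2 ∧ s ≠ t₀ ∧ s * t₀ = t₀ * s}) := by rw [← h3, h1]
    _ = _ := by ring

end abs

section psl

open Matrix

variable {F : Type*} [Field F]

theorem mk_eq_iff (a b : Matrix.SpecialLinearGroup (Fin 2) F) :
    (QuotientGroup.mk a : Matrix.ProjectiveSpecialLinearGroup (Fin 2) F) = QuotientGroup.mk b ↔
      ((b : Matrix (Fin 2) (Fin 2) F) = a ∨
        (b : Matrix (Fin 2) (Fin 2) F) = -(a : Matrix (Fin 2) (Fin 2) F)) := by
  rw [QuotientGroup.eq, Matrix.SpecialLinearGroup.mem_center_iff]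
  constructor
  · rintro ⟨r, hr, hrg⟩
    rw [Fintype.card_fin] at hr
    have hr' : r = 1 ∨ r = -1 := by
      have : (r - 1) * (r + 1) = 0 := by linear_combination hr
      rcases mul_eq_zero.1 this with h | h
      · left; linear_combination h
      · right; linear_combination h
    have hb : (b : Matrix (Fin 2) (Fin 2) F) = (a : Matrix (Fin 2) (Fin 2) F) *
        ((a⁻¹ * b : Matrix.SpecialLinearGroup (Fin 2) F) : Matrix (Fin 2) (Fin 2) F) := by
      rw [← Matrix.SpecialLinearGroup.coe_mul, mul_inv_cancel_left]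
    rw [← hrg] at hb
    rcases hr' with rfl | rfl
    · left; rw [hb]; simp
    · right; rw [hb, S0809.scalar_neg_one]; simp
  · rintro (h | h)
    · refine ⟨1, by simp, ?_⟩
      have : b = a := Subtype.ext h
      rw [this]; simp
    · refine ⟨-1, by simp, ?_⟩
      rw [S0809.scalar_neg_one, Matrix.SpecialLinearGroup.coe_mul, h, mul_neg,
        ← Matrix.SpecialLinearGroup.coe_mul, inv_mul_cancel]
      simp

theorem J0_inv_neg : (((S0809.J0 F)⁻¹ : Matrix.SpecialLinearGroup (Fin 2) F) :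
    Matrix (Fin 2) (Fin 2) F) = -(S0809.J0 F : Matrix (Fin 2) (Fin 2) F) := by
  rw [S0809.J0_inv_val, S0809.J0_val]
  apply S0809.mat_eq <;> simp

/-- Classes of elements commuting with `J0`. -/
def KK (c : Matrix.ProjectiveSpecialLinearGroup (Fin 2) F) : Prop :=
  ∃ g : Matrix.SpecialLinearGroup (Fin 2) F, (QuotientGroup.mk g :
    Matrix.ProjectiveSpecialLinearGroup (Fin 2) F) = c ∧ g * S0809.J0 F = S0809.J0 F * g

/-- Classes of elements inverting `J0`. -/
def AA (c : Matrix.ProjectiveSpecialLinearGroup (Fin 2) F) : Prop :=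
  ∃ g : Matrix.SpecialLinearGroup (Fin 2) F, (QuotientGroup.mk g :
    Matrix.ProjectiveSpecialLinearGroup (Fin 2) F) = c ∧ g * S0809.J0 F = (S0809.J0 F)⁻¹ * g

theorem cent_iff (c : Matrix.ProjectiveSpecialLinearGroup (Fin 2) F) :
    c ∈ Subgroup.centralizer {(QuotientGroup.mk (S0809.J0 F) :
      Matrix.ProjectiveSpecialLinearGroup (Fin 2) F)} ↔ KK c ∨ AA c := by
  rw [Subgroup.mem_centralizer_iff]
  constructor
  · intro hc
    obtain ⟨g, rfl⟩ := QuotientGroup.mk_surjective c
    have h := hc _ rfl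
    rw [← QuotientGroup.mk_mul, ← QuotientGroup.mk_mul, mk_eq_iff] at h
    rcases h with h | h
    · left; exact ⟨g, rfl, Subtype.ext h⟩
    · right
      refine ⟨g, rfl, Subtype.ext ?_⟩
      rw [h, Matrix.SpecialLinearGroup.coe_mul, Matrix.SpecialLinearGroup.coe_mul, J0_inv_neg,
        neg_mul]
  · rintro (⟨g, rfl, hg⟩ | ⟨g, rfl, hg⟩) h hh
    · rw [Set.mem_singleton_iff] at hh
      subst hh
      rw [← QuotientGroup.mk_mul, ← QuotientGroup.mk_mul, hg]
    · rw [Set.mem_singleton_iff] at hh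
      subst hh
      rw [← QuotientGroup.mk_mul, ← QuotientGroup.mk_mul, hg, mk_eq_iff]
      right
      rw [Matrix.SpecialLinearGroup.coe_mul, Matrix.SpecialLinearGroup.coe_mul, J0_inv_neg,
        neg_mul]

theorem KA_disj (h2 : (2 : F) ≠ 0) (c : Matrix.ProjectiveSpecialLinearGroup (Fin 2) F)
    (hK : KK c) (hA : AA c) : False := by
  obtain ⟨g, rfl, hg⟩ := hK
  obtain ⟨h, hh, hanti⟩ := hA
  rw [S0809.comm_iff] at hg
  rw [S0809.anti_iff] at hanti
  have hdet : (g : Matrix (Fin 2) (Fin 2) F) 0 0 * (g : Matrix (Fin 2) (Fin 2) F) 1 1 -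
      (g : Matrix (Fin 2) (Fin 2) F) 0 1 * (g : Matrix (Fin 2) (Fin 2) F) 1 0 = 1 := by
    rw [← Matrix.det_fin_two]; exact g.2
  obtain ⟨g1, g2⟩ := hg
  obtain ⟨a1, a2⟩ := hanti
  have key : (g : Matrix (Fin 2) (Fin 2) F) 0 1 = (g : Matrix (Fin 2) (Fin 2) F) 1 0 ∧
      (g : Matrix (Fin 2) (Fin 2) F) 1 1 = -(g : Matrix (Fin 2) (Fin 2) F) 0 0 := by
    rcases (mk_eq_iff h g).1 hh with e | e
    · rw [← e] at a1 a2
      constructor
      · linear_combination a1
      · linear_combination a2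
    · have e' : (h : Matrix (Fin 2) (Fin 2) F) = -(g : Matrix (Fin 2) (Fin 2) F) := by
        rw [e]; simp
      rw [e'] at a1 a2
      simp only [Matrix.neg_apply] at a1 a2
      constructor
      · linear_combination -a1
      · linear_combination -a2
  obtain ⟨k1, k2⟩ := key
  have z1 : (g : Matrix (Fin 2) (Fin 2) F) 1 0 = 0 := by
    have : (2 : F) * (g : Matrix (Fin 2) (Fin 2) F) 1 0 = 0 := by linear_combination g1 - k1
    rcases mul_eq_zero.1 this with h | h
    · exact absurd h h2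
    · exact h
  have z2 : (g : Matrix (Fin 2) (Fin 2) F) 0 0 = 0 := by
    have : (2 : F) * (g : Matrix (Fin 2) (Fin 2) F) 0 0 = 0 := by linear_combination k2 - g2
    rcases mul_eq_zero.1 this with h | h
    · exact absurd h h2
    · exact h
  rw [z1, z2] at hdet
  simp at hdet

theorem t0_order (h2 : (2 : F) ≠ 0) : orderOf (QuotientGroup.mk (S0809.J0 F) :
    Matrix.ProjectiveSpecialLinearGroup (Fin 2) F) = 2 := by
  apply order_two_of
  · rw [← QuotientGroup.mk_mul, ← QuotientGroup.mk_one, eq_comm, mk_eq_iff]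
    right
    rw [Matrix.SpecialLinearGroup.coe_mul, S0809.J0_sq]
    simp
  · intro h
    rw [← QuotientGroup.mk_one, eq_comm, mk_eq_iff] at h
    have e : (S0809.J0 F : Matrix (Fin 2) (Fin 2) F) 0 0 = 0 := by
      rw [S0809.J0_val]; simp
    rcases h with h | h
    · rw [h] at e
      simp at e
    · rw [h] at e
      simp at e

theorem KK_t0 : KK (QuotientGroup.mk (S0809.J0 F) :
    Matrix.ProjectiveSpecialLinearGroup (Fin 2) F) := ⟨S0809.J0 F, rfl, rfl⟩

theorem KK_one : KK (1 : Matrix.ProjectiveSpecialLinearGroup (Fin 2) F) :=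
  ⟨1, rfl, by rw [one_mul, mul_one]⟩

theorem S_iff (h2 : (2 : F) ≠ 0) (c : Matrix.ProjectiveSpecialLinearGroup (Fin 2) F) :
    (orderOf c = 2 ∧ c ≠ (QuotientGroup.mk (S0809.J0 F) :
      Matrix.ProjectiveSpecialLinearGroup (Fin 2) F) ∧
      c * (QuotientGroup.mk (S0809.J0 F) : Matrix.ProjectiveSpecialLinearGroup (Fin 2) F) =
        (QuotientGroup.mk (S0809.J0 F) : Matrix.ProjectiveSpecialLinearGroup (Fin 2) F) * c) ↔
      AA c := by
  constructor
  · rintro ⟨ho, hne, hcomm⟩
    have hc : c ∈ Subgroup.centralizer {(QuotientGroup.mk (S0809.J0 F) :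
        Matrix.ProjectiveSpecialLinearGroup (Fin 2) F)} := by
      rw [Subgroup.mem_centralizer_iff]
      intro h hh
      rw [Set.mem_singleton_iff] at hh
      subst hh
      exact hcomm.symm
    rcases (cent_iff c).1 hc with hK | hA
    · exfalso
      obtain ⟨g, rfl, hg⟩ := hK
      have hsq := sq_of_order_two _ ho
      have hn1 := ne_one_of_order_two _ ho
      rw [← QuotientGroup.mk_mul, ← QuotientGroup.mk_one, eq_comm, mk_eq_iff,
        Matrix.SpecialLinearGroup.coe_mul] at hsq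
      rw [S0809.comm_iff] at hg
      obtain ⟨g1, g2⟩ := hg
      have hdet : (g : Matrix (Fin 2) (Fin 2) F) 0 0 * (g : Matrix (Fin 2) (Fin 2) F) 1 1 -
          (g : Matrix (Fin 2) (Fin 2) F) 0 1 * (g : Matrix (Fin 2) (Fin 2) F) 1 0 = 1 := by
        rw [← Matrix.det_fin_two]; exact g.2
      rcases hsq with hsq | hsq
      · apply hn1
        rw [← QuotientGroup.mk_one, eq_comm, mk_eq_iff]
        rcases S0809.sq_one h2 g (by rw [hsq]; simp) with h | h
        · left; rw [h]; simp
        · right; rw [h]; simp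
      · apply hne
        rw [eq_comm, mk_eq_iff]
        rw [S0809.entries] at hsq
        have e00 := congrFun (congrFun hsq 0) 0
        have e01 := congrFun (congrFun hsq 0) 1
        simp only [Matrix.of_apply, Matrix.cons_val', Matrix.cons_val_zero, Matrix.cons_val_one,
          Matrix.cons_val_fin_one, Matrix.neg_apply, Matrix.SpecialLinearGroup.coe_one,
          Matrix.one_apply_eq, Matrix.one_apply_ne, ne_eq, zero_ne_one, not_false_eq_true,
          neg_zero] at e00 e01
        have hz : (g : Matrix (Fin 2) (Fin 2) F) 0 0 = 0 ∨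
            (g : Matrix (Fin 2) (Fin 2) F) 1 0 = 0 := by
          have : (2 : F) * ((g : Matrix (Fin 2) (Fin 2) F) 0 0 *
              (g : Matrix (Fin 2) (Fin 2) F) 1 0) = 0 := by
            linear_combination -e01 + ((g : Matrix (Fin 2) (Fin 2) F) 0 0 +
              (g : Matrix (Fin 2) (Fin 2) F) 1 1) * g1 -
              (g : Matrix (Fin 2) (Fin 2) F) 1 0 * g2
          rcases mul_eq_zero.1 this with h | h
          · exact absurd h h2
          · exact mul_eq_zero.1 h
        rcases hz with hz | hz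
        · have hb : ((g : Matrix (Fin 2) (Fin 2) F) 1 0 - 1) *
              ((g : Matrix (Fin 2) (Fin 2) F) 1 0 + 1) = 0 := by
            rw [hz] at g2 hdet
            linear_combination hdet + (g : Matrix (Fin 2) (Fin 2) F) 1 0 * g1
          rcases mul_eq_zero.1 hb with hb | hb
          · left
            rw [S0809.J0_val]
            apply S0809.mat_eq <;> simp
            · exact hz
            · rw [g1]; linear_combination -hb
            · linear_combination hb
            · rw [g2, hz]; simp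
          · right
            rw [S0809.J0_val]
            apply S0809.mat_eq <;> simp
            · exact hz
            · rw [g1]; linear_combination -hb
            · linear_combination hb
            · rw [g2, hz]; simp
        · exfalso
          rw [hz] at g1 hdet e00
          rw [g1, g2] at hdet
          rw [g1] at e00
          apply h2
          linear_combination e00 - hdet
    · exact hA
  · intro hA
    have hA' := hA
    obtain ⟨h, rfl, hanti⟩ := hA
    have hc := (cent_iff (QuotientGroup.mk h)).2 (Or.inr hA')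
    rw [Subgroup.mem_centralizer_iff] at hc
    refine ⟨?_, ?_, (hc _ rfl).symm⟩
    · apply order_two_of
      · rw [S0809.anti_iff] at hanti
        obtain ⟨a1, a2⟩ := hanti
        have hdet : (h : Matrix (Fin 2) (Fin 2) F) 0 0 * (h : Matrix (Fin 2) (Fin 2) F) 1 1 -
            (h : Matrix (Fin 2) (Fin 2) F) 0 1 * (h : Matrix (Fin 2) (Fin 2) F) 1 0 = 1 := by
          rw [← Matrix.det_fin_two]; exact h.2
        rw [← QuotientGroup.mk_mul, ← QuotientGroup.mk_one, eq_comm, mk_eq_iff]
        right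
        rw [Matrix.SpecialLinearGroup.coe_mul, S0809.entries]
        apply S0809.mat_eq
        all_goals simp only [Matrix.of_apply, Matrix.cons_val', Matrix.cons_val_zero,
          Matrix.cons_val_one, Matrix.cons_val_fin_one, Matrix.neg_apply,
          Matrix.SpecialLinearGroup.coe_one, Matrix.one_apply_eq, Matrix.one_apply_ne, ne_eq,
          zero_ne_one, one_ne_zero, not_false_eq_true, neg_zero]
        · linear_combination (-1) * hdet + (h : Matrix (Fin 2) (Fin 2) F) 0 0 * a2
        · linear_combination (h : Matrix (Fin 2) (Fin 2) F) 0 1 * a2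
        · linear_combination (h : Matrix (Fin 2) (Fin 2) F) 1 0 * a2
        · linear_combination (-1) * hdet + (h : Matrix (Fin 2) (Fin 2) F) 1 1 * a2
      · intro h1
        exact KA_disj h2 _ (h1 ▸ KK_one) hA'
    · intro h1
      exact KA_disj h2 _ (h1 ▸ KK_t0) hA'

theorem exists_anti [Fintype F] (hodd : Fintype.card F % 2 = 1) :
    ∃ h₀ : Matrix.SpecialLinearGroup (Fin 2) F, h₀ * S0809.J0 F = (S0809.J0 F)⁻¹ * h₀ := by
  obtain ⟨a, b, hab⟩ := S0809.sum_two_sq hodd (-1 : F)
  obtain ⟨P, hP⟩ : ∃ P : Matrix.SpecialLinearGroup (Fin 2) F,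
      (P : Matrix (Fin 2) (Fin 2) F) = !![a, b; b, -a] :=
    ⟨⟨!![a, b; b, -a], by rw [Matrix.det_fin_two_of]; linear_combination -hab⟩, rfl⟩
  refine ⟨P, ?_⟩
  rw [S0809.anti_iff, hP]
  simp

theorem card_KA [Fintype F] (hodd : Fintype.card F % 2 = 1) :
    Nat.card {c : Matrix.ProjectiveSpecialLinearGroup (Fin 2) F // KK c} =
      Nat.card {c : Matrix.ProjectiveSpecialLinearGroup (Fin 2) F // AA c} := by
  obtain ⟨h₀, hh₀⟩ := exists_anti (F := F) hodd
  apply Nat.card_eq_of_bijective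
    (fun c : {c : Matrix.ProjectiveSpecialLinearGroup (Fin 2) F // KK c} =>
      (⟨QuotientGroup.mk h₀ * c.1, by
        obtain ⟨c, g, rfl, hg⟩ := c
        exact ⟨h₀ * g, rfl, by rw [mul_assoc, hg, ← mul_assoc, hh₀, mul_assoc]⟩⟩ :
        {c : Matrix.ProjectiveSpecialLinearGroup (Fin 2) F // AA c}))
  constructor
  · rintro ⟨c, hc⟩ ⟨c', hc'⟩ h
    have : (QuotientGroup.mk h₀ : Matrix.ProjectiveSpecialLinearGroup (Fin 2) F) * c =
        QuotientGroup.mk h₀ * c' := congrArg Subtype.val h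
    exact Subtype.ext (mul_left_cancel this)
  · rintro ⟨c, g, rfl, hg⟩
    refine ⟨⟨QuotientGroup.mk (h₀⁻¹ * g), h₀⁻¹ * g, rfl, ?_⟩, ?_⟩
    · rw [mul_assoc, hg]
      have : h₀⁻¹ * (S0809.J0 F)⁻¹ = S0809.J0 F * h₀⁻¹ := by
        calc h₀⁻¹ * (S0809.J0 F)⁻¹ = h₀⁻¹ * ((S0809.J0 F)⁻¹ * h₀) * h₀⁻¹ := by group
          _ = h₀⁻¹ * (h₀ * S0809.J0 F) * h₀⁻¹ := by rw [hh₀]
          _ = S0809.J0 F * h₀⁻¹ := by group
      rw [← mul_assoc, this, mul_assoc]
    · apply Subtype.ext
      show (QuotientGroup.mk h₀ : Matrix.ProjectiveSpecialLinearGroup (Fin 2) F) *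
        QuotientGroup.mk (h₀⁻¹ * g) = QuotientGroup.mk g
      rw [← QuotientGroup.mk_mul, mul_inv_cancel_left]

theorem H2_psl [Fintype F] (hodd : Fintype.card F % 2 = 1) (h2 : (2 : F) ≠ 0) :
    2 * Nat.card {s : Matrix.ProjectiveSpecialLinearGroup (Fin 2) F //
      orderOf s = 2 ∧ s ≠ (QuotientGroup.mk (S0809.J0 F) :
      Matrix.ProjectiveSpecialLinearGroup (Fin 2) F) ∧
      s * (QuotientGroup.mk (S0809.J0 F) : Matrix.ProjectiveSpecialLinearGroup (Fin 2) F) =
        (QuotientGroup.mk (S0809.J0 F) : Matrix.ProjectiveSpecialLinearGroup (Fin 2) F) * s} =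
    Nat.card (Subgroup.centralizer {(QuotientGroup.mk (S0809.J0 F) :
      Matrix.ProjectiveSpecialLinearGroup (Fin 2) F)} :
      Subgroup (Matrix.ProjectiveSpecialLinearGroup (Fin 2) F)) := by
  classical
  have hdisj : Disjoint (KK (F := F)) (AA (F := F)) := by
    intro r hr1 hr2 c hc
    exact KA_disj h2 c (hr1 c hc) (hr2 c hc)
  rw [Nat.card_congr (Equiv.subtypeEquivRight (fun c => S_iff h2 c)),
    Nat.card_congr (Equiv.subtypeEquivRight (fun c => cent_iff c)),
    Nat.card_congr (subtypeOrEquiv _ _ hdisj), Nat.card_sum, card_KA hodd]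
  ring

end psl

/-- For q odd, twelve times the number of Klein four-subgroups of PSL_2(q) equals the order of PSL_2(q). -/
theorem result {F : Type*} [Field F] [Fintype F] {q : ℕ} (hF : Fintype.card F = q) (hodd : Odd q) : 12 * Nat.card {V : Subgroup (Matrix.ProjectiveSpecialLinearGroup (Fin 2) F) // IsKleinFour V} = Nat.card (Matrix.ProjectiveSpecialLinearGroup (Fin 2) F) := by
  classical
  have hodd' : Fintype.card F % 2 = 1 := by rw [hF]; exact Nat.odd_iff.1 hodd
  have h2 : (2 : F) ≠ 0 := by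
    intro h
    have hchar : ringChar F = 2 := by
      have : ringChar F ∣ 2 := by
        apply (ringChar.spec F 2).1
        exact_mod_cast h
      rcases (Nat.dvd_prime Nat.prime_two).1 this with h1 | h1
      · exfalso
        have := CharP.ringChar_ne_one (R := F)
        exact this h1
      · exact h1
    have := FiniteField.even_card_of_char_two hchar
    omega
  apply KF (QuotientGroup.mk (S0809.J0 F) : Matrix.ProjectiveSpecialLinearGroup (Fin 2) F)
    (t0_order h2)
  · intro s hs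
    have := S0809.part4 hodd' h2 (QuotientGroup.mk (S0809.J0 F)) s (t0_order h2) hs
    rw [isConj_iff] at this
    exact this
  · exact H2_psl hodd' h2

end Cfsg.Agent.S0807
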