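import Mathlib
import Cfsg.Statements.S0808
import Cfsg.Agent.S0807

set_option autoImplicit false
open Cfsg

namespace Cfsg.Agent.S0808

section abs

variable {G : Type*} [Group G]

theorem mem_cj (V : Subgroup G) (g x : G) :
    x ∈ V.map (MulAut.conj g).toMonoidHom ↔ g⁻¹ * x * g ∈ V := by
  rw [Subgroup.mem_map]
  constructor
  · rintro ⟨y, hy, rfl⟩
    have : g⁻¹ * ((MulAut.conj g).toMonoidHom y) * g = y := by
      simp [MulAut.conj_apply, mul_assoc]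
    rw [this]; exact hy
  · intro h
    exact ⟨g⁻¹ * x * g, h, by simp [MulAut.conj_apply, mul_assoc]⟩

/-- Conjugacy of subgroups. -/
def Cj (V W : Subgroup G) : Prop := ∃ g : G, W = V.map (MulAut.conj g).toMonoidHom

theorem Cj_refl (V : Subgroup G) : Cj V V := ⟨1, by ext x; rw [mem_cj]; simp⟩

theorem Cj_symm {V W : Subgroup G} (h : Cj V W) : Cj W V := by
  obtain ⟨g, rfl⟩ := h
  refine ⟨g⁻¹, ?_⟩
  ext x; rw [mem_cj, mem_cj]; simp [mul_assoc]

theorem Cj_trans {U V W : Subgroup G} (h1 : Cj U V) (h2 : Cj V W) : Cj U W := by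
  obtain ⟨g, rfl⟩ := h1
  obtain ⟨g', rfl⟩ := h2
  refine ⟨g' * g, ?_⟩
  ext x; rw [mem_cj, mem_cj, mem_cj]; simp [mul_assoc]

theorem klein_cj (V : Subgroup G) (hV : IsKleinFour V) (g : G) :
    IsKleinFour (V.map (MulAut.conj g).toMonoidHom) := by
  have e : V ≃* V.map (MulAut.conj g).toMonoidHom :=
    V.equivMapOfInjective _ (MulAut.conj g).injective
  exact ⟨by rw [← Nat.card_congr e.toEquiv]; exact hV.card_four,
    by rw [← Monoid.exponent_eq_of_mulEquiv e]; exact hV.exponent_two⟩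

theorem orbit_count [Finite G] (V₁ : Subgroup G) (hV₁ : IsKleinFour V₁)
    (hall : ∀ W : Subgroup G, IsKleinFour W → Cj V₁ W) :
    Nat.card G = Nat.card {V : Subgroup G // IsKleinFour V} *
      Nat.card (Subgroup.normalizer (V₁ : Set G)) := by
  apply S0807.card_fib (fun g : G => (⟨V₁.map (MulAut.conj g).toMonoidHom, klein_cj V₁ hV₁ g⟩ :
    {V : Subgroup G // IsKleinFour V}))
  rintro ⟨W, hW⟩
  obtain ⟨g₀, hg₀⟩ := hall W hW
  have h2 : ∀ y, y ∈ W ↔ g₀⁻¹ * y * g₀ ∈ V₁ := fun y => by rw [hg₀, mem_cj]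
  apply Nat.card_eq_of_bijective
    (fun p : {a : G // (⟨V₁.map (MulAut.conj a).toMonoidHom, klein_cj V₁ hV₁ a⟩ :
        {V : Subgroup G // IsKleinFour V}) = ⟨W, hW⟩} =>
      (⟨g₀⁻¹ * p.1, by
        obtain ⟨a, ha⟩ := p
        have ha' : V₁.map (MulAut.conj a).toMonoidHom = W := congrArg Subtype.val ha
        have h1 : ∀ y, y ∈ W ↔ a⁻¹ * y * a ∈ V₁ := fun y => by rw [← ha', mem_cj]
        rw [Subgroup.mem_normalizer_iff]
        intro x
        have e1 := h1 (a * x * a⁻¹)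
        have e2 := h2 (a * x * a⁻¹)
        have e3 : a⁻¹ * (a * x * a⁻¹) * a = x := by group
        have e4 : g₀⁻¹ * (a * x * a⁻¹) * g₀ = g₀⁻¹ * a * x * (g₀⁻¹ * a)⁻¹ := by group
        rw [e3] at e1
        rw [e4] at e2
        exact e1.symm.trans e2⟩ : Subgroup.normalizer (V₁ : Set G)))
  constructor
  · rintro ⟨a, ha⟩ ⟨a', ha'⟩ h
    have : g₀⁻¹ * a = g₀⁻¹ * a' := congrArg Subtype.val h
    have : a = a' := mul_left_cancel this
    subst this
    rfl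
  · rintro ⟨n, hn⟩
    rw [Subgroup.mem_normalizer_iff] at hn
    refine ⟨⟨g₀ * n, ?_⟩, ?_⟩
    · apply Subtype.ext
      show V₁.map (MulAut.conj (g₀ * n)).toMonoidHom = W
      ext y
      rw [mem_cj, h2 y, hn ((g₀ * n)⁻¹ * y * (g₀ * n))]
      have : n * ((g₀ * n)⁻¹ * y * (g₀ * n)) * n⁻¹ = g₀⁻¹ * y * g₀ := by group
      rw [this]
    · apply Subtype.ext
      show g₀⁻¹ * (g₀ * n) = n
      group

theorem no_twelve [Finite G] (V : Subgroup G) (hV4 : Nat.card V = 4)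
    (hN : Nat.card (Subgroup.normalizer (V : Set G)) = 12)
    (c : G) (hc : c ∈ Subgroup.normalizer (V : Set G)) (hc2 : c * c ∈ V) (hcV : c ∉ V) : False := by
  have hle : V ≤ Subgroup.normalizer (V : Set G) := Subgroup.le_normalizer
  have hnorm : (V.subgroupOf (Subgroup.normalizer (V : Set G))).Normal :=
    Subgroup.normal_in_normalizer
  have hidx : (V.subgroupOf (Subgroup.normalizer (V : Set G))).index = 3 := by
    have h1 := Subgroup.card_mul_index (V.subgroupOf (Subgroup.normalizer (V : Set G)))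
    rw [Nat.card_congr (Subgroup.subgroupOfEquivOfLe hle).toEquiv, hV4, hN] at h1
    omega
  have h3 := Subgroup.pow_index_mem (V.subgroupOf (Subgroup.normalizer (V : Set G)))
    (⟨c, hc⟩ : Subgroup.normalizer (V : Set G))
  rw [hidx, Subgroup.mem_subgroupOf] at h3
  have h3' : c ^ 3 ∈ V := h3
  apply hcV
  have : c = c ^ 3 * (c * c)⁻¹ := by group
  rw [this]
  exact V.mul_mem h3' (V.inv_mem hc2)

end abs

section psl

open Matrix

variable {F : Type*} [Field F]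

local notation "SL2" => Matrix.SpecialLinearGroup (Fin 2) F
local notation "PSL2" => Matrix.ProjectiveSpecialLinearGroup (Fin 2) F
local notation "J₀" => S0809.J0 F
local notation "t₀" => (QuotientGroup.mk (S0809.J0 F) : Matrix.ProjectiveSpecialLinearGroup (Fin 2) F)

theorem t0_sq (h2 : (2 : F) ≠ 0) : t₀ * t₀ = 1 := S0807.sq_of_order_two _ (S0807.t0_order h2)

theorem t0_ne (h2 : (2 : F) ≠ 0) : t₀ ≠ 1 := S0807.ne_one_of_order_two _ (S0807.t0_order h2)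

/-- The four-group `{1, t₀, c, t₀ c}`. -/
def Vc (h2 : (2 : F) ≠ 0) (c : PSL2) (hc : orderOf c = 2 ∧ c ≠ t₀ ∧ c * t₀ = t₀ * c) :
    Subgroup PSL2 :=
  S0807.VV t₀ c (t0_sq h2) (S0807.sq_of_order_two _ hc.1) hc.2.2.symm

theorem mem_Vc (h2 : (2 : F) ≠ 0) (c : PSL2) (hc : orderOf c = 2 ∧ c ≠ t₀ ∧ c * t₀ = t₀ * c)
    (x : PSL2) : x ∈ Vc h2 c hc ↔ x = 1 ∨ x = t₀ ∨ x = c ∨ x = t₀ * c := Iff.rfl

theorem Vc_klein (h2 : (2 : F) ≠ 0) (c : PSL2) (hc : orderOf c = 2 ∧ c ≠ t₀ ∧ c * t₀ = t₀ * c) :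
    IsKleinFour (Vc h2 c hc) :=
  S0807.VV_klein _ _ _ _ _ (t0_ne h2) (S0807.ne_one_of_order_two _ hc.1) (Ne.symm hc.2.1)

theorem Vc_map_of (h2 : (2 : F) ≠ 0) (c c' : PSL2)
    (hc : orderOf c = 2 ∧ c ≠ t₀ ∧ c * t₀ = t₀ * c)
    (hc' : orderOf c' = 2 ∧ c' ≠ t₀ ∧ c' * t₀ = t₀ * c') (d : PSL2) (hd : d * t₀ = t₀ * d)
    (hcc' : c' = d * c * d⁻¹) :
    Vc h2 c' hc' = (Vc h2 c hc).map (MulAut.conj d).toMonoidHom := by
  ext x
  rw [mem_cj, mem_Vc, mem_Vc]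
  have e : ∀ y : PSL2, d⁻¹ * x * d = y ↔ x = d * y * d⁻¹ := by
    intro y
    constructor
    · intro h; rw [← h]; group
    · intro h; rw [h]; group
  have e1 : d * 1 * d⁻¹ = (1 : PSL2) := by group
  have e2 : d * t₀ * d⁻¹ = t₀ := by rw [hd]; group
  have e3 : d * (t₀ * c) * d⁻¹ = t₀ * c' := by
    rw [hcc']
    calc d * (t₀ * c) * d⁻¹ = (d * t₀) * c * d⁻¹ := by group
      _ = t₀ * d * c * d⁻¹ := by rw [hd]
      _ = t₀ * (d * c * d⁻¹) := by group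
  rw [e 1, e t₀, e c, e (t₀ * c), e1, e2, e3, ← hcc']

theorem Vc_eq_of (h2 : (2 : F) ≠ 0) (c c' : PSL2)
    (hc : orderOf c = 2 ∧ c ≠ t₀ ∧ c * t₀ = t₀ * c)
    (hc' : orderOf c' = 2 ∧ c' ≠ t₀ ∧ c' * t₀ = t₀ * c') (hcc' : c' = t₀ * c) :
    Vc h2 c hc = Vc h2 c' hc' := by
  ext x
  rw [mem_Vc, mem_Vc, hcc']
  have : t₀ * (t₀ * c) = c := by rw [← mul_assoc, t0_sq h2, one_mul]
  rw [this]
  tauto

theorem comm_inv (k : SL2) (hk : k * J₀ = J₀ * k) : k⁻¹ * J₀ = J₀ * k⁻¹ := by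
  calc k⁻¹ * J₀ = k⁻¹ * (J₀ * k) * k⁻¹ := by group
    _ = k⁻¹ * (k * J₀) * k⁻¹ := by rw [hk]
    _ = J₀ * k⁻¹ := by group

theorem comm_Jinv (k : SL2) (hk : k * J₀ = J₀ * k) : k * J₀⁻¹ = J₀⁻¹ * k := by
  calc k * J₀⁻¹ = J₀⁻¹ * (J₀ * k) * J₀⁻¹ := by group
    _ = J₀⁻¹ * (k * J₀) * J₀⁻¹ := by rw [hk]
    _ = J₀⁻¹ * k := by group

theorem anti_mul (k h : SL2) (hk : k * J₀ = J₀ * k) (ha : h * J₀ = J₀⁻¹ * h) :
    (k * h) * J₀ = J₀⁻¹ * (k * h) := by
  rw [mul_assoc, ha, ← mul_assoc, comm_Jinv k hk, mul_assoc]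

theorem anti_Jinv (h : SL2) (ha : h * J₀ = J₀⁻¹ * h) : h * J₀⁻¹ = J₀ * h := by
  calc h * J₀⁻¹ = J₀ * (J₀⁻¹ * h) * J₀⁻¹ := by group
    _ = J₀ * (h * J₀) * J₀⁻¹ := by rw [ha]
    _ = J₀ * h := by group

theorem anti_inv (h : SL2) (ha : h * J₀ = J₀⁻¹ * h) : h⁻¹ * J₀ = J₀⁻¹ * h⁻¹ := by
  calc h⁻¹ * J₀ = h⁻¹ * (J₀ * h) * h⁻¹ := by group
    _ = h⁻¹ * (h * J₀⁻¹) * h⁻¹ := by rw [anti_Jinv h ha]
    _ = J₀⁻¹ * h⁻¹ := by group

theorem comm_of_anti (h h' : SL2) (ha : h * J₀ = J₀⁻¹ * h) (ha' : h' * J₀ = J₀⁻¹ * h') :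
    (h' * h⁻¹) * J₀ = J₀ * (h' * h⁻¹) := by
  rw [mul_assoc, anti_inv h ha, ← mul_assoc, anti_Jinv h' ha', mul_assoc]

theorem K_comm (a b : SL2) (ha : a * J₀ = J₀ * a) (hb : b * J₀ = J₀ * b) : a * b = b * a := by
  rw [S0809.comm_iff] at ha hb
  obtain ⟨a1, a2⟩ := ha
  obtain ⟨b1, b2⟩ := hb
  apply Subtype.ext
  rw [Matrix.SpecialLinearGroup.coe_mul, Matrix.SpecialLinearGroup.coe_mul, S0809.entries,
    S0809.entries]
  apply S0809.mat_eq
  all_goals simp only [Matrix.of_apply, Matrix.cons_val', Matrix.cons_val_zero,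
    Matrix.cons_val_one, Matrix.cons_val_fin_one]
  all_goals (try simp only [a1, a2, b1, b2])
  all_goals ring

theorem anti_conj (k h : SL2) (hk : k * J₀ = J₀ * k) (ha : h * J₀ = J₀⁻¹ * h) :
    h * k⁻¹ = k * h := by
  rw [S0809.comm_iff] at hk
  rw [S0809.anti_iff] at ha
  obtain ⟨k1, k2⟩ := hk
  obtain ⟨a1, a2⟩ := ha
  apply Subtype.ext
  rw [Matrix.SpecialLinearGroup.coe_mul, Matrix.SpecialLinearGroup.coe_mul,
    Matrix.SpecialLinearGroup.coe_inv, Matrix.adjugate_fin_two, S0809.entries, S0809.entries]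
  apply S0809.mat_eq
  all_goals simp only [Matrix.of_apply, Matrix.cons_val', Matrix.cons_val_zero,
    Matrix.cons_val_one, Matrix.cons_val_fin_one]
  all_goals (try simp only [k1, k2, a1, a2])
  all_goals ring

theorem conj_eq (k h : SL2) (hk : k * J₀ = J₀ * k) (ha : h * J₀ = J₀⁻¹ * h) :
    k * h * k⁻¹ = k * k * h := by
  rw [mul_assoc, anti_conj k h hk ha, ← mul_assoc]

theorem hS (h2 : (2 : F) ≠ 0) (h : SL2) (ha : h * J₀ = J₀⁻¹ * h) :
    orderOf (QuotientGroup.mk h : PSL2) = 2 ∧ (QuotientGroup.mk h : PSL2) ≠ t₀ ∧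
      (QuotientGroup.mk h : PSL2) * t₀ = t₀ * (QuotientGroup.mk h : PSL2) :=
  (S0807.S_iff h2 _).2 ⟨h, rfl, ha⟩

theorem Vh_map (h2 : (2 : F) ≠ 0) (k h h' : SL2) (hk : k * J₀ = J₀ * k)
    (ha : h * J₀ = J₀⁻¹ * h) (ha' : h' * J₀ = J₀⁻¹ * h') (e : h' = k * k * h) :
    Vc h2 (QuotientGroup.mk h') (hS h2 h' ha') =
      (Vc h2 (QuotientGroup.mk h) (hS h2 h ha)).map
        (MulAut.conj (QuotientGroup.mk k : PSL2)).toMonoidHom := by
  apply Vc_map_of h2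
  · rw [← QuotientGroup.mk_mul, ← QuotientGroup.mk_mul, hk]
  · rw [← QuotientGroup.mk_inv, ← QuotientGroup.mk_mul, ← QuotientGroup.mk_mul,
      conj_eq k h hk ha, e]

theorem Vh_J (h2 : (2 : F) ≠ 0) (h : SL2) (ha : h * J₀ = J₀⁻¹ * h)
    (ha' : (J₀ * h) * J₀ = J₀⁻¹ * (J₀ * h)) :
    Vc h2 (QuotientGroup.mk h) (hS h2 h ha) =
      Vc h2 (QuotientGroup.mk (J₀ * h)) (hS h2 (J₀ * h) ha') :=
  Vc_eq_of h2 _ _ _ _ rfl

theorem Vh_of_sq (h2 : (2 : F) ≠ 0) (h h' : SL2) (ha : h * J₀ = J₀⁻¹ * h)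
    (ha' : h' * J₀ = J₀⁻¹ * h') (k : SL2) (hk : k * J₀ = J₀ * k)
    (e : h' = k * k * h ∨ h' = J₀ * (k * k * h)) :
    Cj (Vc h2 (QuotientGroup.mk h) (hS h2 h ha)) (Vc h2 (QuotientGroup.mk h') (hS h2 h' ha')) := by
  rcases e with e | e
  · exact ⟨_, Vh_map h2 k h h' hk ha ha' e⟩
  · subst e
    have hkk : (k * k) * J₀ = J₀ * (k * k) := by
      rw [mul_assoc, hk, ← mul_assoc, hk, mul_assoc]
    have ha'' : (k * k * h) * J₀ = J₀⁻¹ * (k * k * h) := anti_mul (k * k) h hkk ha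
    have e1 := Vh_map h2 k h (k * k * h) hk ha ha'' rfl
    have e2 := Vh_J h2 (k * k * h) ha'' ha'
    rw [e2] at e1
    exact ⟨_, e1⟩

/-- The centraliser of `J0`. -/
def Kc (F : Type*) [Field F] : Subgroup (Matrix.SpecialLinearGroup (Fin 2) F) where
  carrier := {g | g * S0809.J0 F = S0809.J0 F * g}
  one_mem' := by simp
  mul_mem' := by
    intro a b ha hb
    show a * b * S0809.J0 F = S0809.J0 F * (a * b)
    have ha' : a * S0809.J0 F = S0809.J0 F * a := ha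
    have hb' : b * S0809.J0 F = S0809.J0 F * b := hb
    rw [mul_assoc, hb', ← mul_assoc, ha', mul_assoc]
  inv_mem' := by
    intro a ha
    exact comm_inv a ha

theorem mem_Kc (g : SL2) : g ∈ Kc F ↔ g * J₀ = J₀ * g := Iff.rfl

/-- Squaring on the centraliser of `J0`. -/
def sqHom (F : Type*) [Field F] : ↥(Kc F) →* ↥(Kc F) where
  toFun g := g * g
  map_one' := by simp
  map_mul' := by
    intro a b
    apply Subtype.ext
    show (a : Matrix.SpecialLinearGroup (Fin 2) F) * b * (a * b) = a * a * (b * b)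
    have := K_comm a.1 b.1 a.2 b.2
    calc (a : Matrix.SpecialLinearGroup (Fin 2) F) * b * (a * b) = a * (b * a) * b := by group
      _ = a * (a * b) * b := by rw [this]
      _ = a * a * (b * b) := by group

theorem sqHom_val (g : ↥(Kc F)) : ((sqHom F g : ↥(Kc F)) : SL2) = (g : SL2) * g := rfl

theorem JJ_mem : J₀ * J₀ ∈ Kc F := by
  rw [mem_Kc]; exact mul_assoc _ _ _

theorem JJ_val : ((J₀ * J₀ : SL2) : Matrix (Fin 2) (Fin 2) F) = -1 := by
  rw [Matrix.SpecialLinearGroup.coe_mul, S0809.J0_sq]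

theorem ker_card (h2 : (2 : F) ≠ 0) : Nat.card (sqHom F).ker = 2 := by
  rw [Nat.card_eq_two_iff]
  have hm : (⟨J₀ * J₀, JJ_mem⟩ : Kc F) ∈ (sqHom F).ker := by
    rw [MonoidHom.mem_ker]
    apply Subtype.ext
    apply Subtype.ext
    rw [sqHom_val]
    show ((J₀ * J₀ * (J₀ * J₀) : SL2) : Matrix (Fin 2) (Fin 2) F) =
      ((1 : SL2) : Matrix (Fin 2) (Fin 2) F)
    rw [Matrix.SpecialLinearGroup.coe_mul, JJ_val]; simp
  refine ⟨1, ⟨_, hm⟩, ?_, ?_⟩
  · intro h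
    have h' : ((1 : SL2) : Matrix (Fin 2) (Fin 2) F) = ((J₀ * J₀ : SL2) : Matrix (Fin 2) (Fin 2) F) :=
      congrArg (fun z : (sqHom F).ker => (((z : Kc F) : SL2) : Matrix (Fin 2) (Fin 2) F)) h
    rw [JJ_val] at h'
    exact S0809.neg_one_ne h2 (by rw [← h']; simp)
  · rw [Set.eq_univ_iff_forall]
    rintro ⟨⟨g, hg⟩, hker⟩
    rw [MonoidHom.mem_ker] at hker
    have hgg : (g : Matrix (Fin 2) (Fin 2) F) * (g : Matrix (Fin 2) (Fin 2) F) = 1 := by
      have := congrArg (fun z : Kc F => ((z : SL2) : Matrix (Fin 2) (Fin 2) F)) hker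
      simpa [sqHom_val] using this
    rcases S0809.sq_one h2 g hgg with h | h
    · left
      apply Subtype.ext; apply Subtype.ext; apply Subtype.ext
      exact h
    · right
      rw [Set.mem_singleton_iff]
      apply Subtype.ext; apply Subtype.ext; apply Subtype.ext
      show (g : Matrix (Fin 2) (Fin 2) F) = ((J₀ * J₀ : SL2) : Matrix (Fin 2) (Fin 2) F)
      rw [JJ_val]
      exact h

theorem range_index [Fintype F] (h2 : (2 : F) ≠ 0) : (sqHom F).range.index = 2 := by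
  classical
  have h1 := Subgroup.card_mul_index (sqHom F).ker
  have h3 := Subgroup.card_mul_index (sqHom F).range
  rw [Subgroup.index_ker, ker_card h2] at h1
  have hpos : 0 < Nat.card (sqHom F).range := Nat.card_pos
  have : Nat.card (sqHom F).range * (sqHom F).range.index = Nat.card (sqHom F).range * 2 := by
    rw [h3, ← h1, mul_comm]
  exact Nat.eq_of_mul_eq_mul_left hpos this

theorem two_sq_of (k : SL2) (hk : k * J₀ = J₀ * k) (hkk : k * k = J₀) : IsSquare (2 : F) := by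
  rw [S0809.comm_iff] at hk
  obtain ⟨k1, k2⟩ := hk
  have hdet : (k : Matrix (Fin 2) (Fin 2) F) 0 0 * (k : Matrix (Fin 2) (Fin 2) F) 1 1 -
      (k : Matrix (Fin 2) (Fin 2) F) 0 1 * (k : Matrix (Fin 2) (Fin 2) F) 1 0 = 1 := by
    rw [← Matrix.det_fin_two]; exact k.2
  have h' := congrArg (fun y : SL2 => (y : Matrix (Fin 2) (Fin 2) F)) hkk
  simp only [Matrix.SpecialLinearGroup.coe_mul, S0809.J0_val] at h'
  rw [S0809.entries] at h'
  have e00 := congrFun (congrFun h' 0) 0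
  simp only [Matrix.of_apply, Matrix.cons_val', Matrix.cons_val_zero, Matrix.cons_val_one,
    Matrix.cons_val_fin_one] at e00
  have key : 2 * ((k : Matrix (Fin 2) (Fin 2) F) 0 0 * (k : Matrix (Fin 2) (Fin 2) F) 0 0) = 1 := by
    rw [k1, k2] at hdet; rw [k1] at e00
    linear_combination hdet + e00
  have ha : (k : Matrix (Fin 2) (Fin 2) F) 0 0 ≠ 0 := by
    intro h; rw [h] at key; simp at key
  refine ⟨((k : Matrix (Fin 2) (Fin 2) F) 0 0)⁻¹, ?_⟩
  field_simp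
  linear_combination key

theorem exists_sqrt_J (h2 : (2 : F) ≠ 0) (r : F) (hr : 2 = r * r) :
    ∃ k : SL2, k * J₀ = J₀ * k ∧ k * k = J₀ := by
  have hr0 : r ≠ 0 := by
    rintro rfl
    rw [mul_zero] at hr
    exact h2 hr
  have ha : 2 * (r⁻¹ * r⁻¹) = 1 := by rw [hr]; field_simp
  obtain ⟨P, hP⟩ : ∃ P : SL2, (P : Matrix (Fin 2) (Fin 2) F) = !![r⁻¹, -r⁻¹; r⁻¹, r⁻¹] :=
    ⟨⟨!![r⁻¹, -r⁻¹; r⁻¹, r⁻¹], by rw [Matrix.det_fin_two_of]; linear_combination ha⟩, rfl⟩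
  refine ⟨P, ?_, ?_⟩
  · rw [S0809.comm_iff, hP]; simp
  · apply Subtype.ext
    rw [Matrix.SpecialLinearGroup.coe_mul, hP, S0809.J0_val, S0809.entries]
    apply S0809.mat_eq
    all_goals simp only [Matrix.of_apply, Matrix.cons_val', Matrix.cons_val_zero,
      Matrix.cons_val_one, Matrix.cons_val_fin_one]
    · ring
    · linear_combination -ha
    · linear_combination ha
    · ring

theorem normal_form [Fintype F] (hodd : Fintype.card F % 2 = 1) (h2 : (2 : F) ≠ 0)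
    (W : Subgroup PSL2) (hW : IsKleinFour W) :
    ∃ (h : SL2) (ha : h * J₀ = J₀⁻¹ * h), Cj (Vc h2 (QuotientGroup.mk h) (hS h2 h ha)) W := by
  classical
  obtain ⟨x, hxW, hx1⟩ : ∃ x ∈ W, x ≠ 1 := by
    by_contra hcon
    push Not at hcon
    have : W = ⊥ := (Subgroup.eq_bot_iff_forall W).2 hcon
    have h4 := hW.card_four
    rw [this, Subgroup.card_bot] at h4
    omega
  have hxo : orderOf x = 2 := S0807.order_two_of x (S0807.klein_sq W hW x hxW) hx1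
  have hconj := S0809.part4 hodd h2 t₀ x (S0807.t0_order h2) hxo
  rw [isConj_iff] at hconj
  obtain ⟨g, hg⟩ := hconj
  obtain ⟨W', hW'⟩ : ∃ W' : Subgroup PSL2, W' = W.map (MulAut.conj g⁻¹).toMonoidHom := ⟨_, rfl⟩
  have hK' : IsKleinFour W' := by rw [hW']; exact klein_cj W hW g⁻¹
  have ht : t₀ ∈ W' := by
    rw [hW', mem_cj, inv_inv, hg]; exact hxW
  obtain ⟨y, hyW, hy1, hyt⟩ : ∃ y ∈ W', y ≠ 1 ∧ y ≠ t₀ := by
    by_contra hcon
    push Not at hcon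
    have hsub : (W' : Set PSL2) ⊆ {1, t₀} := by
      intro y hy
      by_cases h1 : y = 1
      · left; exact h1
      · right; exact hcon y hy h1
    have h4 := hK'.card_four
    rw [← SetLike.coe_sort_coe, Nat.card_coe_set_eq] at h4
    have := Set.ncard_le_ncard hsub (Set.toFinite _)
    rw [Set.ncard_pair (Ne.symm (t0_ne h2))] at this
    omega
  have hyo : orderOf y = 2 := S0807.order_two_of y (S0807.klein_sq W' hK' y hyW) hy1
  have hyc : y * t₀ = t₀ * y := S0807.klein_comm W' hK' y t₀ hyW ht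
  obtain ⟨h, rfl, ha⟩ := (S0807.S_iff h2 y).1 ⟨hyo, hyt, hyc⟩
  refine ⟨h, ha, ?_⟩
  have hVW : Vc h2 (QuotientGroup.mk h) (hS h2 h ha) = W' := by
    apply Subgroup.eq_of_le_of_card_ge
    · intro z hz
      rw [mem_Vc] at hz
      rcases hz with rfl | rfl | rfl | rfl
      · exact W'.one_mem
      · exact ht
      · exact hyW
      · exact W'.mul_mem ht hyW
    · rw [(Vc_klein h2 _ _).card_four, hK'.card_four]
  rw [hVW, hW']
  exact Cj_symm ⟨g⁻¹, rfl⟩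

theorem case_a [Fintype F] (hodd : Fintype.card F % 2 = 1) (h2 : (2 : F) ≠ 0)
    (hns : ¬ IsSquare (2 : F)) (V W : Subgroup PSL2) (hV : IsKleinFour V) (hW : IsKleinFour W) :
    Cj V W := by
  obtain ⟨h, ha, hcV⟩ := normal_form hodd h2 V hV
  obtain ⟨h', ha', hcW⟩ := normal_form hodd h2 W hW
  have hg : h' * h⁻¹ ∈ Kc F := comm_of_anti h h' ha ha'
  have hidx := range_index (F := F) h2
  have hJ : (⟨J₀, rfl⟩ : Kc F) ∉ (sqHom F).range := by
    rintro ⟨⟨k, hk⟩, hkk⟩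
    apply hns
    have : k * k = J₀ := congrArg Subtype.val hkk
    exact two_sq_of k hk this
  have key : ∃ k : SL2, k * J₀ = J₀ * k ∧ (h' = k * k * h ∨ h' = J₀ * (k * k * h)) := by
    by_cases hr : (⟨h' * h⁻¹, hg⟩ : Kc F) ∈ (sqHom F).range
    · obtain ⟨⟨k, hk⟩, hkk⟩ := hr
      have e : k * k = h' * h⁻¹ := congrArg Subtype.val hkk
      refine ⟨k, hk, Or.inl ?_⟩
      rw [e]; group
    · have hJinv : (⟨J₀, rfl⟩ : Kc F)⁻¹ ∉ (sqHom F).range := fun hh =>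
        hJ (by simpa using (sqHom F).range.inv_mem hh)
      have := (Subgroup.mul_mem_iff_of_index_two hidx (a := (⟨J₀, rfl⟩ : Kc F)⁻¹)
        (b := ⟨h' * h⁻¹, hg⟩)).2 ⟨fun hh => absurd hh hJinv, fun hh => absurd hh hr⟩
      obtain ⟨⟨k, hk⟩, hkk⟩ := this
      have e : k * k = J₀⁻¹ * (h' * h⁻¹) := congrArg Subtype.val hkk
      refine ⟨k, hk, Or.inr ?_⟩
      rw [e]; group
  obtain ⟨k, hk, e⟩ := key
  exact Cj_trans (Cj_symm hcV) (Cj_trans (Vh_of_sq h2 h h' ha ha' k hk e) hcW)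

theorem case_b [Fintype F] (hodd : Fintype.card F % 2 = 1) (h2 : (2 : F) ≠ 0)
    (hs : IsSquare (2 : F)) :
    ∃ V₁ V₂ : Subgroup PSL2, IsKleinFour V₁ ∧ IsKleinFour V₂ ∧ ¬ Cj V₁ V₂ ∧
      ∀ W : Subgroup PSL2, IsKleinFour W → Cj V₁ W ∨ Cj V₂ W := by
  classical
  obtain ⟨h₁, ha₁⟩ := S0807.exists_anti (F := F) hodd
  have hidx := range_index (F := F) h2
  obtain ⟨g₀, hg₀⟩ : ∃ g₀ : Kc F, g₀ ∉ (sqHom F).range := by
    by_contra hcon
    push Not at hcon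
    have : (sqHom F).range = ⊤ := (Subgroup.eq_top_iff' _).2 hcon
    rw [this, Subgroup.index_top] at hidx
    omega
  have ha₂ : (g₀.1 * h₁) * J₀ = J₀⁻¹ * (g₀.1 * h₁) := anti_mul g₀.1 h₁ g₀.2 ha₁
  have all : ∀ W : Subgroup PSL2, IsKleinFour W →
      Cj (Vc h2 (QuotientGroup.mk h₁) (hS h2 h₁ ha₁)) W ∨
      Cj (Vc h2 (QuotientGroup.mk (g₀.1 * h₁)) (hS h2 (g₀.1 * h₁) ha₂)) W := by
    intro W hW
    obtain ⟨h', ha', hcW⟩ := normal_form hodd h2 W hW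
    have hg : h' * h₁⁻¹ ∈ Kc F := comm_of_anti h₁ h' ha₁ ha'
    by_cases hr : (⟨h' * h₁⁻¹, hg⟩ : Kc F) ∈ (sqHom F).range
    · left
      obtain ⟨⟨k, hk⟩, hkk⟩ := hr
      have e : k * k = h' * h₁⁻¹ := congrArg Subtype.val hkk
      exact Cj_trans (Vh_of_sq h2 h₁ h' ha₁ ha' k hk (Or.inl (by rw [e]; group))) hcW
    · right
      have hg0inv : g₀⁻¹ ∉ (sqHom F).range := fun hh =>
        hg₀ (by simpa using (sqHom F).range.inv_mem hh)
      have := (Subgroup.mul_mem_iff_of_index_two hidx (a := (⟨h' * h₁⁻¹, hg⟩ : Kc F))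
        (b := g₀⁻¹)).2 ⟨fun hh => absurd hh hr, fun hh => absurd hh hg0inv⟩
      obtain ⟨⟨k, hk⟩, hkk⟩ := this
      have e : k * k = h' * h₁⁻¹ * (g₀.1)⁻¹ := congrArg Subtype.val hkk
      exact Cj_trans (Vh_of_sq h2 (g₀.1 * h₁) h' ha₂ ha' k hk (Or.inl (by rw [e]; group))) hcW
  refine ⟨_, _, Vc_klein h2 _ (hS h2 h₁ ha₁), Vc_klein h2 _ (hS h2 (g₀.1 * h₁) ha₂), ?_, all⟩
  intro hcj
  have all1 : ∀ W : Subgroup PSL2, IsKleinFour W →
      Cj (Vc h2 (QuotientGroup.mk h₁) (hS h2 h₁ ha₁)) W :=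
    fun W hW => (all W hW).elim id (fun h => Cj_trans hcj h)
  have hcount := orbit_count _ (Vc_klein h2 _ (hS h2 h₁ ha₁)) all1
  have h12 := S0807.result (F := F) rfl (Nat.odd_iff.2 hodd)
  have hN : Nat.card (Subgroup.normalizer
      ((Vc h2 (QuotientGroup.mk h₁) (hS h2 h₁ ha₁) : Subgroup PSL2) : Set PSL2)) = 12 := by
    rw [hcount] at h12
    have : Nonempty {V : Subgroup PSL2 // IsKleinFour V} := ⟨⟨_, Vc_klein h2 _ (hS h2 h₁ ha₁)⟩⟩
    have hK : 0 < Nat.card {V : Subgroup PSL2 // IsKleinFour V} := Nat.card_pos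
    have h12' : Nat.card {V : Subgroup PSL2 // IsKleinFour V} * 12 =
        Nat.card {V : Subgroup PSL2 // IsKleinFour V} * Nat.card (Subgroup.normalizer
      ((Vc h2 (QuotientGroup.mk h₁) (hS h2 h₁ ha₁) : Subgroup PSL2) : Set PSL2)) := by
      rw [← h12, mul_comm]
    exact (Nat.eq_of_mul_eq_mul_left hK h12').symm
  obtain ⟨r, hr⟩ := hs
  obtain ⟨k₀, hk₀, hkk₀⟩ := exists_sqrt_J h2 r hr
  have haJ : (J₀ * h₁) * J₀ = J₀⁻¹ * (J₀ * h₁) := anti_mul J₀ h₁ rfl ha₁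
  have e1 := Vh_map h2 k₀ h₁ (J₀ * h₁) hk₀ ha₁ haJ (by rw [hkk₀])
  have e2 := Vh_J h2 h₁ ha₁ haJ
  rw [← e2] at e1
  apply no_twelve _ (Vc_klein h2 _ (hS h2 h₁ ha₁)).card_four hN (QuotientGroup.mk k₀ : PSL2)
  · rw [Subgroup.mem_normalizer_iff]
    intro x
    have e3 := mem_cj (Vc h2 (QuotientGroup.mk h₁) (hS h2 h₁ ha₁)) (QuotientGroup.mk k₀ : PSL2)
      ((QuotientGroup.mk k₀ : PSL2) * x * (QuotientGroup.mk k₀ : PSL2)⁻¹)
    rw [← e1] at e3
    have e4 : (QuotientGroup.mk k₀ : PSL2)⁻¹ * ((QuotientGroup.mk k₀ : PSL2) * x *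
        (QuotientGroup.mk k₀ : PSL2)⁻¹) * (QuotientGroup.mk k₀ : PSL2) = x := by group
    rw [e4] at e3
    exact e3.symm
  · rw [← QuotientGroup.mk_mul, hkk₀]; exact Or.inr (Or.inl rfl)
  · intro hc
    have := S0807.klein_sq _ (Vc_klein h2 _ (hS h2 h₁ ha₁)) _ hc
    rw [← QuotientGroup.mk_mul, hkk₀] at this
    exact t0_ne h2 this

end psl

/-- Conjugacy classes of four-groups in PSL_2(q), q odd: if q ≡ 3 or 5 (mod 8) all Klein four-subgroups are conjugate; if q ≡ 1 or 7 (mod 8) there are two Klein four-subgroups which are not conjugate, and every Klein four-subgroup is conjugate to one of them. -/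
theorem result {F : Type*} [Field F] [Fintype F] {q : ℕ} (hF : Fintype.card F = q) (hodd : Odd q) : ((q % 8 = 3 ∨ q % 8 = 5) → ∀ V W : Subgroup (Matrix.ProjectiveSpecialLinearGroup (Fin 2) F), IsKleinFour V → IsKleinFour W → ∃ g : Matrix.ProjectiveSpecialLinearGroup (Fin 2) F, W = V.map (MulAut.conj g).toMonoidHom) ∧ ((q % 8 = 1 ∨ q % 8 = 7) → ∃ V₁ V₂ : Subgroup (Matrix.ProjectiveSpecialLinearGroup (Fin 2) F), IsKleinFour V₁ ∧ IsKleinFour V₂ ∧ (¬ ∃ g : Matrix.ProjectiveSpecialLinearGroup (Fin 2) F, V₂ = V₁.map (MulAut.conj g).toMonoidHom) ∧ ∀ W : Subgroup (Matrix.ProjectiveSpecialLinearGroup (Fin 2) F), IsKleinFour W → (∃ g : Matrix.ProjectiveSpecialLinearGroup (Fin 2) F, W = V₁.map (MulAut.conj g).toMonoidHom) ∨ (∃ g : Matrix.ProjectiveSpecialLinearGroup (Fin 2) F, W = V₂.map (MulAut.conj g).toMonoidHom)) := by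
  classical
  have hodd' : Fintype.card F % 2 = 1 := by rw [hF]; exact Nat.odd_iff.1 hodd
  have h2 : (2 : F) ≠ 0 := by
    intro h
    have hchar : ringChar F = 2 := by
      have : ringChar F ∣ 2 := by
        apply (ringChar.spec F 2).1
        exact_mod_cast h
      rcases (Nat.dvd_prime Nat.prime_two).1 this with h1 | h1
      · exfalso
        have := CharP.ringChar_ne_one (R := F)
        exact this h1
      · exact h1
    have := FiniteField.even_card_of_char_two hchar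
    omega
  have hsq := FiniteField.isSquare_two_iff (F := F)
  rw [hF] at hsq
  constructor
  · intro hq V W hV hW
    exact case_a hodd' h2 (by rw [hsq]; omega) V W hV hW
  · intro hq
    exact case_b hodd' h2 (by rw [hsq]; omega)

end Cfsg.Agent.S0808
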