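import Mathlib
import Cfsg.Statements.S0803
import Cfsg.Agent.S0808
import Cfsg.Agent.S0243
import Cfsg.Agent.Lib.Helper6.Sylow3

set_option autoImplicit false
open Cfsg

namespace Cfsg.Agent.S0803

section abs

variable {G : Type*} [Group G]

theorem orbit_le [Finite G] (V₁ : Subgroup G) (hV₁ : IsKleinFour V₁) :
    Nat.card G ≤ Nat.card {V : Subgroup G // IsKleinFour V} *
      Nat.card (Subgroup.normalizer (V₁ : Set G)) := by
  have key : Nat.card G = Nat.card {W : Subgroup G // S0808.Cj V₁ W} *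
      Nat.card (Subgroup.normalizer (V₁ : Set G)) := by
    apply S0807.card_fib (fun g : G => (⟨V₁.map (MulAut.conj g).toMonoidHom, ⟨g, rfl⟩⟩ :
      {W : Subgroup G // S0808.Cj V₁ W}))
    rintro ⟨W, hW⟩
    obtain ⟨g₀, hg₀⟩ := hW
    have h2 : ∀ y, y ∈ W ↔ g₀⁻¹ * y * g₀ ∈ V₁ := fun y => by rw [hg₀, S0808.mem_cj]
    apply Nat.card_eq_of_bijective
      (fun p : {a : G // (⟨V₁.map (MulAut.conj a).toMonoidHom, ⟨a, rfl⟩⟩ :
          {W : Subgroup G // S0808.Cj V₁ W}) = ⟨W, ⟨g₀, hg₀⟩⟩} =>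
        (⟨g₀⁻¹ * p.1, by
          obtain ⟨a, ha⟩ := p
          have ha' : V₁.map (MulAut.conj a).toMonoidHom = W := congrArg Subtype.val ha
          have h1 : ∀ y, y ∈ W ↔ a⁻¹ * y * a ∈ V₁ := fun y => by rw [← ha', S0808.mem_cj]
          rw [Subgroup.mem_normalizer_iff]
          intro x
          have e1 := h1 (a * x * a⁻¹)
          have e2 := h2 (a * x * a⁻¹)
          have e3 : a⁻¹ * (a * x * a⁻¹) * a = x := by group
          have e4 : g₀⁻¹ * (a * x * a⁻¹) * g₀ = g₀⁻¹ * a * x * (g₀⁻¹ * a)⁻¹ := by group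
          rw [e3] at e1
          rw [e4] at e2
          exact e1.symm.trans e2⟩ : Subgroup.normalizer (V₁ : Set G)))
    constructor
    · rintro ⟨a, ha⟩ ⟨a', ha'⟩ h
      have : g₀⁻¹ * a = g₀⁻¹ * a' := congrArg Subtype.val h
      have : a = a' := mul_left_cancel this
      subst this
      rfl
    · rintro ⟨n, hn⟩
      rw [Subgroup.mem_normalizer_iff] at hn
      refine ⟨⟨g₀ * n, ?_⟩, ?_⟩
      · apply Subtype.ext
        show V₁.map (MulAut.conj (g₀ * n)).toMonoidHom = W
        ext y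
        rw [S0808.mem_cj, h2 y, hn ((g₀ * n)⁻¹ * y * (g₀ * n))]
        have : n * ((g₀ * n)⁻¹ * y * (g₀ * n)) * n⁻¹ = g₀⁻¹ * y * g₀ := by group
        rw [this]
      · apply Subtype.ext
        show g₀⁻¹ * (g₀ * n) = n
        group
  rw [key]
  apply Nat.mul_le_mul_right
  apply Nat.card_le_card_of_injective (fun W : {W : Subgroup G // S0808.Cj V₁ W} =>
    (⟨W.1, by obtain ⟨g, hg⟩ := W.2; rw [hg]; exact S0808.klein_cj V₁ hV₁ g⟩ :
      {V : Subgroup G // IsKleinFour V}))
  rintro ⟨W, hW⟩ ⟨W', hW'⟩ h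
  have : W = W' := congrArg Subtype.val h
  subst this
  rfl

theorem norm_dvd_24 [Finite G] (V : Subgroup G) (hV : IsKleinFour V)
    (hC : ∀ c : G, (∀ v ∈ V, c * v = v * c) → c ∈ V) :
    Nat.card (Subgroup.normalizer (V : Set G)) ∣ 24 := by
  classical
  have hXcard : Nat.card {v : G // v ∈ V ∧ v ≠ 1} = 3 := by
    have e : {v : G // v ∈ V ∧ v ≠ 1} ≃ {w : V // w ≠ 1} :=
      { toFun := fun v => ⟨⟨v.1, v.2.1⟩, fun h => v.2.2 (congrArg Subtype.val h)⟩
        invFun := fun w => ⟨w.1.1, w.1.2, fun h => w.2 (Subtype.ext h)⟩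
        left_inv := fun v => rfl
        right_inv := fun w => rfl }
    rw [Nat.card_congr e]
    have := Fintype.ofFinite V
    rw [Nat.card_eq_fintype_card, Fintype.card_subtype_compl, Fintype.card_subtype_eq,
      ← Nat.card_eq_fintype_card, hV.card_four]
  let act : MulAction (Subgroup.normalizer (V : Set G)) {v : G // v ∈ V ∧ v ≠ 1} :=
    { smul := fun n v => ⟨n.1 * v.1 * n.1⁻¹, (Subgroup.mem_normalizer_iff.1 n.2 v.1).1 v.2.1,
        fun h => v.2.2 (conj_eq_one_iff.1 h)⟩
      one_smul := fun v => Subtype.ext (by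
        show (1 : G) * v.1 * (1 : G)⁻¹ = v.1
        group)
      mul_smul := fun a b v => Subtype.ext (by
        show (a.1 * b.1) * v.1 * (a.1 * b.1)⁻¹ = a.1 * (b.1 * v.1 * b.1⁻¹) * a.1⁻¹
        group) }
  have hsmul : ∀ (n : Subgroup.normalizer (V : Set G)) (v : {v : G // v ∈ V ∧ v ≠ 1}),
      ((n • v : {v : G // v ∈ V ∧ v ≠ 1}) : G) = n.1 * v.1 * n.1⁻¹ := fun n v => rfl
  have hle : V ≤ Subgroup.normalizer (V : Set G) := Subgroup.le_normalizer
  have hker : (MulAction.toPermHom (Subgroup.normalizer (V : Set G))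
      {v : G // v ∈ V ∧ v ≠ 1}).ker ≤ V.subgroupOf (Subgroup.normalizer (V : Set G)) := by
    intro n hn
    rw [MonoidHom.mem_ker] at hn
    rw [Subgroup.mem_subgroupOf]
    apply hC
    intro v hv
    by_cases hv1 : v = 1
    · rw [hv1, mul_one, one_mul]
    · have h1 := congrArg (fun f : Equiv.Perm {v : G // v ∈ V ∧ v ≠ 1} => (f ⟨v, hv, hv1⟩ : G)) hn
      simp only [MulAction.toPermHom_apply, MulAction.toPerm_apply, Equiv.Perm.coe_one, id_eq] at h1
      rw [hsmul] at h1
      have h2 : n.1 * v * n.1⁻¹ = v := h1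
      calc n.1 * v = n.1 * v * n.1⁻¹ * n.1 := by group
        _ = v * n.1 := by rw [h2]
  have h1 : Nat.card (MulAction.toPermHom (Subgroup.normalizer (V : Set G))
      {v : G // v ∈ V ∧ v ≠ 1}).ker ∣ 4 := by
    have := Subgroup.card_dvd_of_le hker
    rw [Nat.card_congr (Subgroup.subgroupOfEquivOfLe hle).toEquiv, hV.card_four] at this
    exact this
  have h2 : Nat.card (MulAction.toPermHom (Subgroup.normalizer (V : Set G))
      {v : G // v ∈ V ∧ v ≠ 1}).range ∣ 6 := by
    have := Subgroup.card_subgroup_dvd_card (MulAction.toPermHom (Subgroup.normalizer (V : Set G))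
      {v : G // v ∈ V ∧ v ≠ 1}).range
    rw [Nat.card_perm, hXcard] at this
    exact this
  have h3 := Subgroup.card_mul_index (MulAction.toPermHom (Subgroup.normalizer (V : Set G))
      {v : G // v ∈ V ∧ v ≠ 1}).ker
  rw [Subgroup.index_ker] at h3
  rw [← h3]
  exact Nat.mul_dvd_mul h1 h2

theorem eight_dvd [Finite G] (V : Subgroup G) (hV4 : Nat.card V = 4) (c : G)
    (hc : c ∈ Subgroup.normalizer (V : Set G)) (hc2 : c * c ∈ V) (hcV : c ∉ V) :
    8 ∣ Nat.card (Subgroup.normalizer (V : Set G)) := by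
  have hle : V ≤ Subgroup.normalizer (V : Set G) := Subgroup.le_normalizer
  have hnorm : (V.subgroupOf (Subgroup.normalizer (V : Set G))).Normal :=
    Subgroup.normal_in_normalizer
  have h1 := Subgroup.card_eq_card_quotient_mul_card_subgroup
    (V.subgroupOf (Subgroup.normalizer (V : Set G)))
  rw [Nat.card_congr (Subgroup.subgroupOfEquivOfLe hle).toEquiv, hV4] at h1
  have ho : orderOf (QuotientGroup.mk (⟨c, hc⟩ : Subgroup.normalizer (V : Set G)) :
      Subgroup.normalizer (V : Set G) ⧸ V.subgroupOf (Subgroup.normalizer (V : Set G))) = 2 := by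
    apply orderOf_eq_prime
    · rw [← QuotientGroup.mk_pow, QuotientGroup.eq_one_iff, Subgroup.mem_subgroupOf]
      show c ^ 2 ∈ V
      rw [pow_two]; exact hc2
    · rw [Ne, QuotientGroup.eq_one_iff, Subgroup.mem_subgroupOf]
      exact hcV
  have h2 := orderOf_dvd_natCard (QuotientGroup.mk (⟨c, hc⟩ : Subgroup.normalizer (V : Set G)) :
      Subgroup.normalizer (V : Set G) ⧸ V.subgroupOf (Subgroup.normalizer (V : Set G)))
  rw [ho] at h2
  obtain ⟨k, hk⟩ := h2
  rw [h1, hk]
  exact ⟨k, by ring⟩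

theorem klein_elems (V : Subgroup G) (hV : IsKleinFour V) (a b : G) (ha : a ∈ V) (hb : b ∈ V)
    (ha1 : a ≠ 1) (hb1 : b ≠ 1) (hab : a ≠ b) (x : G) (hx : x ∈ V) :
    x = 1 ∨ x = a ∨ x = b ∨ x = a * b := by
  have hfin : Finite V := Nat.finite_of_card_ne_zero (by rw [hV.card_four]; norm_num)
  have hle : S0807.VV a b (S0807.klein_sq V hV a ha) (S0807.klein_sq V hV b hb)
      (S0807.klein_comm V hV a b ha hb) ≤ V := by
    intro y hy
    rcases (S0807.mem_VV _ _ _ _ _ y).1 hy with rfl | rfl | rfl | rfl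
    · exact V.one_mem
    · exact ha
    · exact hb
    · exact V.mul_mem ha hb
  have heq := Subgroup.eq_of_le_of_card_ge hle (by
    rw [hV.card_four, S0807.VV_card _ _ _ _ _ ha1 hb1 hab])
  rw [← heq] at hx
  exact (S0807.mem_VV _ _ _ _ _ x).1 hx

theorem cent_of_two (V : Subgroup G) (hV : IsKleinFour V)
    (hC : ∀ c : G, (∀ v ∈ V, c * v = v * c) → c ∈ V) (a b : G) (ha : a ∈ V) (hb : b ∈ V)
    (ha1 : a ≠ 1) (hb1 : b ≠ 1) (hab : a ≠ b) (y : G) (hya : y * a = a * y)
    (hyb : y * b = b * y) : y ∈ V := by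
  apply hC
  intro v hv
  rcases klein_elems V hV a b ha hb ha1 hb1 hab v hv with h | h | h | h
  · rw [h, mul_one, one_mul]
  · rw [h]; exact hya
  · rw [h]; exact hyb
  · rw [h, ← mul_assoc, hya, mul_assoc, hyb, mul_assoc]

theorem exists_third (V : Subgroup G) (hV : IsKleinFour V) (v : G) :
    ∃ b ∈ V, b ≠ 1 ∧ b ≠ v := by
  classical
  by_contra hcon
  push Not at hcon
  have hfin : Finite V := Nat.finite_of_card_ne_zero (by rw [hV.card_four]; norm_num)
  have hinj : Function.Injective (fun x : V => decide ((x : G) = 1)) := by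
    intro x y hxy
    simp only [decide_eq_decide] at hxy
    apply Subtype.ext
    by_cases hx : (x : G) = 1
    · rw [hx, hxy.1 hx]
    · have hy : (y : G) ≠ 1 := fun h => hx (hxy.2 h)
      rw [hcon x x.2 hx, hcon y y.2 hy]
  have := Nat.card_le_card_of_injective _ hinj
  rw [hV.card_four, Nat.card_eq_fintype_card, Fintype.card_bool] at this
  omega

theorem ord3_fix (V : Subgroup G) (hV : IsKleinFour V)
    (hC : ∀ c : G, (∀ v ∈ V, c * v = v * c) → c ∈ V) (x : G)
    (hx : x ∈ Subgroup.normalizer (V : Set G)) (hx3 : x * x * x = 1) (v : G) (hv : v ∈ V)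
    (hv1 : v ≠ 1) (hxv : x * v = v * x) : x = 1 := by
  obtain ⟨b, hb, hb1, hbv⟩ := exists_third V hV v
  have hxb : x * b * x⁻¹ ∈ V := (Subgroup.mem_normalizer_iff.1 hx b).1 hb
  have hvv : v * v = 1 := S0807.klein_sq V hV v hv
  rcases klein_elems V hV v b hv hb hv1 hb1 (Ne.symm hbv) _ hxb with h | h | h | h
  · exact absurd (conj_eq_one_iff.1 h) hb1
  · exfalso
    apply hbv
    have e : x * b * x⁻¹ = x * v * x⁻¹ := by rw [h, hxv]; group
    exact mul_left_cancel (mul_right_cancel e)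
  · have hxb' : x * b = b * x := by
      calc x * b = x * b * x⁻¹ * x := by group
        _ = b * x := by rw [h]
    have hxV := cent_of_two V hV hC v b hv hb hv1 hb1 (Ne.symm hbv) x hxv hxb'
    have := S0807.klein_sq V hV x hxV
    rw [this, one_mul] at hx3
    exact hx3
  · have hxb' : x * b = v * b * x := by
      calc x * b = x * b * x⁻¹ * x := by group
        _ = v * b * x := by rw [h]
    have h2v : (x * x) * v = v * (x * x) := by
      rw [mul_assoc, hxv, ← mul_assoc, hxv, mul_assoc]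
    have h2b : (x * x) * b = b * (x * x) := by
      calc (x * x) * b = x * (x * b) := by group
        _ = x * (v * b * x) := by rw [hxb']
        _ = (x * v) * b * x := by group
        _ = v * (x * b) * x := by rw [hxv]; group
        _ = v * (v * b * x) * x := by rw [hxb']
        _ = (v * v) * b * (x * x) := by group
        _ = b * (x * x) := by rw [hvv, one_mul]
    have hxV := cent_of_two V hV hC v b hv hb hv1 hb1 (Ne.symm hbv) (x * x) h2v h2b
    have h4 := S0807.klein_sq V hV _ hxV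
    calc x = (x * x * x) * x := by rw [hx3, one_mul]
      _ = x * x * (x * x) := by group
      _ = 1 := h4

theorem no_six (V : Subgroup G) (hV : IsKleinFour V)
    (hC : ∀ c : G, (∀ v ∈ V, c * v = v * c) → c ∈ V) (g : G)
    (hg : g ∈ Subgroup.normalizer (V : Set G)) : orderOf g ≠ 6 := by
  intro ho
  have hg6 : g ^ 6 = 1 := by rw [← ho]; exact pow_orderOf_eq_one g
  obtain ⟨u, hu⟩ : ∃ u, u = g * g := ⟨_, rfl⟩
  obtain ⟨t, ht⟩ : ∃ t, t = g * g * g := ⟨_, rfl⟩
  have hu1 : u ≠ 1 := by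
    intro h
    have : orderOf g ∣ 2 := orderOf_dvd_of_pow_eq_one (by rw [pow_two, ← hu]; exact h)
    rw [ho] at this
    omega
  have ht1 : t ≠ 1 := by
    intro h
    have : orderOf g ∣ 3 := orderOf_dvd_of_pow_eq_one (by rw [pow_succ, pow_two, ← ht]; exact h)
    rw [ho] at this
    omega
  have huN : u ∈ Subgroup.normalizer (V : Set G) := by rw [hu]; exact mul_mem hg hg
  have htN : t ∈ Subgroup.normalizer (V : Set G) := by rw [ht]; exact mul_mem (mul_mem hg hg) hg
  have hg6' : g * g * g * g * g * g = 1 := by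
    have : g ^ 6 = g * g * g * g * g * g := by simp only [pow_succ, pow_zero, one_mul]
    rw [← this]; exact hg6
  have hu3 : u * u * u = 1 := by rw [hu]; simp only [← mul_assoc]; exact hg6'
  have ht2 : t * t = 1 := by rw [ht]; simp only [← mul_assoc]; exact hg6'
  have hut : u * t = t * u := by rw [hu, ht]; group
  obtain ⟨a, ha, ha1, -⟩ := exists_third V hV 1
  have htinv : t⁻¹ = t := inv_eq_of_mul_eq_one_left ht2
  obtain ⟨a', ha'def⟩ : ∃ a', a' = t * a * t := ⟨_, rfl⟩
  have ha' : a' ∈ V := by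
    have := (Subgroup.mem_normalizer_iff.1 htN a).1 ha
    rw [htinv] at this
    rw [ha'def]; exact this
  have e1 : t * a = a' * t := by rw [ha'def, mul_assoc (t * a), ht2, mul_one]
  have e2 : t * a' = a * t := by rw [ha'def, ← mul_assoc, ← mul_assoc, ht2, one_mul]
  have hstep1 : ∃ v₀ ∈ V, v₀ ≠ 1 ∧ t * v₀ = v₀ * t := by
    by_cases h : a * a' = 1
    · refine ⟨a, ha, ha1, ?_⟩
      have haa := S0807.klein_sq V hV a ha
      have : a' = a := mul_left_cancel (h.trans haa.symm)
      rw [e1, this]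
    · refine ⟨a * a', V.mul_mem ha ha', h, ?_⟩
      calc t * (a * a') = (t * a) * a' := by group
        _ = a' * (t * a') := by rw [e1]; group
        _ = (a' * a) * t := by rw [e2]; group
        _ = (a * a') * t := by rw [S0807.klein_comm V hV a' a ha' ha]
  obtain ⟨v₀, hv₀, hv₀1, htv⟩ := hstep1
  have hw : u * v₀ * u⁻¹ ∈ V := (Subgroup.mem_normalizer_iff.1 huN v₀).1 hv₀
  have hw1 : u * v₀ * u⁻¹ ≠ 1 := fun h => hv₀1 (conj_eq_one_iff.1 h)
  have htw : t * (u * v₀ * u⁻¹) = (u * v₀ * u⁻¹) * t := by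
    have hut' : t * u = u * t := hut.symm
    have hui : t * u⁻¹ = u⁻¹ * t := by
      calc t * u⁻¹ = u⁻¹ * (u * t) * u⁻¹ := by group
        _ = u⁻¹ * (t * u) * u⁻¹ := by rw [hut']
        _ = u⁻¹ * t := by group
    calc t * (u * v₀ * u⁻¹) = (t * u) * v₀ * u⁻¹ := by group
      _ = u * (t * v₀) * u⁻¹ := by rw [hut']; group
      _ = u * v₀ * (t * u⁻¹) := by rw [htv]; group
      _ = (u * v₀ * u⁻¹) * t := by rw [hui]; group
  by_cases hwv : u * v₀ * u⁻¹ = v₀
  · have huv : u * v₀ = v₀ * u := by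
      calc u * v₀ = u * v₀ * u⁻¹ * u := by group
        _ = v₀ * u := by rw [hwv]
    exact hu1 (ord3_fix V hV hC u huN hu3 v₀ hv₀ hv₀1 huv)
  · have htV := cent_of_two V hV hC v₀ _ hv₀ hw hv₀1 hw1 (Ne.symm hwv) t htv htw
    exact hu1 (ord3_fix V hV hC u huN hu3 t htV ht1 hut)

end abs

section psl

open Matrix

variable {F : Type*} [Field F]

local notation "SL2" => Matrix.SpecialLinearGroup (Fin 2) F
local notation "PSL2" => Matrix.ProjectiveSpecialLinearGroup (Fin 2) F
local notation "J₀" => S0809.J0 F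
local notation "t₀" => (QuotientGroup.mk (S0809.J0 F) : Matrix.ProjectiveSpecialLinearGroup (Fin 2) F)

theorem K_comm_h (h2 : (2 : F) ≠ 0) (g h : SL2) (hg : g * J₀ = J₀ * g)
    (ha : h * J₀ = J₀⁻¹ * h)
    (hc : (QuotientGroup.mk g : PSL2) * QuotientGroup.mk h =
      QuotientGroup.mk h * QuotientGroup.mk g) :
    (QuotientGroup.mk g : PSL2) = 1 ∨ (QuotientGroup.mk g : PSL2) = t₀ := by
  have e1 : h * g⁻¹ = g * h := S0808.anti_conj g h hg ha
  have e2 : (QuotientGroup.mk h : PSL2) * (QuotientGroup.mk g)⁻¹ =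
      QuotientGroup.mk h * QuotientGroup.mk g := by
    rw [← hc, ← QuotientGroup.mk_inv, ← QuotientGroup.mk_mul, ← QuotientGroup.mk_mul, e1]
  have e3 : (QuotientGroup.mk g : PSL2)⁻¹ = QuotientGroup.mk g := mul_left_cancel e2
  have e4 : (QuotientGroup.mk (g * g) : PSL2) = QuotientGroup.mk 1 := by
    rw [QuotientGroup.mk_mul, QuotientGroup.mk_one]
    nth_rewrite 1 [← e3]
    exact inv_mul_cancel _
  rw [S0807.mk_eq_iff] at e4
  rw [S0809.comm_iff] at hg
  obtain ⟨g1, g2⟩ := hg
  have hdet : (g : Matrix (Fin 2) (Fin 2) F) 0 0 * (g : Matrix (Fin 2) (Fin 2) F) 1 1 -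
      (g : Matrix (Fin 2) (Fin 2) F) 0 1 * (g : Matrix (Fin 2) (Fin 2) F) 1 0 = 1 := by
    rw [← Matrix.det_fin_two]; exact g.2
  rw [g1, g2] at hdet
  have two_mul_sq : ∀ x : F, (2 : F) * (x * x) = 0 → x = 0 := by
    intro x hx
    rcases mul_eq_zero.1 hx with h | h
    · exact absurd h h2
    · exact mul_self_eq_zero.1 h
  rcases e4 with e | e
  · left
    have e00 := congrFun (congrFun e 0) 0
    rw [Matrix.SpecialLinearGroup.coe_mul, S0809.entries] at e00
    simp only [Matrix.SpecialLinearGroup.coe_one, Matrix.one_apply_eq, Matrix.of_apply,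
      Matrix.cons_val', Matrix.cons_val_zero, Matrix.cons_val_fin_one] at e00
    rw [g1] at e00
    have hb : (g : Matrix (Fin 2) (Fin 2) F) 1 0 = 0 := by
      apply two_mul_sq
      linear_combination hdet + e00
    rw [hb] at hdet g1
    have ha' : ((g : Matrix (Fin 2) (Fin 2) F) 0 0 - 1) * ((g : Matrix (Fin 2) (Fin 2) F) 0 0 + 1)
        = 0 := by linear_combination hdet
    rw [← QuotientGroup.mk_one, S0807.mk_eq_iff]
    rcases mul_eq_zero.1 ha' with h | h
    · left
      have h' : (g : Matrix (Fin 2) (Fin 2) F) 0 0 = 1 := by linear_combination h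
      symm
      apply S0809.mat_eq
      · rw [h']; simp
      · rw [g1]; simp
      · rw [hb]; simp
      · rw [g2, h']; simp
    · right
      have h' : (g : Matrix (Fin 2) (Fin 2) F) 0 0 = -1 := by linear_combination h
      apply S0809.mat_eq
      · rw [Matrix.neg_apply, h']; simp
      · rw [Matrix.neg_apply, g1]; simp
      · rw [Matrix.neg_apply, hb]; simp
      · rw [Matrix.neg_apply, g2, h']; simp
  · right
    have e00 := congrFun (congrFun e 0) 0
    rw [Matrix.SpecialLinearGroup.coe_mul, S0809.entries] at e00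
    simp only [Matrix.SpecialLinearGroup.coe_one, Matrix.one_apply_eq, Matrix.of_apply,
      Matrix.cons_val', Matrix.cons_val_zero, Matrix.cons_val_fin_one, Matrix.neg_apply] at e00
    rw [g1] at e00
    have hb : (g : Matrix (Fin 2) (Fin 2) F) 0 0 = 0 := by
      apply two_mul_sq
      linear_combination hdet + e00
    rw [hb] at hdet g2
    have ha' : ((g : Matrix (Fin 2) (Fin 2) F) 1 0 - 1) * ((g : Matrix (Fin 2) (Fin 2) F) 1 0 + 1)
        = 0 := by linear_combination hdet
    rw [S0807.mk_eq_iff, S0809.J0_val]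
    rcases mul_eq_zero.1 ha' with h | h
    · left
      have h' : (g : Matrix (Fin 2) (Fin 2) F) 1 0 = 1 := by linear_combination h
      symm
      apply S0809.mat_eq
      · rw [hb]; simp
      · rw [g1, h']; simp
      · rw [h']; simp
      · rw [g2]; simp
    · right
      have h' : (g : Matrix (Fin 2) (Fin 2) F) 1 0 = -1 := by linear_combination h
      apply S0809.mat_eq
      · rw [Matrix.neg_apply, hb]; simp
      · rw [Matrix.neg_apply, g1, h']; simp
      · rw [Matrix.neg_apply, h']; simp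
      · rw [Matrix.neg_apply, g2]; simp

theorem cent_Vc (h2 : (2 : F) ≠ 0) (h : SL2) (ha : h * J₀ = J₀⁻¹ * h) (c : PSL2)
    (hc : ∀ v ∈ S0808.Vc h2 (QuotientGroup.mk h) (S0808.hS h2 h ha), c * v = v * c) :
    c ∈ S0808.Vc h2 (QuotientGroup.mk h) (S0808.hS h2 h ha) := by
  have hct : c * t₀ = t₀ * c := hc _ (Or.inr (Or.inl rfl))
  have hch : c * QuotientGroup.mk h = QuotientGroup.mk h * c :=
    hc _ (Or.inr (Or.inr (Or.inl rfl)))
  have hcent : c ∈ Subgroup.centralizer {t₀} := by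
    rw [Subgroup.mem_centralizer_iff]
    intro x hx
    rw [Set.mem_singleton_iff] at hx
    rw [hx]; exact hct.symm
  rw [S0808.mem_Vc]
  have hh2 : (QuotientGroup.mk h : PSL2) * QuotientGroup.mk h = 1 :=
    S0807.sq_of_order_two _ (S0808.hS h2 h ha).1
  rcases (S0807.cent_iff c).1 hcent with ⟨g, rfl, hg⟩ | ⟨g, rfl, hg⟩
  · rcases K_comm_h h2 g h hg ha hch with e | e
    · left; exact e
    · right; left; exact e
  · have hgh : (g * h) * J₀ = J₀ * (g * h) := by
      rw [mul_assoc, ha, ← mul_assoc, S0808.anti_Jinv g hg, mul_assoc]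
    have hc' : (QuotientGroup.mk (g * h) : PSL2) * QuotientGroup.mk h =
        QuotientGroup.mk h * QuotientGroup.mk (g * h) := by
      rw [QuotientGroup.mk_mul]
      calc (QuotientGroup.mk g : PSL2) * QuotientGroup.mk h * QuotientGroup.mk h
          = QuotientGroup.mk h * QuotientGroup.mk g * QuotientGroup.mk h := by rw [hch]
        _ = QuotientGroup.mk h * (QuotientGroup.mk g * QuotientGroup.mk h) := mul_assoc _ _ _
    rcases K_comm_h h2 (g * h) h hgh ha hc' with e | e
    · right; right; left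
      rw [QuotientGroup.mk_mul] at e
      calc (QuotientGroup.mk g : PSL2)
          = (QuotientGroup.mk g * QuotientGroup.mk h) * QuotientGroup.mk h := by
            rw [mul_assoc, hh2, mul_one]
        _ = QuotientGroup.mk h := by rw [e, one_mul]
    · right; right; right
      rw [QuotientGroup.mk_mul] at e
      calc (QuotientGroup.mk g : PSL2)
          = (QuotientGroup.mk g * QuotientGroup.mk h) * QuotientGroup.mk h := by
            rw [mul_assoc, hh2, mul_one]
        _ = t₀ * QuotientGroup.mk h := by rw [e]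

theorem two_eq_zero_of_even [Fintype F] (h : Fintype.card F % 2 = 0) : (2 : F) = 0 := by
  obtain ⟨p, hp⟩ := CharP.exists F
  obtain ⟨n, hpn, hcard⟩ := FiniteField.card F p
  have hp2 : p = 2 := by
    have h2 : 2 ∣ p ^ (n : ℕ) := by rw [← hcard]; exact Nat.dvd_of_mod_eq_zero h
    have := Nat.Prime.dvd_of_dvd_pow Nat.prime_two h2
    exact ((Nat.prime_dvd_prime_iff_eq Nat.prime_two hpn).1 this).symm
  subst hp2
  exact_mod_cast CharP.cast_eq_zero F 2

theorem sl2_sq_char2 (h2 : (2 : F) = 0) (A : SL2) (h4 : (A * A) * (A * A) = 1) : A * A = 1 := by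
  obtain ⟨M, hM⟩ : ∃ M : Matrix (Fin 2) (Fin 2) F, M = (A : Matrix (Fin 2) (Fin 2) F) := ⟨_, rfl⟩
  have hdet : M 0 0 * M 1 1 - M 0 1 * M 1 0 = 1 := by
    rw [hM, ← Matrix.det_fin_two]; exact A.2
  have h4' := congrArg (fun y : SL2 => (y : Matrix (Fin 2) (Fin 2) F)) h4
  simp only [Matrix.SpecialLinearGroup.coe_mul, Matrix.SpecialLinearGroup.coe_one] at h4'
  rw [← hM] at h4'
  obtain ⟨B, hB⟩ : ∃ B : Matrix (Fin 2) (Fin 2) F, B = M * M := ⟨_, rfl⟩
  rw [← hB] at h4'
  have hB' := hB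
  rw [S0809.entries] at hB'
  have b00 : B 0 0 = M 0 0 * M 0 0 + M 0 1 * M 1 0 := by rw [hB']; simp
  have b01 : B 0 1 = M 0 0 * M 0 1 + M 0 1 * M 1 1 := by rw [hB']; simp
  have b10 : B 1 0 = M 1 0 * M 0 0 + M 1 1 * M 1 0 := by rw [hB']; simp
  have b11 : B 1 1 = M 1 0 * M 0 1 + M 1 1 * M 1 1 := by rw [hB']; simp
  rw [S0809.entries] at h4'
  have c00 := congrFun (congrFun h4' 0) 0
  have c11 := congrFun (congrFun h4' 1) 1
  simp only [Matrix.one_apply_eq, Matrix.of_apply,
    Matrix.cons_val', Matrix.cons_val_zero, Matrix.cons_val_one, Matrix.cons_val_fin_one] at c00 c11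
  have hdetB : B 0 0 * B 1 1 - B 0 1 * B 1 0 = 1 := by
    rw [b00, b01, b10, b11]
    linear_combination (M 0 0 * M 1 1 - M 0 1 * M 1 0 + 1) * hdet
  have htrB : (B 0 0 + B 1 1) * (B 0 0 + B 1 1) = 0 := by
    linear_combination c00 + c11 + 2 * hdetB + 2 * h2
  have htrB' : B 0 0 + B 1 1 = 0 := mul_self_eq_zero.1 htrB
  have htau : (M 0 0 + M 1 1) * (M 0 0 + M 1 1) = 0 := by
    rw [b00, b11] at htrB'
    linear_combination htrB' + 2 * hdet + h2
  have htau' : M 0 0 + M 1 1 = 0 := mul_self_eq_zero.1 htau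
  apply Subtype.ext
  rw [Matrix.SpecialLinearGroup.coe_mul, ← hM, ← hB, Matrix.SpecialLinearGroup.coe_one]
  apply S0809.mat_eq
  · rw [b00, Matrix.one_apply_eq]
    linear_combination M 0 0 * htau' - hdet - h2
  · rw [b01, Matrix.one_apply_ne (by decide)]
    linear_combination M 0 1 * htau'
  · rw [b10, Matrix.one_apply_ne (by decide)]
    linear_combination M 1 0 * htau'
  · rw [b11, Matrix.one_apply_eq]
    linear_combination M 1 1 * htau' - hdet - h2

theorem psl2_sq_char2 (h2 : (2 : F) = 0) (g : PSL2) (h4 : g ^ 4 = 1) : g ^ 2 = 1 := by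
  obtain ⟨A, rfl⟩ := QuotientGroup.mk_surjective g
  have hneg : ∀ M : Matrix (Fin 2) (Fin 2) F, -M = M := fun M => by
    rw [neg_eq_iff_add_eq_zero, ← two_smul F M, h2, zero_smul]
  have e : (QuotientGroup.mk ((A * A) * (A * A)) : PSL2) = QuotientGroup.mk 1 := by
    rw [QuotientGroup.mk_one, ← h4, ← QuotientGroup.mk_pow]
    congr 1
    simp only [pow_succ, pow_zero, one_mul, mul_assoc]
  rw [S0807.mk_eq_iff, hneg, or_self] at e
  have e' : (A * A) * (A * A) = 1 := (Subtype.ext e).symm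
  rw [← QuotientGroup.mk_pow, pow_two, sl2_sq_char2 h2 A e', QuotientGroup.mk_one]

theorem no_S4_char2 (h2 : (2 : F) = 0) (H : Subgroup PSL2) (e : H ≃* Equiv.Perm (Fin 4)) :
    False := by
  have hσ4 : (finRotate 4) ^ 4 = (1 : Equiv.Perm (Fin 4)) := by decide
  have hσ2 : (finRotate 4) ^ 2 ≠ (1 : Equiv.Perm (Fin 4)) := by decide
  have h4 : ((e.symm (finRotate 4) : H) : PSL2) ^ 4 = 1 := by
    rw [← Subgroup.coe_pow, ← map_pow, hσ4, map_one, Subgroup.coe_one]
  have h2' := psl2_sq_char2 h2 _ h4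
  apply hσ2
  rw [← Subgroup.coe_pow, ← map_pow] at h2'
  have h3 : e.symm ((finRotate 4) ^ 2) = 1 := Subtype.ext h2'
  have := congrArg e h3
  rw [MulEquiv.apply_symm_apply, map_one] at this
  exact this

theorem exists_S4 [Fintype F] (hodd : Fintype.card F % 2 = 1) (h2 : (2 : F) ≠ 0)
    (hs : IsSquare (2 : F)) :
    ∃ H : Subgroup PSL2, Nonempty (H ≃* Equiv.Perm (Fin 4)) := by
  classical
  obtain ⟨h₁, ha₁⟩ := S0807.exists_anti (F := F) hodd
  obtain ⟨r, hr⟩ := hs
  obtain ⟨k₀, hk₀, hkk₀⟩ := S0808.exists_sqrt_J h2 r hr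
  have haJ : (J₀ * h₁) * J₀ = J₀⁻¹ * (J₀ * h₁) := S0808.anti_mul J₀ h₁ rfl ha₁
  have e1 := S0808.Vh_map h2 k₀ h₁ (J₀ * h₁) hk₀ ha₁ haJ (by rw [hkk₀])
  have e2 := S0808.Vh_J h2 h₁ ha₁ haJ
  rw [← e2] at e1
  obtain ⟨V, hVdef⟩ : ∃ V, V = S0808.Vc h2 (QuotientGroup.mk h₁) (S0808.hS h2 h₁ ha₁) :=
    ⟨_, rfl⟩
  rw [← hVdef] at e1
  have hVk : IsKleinFour V := by rw [hVdef]; exact S0808.Vc_klein h2 _ _
  have hC : ∀ c : PSL2, (∀ v ∈ V, c * v = v * c) → c ∈ V := by
    rw [hVdef]; exact cent_Vc h2 h₁ ha₁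
  have hcN : (QuotientGroup.mk k₀ : PSL2) ∈ Subgroup.normalizer (V : Set PSL2) := by
    rw [Subgroup.mem_normalizer_iff]
    intro x
    have e3 := S0808.mem_cj V (QuotientGroup.mk k₀ : PSL2)
      ((QuotientGroup.mk k₀ : PSL2) * x * (QuotientGroup.mk k₀ : PSL2)⁻¹)
    rw [← e1] at e3
    have e4 : (QuotientGroup.mk k₀ : PSL2)⁻¹ * ((QuotientGroup.mk k₀ : PSL2) * x *
        (QuotientGroup.mk k₀ : PSL2)⁻¹) * (QuotientGroup.mk k₀ : PSL2) = x := by group
    rw [e4] at e3
    exact e3.symm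
  have hc2 : (QuotientGroup.mk k₀ : PSL2) * QuotientGroup.mk k₀ ∈ V := by
    rw [← QuotientGroup.mk_mul, hkk₀, hVdef]; exact Or.inr (Or.inl rfl)
  have hcV : (QuotientGroup.mk k₀ : PSL2) ∉ V := by
    intro hc
    have := S0807.klein_sq _ hVk _ hc
    rw [← QuotientGroup.mk_mul, hkk₀] at this
    exact S0808.t0_ne h2 this
  have h24 := norm_dvd_24 V hVk hC
  have h8 := eight_dvd V hVk.card_four _ hcN hc2 hcV
  have hle := orbit_le V hVk
  have h12 := S0807.result (F := F) rfl (Nat.odd_iff.2 hodd)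
  have hN : Nat.card (Subgroup.normalizer (V : Set PSL2)) = 24 := by
    have : Nonempty {V : Subgroup PSL2 // IsKleinFour V} := ⟨⟨V, hVk⟩⟩
    have hK : 0 < Nat.card {V : Subgroup PSL2 // IsKleinFour V} := Nat.card_pos
    obtain ⟨N, hNdef⟩ : ∃ N, N = Nat.card (Subgroup.normalizer (V : Set PSL2)) := ⟨_, rfl⟩
    rw [← hNdef] at h24 h8 hle ⊢
    rw [← h12] at hle
    have h12le : 12 ≤ N := by
      by_contra hlt
      push Not at hlt
      nlinarith
    have hle24 : N ≤ 24 := Nat.le_of_dvd (by norm_num) h24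
    interval_cases N <;> omega
  have h6 : ∀ g : ↥(Subgroup.normalizer (V : Set PSL2)), orderOf g ≠ 6 := by
    intro g
    rw [← Subgroup.orderOf_coe]
    exact no_six V hVk hC g.1 g.2
  exact ⟨_, Cfsg.Agent.Lib.Helper6.s4_of_card_24 hN h6⟩

end psl

/-- PSL_2(q) has a subgroup isomorphic to S_4 iff q² ≡ 1 (mod 16). -/
theorem result {F : Type*} [Field F] [Fintype F] {q : ℕ} (hF : Fintype.card F = q) : (∃ H : Subgroup (Matrix.ProjectiveSpecialLinearGroup (Fin 2) F), Nonempty (H ≃* Equiv.Perm (Fin 4))) ↔ q ^ 2 % 16 = 1 := by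
  classical
  constructor
  · rintro ⟨H, ⟨e⟩⟩
    rcases Nat.even_or_odd q with hev | hodd
    · exfalso
      exact no_S4_char2 (two_eq_zero_of_even (by rw [hF]; exact Nat.even_iff.1 hev)) H e
    · have hdvd : 24 ∣ Nat.card (Matrix.ProjectiveSpecialLinearGroup (Fin 2) F) := by
        have h1 := Subgroup.card_subgroup_dvd_card H
        rw [Nat.card_congr e.toEquiv, Nat.card_perm, Nat.card_eq_fintype_card,
          Fintype.card_fin] at h1
        exact h1
      have hP := Cfsg.Agent.S0243.result hF 2 (le_refl 2)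
      rw [Fin.prod_univ_two] at hP
      simp only [Fin.val_zero, Fin.val_one, pow_zero, pow_one] at hP
      have hq1 : 1 < q := by rw [← hF]; exact Fintype.one_lt_card
      have hg : Nat.gcd 2 (q - 1) = 2 := by
        obtain ⟨t, ht⟩ := hodd
        rw [ht, Nat.add_sub_cancel]; simp
      obtain ⟨P, hPdef⟩ : ∃ P, P = Nat.card (Matrix.ProjectiveSpecialLinearGroup (Fin 2) F) :=
        ⟨_, rfl⟩
      rw [← hPdef] at hP hdvd
      have hP' : 2 * P = q * (q ^ 2 - 1) := by
        have e1 : q ^ 2 - q = q * (q - 1) := by rw [Nat.mul_sub, mul_one, sq]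
        have : (q - 1) * (2 * P) = (q - 1) * (q * (q ^ 2 - 1)) := by
          rw [hg, e1] at hP
          linarith
        exact Nat.eq_of_mul_eq_mul_left (by omega) this
      have h48 : 16 ∣ (q ^ 2 - 1) * q := by
        obtain ⟨c, hc⟩ := hdvd
        rw [mul_comm, ← hP', hc]
        exact ⟨3 * c, by ring⟩
      have hcop : Nat.Coprime 16 q := by
        have : Nat.Coprime (2 ^ 4) q := Nat.Coprime.pow_left 4 (Nat.coprime_two_left.2 hodd)
        exact this
      have h16 : 16 ∣ q ^ 2 - 1 := hcop.dvd_of_dvd_mul_right h48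
      have hq2 : 1 ≤ q ^ 2 := Nat.one_le_pow _ _ (by omega)
      obtain ⟨Q, hQ⟩ : ∃ Q, Q = q ^ 2 := ⟨_, rfl⟩
      rw [← hQ] at h16 hq2 ⊢
      omega
  · intro hq
    have hq8 : q % 8 = 1 ∨ q % 8 = 7 := by
      have h1 : q ^ 2 % 16 = (q % 16) ^ 2 % 16 := Nat.pow_mod q 2 16
      rw [h1] at hq
      have h2 : q % 16 < 16 := Nat.mod_lt _ (by norm_num)
      have h3 : q % 8 = (q % 16) % 8 := by omega
      rw [h3]
      generalize q % 16 = r at hq h2 ⊢
      interval_cases r <;> first | decide | (exfalso; revert hq; decide)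
    have hodd' : Fintype.card F % 2 = 1 := by rw [hF]; omega
    have h2 : (2 : F) ≠ 0 := by
      intro h
      have hchar : ringChar F = 2 := by
        have : ringChar F ∣ 2 := by
          apply (ringChar.spec F 2).1
          exact_mod_cast h
        rcases (Nat.dvd_prime Nat.prime_two).1 this with h1 | h1
        · exfalso
          have := CharP.ringChar_ne_one (R := F)
          exact this h1
        · exact h1
      have := FiniteField.even_card_of_char_two hchar
      omega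
    have hsq := FiniteField.isSquare_two_iff (F := F)
    rw [hF] at hsq
    exact exists_S4 hodd' h2 (by rw [hsq]; omega)

end Cfsg.Agent.S0803
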