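import Mathlib
import Cfsg.Statements.S0805
import Cfsg.Agent.S0243

set_option autoImplicit false
open Cfsg

namespace Cfsg.Agent.S0805

open Matrix

/-- An embedding of finite fields. -/
theorem exists_emb {F K : Type*} [Field F] [Fintype F] [Field K] [Fintype K] (m : ℕ)
    (hK : Fintype.card K ^ m = Fintype.card F) : Nonempty (K →+* F) := by
  classical
  obtain ⟨p, hp⟩ := CharP.exists K
  obtain ⟨a, hpp, ha⟩ := FiniteField.card K p
  obtain ⟨p', hp'⟩ := CharP.exists F
  obtain ⟨b, hpp', hb⟩ := FiniteField.card F p'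
  have hpe : p' = p := by
    have h1 : p' ∣ p ^ ((a : ℕ) * m) := by
      rw [pow_mul, ← ha, hK, hb]
      exact dvd_pow_self _ b.ne_zero
    exact (Nat.prime_dvd_prime_iff_eq hpp' hpp).1 (hpp'.dvd_of_dvd_pow h1)
  subst hpe
  have : Fact p'.Prime := ⟨hpp⟩
  let _i1 : Algebra (ZMod p') K := ZMod.algebra K p'
  let _i2 : Algebra (ZMod p') F := ZMod.algebra F p'
  have h1 : Module.finrank (ZMod p') K = a := by
    have := Module.card_eq_pow_finrank (K := ZMod p') (V := K)
    rw [ZMod.card, ha] at this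
    exact (Nat.pow_right_injective hpp.two_le this).symm
  have h2 : Module.finrank (ZMod p') F = (a : ℕ) * m := by
    have := Module.card_eq_pow_finrank (K := ZMod p') (V := F)
    rw [ZMod.card, ← hK, ha, ← pow_mul] at this
    exact (Nat.pow_right_injective hpp.two_le this).symm
  obtain ⟨f⟩ := FiniteField.nonempty_algHom_of_finrank_dvd (F := ZMod p') (K := K) (L := F)
    (by rw [h1, h2]; exact dvd_mul_right _ _)
  exact ⟨f.toRingHom⟩

variable {F K : Type*} [Field F] [Field K]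

theorem sl_map_inj (ι : K →+* F) :
    Function.Injective (Matrix.SpecialLinearGroup.map (n := Fin 2) ι) := by
  intro g h hgh
  apply Subtype.ext
  have := congrArg (fun x : Matrix.SpecialLinearGroup (Fin 2) F => (x : Matrix (Fin 2) (Fin 2) F)) hgh
  ext i j
  have h2 := congrFun (congrFun this i) j
  exact ι.injective h2

/-- The map `SL₂(K) → PSL₂(F)`. -/
noncomputable def phi (ι : K →+* F) :
    Matrix.SpecialLinearGroup (Fin 2) K →* Matrix.ProjectiveSpecialLinearGroup (Fin 2) F :=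
  (QuotientGroup.mk' (Subgroup.center (Matrix.SpecialLinearGroup (Fin 2) F))).comp
    (Matrix.SpecialLinearGroup.map ι)

theorem phi_ker (ι : K →+* F) :
    (phi ι).ker = Subgroup.center (Matrix.SpecialLinearGroup (Fin 2) K) := by
  ext g
  rw [MonoidHom.mem_ker, phi, MonoidHom.comp_apply, QuotientGroup.mk'_apply,
    QuotientGroup.eq_one_iff]
  constructor
  · intro h
    rw [Subgroup.mem_center_iff]
    intro x
    apply sl_map_inj ι
    rw [map_mul, map_mul]
    exact Subgroup.mem_center_iff.1 h _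
  · intro h
    rw [Matrix.SpecialLinearGroup.mem_center_iff] at h ⊢
    obtain ⟨r, hr, hrg⟩ := h
    refine ⟨ι r, by rw [← map_pow, hr, map_one], ?_⟩
    ext i j
    have := congrFun (congrFun hrg i) j
    show (Matrix.scalar (Fin 2) (ι r)) i j = ι ((g : Matrix (Fin 2) (Fin 2) K) i j)
    rw [← this]
    simp only [Matrix.scalar_apply, Matrix.diagonal_apply]
    split_ifs <;> simp

theorem part1 (ι : K →+* F) : ∃ H : Subgroup (Matrix.ProjectiveSpecialLinearGroup (Fin 2) F),
    Nonempty (H ≃* Matrix.ProjectiveSpecialLinearGroup (Fin 2) K) :=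
  ⟨(phi ι).range, ⟨((QuotientGroup.quotientMulEquivOfEq (phi_ker ι)).symm.trans
    (QuotientGroup.quotientKerEquivRange (phi ι))).symm⟩⟩

theorem mk_eq_of_smul (A B : Matrix.SpecialLinearGroup (Fin 2) F) (c : F)
    (h : (B : Matrix (Fin 2) (Fin 2) F) = c • (A : Matrix (Fin 2) (Fin 2) F)) :
    (QuotientGroup.mk A : Matrix.ProjectiveSpecialLinearGroup (Fin 2) F) = QuotientGroup.mk B := by
  rw [QuotientGroup.eq, Subgroup.mem_center_iff]
  intro X
  have e : ((A⁻¹ * B : Matrix.SpecialLinearGroup (Fin 2) F) : Matrix (Fin 2) (Fin 2) F) =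
      c • (1 : Matrix (Fin 2) (Fin 2) F) := by
    rw [Matrix.SpecialLinearGroup.coe_mul, h, Matrix.mul_smul, ← Matrix.SpecialLinearGroup.coe_mul,
      inv_mul_cancel, Matrix.SpecialLinearGroup.coe_one]
  have e2 : ((X * (A⁻¹ * B) : Matrix.SpecialLinearGroup (Fin 2) F) : Matrix (Fin 2) (Fin 2) F) =
      ((A⁻¹ * B * X : Matrix.SpecialLinearGroup (Fin 2) F) : Matrix (Fin 2) (Fin 2) F) := by
    rw [Matrix.SpecialLinearGroup.coe_mul X, Matrix.SpecialLinearGroup.coe_mul (A⁻¹ * B) X, e,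
      Matrix.mul_smul, Matrix.smul_mul, Matrix.mul_one, Matrix.one_mul]
  exact Subtype.ext e2

theorem exists_hom (ι : K →+* F) (hsq : ∀ d : K, d ≠ 0 → IsSquare (ι d)) :
    ∃ Φ : Matrix.GeneralLinearGroup (Fin 2) K →* Matrix.ProjectiveSpecialLinearGroup (Fin 2) F,
      Φ.ker = Subgroup.center (Matrix.GeneralLinearGroup (Fin 2) K) := by
  classical
  have hdet : ∀ g : Matrix.GeneralLinearGroup (Fin 2) K,
      (g : Matrix (Fin 2) (Fin 2) K).det ≠ 0 := by
    intro g
    rw [← Matrix.GeneralLinearGroup.val_det_apply]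
    exact Units.ne_zero _
  choose s hs using fun g : Matrix.GeneralLinearGroup (Fin 2) K =>
    hsq (g : Matrix (Fin 2) (Fin 2) K).det (hdet g)
  have hs0 : ∀ g, s g ≠ 0 := by
    intro g h0
    have := hs g
    rw [h0, mul_zero] at this
    exact hdet g (ι.injective (by rw [this, map_zero]))
  have hdet1 : ∀ g : Matrix.GeneralLinearGroup (Fin 2) K,
      ((s g)⁻¹ • ((g : Matrix (Fin 2) (Fin 2) K).map ι)).det = 1 := by
    intro g
    have e : ((g : Matrix (Fin 2) (Fin 2) K).map ι).det = ι (g : Matrix (Fin 2) (Fin 2) K).det :=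
      (RingHom.map_det ι _).symm
    rw [Matrix.det_smul, e, hs g, Fintype.card_fin]
    field_simp [hs0 g]
  obtain ⟨ψ, hψ⟩ : ∃ ψ : Matrix.GeneralLinearGroup (Fin 2) K → Matrix.SpecialLinearGroup (Fin 2) F,
      ∀ g, (ψ g : Matrix (Fin 2) (Fin 2) F) = (s g)⁻¹ • ((g : Matrix (Fin 2) (Fin 2) K).map ι) :=
    ⟨fun g => ⟨_, hdet1 g⟩, fun g => rfl⟩
  have hmul : ∀ g h : Matrix.GeneralLinearGroup (Fin 2) K,
      (QuotientGroup.mk (ψ (g * h)) : Matrix.ProjectiveSpecialLinearGroup (Fin 2) F) =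
        QuotientGroup.mk (ψ g) * QuotientGroup.mk (ψ h) := by
    intro g h
    rw [← QuotientGroup.mk_mul]
    apply mk_eq_of_smul _ _ ((s g)⁻¹ * (s h)⁻¹ * s (g * h))
    rw [Matrix.SpecialLinearGroup.coe_mul, hψ, hψ, hψ, Units.val_mul, Matrix.map_mul,
      Matrix.smul_mul, Matrix.mul_smul, smul_smul, smul_smul]
    congr 1
    field_simp [hs0 g, hs0 h, hs0 (g * h)]
  refine ⟨MonoidHom.mk' (fun g => QuotientGroup.mk (ψ g)) hmul, ?_⟩
  ext g
  rw [MonoidHom.mem_ker, MonoidHom.mk'_apply, QuotientGroup.eq_one_iff]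
  constructor
  · intro h
    rw [Matrix.SpecialLinearGroup.mem_center_iff] at h
    obtain ⟨r, -, hr⟩ := h
    have hg : (g : Matrix (Fin 2) (Fin 2) K).map ι = (s g * r) • (1 : Matrix (Fin 2) (Fin 2) F) := by
      have h1 := hψ g
      rw [← hr] at h1
      have h2 : (g : Matrix (Fin 2) (Fin 2) K).map ι = s g • (Matrix.scalar (Fin 2) r) := by
        rw [h1, smul_smul, mul_inv_cancel₀ (hs0 g), one_smul]
      rw [h2, ← smul_smul]
      congr 1
      ext i j
      simp [Matrix.scalar_apply, Matrix.diagonal_apply, Matrix.one_apply]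
    rw [Subgroup.mem_center_iff]
    intro x
    apply Units.ext
    apply Matrix.map_injective ι.injective
    show ((x : Matrix (Fin 2) (Fin 2) K) * (g : Matrix (Fin 2) (Fin 2) K)).map ι =
      ((g : Matrix (Fin 2) (Fin 2) K) * (x : Matrix (Fin 2) (Fin 2) K)).map ι
    rw [Matrix.map_mul, Matrix.map_mul, hg, Matrix.mul_smul,
      Matrix.smul_mul, Matrix.mul_one, Matrix.one_mul]
  · intro h
    rw [Matrix.GeneralLinearGroup.center_eq_range_scalar] at h
    obtain ⟨u, rfl⟩ := h
    rw [Subgroup.mem_center_iff]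
    intro X
    have e : (ψ (Matrix.GeneralLinearGroup.scalar (Fin 2) u) : Matrix (Fin 2) (Fin 2) F) =
        ((s (Matrix.GeneralLinearGroup.scalar (Fin 2) u))⁻¹ * ι (u : K)) •
          (1 : Matrix (Fin 2) (Fin 2) F) := by
      rw [hψ, ← smul_smul]
      congr 1
      ext i j
      simp [Matrix.GeneralLinearGroup.scalar, Matrix.scalar_apply, Matrix.diagonal_apply,
        Matrix.one_apply]
      split_ifs <;> simp
    have e2 : ((X * ψ (Matrix.GeneralLinearGroup.scalar (Fin 2) u) :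
        Matrix.SpecialLinearGroup (Fin 2) F) : Matrix (Fin 2) (Fin 2) F) =
        ((ψ (Matrix.GeneralLinearGroup.scalar (Fin 2) u) * X :
        Matrix.SpecialLinearGroup (Fin 2) F) : Matrix (Fin 2) (Fin 2) F) := by
      rw [Matrix.SpecialLinearGroup.coe_mul, Matrix.SpecialLinearGroup.coe_mul, e, Matrix.mul_smul,
        Matrix.smul_mul, Matrix.mul_one, Matrix.one_mul]
    exact Subtype.ext e2

theorem part2a (ι : K →+* F) (hsq : ∀ d : K, d ≠ 0 → IsSquare (ι d)) :
    ∃ H : Subgroup (Matrix.ProjectiveSpecialLinearGroup (Fin 2) F),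
      Nonempty (H ≃* Matrix.ProjGenLinGroup (Fin 2) K) := by
  obtain ⟨Φ, hΦ⟩ := exists_hom ι hsq
  exact ⟨Φ.range, ⟨((QuotientGroup.quotientMulEquivOfEq hΦ).symm.trans
    (QuotientGroup.quotientKerEquivRange Φ)).symm⟩⟩

theorem sq_of_even {F K : Type*} [Field F] [Fintype F] [Field K] [Fintype K] {q : ℕ}
    (hF : Fintype.card F = q) (hodd : Odd q) (m : ℕ) (hK : Fintype.card K ^ m = q) (hm : Even m)
    (ι : K →+* F) (d : K) (hd : d ≠ 0) : IsSquare (ι d) := by
  have hchar : ringChar F ≠ 2 := by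
    intro h2
    have := FiniteField.even_card_of_char_two h2
    rw [hF] at this
    rw [Nat.odd_iff] at hodd
    omega
  have hι : ι d ≠ 0 := fun h => hd (ι.injective (by rw [h, map_zero]))
  rw [FiniteField.isSquare_iff hchar hι, hF]
  obtain ⟨j, rfl⟩ := hm
  obtain ⟨k, hk⟩ : ∃ k, k = Fintype.card K := ⟨_, rfl⟩
  rw [← hk] at hK
  have hkodd : Odd k := by
    rcases Nat.even_or_odd k with he | ho
    · exfalso
      have hj : j + j ≠ 0 := by
        intro h0
        rw [h0, pow_zero] at hK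
        have := Fintype.one_lt_card (α := F)
        omega
      have : Even q := by rw [← hK]; exact (Nat.even_pow.2 ⟨he, hj⟩)
      exact (Nat.not_even_iff_odd.2 hodd) this
    · exact ho
  have h1 : k ^ 2 - 1 ∣ q - 1 := by
    have := Nat.sub_one_dvd_pow_sub_one (k ^ 2) j
    rwa [← pow_mul, (by ring : 2 * j = j + j), hK] at this
  obtain ⟨c, hc⟩ := hkodd
  have h2 : k ^ 2 - 1 = 2 * ((k - 1) * (c + 1)) := by
    subst hc
    have : (2 * c + 1) ^ 2 = 2 * (2 * c * (c + 1)) + 1 := by ring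
    rw [this]; simp
  obtain ⟨t, ht⟩ := hodd
  have h3 : q - 1 = 2 * (q / 2) := by omega
  rw [h2, h3] at h1
  have h4 : (k - 1) * (c + 1) ∣ q / 2 := Nat.dvd_of_mul_dvd_mul_left (by norm_num) h1
  obtain ⟨e, he⟩ := dvd_of_mul_right_dvd h4
  rw [he, pow_mul, ← map_pow, hk, FiniteField.pow_card_sub_one_eq_one d hd, map_one, one_pow]

theorem card_pgl {K : Type*} [Field K] [Fintype K] :
    Nat.card (Matrix.ProjGenLinGroup (Fin 2) K) * (Fintype.card K - 1) =
      (Fintype.card K ^ 2 - 1) * (Fintype.card K ^ 2 - Fintype.card K) := by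
  classical
  have h1 := Subgroup.card_eq_card_quotient_mul_card_subgroup
    (Subgroup.center (Matrix.GeneralLinearGroup (Fin 2) K))
  have h2 : Nat.card (Subgroup.center (Matrix.GeneralLinearGroup (Fin 2) K)) =
      Fintype.card K - 1 := by
    rw [Matrix.GeneralLinearGroup.center_eq_range_scalar]
    have hinj : Function.Injective
        (Matrix.GeneralLinearGroup.scalar (Fin 2) : Kˣ →* Matrix.GeneralLinearGroup (Fin 2) K) := by
      intro u v huv
      have := congrArg (fun g : Matrix.GeneralLinearGroup (Fin 2) K =>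
        (g : Matrix (Fin 2) (Fin 2) K) 0 0) huv
      apply Units.ext
      simpa [Matrix.GeneralLinearGroup.scalar] using this
    rw [← Nat.card_congr (MonoidHom.ofInjective hinj).toEquiv, Nat.card_units,
      Nat.card_eq_fintype_card]
  have h3 := Matrix.card_GL_field (𝔽 := K) 2
  rw [Fin.prod_univ_two] at h3
  simp only [Fin.val_zero, Fin.val_one, pow_zero, pow_one] at h3
  rw [← h3, h1, h2]
  rfl

theorem part2b {F K : Type*} [Field F] [Fintype F] [Field K] [Fintype K] {q : ℕ}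
    (hF : Fintype.card F = q) (hodd : Odd q) (m : ℕ) (hK : Fintype.card K ^ m = q)
    (H : Subgroup (Matrix.ProjectiveSpecialLinearGroup (Fin 2) F))
    (e : H ≃* Matrix.ProjGenLinGroup (Fin 2) K) : Even m := by
  classical
  by_contra hm
  rw [Nat.not_even_iff_odd] at hm
  obtain ⟨k, hk⟩ : ∃ k, k = Fintype.card K := ⟨_, rfl⟩
  rw [← hk] at hK
  have hk1 : 1 < k := hk ▸ Fintype.one_lt_card
  have hm0 : m ≠ 0 := by rintro rfl; simp at hm
  have hkodd : Odd k := by
    rcases Nat.even_or_odd k with he | ho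
    · exfalso
      have : Even q := by rw [← hK]; exact (Nat.even_pow.2 ⟨he, hm0⟩)
      exact (Nat.not_even_iff_odd.2 hodd) this
    · exact ho
  have hdvd : Nat.card (Matrix.ProjGenLinGroup (Fin 2) K) ∣
      Nat.card (Matrix.ProjectiveSpecialLinearGroup (Fin 2) F) := by
    rw [← Nat.card_congr e.toEquiv]
    exact Subgroup.card_subgroup_dvd_card H
  have hN := card_pgl (K := K)
  rw [← hk] at hN
  have hP := Cfsg.Agent.S0243.result hF 2 (le_refl 2)
  rw [Fin.prod_univ_two] at hP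
  simp only [Fin.val_zero, Fin.val_one, pow_zero, pow_one] at hP
  have hq1 : 1 < q := by rw [← hF]; exact Fintype.one_lt_card
  have hg : Nat.gcd 2 (q - 1) = 2 := by
    obtain ⟨t, ht⟩ := hodd
    rw [ht, Nat.add_sub_cancel]; simp
  obtain ⟨N, hNdef⟩ : ∃ N, N = Nat.card (Matrix.ProjGenLinGroup (Fin 2) K) := ⟨_, rfl⟩
  obtain ⟨P, hPdef⟩ : ∃ P, P = Nat.card (Matrix.ProjectiveSpecialLinearGroup (Fin 2) F) :=
    ⟨_, rfl⟩
  rw [← hNdef] at hN hdvd
  rw [← hPdef] at hP hdvd
  have hN' : N = k * (k ^ 2 - 1) := by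
    have e1 : k ^ 2 - k = k * (k - 1) := by rw [Nat.mul_sub, mul_one, sq]
    have : N * (k - 1) = (k * (k ^ 2 - 1)) * (k - 1) := by
      rw [hN, e1]; ring
    exact Nat.eq_of_mul_eq_mul_right (by omega) this
  have hP' : 2 * P = q * (q ^ 2 - 1) := by
    have e1 : q ^ 2 - q = q * (q - 1) := by rw [Nat.mul_sub, mul_one, sq]
    have : (q - 1) * (2 * P) = (q - 1) * (q * (q ^ 2 - 1)) := by
      rw [hg, e1] at hP
      linarith
    exact Nat.eq_of_mul_eq_mul_left (by omega) this
  have hk2 : 2 ≤ k ^ 2 := by nlinarith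
  obtain ⟨S, hS, hSodd⟩ : ∃ S, q ^ 2 - 1 = (k ^ 2 - 1) * S ∧ Odd S := by
    refine ⟨∑ i ∈ Finset.range m, (k ^ 2) ^ i, ?_, ?_⟩
    · rw [Nat.geomSum_eq hk2 m, Nat.mul_div_cancel' (Nat.sub_one_dvd_pow_sub_one (k ^ 2) m),
        ← hK, ← pow_mul, ← pow_mul, mul_comm]
    · rw [Finset.odd_sum_iff_odd_card_odd]
      have : (Finset.range m).filter (fun i => Odd ((k ^ 2) ^ i)) = Finset.range m := by
        apply Finset.filter_true_of_mem
        intro i _
        exact (hkodd.pow).pow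
      rw [this, Finset.card_range]; exact hm
  have h1 : 2 * (k * (k ^ 2 - 1)) ∣ q * ((k ^ 2 - 1) * S) := by
    rw [← hS, ← hP', ← hN']
    exact Nat.mul_dvd_mul_left 2 hdvd
  have h2 : 2 * k ∣ q * S := by
    have : (k ^ 2 - 1) * (2 * k) ∣ (k ^ 2 - 1) * (q * S) := by
      have e1 : (k ^ 2 - 1) * (2 * k) = 2 * (k * (k ^ 2 - 1)) := by ring
      have e2 : (k ^ 2 - 1) * (q * S) = q * ((k ^ 2 - 1) * S) := by ring
      rw [e1, e2]; exact h1
    exact Nat.dvd_of_mul_dvd_mul_left (by omega) this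
  have h3 : Even (q * S) := (even_iff_two_dvd).2 (dvd_of_mul_right_dvd h2)
  have h4 : Odd (q * S) := hodd.mul hSodd
  exact (Nat.not_even_iff_odd.2 h4) h3

/-- Subfield subgroups: let F be a finite field of odd order q and K a finite field with |K|^m = q, m ≥ 1. Then PSL_2(F) has a subgroup isomorphic to PSL_2(K), and has a subgroup isomorphic to PGL_2(K) if and only if m is even. -/
theorem result {F K : Type*} [Field F] [Fintype F] [Field K] [Fintype K] {q : ℕ} (hF : Fintype.card F = q) (hodd : Odd q) (m : ℕ) (hm : 1 ≤ m) (hK : Fintype.card K ^ m = q) : (∃ H : Subgroup (Matrix.ProjectiveSpecialLinearGroup (Fin 2) F), Nonempty (H ≃* Matrix.ProjectiveSpecialLinearGroup (Fin 2) K)) ∧ ((∃ H : Subgroup (Matrix.ProjectiveSpecialLinearGroup (Fin 2) F), Nonempty (H ≃* Matrix.ProjGenLinGroup (Fin 2) K)) ↔ Even m) := by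
  classical
  obtain ⟨ι⟩ := exists_emb (F := F) (K := K) m (by rw [hK, hF])
  refine ⟨part1 ι, ?_, ?_⟩
  · rintro ⟨H, ⟨e⟩⟩
    exact part2b hF hodd m hK H e
  · intro hm'
    exact part2a ι (fun d hd => sq_of_even hF hodd m hK hm' ι d hd)

end Cfsg.Agent.S0805
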