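import Mathlib
import Cfsg.Statements.S0802
import Cfsg.Agent.S0803
import Cfsg.Agent.S0228
import Cfsg.Agent.S0805

set_option autoImplicit false
open Cfsg

namespace Cfsg.Agent.S0802

section psl

open Matrix

variable {F : Type*} [Field F]

local notation "SL2" => Matrix.SpecialLinearGroup (Fin 2) F
local notation "PSL2" => Matrix.ProjectiveSpecialLinearGroup (Fin 2) F
local notation "J₀" => S0809.J0 F

theorem exists_A4_odd [Fintype F] (hodd : Fintype.card F % 2 = 1) (h2 : (2 : F) ≠ 0) :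
    ∃ H : Subgroup PSL2, Nonempty (H ≃* alternatingGroup (Fin 4)) := by
  classical
  obtain ⟨h₁, ha₁⟩ := S0807.exists_anti (F := F) hodd
  obtain ⟨V, hVdef⟩ : ∃ V, V = S0808.Vc h2 (QuotientGroup.mk h₁) (S0808.hS h2 h₁ ha₁) :=
    ⟨_, rfl⟩
  have hVk : IsKleinFour V := by rw [hVdef]; exact S0808.Vc_klein h2 _ _
  have hC : ∀ c : PSL2, (∀ v ∈ V, c * v = v * c) → c ∈ V := by
    rw [hVdef]; exact S0803.cent_Vc h2 h₁ ha₁
  have h24 := S0803.norm_dvd_24 V hVk hC
  have hle := S0803.orbit_le V hVk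
  have h12 := S0807.result (F := F) rfl (Nat.odd_iff.2 hodd)
  have hN : Nat.card (Subgroup.normalizer (V : Set PSL2)) = 12 ∨
      Nat.card (Subgroup.normalizer (V : Set PSL2)) = 24 := by
    have : Nonempty {V : Subgroup PSL2 // IsKleinFour V} := ⟨⟨V, hVk⟩⟩
    have hK : 0 < Nat.card {V : Subgroup PSL2 // IsKleinFour V} := Nat.card_pos
    obtain ⟨N, hNdef⟩ : ∃ N, N = Nat.card (Subgroup.normalizer (V : Set PSL2)) := ⟨_, rfl⟩
    rw [← hNdef] at h24 hle ⊢
    rw [← h12] at hle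
    have h12le : 12 ≤ N := by
      by_contra hlt
      push Not at hlt
      nlinarith
    have hle24 : N ≤ 24 := Nat.le_of_dvd (by norm_num) h24
    interval_cases N <;> omega
  rcases hN with hN | hN
  · refine ⟨Subgroup.normalizer (V : Set PSL2), S0228.result hN ?_⟩
    intro z hz hzc
    rw [Subgroup.mem_center_iff] at hzc
    have hzV : (z : PSL2) ∈ V := by
      apply hC
      intro v hv
      have := hzc ⟨v, Subgroup.le_normalizer hv⟩
      exact (congrArg Subtype.val this).symm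
    have hz1 : (z : PSL2) ≠ 1 := by
      intro h
      have : z = 1 := Subtype.ext h
      rw [this, orderOf_one] at hz
      omega
    haveI : Fact (Nat.Prime 3) := ⟨Nat.prime_three⟩
    obtain ⟨x, hx⟩ := exists_prime_orderOf_dvd_card' 3
      (by rw [hN]; norm_num : 3 ∣ Nat.card (Subgroup.normalizer (V : Set PSL2)))
    have hx3 : (x : PSL2) * x * x = 1 := by
      have h3 : x ^ 3 = 1 := by rw [← hx]; exact pow_orderOf_eq_one x
      have h3' : x * x * x = 1 := by
        rw [← h3]; simp only [pow_succ, pow_zero, one_mul]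
      exact congrArg Subtype.val h3'
    have hxz : (x : PSL2) * z = z * x := congrArg Subtype.val (hzc x)
    have hx1 := S0803.ord3_fix V hVk hC x.1 x.2 hx3 z.1 hzV hz1 hxz
    have : x = 1 := Subtype.ext hx1
    rw [this, orderOf_one] at hx
    omega
  · have h6 : ∀ g : ↥(Subgroup.normalizer (V : Set PSL2)), orderOf g ≠ 6 := by
      intro g
      rw [← Subgroup.orderOf_coe]
      exact S0803.no_six V hVk hC g.1 g.2
    obtain ⟨e⟩ := Cfsg.Agent.Lib.Helper6.s4_of_card_24 hN h6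
    refine ⟨((alternatingGroup (Fin 4)).map e.symm.toMonoidHom).map
      (Subgroup.normalizer (V : Set PSL2)).subtype, ⟨?_⟩⟩
    exact ((e.symm.subgroupMap (alternatingGroup (Fin 4))).trans
      (Subgroup.equivMapOfInjective _ _ (Subgroup.subtype_injective _))).symm

theorem no_cube_root [Fintype F] (n : ℕ) (hn : Odd n) (hF : Fintype.card F = 2 ^ n) (μ : F)
    (hμ : μ ^ 3 = 1) : μ = 1 := by
  classical
  have hμ0 : μ ≠ 0 := by rintro rfl; simp at hμ
  obtain ⟨u, hu⟩ : ∃ u : Fˣ, (u : F) = μ := ⟨Units.mk0 μ hμ0, rfl⟩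
  have h3 : u ^ 3 = 1 := by
    apply Units.ext
    rw [Units.val_pow_eq_pow_val, hu, hμ]; rfl
  have hc : u ^ (2 ^ n - 1) = 1 := by
    have := pow_card_eq_one (G := Fˣ) (x := u)
    rw [Fintype.card_units, hF] at this; exact this
  have hco : Nat.Coprime 3 (2 ^ n - 1) := by
    obtain ⟨k, rfl⟩ := hn
    have h4 : 2 ^ (2 * k + 1) % 3 = 2 := by
      rw [pow_succ, pow_mul, Nat.mul_mod, Nat.pow_mod]; norm_num
    have hpos : 1 ≤ 2 ^ (2 * k + 1) := Nat.one_le_two_pow
    apply (Nat.Prime.coprime_iff_not_dvd Nat.prime_three).2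
    generalize 2 ^ (2 * k + 1) = Q at h4 hpos
    omega
  have h1 : orderOf u ∣ 3 := orderOf_dvd_of_pow_eq_one h3
  have h2 : orderOf u ∣ 2 ^ n - 1 := orderOf_dvd_of_pow_eq_one hc
  have h5 : orderOf u ∣ 1 := by
    have := Nat.dvd_gcd h1 h2
    rwa [hco] at this
  rw [← hu, orderOf_eq_one_iff.1 (Nat.dvd_one.1 h5)]; rfl

theorem invol_form (h2 : (2 : F) = 0) (A : SL2) (hA : A * A = 1) :
    (A : Matrix (Fin 2) (Fin 2) F) 1 1 = (A : Matrix (Fin 2) (Fin 2) F) 0 0 ∧
    ((A : Matrix (Fin 2) (Fin 2) F) 0 0 + 1) * ((A : Matrix (Fin 2) (Fin 2) F) 0 0 + 1) =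
      (A : Matrix (Fin 2) (Fin 2) F) 0 1 * (A : Matrix (Fin 2) (Fin 2) F) 1 0 := by
  obtain ⟨M, hM⟩ : ∃ M : Matrix (Fin 2) (Fin 2) F, M = (A : Matrix (Fin 2) (Fin 2) F) := ⟨_, rfl⟩
  have hdet : M 0 0 * M 1 1 - M 0 1 * M 1 0 = 1 := by
    rw [hM, ← Matrix.det_fin_two]; exact A.2
  have hA' := congrArg (fun y : SL2 => (y : Matrix (Fin 2) (Fin 2) F)) hA
  simp only [Matrix.SpecialLinearGroup.coe_mul, Matrix.SpecialLinearGroup.coe_one] at hA'
  rw [← hM, S0809.entries] at hA'
  have c00 := congrFun (congrFun hA' 0) 0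
  have c11 := congrFun (congrFun hA' 1) 1
  simp only [Matrix.one_apply_eq, Matrix.of_apply, Matrix.cons_val', Matrix.cons_val_zero,
    Matrix.cons_val_one, Matrix.cons_val_fin_one] at c00 c11
  have htr : (M 0 0 + M 1 1) * (M 0 0 + M 1 1) = 0 := by
    linear_combination c00 + c11 + 2 * hdet + 2 * h2
  have htr' : M 0 0 + M 1 1 = 0 := mul_self_eq_zero.1 htr
  have h11 : M 1 1 = M 0 0 := by linear_combination htr' - M 0 0 * h2
  rw [← hM]
  refine ⟨h11, ?_⟩
  rw [h11] at hdet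
  linear_combination hdet + (M 0 0 + 1) * h2

theorem prop_of_comm (h2 : (2 : F) = 0) (A B : SL2) (hA : A * A = 1) (hB : B * B = 1)
    (hAB : A * B = B * A) (hA1 : A ≠ 1) :
    ∃ c : F, (B : Matrix (Fin 2) (Fin 2) F) + 1 = c • ((A : Matrix (Fin 2) (Fin 2) F) + 1) := by
  obtain ⟨a11, ap⟩ := invol_form h2 A hA
  obtain ⟨b11, bp⟩ := invol_form h2 B hB
  have hAB' := congrArg (fun y : SL2 => (y : Matrix (Fin 2) (Fin 2) F)) hAB
  simp only [Matrix.SpecialLinearGroup.coe_mul] at hAB'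
  rw [S0809.entries, S0809.entries] at hAB'
  have c00 := congrFun (congrFun hAB' 0) 0
  simp only [Matrix.of_apply, Matrix.cons_val', Matrix.cons_val_zero,
    Matrix.cons_val_one, Matrix.cons_val_fin_one] at c00
  obtain ⟨M, hM⟩ : ∃ M : Matrix (Fin 2) (Fin 2) F, M = (A : Matrix (Fin 2) (Fin 2) F) := ⟨_, rfl⟩
  obtain ⟨M', hM'⟩ : ∃ M' : Matrix (Fin 2) (Fin 2) F, M' = (B : Matrix (Fin 2) (Fin 2) F) :=
    ⟨_, rfl⟩
  rw [← hM] at a11 ap c00 ⊢
  rw [← hM'] at b11 bp c00 ⊢
  have hqr : M 0 1 * M' 1 0 = M' 0 1 * M 1 0 := by linear_combination c00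
  have one11 : (1 : Matrix (Fin 2) (Fin 2) F) 1 1 = 1 := Matrix.one_apply_eq 1
  have one00 : (1 : Matrix (Fin 2) (Fin 2) F) 0 0 = 1 := Matrix.one_apply_eq 0
  have one01 : (1 : Matrix (Fin 2) (Fin 2) F) 0 1 = 0 := Matrix.one_apply_ne (by decide)
  have one10 : (1 : Matrix (Fin 2) (Fin 2) F) 1 0 = 0 := Matrix.one_apply_ne (by decide)
  by_cases hq : M 0 1 = 0
  · have hp : M 0 0 + 1 = 0 := by
      rw [hq, zero_mul] at ap
      exact mul_self_eq_zero.1 ap
    have hr : M 1 0 ≠ 0 := by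
      intro hr
      apply hA1
      apply Subtype.ext
      rw [← hM, Matrix.SpecialLinearGroup.coe_one]
      apply S0809.mat_eq
      · rw [one00]; linear_combination hp - h2
      · rw [one01]; exact hq
      · rw [one10]; exact hr
      · rw [one11, a11]; linear_combination hp - h2
    have hq' : M' 0 1 = 0 := by
      rw [hq, zero_mul] at hqr
      rcases mul_eq_zero.1 hqr.symm with h | h
      · exact h
      · exact absurd h hr
    have hp' : M' 0 0 + 1 = 0 := by
      rw [hq', zero_mul] at bp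
      exact mul_self_eq_zero.1 bp
    refine ⟨M' 1 0 / M 1 0, ?_⟩
    apply S0809.mat_eq
    · rw [Matrix.smul_apply, Matrix.add_apply, Matrix.add_apply, one00, hp, hp']; simp
    · rw [Matrix.smul_apply, Matrix.add_apply, Matrix.add_apply, one01, hq, hq']; simp
    · rw [Matrix.smul_apply, Matrix.add_apply, Matrix.add_apply, one10, add_zero, add_zero,
        smul_eq_mul]
      field_simp
    · rw [Matrix.smul_apply, Matrix.add_apply, Matrix.add_apply, one11, a11, b11, hp, hp']; simp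
  · refine ⟨M' 0 1 / M 0 1, ?_⟩
    have hr' : M' 1 0 = M' 0 1 / M 0 1 * M 1 0 := by
      field_simp
      linear_combination hqr
    have hp' : M' 0 0 + 1 = M' 0 1 / M 0 1 * (M 0 0 + 1) := by
      have : (M' 0 0 + 1 - M' 0 1 / M 0 1 * (M 0 0 + 1)) *
          (M' 0 0 + 1 - M' 0 1 / M 0 1 * (M 0 0 + 1)) = 0 := by
        have e1 : (M' 0 0 + 1 - M' 0 1 / M 0 1 * (M 0 0 + 1)) *
          (M' 0 0 + 1 - M' 0 1 / M 0 1 * (M 0 0 + 1)) =
          (M' 0 0 + 1) * (M' 0 0 + 1) + (M' 0 1 / M 0 1) * (M' 0 1 / M 0 1) *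
            ((M 0 0 + 1) * (M 0 0 + 1)) -
            (M' 0 0 + 1) * (M' 0 1 / M 0 1) * (M 0 0 + 1) * 2 := by ring
        rw [e1, h2, mul_zero, sub_zero, bp, ap, hr']
        have e2 : M' 0 1 * (M' 0 1 / M 0 1 * M 1 0) +
            M' 0 1 / M 0 1 * (M' 0 1 / M 0 1) * (M 0 1 * M 1 0) =
            (M' 0 1 * (M' 0 1 / M 0 1 * M 1 0)) * 2 := by
          field_simp
          ring
        rw [e2, h2, mul_zero]
      exact sub_eq_zero.1 (mul_self_eq_zero.1 this)
    apply S0809.mat_eq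
    · rw [Matrix.smul_apply, Matrix.add_apply, Matrix.add_apply, one00, smul_eq_mul]
      exact hp'
    · rw [Matrix.smul_apply, Matrix.add_apply, Matrix.add_apply, one01, add_zero, add_zero,
        smul_eq_mul]
      field_simp
    · rw [Matrix.smul_apply, Matrix.add_apply, Matrix.add_apply, one10, add_zero, add_zero,
        smul_eq_mul]
      exact hr'
    · rw [Matrix.smul_apply, Matrix.add_apply, Matrix.add_apply, one11, a11, b11, smul_eq_mul]
      exact hp'

theorem core_char2 (h2 : (2 : F) = 0) (A X : SL2) (hA : A * A = 1) (hA1 : A ≠ 1)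
    (hX : X * X * X = 1) (hcomm : (X * A * X⁻¹) * A = A * (X * A * X⁻¹))
    (hne : X * A * X⁻¹ ≠ A) : ∃ μ : F, μ ^ 3 = 1 ∧ μ ≠ 1 := by
  obtain ⟨B, hB⟩ : ∃ B : SL2, B = X * A * X⁻¹ := ⟨_, rfl⟩
  rw [← hB] at hcomm hne
  have hBB : B * B = 1 := by
    rw [hB]
    calc X * A * X⁻¹ * (X * A * X⁻¹) = X * (A * A) * X⁻¹ := by group
      _ = 1 := by rw [hA]; group
  have hXA : X * A = B * X := by rw [hB]; group
  obtain ⟨c, hc⟩ := prop_of_comm h2 A B hA hBB hcomm.symm hA1
  obtain ⟨Y, hY⟩ : ∃ Y : Matrix (Fin 2) (Fin 2) F, Y = (X : Matrix (Fin 2) (Fin 2) F) := ⟨_, rfl⟩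
  obtain ⟨N, hN⟩ : ∃ N : Matrix (Fin 2) (Fin 2) F, N = (A : Matrix (Fin 2) (Fin 2) F) + 1 :=
    ⟨_, rfl⟩
  rw [← hN] at hc
  have hneg : ∀ M : Matrix (Fin 2) (Fin 2) F, -M = M := fun M => by
    rw [neg_eq_iff_add_eq_zero, ← two_smul F M, h2, zero_smul]
  have hYN : Y * N = c • (N * Y) := by
    have h1 := congrArg (fun y : SL2 => (y : Matrix (Fin 2) (Fin 2) F)) hXA
    simp only [Matrix.SpecialLinearGroup.coe_mul] at h1
    rw [← hY] at h1
    calc Y * N = Y * (A : Matrix (Fin 2) (Fin 2) F) + Y := by rw [hN, Matrix.mul_add, Matrix.mul_one]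
      _ = ((B : Matrix (Fin 2) (Fin 2) F) + 1) * Y := by rw [h1, Matrix.add_mul, Matrix.one_mul]
      _ = c • (N * Y) := by rw [hc, Matrix.smul_mul]
  have hY3 : Y * (Y * Y) = 1 := by
    have h1 := congrArg (fun y : SL2 => (y : Matrix (Fin 2) (Fin 2) F)) hX
    simp only [Matrix.SpecialLinearGroup.coe_mul, Matrix.SpecialLinearGroup.coe_one] at h1
    rw [← hY, Matrix.mul_assoc] at h1
    exact h1
  have s1 : Y * (Y * N) = (c * c) • (N * (Y * Y)) := by
    rw [hYN, Matrix.mul_smul, ← Matrix.mul_assoc, hYN, Matrix.smul_mul, smul_smul,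
      Matrix.mul_assoc]
  have s2 : Y * (Y * (Y * N)) = (c * c * c) • (N * (Y * (Y * Y))) := by
    rw [s1, Matrix.mul_smul, ← Matrix.mul_assoc, hYN, Matrix.smul_mul, smul_smul,
      Matrix.mul_assoc]
  have s3 : N = (c * c * c) • N := by
    have : Y * (Y * (Y * N)) = N := by
      rw [← Matrix.mul_assoc, ← Matrix.mul_assoc, Matrix.mul_assoc Y Y Y, hY3, Matrix.one_mul]
    calc N = Y * (Y * (Y * N)) := this.symm
      _ = (c * c * c) • (N * (Y * (Y * Y))) := s2
      _ = (c * c * c) • N := by rw [hY3, Matrix.mul_one]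
  have hN0 : N ≠ 0 := by
    intro h0
    apply hA1
    apply Subtype.ext
    rw [Matrix.SpecialLinearGroup.coe_one]
    rw [hN] at h0
    have := eq_neg_of_add_eq_zero_left h0
    rw [this, hneg]
  refine ⟨c, ?_, ?_⟩
  · by_contra hc3
    apply hN0
    have h1 : (c * c * c - 1) • N = 0 := by
      rw [sub_smul, one_smul, ← s3, sub_self]
    rcases smul_eq_zero.1 h1 with h | h
    · exfalso; apply hc3
      have : c ^ 3 = c * c * c := by ring
      rw [this]; linear_combination h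
    · exact h
  · intro hc1
    apply hne
    rw [hc1, one_smul, hN] at hc
    apply Subtype.ext
    exact add_right_cancel hc

theorem mk_inj_char2 (h2 : (2 : F) = 0) :
    Function.Injective (QuotientGroup.mk : SL2 → PSL2) := by
  intro a b hab
  have hneg : ∀ M : Matrix (Fin 2) (Fin 2) F, -M = M := fun M => by
    rw [neg_eq_iff_add_eq_zero, ← two_smul F M, h2, zero_smul]
  rw [S0807.mk_eq_iff, hneg, or_self] at hab
  exact (Subtype.ext hab).symm

theorem a4_config : ∃ a x : alternatingGroup (Fin 4), a * a = 1 ∧ a ≠ 1 ∧ x * x * x = 1 ∧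
    (x * a * x⁻¹) * a = a * (x * a * x⁻¹) ∧ x * a * x⁻¹ ≠ a := by decide

theorem no_A4_char2 [Fintype F] (h2 : (2 : F) = 0) (n : ℕ) (hn : Odd n)
    (hF : Fintype.card F = 2 ^ n) (H : Subgroup PSL2) (e : H ≃* alternatingGroup (Fin 4)) :
    False := by
  obtain ⟨a, x, haa, ha1, hx3, hcomm, hne⟩ := a4_config
  obtain ⟨φ, hφ⟩ : ∃ φ : alternatingGroup (Fin 4) →* PSL2, Function.Injective φ :=
    ⟨H.subtype.comp e.symm.toMonoidHom, fun u v huv =>
      e.symm.injective (Subtype.ext huv)⟩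
  obtain ⟨A, hA⟩ := QuotientGroup.mk_surjective (φ a)
  obtain ⟨X, hX⟩ := QuotientGroup.mk_surjective (φ x)
  have hinj := mk_inj_char2 h2
  have hAA : A * A = 1 := by
    apply hinj
    rw [QuotientGroup.mk_mul, hA, ← map_mul, haa, map_one, QuotientGroup.mk_one]
  have hA1 : A ≠ 1 := by
    intro h
    apply ha1
    apply hφ
    rw [← hA, h, map_one, QuotientGroup.mk_one]
  have hX3 : X * X * X = 1 := by
    apply hinj
    rw [QuotientGroup.mk_mul, QuotientGroup.mk_mul, hX, ← map_mul, ← map_mul, hx3, map_one,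
      QuotientGroup.mk_one]
  have hconj : (QuotientGroup.mk (X * A * X⁻¹) : PSL2) = φ (x * a * x⁻¹) := by
    rw [QuotientGroup.mk_mul, QuotientGroup.mk_mul, QuotientGroup.mk_inv, hX, hA, map_mul,
      map_mul, map_inv]
  have hcomm' : (X * A * X⁻¹) * A = A * (X * A * X⁻¹) := by
    apply hinj
    calc (QuotientGroup.mk ((X * A * X⁻¹) * A) : PSL2)
        = QuotientGroup.mk (X * A * X⁻¹) * QuotientGroup.mk A := QuotientGroup.mk_mul _ _ _
      _ = φ (x * a * x⁻¹) * φ a := by rw [hconj, hA]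
      _ = φ a * φ (x * a * x⁻¹) := by rw [← map_mul, hcomm, map_mul]
      _ = QuotientGroup.mk A * QuotientGroup.mk (X * A * X⁻¹) := by rw [hconj, hA]
      _ = QuotientGroup.mk (A * (X * A * X⁻¹)) := (QuotientGroup.mk_mul _ _ _).symm
  have hne' : X * A * X⁻¹ ≠ A := by
    intro h
    apply hne
    apply hφ
    rw [← hconj, h, hA]
  obtain ⟨μ, hμ3, hμ1⟩ := core_char2 h2 A X hAA hA1 hX3 hcomm' hne'
  exact hμ1 (no_cube_root n hn hF μ hμ3)

end psl

section borel

open Matrix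

variable {K : Type*} [Field K]

/-- Upper triangular matrices of `SL₂(K)`. -/
def Bor (K : Type*) [Field K] : Subgroup (Matrix.SpecialLinearGroup (Fin 2) K) where
  carrier := {g | (g : Matrix (Fin 2) (Fin 2) K) 1 0 = 0}
  one_mem' := by simp
  mul_mem' := by
    intro a b ha hb
    simp only [Set.mem_ofPred_eq] at ha hb ⊢
    rw [Matrix.SpecialLinearGroup.coe_mul, S0809.entries]
    simp [ha, hb]
  inv_mem' := by
    intro a ha
    simp only [Set.mem_ofPred_eq] at ha ⊢
    rw [Matrix.SpecialLinearGroup.coe_inv, Matrix.adjugate_fin_two]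
    simp [ha]

theorem mem_Bor (g : Matrix.SpecialLinearGroup (Fin 2) K) :
    g ∈ Bor K ↔ (g : Matrix (Fin 2) (Fin 2) K) 1 0 = 0 := Iff.rfl

theorem Bor_diag (g : Bor K) : (g.1 : Matrix (Fin 2) (Fin 2) K) 0 0 *
    (g.1 : Matrix (Fin 2) (Fin 2) K) 1 1 = 1 := by
  have h := g.1.2
  rw [Matrix.det_fin_two] at h
  have h0 : (g.1 : Matrix (Fin 2) (Fin 2) K) 1 0 = 0 := g.2
  rw [h0, mul_zero, sub_zero] at h
  exact h

theorem Bor_card [Fintype K] : Nat.card (Bor K) = (Fintype.card K - 1) * Fintype.card K := by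
  classical
  have hbij : Function.Bijective (fun g : Bor K =>
      ((Units.mkOfMulEqOne _ _ (Bor_diag g), (g.1 : Matrix (Fin 2) (Fin 2) K) 0 1) : Kˣ × K)) := by
    constructor
    · intro g g' h
      have h1 : (g.1 : Matrix (Fin 2) (Fin 2) K) 0 0 = (g'.1 : Matrix (Fin 2) (Fin 2) K) 0 0 :=
        congrArg (fun p : Kˣ × K => (p.1 : K)) h
      have h2 : (g.1 : Matrix (Fin 2) (Fin 2) K) 0 1 = (g'.1 : Matrix (Fin 2) (Fin 2) K) 0 1 :=
        congrArg (fun p : Kˣ × K => p.2) h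
      have h3 : (g.1 : Matrix (Fin 2) (Fin 2) K) 1 1 = (g'.1 : Matrix (Fin 2) (Fin 2) K) 1 1 :=
        congrArg (fun p : Kˣ × K => ((p.1⁻¹ : Kˣ) : K)) h
      apply Subtype.ext
      apply Subtype.ext
      apply S0809.mat_eq
      · exact h1
      · exact h2
      · have e1 : (g.1 : Matrix (Fin 2) (Fin 2) K) 1 0 = 0 := g.2
        have e2 : (g'.1 : Matrix (Fin 2) (Fin 2) K) 1 0 = 0 := g'.2
        rw [e1, e2]
      · exact h3
    · rintro ⟨u, b⟩
      refine ⟨⟨⟨!![(u : K), b; 0, ((u⁻¹ : Kˣ) : K)], by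
        rw [Matrix.det_fin_two_of]; simp⟩, by
        show (!![(u : K), b; 0, ((u⁻¹ : Kˣ) : K)] : Matrix (Fin 2) (Fin 2) K) 1 0 = 0
        simp⟩, ?_⟩
      apply Prod.ext
      · apply Units.ext
        show (!![(u : K), b; 0, ((u⁻¹ : Kˣ) : K)] : Matrix (Fin 2) (Fin 2) K) 0 0 = u
        simp
      · show (!![(u : K), b; 0, ((u⁻¹ : Kˣ) : K)] : Matrix (Fin 2) (Fin 2) K) 0 1 = b
        simp
  rw [Nat.card_eq_of_bijective _ hbij, Nat.card_prod, Nat.card_eq_fintype_card,
    Nat.card_eq_fintype_card, Fintype.card_units]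

theorem Bor_center (h2 : (2 : K) = 0) (w : Kˣ) (hw : w ≠ 1) (z : Bor K) (hz : orderOf z = 2) :
    z ∉ Subgroup.center (Bor K) := by
  intro hzc
  rw [Subgroup.mem_center_iff] at hzc
  obtain ⟨D, hD⟩ : ∃ D : Matrix.SpecialLinearGroup (Fin 2) K,
      (D : Matrix (Fin 2) (Fin 2) K) = !![(w : K), 0; 0, ((w⁻¹ : Kˣ) : K)] :=
    ⟨⟨_, by rw [Matrix.det_fin_two_of]; simp⟩, rfl⟩
  have hDB : D ∈ Bor K := by
    rw [mem_Bor, hD]; simp
  have hc := hzc ⟨D, hDB⟩
  have hc' : D * z.1 = z.1 * D := congrArg Subtype.val hc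
  have hc'' := congrArg (fun y : Matrix.SpecialLinearGroup (Fin 2) K =>
    (y : Matrix (Fin 2) (Fin 2) K)) hc'
  simp only [Matrix.SpecialLinearGroup.coe_mul] at hc''
  rw [S0809.entries, S0809.entries, hD] at hc''
  have c01 := congrFun (congrFun hc'' 0) 1
  simp only [Matrix.of_apply, Matrix.cons_val', Matrix.cons_val_zero,
    Matrix.cons_val_one, Matrix.cons_val_fin_one, zero_mul, add_zero, mul_zero, zero_add] at c01
  have hzz : z.1 * z.1 = 1 := congrArg Subtype.val (S0807.sq_of_order_two z hz)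
  obtain ⟨z11, zp⟩ := invol_form h2 z.1 hzz
  have z10 : (z.1 : Matrix (Fin 2) (Fin 2) K) 1 0 = 0 := z.2
  rw [z10, mul_zero] at zp
  have z00 : (z.1 : Matrix (Fin 2) (Fin 2) K) 0 0 = 1 := by
    have := mul_self_eq_zero.1 zp
    linear_combination this - h2
  have z01 : (z.1 : Matrix (Fin 2) (Fin 2) K) 0 1 ≠ 0 := by
    intro h
    have : z = 1 := by
      apply Subtype.ext
      apply Subtype.ext
      show (z.1 : Matrix (Fin 2) (Fin 2) K) = ((1 : Matrix.SpecialLinearGroup (Fin 2) K) :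
        Matrix (Fin 2) (Fin 2) K)
      rw [Matrix.SpecialLinearGroup.coe_one]
      apply S0809.mat_eq
      · rw [z00, Matrix.one_apply_eq]
      · rw [h, Matrix.one_apply_ne (by decide)]
      · rw [z10, Matrix.one_apply_ne (by decide)]
      · rw [z11, z00, Matrix.one_apply_eq]
    rw [this, orderOf_one] at hz
    omega
  apply hw
  apply Units.ext
  have hww : (w : K) * ((w⁻¹ : Kˣ) : K) = 1 := by simp
  have e1 : (w : K) = ((w⁻¹ : Kˣ) : K) := by
    have : ((w : K) - ((w⁻¹ : Kˣ) : K)) * (z.1 : Matrix (Fin 2) (Fin 2) K) 0 1 = 0 := by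
      linear_combination c01
    rcases mul_eq_zero.1 this with h | h
    · exact sub_eq_zero.1 h
    · exact absurd h z01
  rw [← e1] at hww
  have : ((w : K) - 1) * ((w : K) - 1) = 0 := by linear_combination hww - ((w : K) - 1) * h2
  rw [Units.val_one]
  exact sub_eq_zero.1 (mul_self_eq_zero.1 this)

end borel

section psl2

open Matrix

variable {F : Type*} [Field F]

local notation "SL2" => Matrix.SpecialLinearGroup (Fin 2) F
local notation "PSL2" => Matrix.ProjectiveSpecialLinearGroup (Fin 2) F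

theorem exists_A4_char2 [Fintype F] (h2 : (2 : F) = 0) (n : ℕ) (hn : Even n)
    (hF : Fintype.card F = 2 ^ n) :
    ∃ H : Subgroup PSL2, Nonempty (H ≃* alternatingGroup (Fin 4)) := by
  classical
  obtain ⟨K, _, _, hK⟩ : ∃ (K : Type) (_ : Field K) (_ : Fintype K), Fintype.card K = 4 := by
    haveI : Finite (GaloisField 2 2) :=
      Nat.finite_of_card_ne_zero (by rw [GaloisField.card 2 2 (by norm_num)]; norm_num)
    haveI : Fintype (GaloisField 2 2) := Fintype.ofFinite _
    refine ⟨GaloisField 2 2, inferInstance, inferInstance, ?_⟩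
    rw [← Nat.card_eq_fintype_card, GaloisField.card 2 2 (by norm_num)]; norm_num
  obtain ⟨m, hm⟩ := hn
  obtain ⟨ι⟩ := S0805.exists_emb (F := F) (K := K) m (by
    rw [hK, hF, hm, ← two_mul, pow_mul]; norm_num)
  have h2K : (2 : K) = 0 := by
    apply ι.injective; rw [map_ofNat, h2, map_zero]
  have hinj : Function.Injective (S0805.phi ι) := by
    intro g h hgh
    apply S0805.sl_map_inj ι
    exact mk_inj_char2 h2 hgh
  obtain ⟨w, hw⟩ : ∃ w : Kˣ, w ≠ 1 :=
    Fintype.exists_ne_of_one_lt_card (by rw [Fintype.card_units, hK]; norm_num) 1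
  have hB12 : Nat.card (Bor K) = 12 := by rw [Bor_card, hK]
  obtain ⟨eB⟩ := S0228.result hB12 (Bor_center h2K w hw)
  exact ⟨(Bor K).map (S0805.phi ι),
    ⟨((Bor K).equivMapOfInjective (S0805.phi ι) hinj).symm.trans eB⟩⟩

end psl2

/-- PSL_2(p^n) has a subgroup isomorphic to A_4 if and only if it is not the case that p = 2 and n is odd. -/
theorem result {F : Type*} [Field F] [Fintype F] (p n : ℕ) [Fact p.Prime] [CharP F p] (hF : Fintype.card F = p ^ n) : (∃ H : Subgroup (Matrix.ProjectiveSpecialLinearGroup (Fin 2) F), Nonempty (H ≃* alternatingGroup (Fin 4))) ↔ ¬ (p = 2 ∧ Odd n) := by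
  classical
  have hp : p.Prime := Fact.out
  constructor
  · rintro ⟨H, ⟨e⟩⟩ ⟨rfl, hn⟩
    have h2 : (2 : F) = 0 := by exact_mod_cast CharP.cast_eq_zero F 2
    exact no_A4_char2 h2 n hn hF H e
  · intro hpn
    by_cases hp2 : p = 2
    · subst hp2
      have h2 : (2 : F) = 0 := by exact_mod_cast CharP.cast_eq_zero F 2
      have hn : Even n := by
        rcases Nat.even_or_odd n with h | h
        · exact h
        · exact absurd ⟨rfl, h⟩ hpn
      exact exists_A4_char2 h2 n hn hF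
    · have hpodd : Odd p := hp.odd_of_ne_two hp2
      have hodd' : Fintype.card F % 2 = 1 := by
        rw [hF]; exact Nat.odd_iff.1 hpodd.pow
      have h2 : (2 : F) ≠ 0 := by
        intro h
        have hchar : ringChar F = 2 := by
          have : ringChar F ∣ 2 := by
            apply (ringChar.spec F 2).1
            exact_mod_cast h
          rcases (Nat.dvd_prime Nat.prime_two).1 this with h1 | h1
          · exfalso
            have := CharP.ringChar_ne_one (R := F)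
            exact this h1
          · exact h1
        have := FiniteField.even_card_of_char_two hchar
        omega
      exact exists_A4_odd hodd' h2

end Cfsg.Agent.S0802
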