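import Mathlib
import Cfsg.Statements.S0820
import Cfsg.Agent.S0839

set_option autoImplicit false
open Cfsg

namespace Cfsg.Agent.S0820

open Matrix

variable {F : Type*} [Field F]

theorem rank_ne_zero (N : Matrix (Fin 3) (Fin 3) F) (hN : N ≠ 0) : N.rank ≠ 0 := by
  intro h
  apply hN
  have h1 : Module.finrank F (LinearMap.range N.mulVecLin) = 0 := h
  rw [Submodule.finrank_eq_zero, LinearMap.range_eq_bot] at h1
  ext i j
  have := congrFun (congrArg (fun f : (Fin 3 → F) →ₗ[F] (Fin 3 → F) => f (Pi.single j 1)) h1) i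
  simp only [Matrix.mulVecLin_apply, Matrix.mulVec_single_one, LinearMap.zero_apply,
    Pi.zero_apply] at this
  exact this

/-- The standard transvection. -/
def t0 : Matrix (Fin 3) (Fin 3) F := !![1, 0, 0; 1, 1, 0; 0, 0, 1]

/-- An involution of `SL_3` in characteristic two is conjugate to the standard transvection. -/
theorem conj_t0 (h2 : (2 : F) = 0) (g : Matrix.SpecialLinearGroup (Fin 3) F) (hg : g * g = 1)
    (hg1 : g ≠ 1) :
    ∃ k : Matrix.SpecialLinearGroup (Fin 3) F,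
      ((k⁻¹ * g * k : Matrix.SpecialLinearGroup (Fin 3) F) : Matrix (Fin 3) (Fin 3) F) = t0 := by
  have hgg : (g : Matrix (Fin 3) (Fin 3) F) * (g : Matrix (Fin 3) (Fin 3) F) = 1 := by
    have := congrArg (fun s : Matrix.SpecialLinearGroup (Fin 3) F =>
      (s : Matrix (Fin 3) (Fin 3) F)) hg
    exact this
  have hN0 : (g : Matrix (Fin 3) (Fin 3) F) - 1 ≠ 0 := by
    intro h
    apply hg1
    apply Subtype.ext
    exact sub_eq_zero.1 h
  have hNN : ((g : Matrix (Fin 3) (Fin 3) F) - 1) * ((g : Matrix (Fin 3) (Fin 3) F) - 1) = 0 := by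
    rw [sub_mul, mul_sub, mul_sub, hgg, Matrix.mul_one, Matrix.one_mul, Matrix.mul_one]
    have : (2 : F) • ((1 : Matrix (Fin 3) (Fin 3) F) - (g : Matrix (Fin 3) (Fin 3) F)) = 0 := by
      rw [h2, zero_smul]
    rw [two_smul] at this
    rw [← this]; abel
  have ht : Cfsg.IsTransvection (g : Matrix (Fin 3) (Fin 3) F) := by
    refine ⟨?_, hNN⟩
    have h1 := Matrix.rank_add_rank_le_card_of_mul_eq_zero hNN
    rw [Fintype.card_fin] at h1
    have h3 := rank_ne_zero _ hN0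
    omega
  obtain ⟨h, v, hv0, hconj⟩ := Cfsg.Agent.S0839.result 1 g ht
  have key : ∀ K : Matrix.SpecialLinearGroup (Fin 3) F,
      (1 + vecMulVec v (Pi.single 0 1)) * (K : Matrix (Fin 3) (Fin 3) F) =
        (K : Matrix (Fin 3) (Fin 3) F) * t0 →
      ∃ k : Matrix.SpecialLinearGroup (Fin 3) F,
        ((k⁻¹ * g * k : Matrix.SpecialLinearGroup (Fin 3) F) : Matrix (Fin 3) (Fin 3) F) = t0 := by
    intro K hK
    refine ⟨h * K, ?_⟩
    have e : (h * K)⁻¹ * g * (h * K) = K⁻¹ * (h⁻¹ * g * h) * K := by group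
    rw [e, Matrix.SpecialLinearGroup.coe_mul, Matrix.SpecialLinearGroup.coe_mul, hconj,
      Matrix.mul_assoc, hK, ← Matrix.mul_assoc, ← Matrix.SpecialLinearGroup.coe_mul,
      inv_mul_cancel, Matrix.SpecialLinearGroup.coe_one, Matrix.one_mul]
  have hM : (1 + vecMulVec v (Pi.single 0 1) : Matrix (Fin 3) (Fin 3) F) =
      !![1, 0, 0; v 1, 1, 0; v 2, 0, 1] := by
    ext i j
    fin_cases i <;> fin_cases j <;> simp [vecMulVec_apply, hv0]
  have hv : v 1 ≠ 0 ∨ v 2 ≠ 0 := by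
    by_contra hcon
    push Not at hcon
    apply hg1
    have h5 : h⁻¹ * g * h = 1 := by
      apply Subtype.ext
      rw [hconj, hM, hcon.1, hcon.2]
      ext i j
      fin_cases i <;> fin_cases j <;> simp
    calc g = h * (h⁻¹ * g * h) * h⁻¹ := by group
      _ = 1 := by rw [h5]; group
  by_cases h1 : v 1 ≠ 0
  · obtain ⟨K, hK⟩ : ∃ K : Matrix.SpecialLinearGroup (Fin 3) F,
        (K : Matrix (Fin 3) (Fin 3) F) = !![1, 0, 0; 0, v 1, 0; 0, v 2, (v 1)⁻¹] :=
      ⟨⟨_, by simp [Matrix.det_fin_three, h1]⟩, rfl⟩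
    apply key K
    rw [hK, hM, t0]
    ext i j
    fin_cases i <;> fin_cases j <;> simp [Matrix.mul_apply, Fin.sum_univ_three]
  · push Not at h1
    have h2' : v 2 ≠ 0 := hv.resolve_left (by simpa using h1)
    obtain ⟨K, hK⟩ : ∃ K : Matrix.SpecialLinearGroup (Fin 3) F,
        (K : Matrix (Fin 3) (Fin 3) F) = !![1, 0, 0; 0, 0, -(v 2)⁻¹; 0, v 2, 0] :=
      ⟨⟨_, by simp [Matrix.det_fin_three, h2']⟩, rfl⟩
    apply key K
    rw [hK, hM, t0, h1]
    ext i j
    fin_cases i <;> fin_cases j <;> simp [Matrix.mul_apply, Fin.sum_univ_three]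

theorem lift (x : Matrix.ProjectiveSpecialLinearGroup (Fin 3) F) (hx : orderOf x = 2) :
    ∃ g : Matrix.SpecialLinearGroup (Fin 3) F,
      (QuotientGroup.mk g : Matrix.ProjectiveSpecialLinearGroup (Fin 3) F) = x ∧ g * g = 1 ∧
        g ≠ 1 := by
  obtain ⟨g, rfl⟩ := QuotientGroup.mk_surjective x
  have hx2 : (QuotientGroup.mk g : Matrix.ProjectiveSpecialLinearGroup (Fin 3) F) ^ 2 = 1 := by
    rw [← hx]; exact pow_orderOf_eq_one _
  have hx1 : (QuotientGroup.mk g : Matrix.ProjectiveSpecialLinearGroup (Fin 3) F) ≠ 1 := by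
    intro h
    rw [h, orderOf_one] at hx
    omega
  have hc : g ^ 2 ∈ Subgroup.center (Matrix.SpecialLinearGroup (Fin 3) F) := by
    rw [← QuotientGroup.eq_one_iff]
    exact hx2
  obtain ⟨r, hr, hsc⟩ := Matrix.SpecialLinearGroup.mem_center_iff.1 hc
  rw [Fintype.card_fin] at hr
  obtain ⟨Z, hZ⟩ : ∃ Z : Matrix.SpecialLinearGroup (Fin 3) F,
      (Z : Matrix (Fin 3) (Fin 3) F) = Matrix.scalar (Fin 3) r :=
    ⟨⟨_, by
      rw [Matrix.scalar_apply, Matrix.det_diagonal, Finset.prod_const, Finset.card_univ,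
        Fintype.card_fin, hr]⟩, rfl⟩
  have hZc : Z ∈ Subgroup.center (Matrix.SpecialLinearGroup (Fin 3) F) :=
    Matrix.SpecialLinearGroup.mem_center_iff.2 ⟨r, by rw [Fintype.card_fin]; exact hr, hZ.symm⟩
  have hgZ : g * g = Z := by
    apply Subtype.ext
    rw [hZ, hsc, pow_two]
  have hZ3 : Z * Z * Z = 1 := by
    apply Subtype.ext
    rw [Matrix.SpecialLinearGroup.coe_mul, Matrix.SpecialLinearGroup.coe_mul, hZ, ← map_mul,
      ← map_mul, ← pow_two, ← pow_succ, hr, map_one]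
    rfl
  have hmk : (QuotientGroup.mk (Z * g) : Matrix.ProjectiveSpecialLinearGroup (Fin 3) F) =
      QuotientGroup.mk g := by
    rw [QuotientGroup.mk_mul, (QuotientGroup.eq_one_iff Z).2 hZc, one_mul]
  refine ⟨Z * g, hmk, ?_, ?_⟩
  · have hcomm : g * Z = Z * g := (Subgroup.mem_center_iff.1 hZc g)
    calc Z * g * (Z * g) = Z * (g * Z) * g := by group
      _ = Z * (Z * g) * g := by rw [hcomm]
      _ = Z * Z * (g * g) := by group
      _ = 1 := by rw [hgZ, hZ3]
  · intro h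
    apply hx1
    rw [← hmk, h]
    rfl

/-- Any two elements of order 2 of PSL_3(4) are conjugate. -/
theorem result {F : Type*} [Field F] [Fintype F] (hF : Fintype.card F = 4) (x y : Matrix.ProjectiveSpecialLinearGroup (Fin 3) F) (hx : orderOf x = 2) (hy : orderOf y = 2) : IsConj x y := by
  have h2 : (2 : F) = 0 := by
    have h4 : ((4 : ℕ) : F) = 0 := by rw [← hF]; exact Nat.cast_card_eq_zero F
    have : (2 : F) * 2 = 0 := by
      rw [← h4]; norm_num
    exact mul_self_eq_zero.1 this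
  obtain ⟨g, rfl, hg, hg1⟩ := lift x hx
  obtain ⟨g', rfl, hg', hg1'⟩ := lift y hy
  obtain ⟨k, hk⟩ := conj_t0 h2 g hg hg1
  obtain ⟨k', hk'⟩ := conj_t0 h2 g' hg' hg1'
  have e : k⁻¹ * g * k = k'⁻¹ * g' * k' := Subtype.ext (hk.trans hk'.symm)
  rw [isConj_iff]
  refine ⟨QuotientGroup.mk (k' * k⁻¹), ?_⟩
  have : g' = k' * k⁻¹ * g * (k' * k⁻¹)⁻¹ := by
    calc g' = k' * (k'⁻¹ * g' * k') * k'⁻¹ := by group
      _ = k' * (k⁻¹ * g * k) * k'⁻¹ := by rw [e]
      _ = k' * k⁻¹ * g * (k' * k⁻¹)⁻¹ := by group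
  rw [this]
  rfl

end Cfsg.Agent.S0820
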