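import Mathlib
import Cfsg.Statements.S0824

set_option autoImplicit false
open Cfsg

namespace Cfsg.Agent.S0824

open Matrix

abbrev I4 := (Fin 1 ⊕ Fin 1) ⊕ Fin 2

abbrev QQ (F : Type*) [Field F] : (I4 → F) → F := Cfsg.quadFormMinus 1 F 1 1

variable {F : Type*} [Field F]

def bv (a : I4 → F) : I4 → F :=
  Sum.elim (Sum.elim (fun _ => a (.inl (.inr 0))) (fun _ => a (.inl (.inl 0))))
    ![a (.inr 1), a (.inr 0)]

theorem bv_dot (a x : I4 → F) : bv a ⬝ᵥ x = a (.inl (.inr 0)) * x (.inl (.inl 0)) +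
    a (.inl (.inl 0)) * x (.inl (.inr 0)) + (a (.inr 1) * x (.inr 0) + a (.inr 0) * x (.inr 1)) := by
  simp only [dotProduct, bv, Fintype.sum_sum_type, Fin.sum_univ_two, Finset.univ_unique,
    Finset.sum_singleton, Sum.elim_inl, Sum.elim_inr, Matrix.cons_val_zero, Matrix.cons_val_one,
    Fin.default_eq_zero]

theorem QQ_eq (x : I4 → F) : QQ F x = x (.inl (.inl 0)) * x (.inl (.inr 0)) +
    (x (.inr 0) ^ 2 + x (.inr 0) * x (.inr 1) + x (.inr 1) ^ 2) := by
  simp only [QQ, Cfsg.quadFormMinus, Finset.univ_unique, Finset.sum_singleton,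
    Fin.default_eq_zero, one_mul]

theorem Q_add (h2 : (2 : F) = 0) (x a : I4 → F) (c : F) :
    QQ F (x + c • a) = QQ F x + c ^ 2 * QQ F a + c * (bv a ⬝ᵥ x) := by
  rw [QQ_eq, QQ_eq, QQ_eq, bv_dot]
  simp only [Pi.add_apply, Pi.smul_apply, smul_eq_mul]
  linear_combination (c * x (.inr 0) * a (.inr 0) + c * x (.inr 1) * a (.inr 1)) * h2

theorem bv_self (h2 : (2 : F) = 0) (a : I4 → F) : bv a ⬝ᵥ a = 0 := by
  rw [bv_dot]
  linear_combination (a (.inl (.inr 0)) * a (.inl (.inl 0)) + a (.inr 1) * a (.inr 0)) * h2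

theorem bv_comm (a x : I4 → F) : bv a ⬝ᵥ x = bv x ⬝ᵥ a := by
  rw [bv_dot, bv_dot]; ring

theorem bv_add (a b x : I4 → F) : bv (a + b) ⬝ᵥ x = bv a ⬝ᵥ x + bv b ⬝ᵥ x := by
  rw [bv_dot, bv_dot, bv_dot]; simp only [Pi.add_apply]; ring

/-- The orthogonal transvection. -/
def MM (a : I4 → F) : Matrix I4 I4 F := 1 + vecMulVec a (bv a)

theorem MM_mulVec (a x : I4 → F) : MM a *ᵥ x = x + (bv a ⬝ᵥ x) • a := by
  rw [MM, add_mulVec, one_mulVec, vecMulVec_mulVec, op_smul_eq_smul]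

theorem MM_sq (h2 : (2 : F) = 0) (a : I4 → F) : MM a * MM a = 1 := by
  have h : vecMulVec a (bv a) * vecMulVec a (bv a) = 0 := by
    rw [vecMulVec_mul_vecMulVec, bv_self h2, zero_smul]
    ext i j
    simp [vecMulVec_apply]
  have h' : vecMulVec a (bv a) + vecMulVec a (bv a) = 0 := by
    rw [← two_smul F, h2, zero_smul]
  rw [MM, mul_add, add_mul, add_mul, h, one_mul, mul_one, one_mul, add_zero, add_assoc, h',
    add_zero]

theorem MM_isom (h2 : (2 : F) = 0) (a : I4 → F) (ha : QQ F a = 1) (x : I4 → F) :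
    QQ F (MM a *ᵥ x) = QQ F x := by
  rw [MM_mulVec, Q_add h2, ha]
  linear_combination (bv a ⬝ᵥ x) ^ 2 * h2

theorem mem_iso (g : Matrix.GeneralLinearGroup I4 F) :
    g ∈ Cfsg.isometryGroup F (QQ F) ↔ ∀ u, QQ F ((g : Matrix I4 I4 F) *ᵥ u) = QQ F u := by
  constructor
  · intro h u; exact h u u
  · intro h u _; exact h u

abbrev SS (F : Type*) [Field F] := {v : I4 → F // v ≠ 0 ∧ QQ F v = 0}

theorem gl_ne (g : Matrix.GeneralLinearGroup I4 F) (v : I4 → F) (hv : v ≠ 0) :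
    (g : Matrix I4 I4 F) *ᵥ v ≠ 0 := by
  intro h
  have := congrArg (fun w => ((g⁻¹ : Matrix.GeneralLinearGroup I4 F) : Matrix I4 I4 F) *ᵥ w) h
  simp only [Matrix.mulVec_mulVec, Matrix.mulVec_zero] at this
  rw [← Units.val_mul, inv_mul_cancel, Units.val_one, Matrix.one_mulVec] at this
  exact hv this

@[reducible] noncomputable def act : MulAction ↥(Cfsg.isometryGroup F (QQ F)) (SS F) where
  smul g v := ⟨(g.1 : Matrix I4 I4 F) *ᵥ v.1, gl_ne g.1 v.1 v.2.1, by
    rw [(mem_iso g.1).1 g.2]; exact v.2.2⟩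
  one_smul v := by
    apply Subtype.ext
    show ((1 : Matrix.GeneralLinearGroup I4 F) : Matrix I4 I4 F) *ᵥ v.1 = v.1
    simp
  mul_smul g h v := by
    apply Subtype.ext
    show ((g.1 * h.1 : Matrix.GeneralLinearGroup I4 F) : Matrix I4 I4 F) *ᵥ v.1 =
      (g.1 : Matrix I4 I4 F) *ᵥ ((h.1 : Matrix I4 I4 F) *ᵥ v.1)
    rw [Units.val_mul, Matrix.mulVec_mulVec]

theorem key [Finite F] (h2 : (2 : F) = 0)
    (hC : ∀ s t : I4 → F, s ≠ 0 → QQ F s = 0 → t ≠ 0 → QQ F t = 0 → s ≠ t → bv t ⬝ᵥ s = 1)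
    (hcard : Nat.card (SS F) = 5)
    (hsp : ∀ M : Matrix I4 I4 F, (∀ s : I4 → F, s ≠ 0 → QQ F s = 0 → M *ᵥ s = s) → M = 1) :
    Nonempty (↥(Cfsg.isometryGroup F (QQ F)) ≃* Equiv.Perm (Fin 5)) := by
  classical
  let _ := act (F := F)
  let φ : ↥(Cfsg.isometryGroup F (QQ F)) →* Equiv.Perm (SS F) := MulAction.toPermHom _ _
  have hφ : ∀ g (u : SS F), ((φ g u : SS F) : I4 → F) =
      ((g : Matrix.GeneralLinearGroup I4 F) : Matrix I4 I4 F) *ᵥ u.1 := fun g u => rfl
  have hinj : Function.Injective φ := by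
    rw [injective_iff_map_eq_one]
    intro g hg
    apply Subtype.ext
    apply Units.ext
    apply hsp
    intro s hs0 hsQ
    have := hφ g ⟨s, hs0, hsQ⟩
    rw [hg] at this
    exact this.symm
  have hsurj : Function.Surjective φ := by
    rw [← MonoidHom.range_eq_top, eq_top_iff, ← Equiv.Perm.closure_isSwap, Subgroup.closure_le]
    rintro σ ⟨s, t, hst, rfl⟩
    have hB : bv t.1 ⬝ᵥ s.1 = 1 :=
      hC s.1 t.1 s.2.1 s.2.2 t.2.1 t.2.2 (fun h => hst (Subtype.ext h))
    have ha : QQ F (s.1 + t.1) = 1 := by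
      have := Q_add h2 s.1 t.1 1
      rw [one_smul] at this
      rw [this, s.2.2, t.2.2, hB]; ring
    have hdouble : ∀ w : I4 → F, w + w = 0 := fun w => by rw [← two_smul F, h2, zero_smul]
    let g0 : Matrix.GeneralLinearGroup I4 F :=
      ⟨MM (s.1 + t.1), MM (s.1 + t.1), MM_sq h2 _, MM_sq h2 _⟩
    have hg0 : g0 ∈ Cfsg.isometryGroup F (QQ F) := (mem_iso g0).2 (fun u => MM_isom h2 _ ha u)
    refine ⟨⟨g0, hg0⟩, ?_⟩
    apply Equiv.ext
    intro u
    apply Subtype.ext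
    rw [hφ]
    show MM (s.1 + t.1) *ᵥ u.1 = _
    rw [MM_mulVec, bv_add]
    by_cases hus : u = s
    · rw [hus, Equiv.swap_apply_left, bv_self h2, hB, zero_add, one_smul, ← add_assoc, hdouble,
        zero_add]
    · by_cases hut : u = t
      · rw [hut, Equiv.swap_apply_right, bv_self h2, bv_comm, hB, add_zero, one_smul, add_comm s.1,
          ← add_assoc, hdouble, zero_add]
      · rw [Equiv.swap_apply_of_ne_of_ne hus hut,
          hC u.1 s.1 u.2.1 u.2.2 s.2.1 s.2.2 (fun h => hus (Subtype.ext h)),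
          hC u.1 t.1 u.2.1 u.2.2 t.2.1 t.2.2 (fun h => hut (Subtype.ext h))]
        have : (1 : F) + 1 = 0 := by rw [one_add_one_eq_two, h2]
        rw [this, zero_smul, add_zero]
  have e1 : ↥(Cfsg.isometryGroup F (QQ F)) ≃* Equiv.Perm (SS F) :=
    MulEquiv.ofBijective φ ⟨hinj, hsurj⟩
  have e2 : SS F ≃ Fin 5 := Finite.equivFinOfCardEq hcard
  exact ⟨e1.trans (e2.permCongrHom)⟩

theorem QQ_map {K : Type*} [Field K] (f : F →+* K) (v : I4 → F) :
    QQ K (fun i => f (v i)) = f (QQ F v) := by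
  rw [QQ_eq, QQ_eq]; simp only [map_add, map_mul, map_pow]

/-- Transport of invertible matrices along a ring isomorphism. -/
noncomputable def EE {K : Type*} [Field K] (e : F ≃+* K) :
    Matrix.GeneralLinearGroup I4 F ≃* Matrix.GeneralLinearGroup I4 K :=
  Units.mapEquiv (RingEquiv.mapMatrix e (m := I4)).toMulEquiv

theorem EE_val {K : Type*} [Field K] (e : F ≃+* K) (g : Matrix.GeneralLinearGroup I4 F) :
    ((EE e g : Matrix.GeneralLinearGroup I4 K) : Matrix I4 I4 K) = (g : Matrix I4 I4 F).map e :=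
  rfl

theorem map_mem {K : Type*} [Field K] (e : F ≃+* K) (g : Matrix.GeneralLinearGroup I4 F)
    (hg : g ∈ Cfsg.isometryGroup F (QQ F)) : EE e g ∈ Cfsg.isometryGroup K (QQ K) := by
  rw [mem_iso]
  intro u
  have hu : u = fun i => (e : F →+* K) (e.symm (u i)) := by funext i; simp
  have h3 : ((EE e g : Matrix.GeneralLinearGroup I4 K) : Matrix I4 I4 K) *ᵥ
      (fun i => (e : F →+* K) (e.symm (u i))) =
      fun i => (e : F →+* K) (((g : Matrix I4 I4 F) *ᵥ fun j => e.symm (u j)) i) :=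
    funext fun i => (RingHom.map_mulVec (e : F →+* K) (g : Matrix I4 I4 F) (fun i => e.symm (u i)) i).symm
  rw [hu, h3, QQ_map (e : F →+* K), QQ_map (e : F →+* K), (mem_iso g).1 hg]

noncomputable def tr {K : Type*} [Field K] (e : F ≃+* K) :
    ↥(Cfsg.isometryGroup F (QQ F)) ≃* ↥(Cfsg.isometryGroup K (QQ K)) where
  toFun g := ⟨EE e g.1, map_mem e g.1 g.2⟩
  invFun g := ⟨EE e.symm g.1, map_mem e.symm g.1 g.2⟩
  left_inv g := by
    apply Subtype.ext
    apply Units.ext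
    show (((g.1 : Matrix I4 I4 F).map e).map e.symm) = _
    ext i j
    simp
  right_inv g := by
    apply Subtype.ext
    apply Units.ext
    show (((g.1 : Matrix I4 I4 K).map e.symm).map e) = _
    ext i j
    simp
  map_mul' g h := by
    apply Subtype.ext
    exact map_mul (EE e) g.1 h.1

set_option synthInstance.maxHeartbeats 400000 in
set_option synthInstance.maxSize 1024 in
set_option maxRecDepth 100000 in
theorem hC2 : ∀ s t : I4 → ZMod 2, s ≠ 0 → QQ (ZMod 2) s = 0 → t ≠ 0 → QQ (ZMod 2) t = 0 → s ≠ t →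
    bv t ⬝ᵥ s = 1 := by
  decide

set_option synthInstance.maxHeartbeats 400000 in
set_option synthInstance.maxSize 1024 in
set_option maxRecDepth 100000 in
theorem hcard2 : Nat.card (SS (ZMod 2)) = 5 := by
  rw [Nat.card_eq_fintype_card]
  decide

set_option synthInstance.maxHeartbeats 400000 in
set_option synthInstance.maxSize 1024 in
set_option maxRecDepth 100000 in
theorem hsp2 (M : Matrix I4 I4 (ZMod 2))
    (h : ∀ s : I4 → ZMod 2, s ≠ 0 → QQ (ZMod 2) s = 0 → M *ᵥ s = s) : M = 1 := by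
  have hx : M *ᵥ (Pi.single (Sum.inl (Sum.inl 0)) 1) = Pi.single (Sum.inl (Sum.inl 0)) 1 :=
    h _ (by decide) (by decide)
  have hy : M *ᵥ (Pi.single (Sum.inl (Sum.inr 0)) 1) = Pi.single (Sum.inl (Sum.inr 0)) 1 :=
    h _ (by decide) (by decide)
  have hz : M *ᵥ (Pi.single (Sum.inr 0) 1) = Pi.single (Sum.inr 0) 1 := by
    have h3 := h (Pi.single (Sum.inr 0) 1 + Pi.single (Sum.inl (Sum.inl 0)) 1
      + Pi.single (Sum.inl (Sum.inr 0)) 1) (by decide) (by decide)
    rw [mulVec_add, mulVec_add, hx, hy] at h3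
    exact add_right_cancel (add_right_cancel h3)
  have hw : M *ᵥ (Pi.single (Sum.inr 1) 1) = Pi.single (Sum.inr 1) 1 := by
    have h3 := h (Pi.single (Sum.inr 1) 1 + Pi.single (Sum.inl (Sum.inl 0)) 1
      + Pi.single (Sum.inl (Sum.inr 0)) 1) (by decide) (by decide)
    rw [mulVec_add, mulVec_add, hx, hy] at h3
    exact add_right_cancel (add_right_cancel h3)
  have hall : ∀ j : I4, M *ᵥ (Pi.single j 1) = Pi.single j 1 := by
    rintro ((j | j) | j)
    · rw [Subsingleton.elim j 0]; exact hx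
    · rw [Subsingleton.elim j 0]; exact hy
    · fin_cases j
      · exact hz
      · exact hw
  ext i j
  have := congrFun (hall j) i
  rw [Matrix.mulVec_single_one] at this
  rw [Matrix.one_apply]
  have h5 : M i j = (Pi.single j 1 : I4 → ZMod 2) i := this
  rw [h5, Pi.single_apply]

/-- O⁻_4(2) ≅ S_5: the isometry group of the form x y + z_1² + z_1 z_2 + z_2² over the field with 2 elements is isomorphic to the symmetric group on 5 letters. -/
theorem result {F : Type*} [Field F] [Fintype F] (hF : Fintype.card F = 2) : Nonempty (↥(Cfsg.isometryGroup F (Cfsg.quadFormMinus 1 F 1 1)) ≃* Equiv.Perm (Fin 5)) := by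
  have e : ZMod 2 ≃+* F := ZMod.ringEquivOfPrime F Nat.prime_two hF
  obtain ⟨e2⟩ := key (F := ZMod 2) (by decide) hC2 hcard2 hsp2
  exact ⟨(tr e.symm).trans e2⟩

end Cfsg.Agent.S0824
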