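import Mathlib
import Cfsg.Statements.S0828
import Cfsg.Agent.Lib.Helper5.Planes
import Cfsg.Agent.Lib.Helper5.Symp

set_option autoImplicit false
open Cfsg

namespace Cfsg.Agent.S0828

open Cfsg.Agent.Lib.Helper5 Cfsg.Agent.Lib.Helper5.Planes

section gen
variable {F V : Type*} [Field F] [Fintype F] [AddCommGroup V] [Module F V] [Finite V]

/-- The number of vectors of a subspace off a line. -/
theorem card_off_line (W : Submodule F V) (x : W) (hx : x ≠ 0) :
    Nat.card {y : W // ∀ t : F, t • x ≠ y} = Nat.card W - Fintype.card F := by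
  classical
  have : Fintype W := Fintype.ofFinite W
  have e2 : {y : W // ∀ t : F, t • x ≠ y} ≃
      {y : W // ¬ (y ∈ Set.range (fun t : F => t • x))} :=
    Equiv.subtypeEquivRight (fun y => by simp)
  rw [Nat.card_congr e2, Nat.card_eq_fintype_card, Fintype.card_subtype_compl,
    Nat.card_eq_fintype_card]
  congr 1
  exact Set.card_range_of_injective (smul_left_injective F hx)

/-- Counting the planes with a property through a given non-zero vector. -/
theorem card_planes_through (P : Submodule F V → Prop) (v : V) (hv : v ≠ 0) :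
    Nat.card {w : V // (∀ t : F, t • v ≠ w) ∧ P (Submodule.span F {v, w})} =
      Nat.card {W : Submodule F V // Module.finrank F W = 2 ∧ v ∈ W ∧ P W} *
        (Fintype.card F ^ 2 - Fintype.card F) := by
  classical
  have hfr : ∀ w : V, (∀ t : F, t • v ≠ w) →
      Module.finrank F (Submodule.span F ({v, w} : Set V)) = 2 := by
    intro w h2
    have hli : LinearIndependent F ![v, w] := (LinearIndependent.pair_iff' hv).2 h2
    have := finrank_span_eq_card hli
    rw [Fintype.card_fin] at this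
    have hr : Set.range ![v, w] = {v, w} := by
      ext z
      simp only [Set.mem_range, Set.mem_insert_iff, Set.mem_singleton_iff]
      constructor
      · rintro ⟨i, rfl⟩
        fin_cases i
        · left; rfl
        · right; rfl
      · rintro (rfl | rfl)
        · exact ⟨0, rfl⟩
        · exact ⟨1, rfl⟩
    rw [hr] at this
    exact this
  let π : {w : V // (∀ t : F, t • v ≠ w) ∧ P (Submodule.span F {v, w})} →
      {W : Submodule F V // Module.finrank F W = 2 ∧ v ∈ W ∧ P W} :=
    fun w => ⟨Submodule.span F {v, w.1}, hfr w.1 w.2.1, Submodule.subset_span (by simp), w.2.2⟩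
  have hfib : ∀ W : {W : Submodule F V // Module.finrank F W = 2 ∧ v ∈ W ∧ P W},
      Nat.card {w // π w = W} = Fintype.card F ^ 2 - Fintype.card F := by
    intro W
    have hc : Nat.card W.1 = Fintype.card F ^ 2 := by
      have : Fintype W.1 := Fintype.ofFinite W.1
      have h2 := W.2.1
      rw [Nat.card_eq_fintype_card, Module.card_eq_pow_finrank (K := F), h2]
    rw [← hc, ← card_off_line W.1 ⟨v, W.2.2.1⟩ (fun h => hv (congrArg Subtype.val h))]
    refine Nat.card_congr ?_
    exact
      { toFun := fun w => ⟨⟨w.1.1, by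
            rw [← congrArg Subtype.val w.2]; exact Submodule.subset_span (by simp)⟩,
          fun t h => w.1.2.1 t (congrArg Subtype.val h)⟩
        invFun := fun y =>
          have h2 : ∀ t : F, t • v ≠ (y.1 : V) := fun t h => y.2 t (Subtype.ext h)
          have h3 : Submodule.span F {v, (y.1 : V)} = W.1 := by
            apply Submodule.eq_of_le_of_finrank_eq
            · rw [Submodule.span_le]
              rintro z (rfl | rfl)
              · exact W.2.2.1
              · exact y.1.2
            · rw [hfr _ h2, W.2.1]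
          ⟨⟨y.1.1, h2, by rw [h3]; exact W.2.2.2⟩, Subtype.ext h3⟩
        left_inv := fun w => rfl
        right_inv := fun y => rfl }
  have : Finite (Submodule F V) :=
    Finite.of_injective (fun W : Submodule F V => (W : Set V)) SetLike.coe_injective
  have : Fintype {W : Submodule F V // Module.finrank F W = 2 ∧ v ∈ W ∧ P W} := Fintype.ofFinite _
  rw [← Nat.card_congr (Equiv.sigmaFiberEquiv π), Nat.card_sigma]
  simp_rw [hfib]
  rw [Finset.sum_const, Finset.card_univ, smul_eq_mul, Nat.card_eq_fintype_card]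

end gen

variable {F : Type*} [Field F] [Fintype F] {q : ℕ}

omit [Fintype F] in
theorem span_iso (u v : Fin 2 ⊕ Fin 2 → F) :
    (∀ x ∈ Submodule.span F ({u, v} : Set (Fin 2 ⊕ Fin 2 → F)),
      ∀ y ∈ Submodule.span F ({u, v} : Set (Fin 2 ⊕ Fin 2 → F)), Cfsg.sympForm 2 F x y = 0) ↔
    Cfsg.sympForm 2 F u v = 0 := by
  constructor
  · intro h
    exact h u (Submodule.subset_span (by simp)) v (Submodule.subset_span (by simp))
  · intro h x hx y hy
    obtain ⟨a, b, rfl⟩ := Submodule.mem_span_pair.1 hx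
    obtain ⟨c, d, rfl⟩ := Submodule.mem_span_pair.1 hy
    have h' : Cfsg.sympForm 2 F v u = 0 := by rw [sympForm_swap, h, neg_zero]
    simp only [sympForm_add_left, sympForm_add_right, sympForm_smul_left, sympForm_smul_right,
      sympForm_self, h, h']
    ring

/-- Vectors orthogonal to `u` off its line. -/
theorem count_perp (hF : Fintype.card F = q) (u : Fin 2 ⊕ Fin 2 → F) (hu : u ≠ 0) :
    Nat.card {v : Fin 2 ⊕ Fin 2 → F // (∀ t : F, t • u ≠ v) ∧ Cfsg.sympForm 2 F u v = 0} =
      q ^ 3 - q := by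
  classical
  let f : (Fin 2 ⊕ Fin 2 → F) →ₗ[F] F :=
    { toFun := fun v => Cfsg.sympForm 2 F u v
      map_add' := fun a b => sympForm_add_right 2 u a b
      map_smul' := fun k a => by simp [sympForm_smul_right] }
  have hsurj : LinearMap.range f = ⊤ := by
    obtain ⟨a, ha⟩ := exists_sympForm_ne_zero 2 u hu
    rw [eq_top_iff]
    intro c _
    refine ⟨(c / Cfsg.sympForm 2 F u a) • a, ?_⟩
    show Cfsg.sympForm 2 F u ((c / Cfsg.sympForm 2 F u a) • a) = c
    rw [sympForm_smul_right, div_mul_cancel₀ _ ha]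
  have hker : Module.finrank F (LinearMap.ker f) = 3 := by
    have := LinearMap.finrank_range_add_finrank_ker f
    rw [hsurj, finrank_top, Module.finrank_self, Module.finrank_fintype_fun_eq_card] at this
    simp at this
    omega
  have hcard : Nat.card (LinearMap.ker f) = q ^ 3 := by
    have : Fintype (LinearMap.ker f) := Fintype.ofFinite _
    rw [Nat.card_eq_fintype_card, Module.card_eq_pow_finrank (K := F), hker, hF]
  have hmem : u ∈ LinearMap.ker f := sympForm_self 2 u
  rw [← hcard]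
  rw [← hF, ← card_off_line (LinearMap.ker f) ⟨u, hmem⟩ (fun h => hu (congrArg Subtype.val h))]
  refine Nat.card_congr ?_
  exact
    { toFun := fun v => ⟨⟨v.1, v.2.2⟩, fun t h => v.2.1 t (congrArg Subtype.val h)⟩
      invFun := fun y => ⟨y.1.1, fun t h => y.2 t (Subtype.ext h), y.1.2⟩
      left_inv := fun v => rfl
      right_inv := fun y => rfl }

/-- The symplectic generalised quadrangle over a field with q elements: the number of 2-dimensional subspaces of F^4 on which the symplectic form vanishes is (q + 1)(q² + 1), and every non-zero vector lies in exactly q + 1 of them. -/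
theorem result {F : Type*} [Field F] [Fintype F] {q : ℕ} (hF : Fintype.card F = q) : Nat.card {W : Submodule F (Fin 2 ⊕ Fin 2 → F) // Module.finrank F W = 2 ∧ ∀ u ∈ W, ∀ v ∈ W, Cfsg.sympForm 2 F u v = 0} = (q + 1) * (q ^ 2 + 1) ∧ ∀ v : Fin 2 ⊕ Fin 2 → F, v ≠ 0 → Nat.card {W : Submodule F (Fin 2 ⊕ Fin 2 → F) // Module.finrank F W = 2 ∧ v ∈ W ∧ ∀ u ∈ W, ∀ w ∈ W, Cfsg.sympForm 2 F u w = 0} = q + 1 := by
  classical
  have hq2 : 2 ≤ q := by rw [← hF]; exact Fintype.one_lt_card
  have h1 : 1 ≤ q ^ 2 := Nat.one_le_pow _ _ (by omega)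
  have h2 : q ≤ q ^ 2 := by nlinarith
  have h2' : q < q ^ 2 := by nlinarith
  have h3 : q ≤ q ^ 3 := by nlinarith [Nat.one_le_pow 2 q (by omega)]
  have h4 : 1 ≤ q ^ 4 := Nat.one_le_pow _ _ (by omega)
  constructor
  · have hcp := card_planes (F := F) (V := Fin 2 ⊕ Fin 2 → F)
      (fun W => ∀ u ∈ W, ∀ v ∈ W, Cfsg.sympForm 2 F u v = 0)
    rw [hF] at hcp
    have e : {p : (Fin 2 ⊕ Fin 2 → F) × (Fin 2 ⊕ Fin 2 → F) // p.1 ≠ 0 ∧
        (∀ t : F, t • p.1 ≠ p.2) ∧
        ∀ u ∈ Submodule.span F ({p.1, p.2} : Set (Fin 2 ⊕ Fin 2 → F)),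
        ∀ v ∈ Submodule.span F ({p.1, p.2} : Set (Fin 2 ⊕ Fin 2 → F)),
          Cfsg.sympForm 2 F u v = 0} ≃
        (Σ u : {u : Fin 2 ⊕ Fin 2 → F // u ≠ 0},
          {v : Fin 2 ⊕ Fin 2 → F // (∀ t : F, t • u.1 ≠ v) ∧ Cfsg.sympForm 2 F u.1 v = 0}) :=
      { toFun := fun p => ⟨⟨p.1.1, p.2.1⟩, ⟨p.1.2, p.2.2.1, (span_iso _ _).1 p.2.2.2⟩⟩
        invFun := fun s => ⟨(s.1.1, s.2.1), s.1.2, s.2.2.1, (span_iso _ _).2 s.2.2.2⟩
        left_inv := fun p => rfl
        right_inv := fun s => rfl }
    rw [Nat.card_congr e, Nat.card_sigma] at hcp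
    have hconst : ∀ u : {u : Fin 2 ⊕ Fin 2 → F // u ≠ 0},
        Nat.card {v : Fin 2 ⊕ Fin 2 → F // (∀ t : F, t • u.1 ≠ v) ∧
          Cfsg.sympForm 2 F u.1 v = 0} = q ^ 3 - q := fun u => count_perp hF u.1 u.2
    simp_rw [hconst] at hcp
    rw [Finset.sum_const, Finset.card_univ, smul_eq_mul, Fintype.card_subtype_compl,
      Fintype.card_subtype_eq, Fintype.card_fun, Fintype.card_sum, Fintype.card_fin, hF] at hcp
    have hK : 0 < (q ^ 2 - 1) * (q ^ 2 - q) := by
      apply Nat.mul_pos <;> omega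
    apply Nat.eq_of_mul_eq_mul_right hK
    rw [← hcp]
    zify [h1, h2, h3, h4]
    ring
  · intro v hv
    have hcp := card_planes_through (F := F) (V := Fin 2 ⊕ Fin 2 → F)
      (fun W => ∀ u ∈ W, ∀ w ∈ W, Cfsg.sympForm 2 F u w = 0) v hv
    rw [hF] at hcp
    have e : {w : Fin 2 ⊕ Fin 2 → F // (∀ t : F, t • v ≠ w) ∧
        ∀ u ∈ Submodule.span F ({v, w} : Set (Fin 2 ⊕ Fin 2 → F)),
        ∀ w' ∈ Submodule.span F ({v, w} : Set (Fin 2 ⊕ Fin 2 → F)),
          Cfsg.sympForm 2 F u w' = 0} ≃
        {w : Fin 2 ⊕ Fin 2 → F // (∀ t : F, t • v ≠ w) ∧ Cfsg.sympForm 2 F v w = 0} :=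
      Equiv.subtypeEquivRight (fun w => by rw [span_iso])
    rw [Nat.card_congr e, count_perp hF v hv] at hcp
    have hK : 0 < q ^ 2 - q := by omega
    apply Nat.eq_of_mul_eq_mul_right hK
    rw [← hcp]
    zify [h2, h3]
    ring

end Cfsg.Agent.S0828
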