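import Mathlib
import Cfsg.Statements.S0829
import Cfsg.Agent.S0279
import Cfsg.Agent.Lib.Helper5.Planes

set_option autoImplicit false
open Cfsg

namespace Cfsg.Agent.S0829

open Matrix Cfsg.Agent.Lib.Helper5.Herm Cfsg.Agent.S0277 Cfsg.Agent.S0279
  Cfsg.Agent.Lib.Helper5.Planes

variable {F : Type*} [Field F] [Fintype F] {q : ℕ}

/-- `GU_n` is transitive on non-zero vectors of a given norm. -/
theorem gu_trans0 (hF : Fintype.card F = q ^ 2) (n : ℕ) (u v : Fin n → F)
    (hu0 : u ≠ 0) (hv0 : v ≠ 0)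
    (huv : Cfsg.hermForm n F q u u = Cfsg.hermForm n F q v v) :
    ∃ g : GL (Fin n) F, g ∈ Cfsg.GU n F q ∧ (g : Matrix (Fin n) (Fin n) F) *ᵥ u = v := by
  classical
  obtain ⟨φ, hφ, hφφ, hq2⟩ := frob_setup hF
  have hσ : φ ≠ RingHom.id F := by
    intro hid
    have h1 := card_fixed_ne_zero hF
    have h2 : Nat.card {c : F // c ≠ 0 ∧ c ^ q = c} = q ^ 2 - 1 := by
      rw [← hF, Nat.card_eq_fintype_card, ← Fintype.card_units, ← Nat.card_eq_fintype_card,
        ← Nat.card_eq_fintype_card]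
      refine Nat.card_congr
        { toFun := fun c => Units.mk0 c.1 c.2.1
          invFun := fun u => ⟨u.1, Units.ne_zero u, by rw [← hφ, hid]; rfl⟩
          left_inv := fun c => rfl
          right_inv := fun u => by apply Units.ext; rfl }
    rw [h1] at h2
    have : q < q ^ 2 := by nlinarith
    omega
  have hS : (hB φ n).IsSymm := by
    refine ⟨fun x y => ?_⟩
    rw [hB_apply φ hφ, hB_apply φ hφ, herm_eq φ hφ, herm_eq φ hφ, map_sum]
    refine Finset.sum_congr rfl fun i _ => ?_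
    rw [map_mul, hφφ, mul_comm]
  have hBn : (hB φ n).Nondegenerate := by
    constructor
    · intro x hx
      ext i
      have := hx (Pi.single i 1)
      rw [hB_apply φ hφ, herm_eq φ hφ, Finset.sum_eq_single i] at this
      · simp only [Pi.single_eq_same, one_mul] at this
        have h3 := congrArg φ this
        rwa [hφφ, map_zero] at h3
      · intro j _ hj
        simp [hj]
      · intro hi; exact absurd (Finset.mem_univ i) hi
    · intro y hy
      ext i
      have := hy (Pi.single i 1)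
      rw [hB_apply φ hφ, herm_eq φ hφ, Finset.sum_eq_single i] at this
      · simpa using this
      · intro j _ hj
        simp [hj]
      · intro hi; exact absurd (Finset.mem_univ i) hi
  let eu := LinearEquiv.toSpanNonzeroSingleton F (Fin n → F) u hu0
  let ev := LinearEquiv.toSpanNonzeroSingleton F (Fin n → F) v hv0
  have hψ : ∀ x : Submodule.span F {u}, ((eu.symm.trans ev) x : Fin n → F) = (eu.symm x) • v ∧
      (x : Fin n → F) = (eu.symm x) • u := by
    intro x
    constructor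
    · show ((ev (eu.symm x) : Submodule.span F {v}) : Fin n → F) = _
      rw [LinearEquiv.toSpanNonzeroSingleton_apply]
    · have : eu (eu.symm x) = x := eu.apply_symm_apply x
      have h2 := congrArg Subtype.val this
      rw [LinearEquiv.toSpanNonzeroSingleton_apply] at h2
      exact h2.symm
  have hsm : ∀ (a b : F) (w : Fin n → F), hB φ n (a • w) (b • w) = φ a * b * hB φ n w w := by
    intro a b w
    have e1 : hB φ n (a • w) = φ a • hB φ n w := map_smulₛₗ (hB φ n) a w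
    rw [e1, LinearMap.smul_apply, map_smul, smul_eq_mul, smul_eq_mul]
    ring
  obtain ⟨g, hg, hgx⟩ := Cfsg.Agent.S0751.result φ hσ hφφ (hB φ n) hS hBn
    (Submodule.span F {u}) (Submodule.span F {v}) (eu.symm.trans ev) (by
      intro x x'
      rw [(hψ x).1, (hψ x').1]
      rw [show ((hB φ n) (x : Fin n → F)) (x' : Fin n → F) =
        ((hB φ n) (eu.symm x • u)) (eu.symm x' • u) from by rw [← (hψ x).2, ← (hψ x').2]]
      rw [hsm, hsm, hB_apply φ hφ, hB_apply φ hφ, huv])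
  have hMinv : LinearMap.toMatrix' (g : (Fin n → F) →ₗ[F] (Fin n → F)) *
      LinearMap.toMatrix' (g.symm : (Fin n → F) →ₗ[F] (Fin n → F)) = 1 := by
    rw [← LinearMap.toMatrix'_comp]
    have : (g : (Fin n → F) →ₗ[F] (Fin n → F)) ∘ₗ (g.symm : (Fin n → F) →ₗ[F] (Fin n → F)) =
        LinearMap.id := by
      ext x : 1
      simp
    rw [this, LinearMap.toMatrix'_id]
  have hMinv' : LinearMap.toMatrix' (g.symm : (Fin n → F) →ₗ[F] (Fin n → F)) *
      LinearMap.toMatrix' (g : (Fin n → F) →ₗ[F] (Fin n → F)) = 1 := by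
    rw [← LinearMap.toMatrix'_comp]
    have : (g.symm : (Fin n → F) →ₗ[F] (Fin n → F)) ∘ₗ (g : (Fin n → F) →ₗ[F] (Fin n → F)) =
        LinearMap.id := by
      ext x : 1
      simp
    rw [this, LinearMap.toMatrix'_id]
  refine ⟨⟨LinearMap.toMatrix' (g : (Fin n → F) →ₗ[F] (Fin n → F)),
    LinearMap.toMatrix' (g.symm : (Fin n → F) →ₗ[F] (Fin n → F)), hMinv, hMinv'⟩, ?_, ?_⟩
  · rw [mem_GU]
    intro x y
    show Cfsg.hermForm n F q ((LinearMap.toMatrix' (g : (Fin n → F) →ₗ[F] (Fin n → F))) *ᵥ x)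
      ((LinearMap.toMatrix' (g : (Fin n → F) →ₗ[F] (Fin n → F))) *ᵥ y) = _
    rw [LinearMap.toMatrix'_mulVec, LinearMap.toMatrix'_mulVec, ← hB_apply φ hφ, ← hB_apply φ hφ]
    exact hg y x
  · show (LinearMap.toMatrix' (g : (Fin n → F) →ₗ[F] (Fin n → F))) *ᵥ u = v
    rw [LinearMap.toMatrix'_mulVec]
    have hmem : u ∈ Submodule.span F {u} := Submodule.mem_span_singleton_self u
    have h1 := hgx ⟨u, hmem⟩
    have h2 := hψ ⟨u, hmem⟩
    have h3 : eu.symm ⟨u, hmem⟩ = 1 := by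
      rw [LinearEquiv.symm_apply_eq]
      apply Subtype.ext
      rw [LinearEquiv.toSpanNonzeroSingleton_apply]
      exact (one_smul F u).symm
    rw [h3, one_smul] at h2
    show g u = v
    rw [← h2.1]
    exact h1


theorem span_iso (hF : Fintype.card F = q ^ 2) (n : ℕ) (u v : Fin n → F) :
    (∀ x ∈ Submodule.span F ({u, v} : Set (Fin n → F)),
      ∀ y ∈ Submodule.span F ({u, v} : Set (Fin n → F)), Cfsg.hermForm n F q x y = 0) ↔
    (Cfsg.hermForm n F q u u = 0 ∧ Cfsg.hermForm n F q u v = 0 ∧ Cfsg.hermForm n F q v v = 0) := by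
  obtain ⟨φ, hφ, hφφ, hq2⟩ := frob_setup hF
  constructor
  · intro h
    have hu : u ∈ Submodule.span F ({u, v} : Set (Fin n → F)) := Submodule.subset_span (by simp)
    have hv : v ∈ Submodule.span F ({u, v} : Set (Fin n → F)) := Submodule.subset_span (by simp)
    exact ⟨h u hu u hu, h u hu v hv, h v hv v hv⟩
  · rintro ⟨h1, h2, h3⟩ x hx y hy
    obtain ⟨a, b, rfl⟩ := Submodule.mem_span_pair.1 hx
    obtain ⟨c, d, rfl⟩ := Submodule.mem_span_pair.1 hy
    have h4 : Cfsg.hermForm n F q v u = 0 := by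
      have : Cfsg.hermForm n F q v u = φ (Cfsg.hermForm n F q u v) := by
        rw [herm_eq φ hφ, herm_eq φ hφ, map_sum]
        refine Finset.sum_congr rfl fun i _ => ?_
        rw [map_mul, hφφ, mul_comm]
      rw [this, h2, map_zero]
    rw [herm_eq φ hφ] at h1 h2 h3 h4 ⊢
    simp only [Pi.add_apply, Pi.smul_apply, smul_eq_mul, map_add, map_mul]
    have : ∀ i, (a * u i + b * v i) * (φ c * φ (u i) + φ d * φ (v i)) =
        a * φ c * (u i * φ (u i)) + a * φ d * (u i * φ (v i)) + b * φ c * (v i * φ (u i)) +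
          b * φ d * (v i * φ (v i)) := fun i => by ring
    simp_rw [this, Finset.sum_add_distrib, ← Finset.mul_sum, h1, h2, h3, h4]
    ring

/-- The standard isotropic vector. -/
def u0 (n : ℕ) (a : F) : Fin (n + 2) → F := Fin.cons 1 (Fin.cons a 0)

omit [Fintype F] [Field F] in
theorem vdecomp (n : ℕ) (v : Fin (n + 2) → F) :
    v = Fin.cons (v 0) (Fin.cons (v 1) (fun i => v i.succ.succ)) := by
  ext i
  refine Fin.cases ?_ (fun j => ?_) i
  · rfl
  · refine Fin.cases ?_ (fun k => ?_) j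
    · rfl
    · rfl

theorem cond_u0 (hF : Fintype.card F = q ^ 2) (n : ℕ) (a : F) (ha : a ^ (q + 1) = -1) (x y : F)
    (w : Fin n → F) :
    ((∀ t : F, t • u0 n a ≠ Fin.cons x (Fin.cons y w)) ∧
      Cfsg.hermForm (n + 2) F q (u0 n a) (Fin.cons x (Fin.cons y w)) = 0 ∧
      Cfsg.hermForm (n + 2) F q (Fin.cons x (Fin.cons y w)) (Fin.cons x (Fin.cons y w)) = 0) ↔
    (x = -(a ^ q * y) ∧ w ≠ 0 ∧ Cfsg.hermForm n F q w w = 0) := by
  obtain ⟨φ, hφ, hφφ, hq2⟩ := frob_setup hF
  have haφ : a * φ a = -1 := by rw [hφ, ← pow_succ']; exact ha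
  have h0 : Cfsg.hermForm n F q 0 w = 0 := by simp [Cfsg.hermForm]
  have e1 : Cfsg.hermForm (n + 2) F q (u0 n a) (Fin.cons x (Fin.cons y w)) = φ x + a * φ y := by
    rw [u0, herm_cons, herm_cons, h0, hφ, hφ]; ring
  have e2 : Cfsg.hermForm (n + 2) F q (Fin.cons x (Fin.cons y w)) (Fin.cons x (Fin.cons y w)) =
      x * φ x + (y * φ y + Cfsg.hermForm n F q w w) := by
    rw [herm_cons, herm_cons, hφ, hφ]
  have e3 : φ x + a * φ y = 0 ↔ x = -(a ^ q * y) := by
    rw [← hφ a]
    constructor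
    · intro h
      have := congrArg φ h
      rw [map_add, map_mul, hφφ, hφφ, map_zero] at this
      linear_combination this
    · intro h
      rw [h, map_neg, map_mul, hφφ]; ring
  have e4 : ∀ t : F, t • u0 n a = Fin.cons t (Fin.cons (t * a) 0) := by
    intro t
    ext i
    refine Fin.cases ?_ (fun j => ?_) i
    · simp [u0]
    · refine Fin.cases ?_ (fun k => ?_) j
      · simp [u0]
      · simp [u0]
  rw [e1, e2, e3]
  constructor
  · rintro ⟨h1, h2, h3⟩
    refine ⟨h2, ?_, ?_⟩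
    · intro hw
      apply h1 x
      rw [e4, hw]
      have : x * a = y := by
        rw [h2, ← hφ a]; linear_combination (-y) * haφ
      rw [this]
    · rw [h2, ← hφ a] at h3
      rw [map_neg, map_mul, hφφ] at h3
      linear_combination h3 - (y * φ y) * haφ
  · rintro ⟨h2, hw, h3⟩
    refine ⟨?_, h2, ?_⟩
    · intro t ht
      rw [e4] at ht
      have := congrArg (fun v : Fin (n + 2) → F => fun i : Fin n => v i.succ.succ) ht
      simp only [Fin.cons_succ] at this
      exact hw this.symm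
    · rw [h2, ← hφ a, map_neg, map_mul, hφφ, h3]
      linear_combination (y * φ y) * haφ

theorem count_u0 (hF : Fintype.card F = q ^ 2) (n : ℕ) (a : F) (ha : a ^ (q + 1) = -1) :
    Nat.card {v : Fin (n + 2) → F // (∀ t : F, t • u0 n a ≠ v) ∧
      Cfsg.hermForm (n + 2) F q (u0 n a) v = 0 ∧ Cfsg.hermForm (n + 2) F q v v = 0} =
    q ^ 2 * Nat.card {w : Fin n → F // w ≠ 0 ∧ Cfsg.hermForm n F q w w = 0} := by
  rw [← hF, ← Nat.card_eq_fintype_card, ← Nat.card_prod]
  refine Nat.card_congr ?_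
  exact
    { toFun := fun v => (v.1 1, ⟨fun i => v.1 i.succ.succ,
        ((cond_u0 hF n a ha (v.1 0) (v.1 1) _).1 (by rw [← vdecomp n v.1]; exact v.2)).2⟩)
      invFun := fun s => ⟨Fin.cons (-(a ^ q * s.1)) (Fin.cons s.1 s.2.1),
        (cond_u0 hF n a ha _ _ _).2 ⟨rfl, s.2.2.1, s.2.2.2⟩⟩
      left_inv := fun v => by
        apply Subtype.ext
        have h := ((cond_u0 hF n a ha (v.1 0) (v.1 1) _).1
          (by rw [← vdecomp n v.1]; exact v.2)).1
        show Fin.cons (-(a ^ q * v.1 1)) (Fin.cons (v.1 1) (fun i => v.1 i.succ.succ)) = v.1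
        rw [← h, ← vdecomp n v.1]
      right_inv := fun s => by
        apply Prod.ext
        · rfl
        · apply Subtype.ext
          rfl }

omit [Fintype F] in
theorem cond_map (n : ℕ) (g : GL (Fin n) F) (hg : g ∈ Cfsg.GU n F q) (u v : Fin n → F)
    (hc : (∀ t : F, t • u ≠ v) ∧ Cfsg.hermForm n F q u v = 0 ∧ Cfsg.hermForm n F q v v = 0) :
    (∀ t : F, t • ((g : Matrix (Fin n) (Fin n) F) *ᵥ u) ≠ (g : Matrix (Fin n) (Fin n) F) *ᵥ v) ∧
      Cfsg.hermForm n F q ((g : Matrix (Fin n) (Fin n) F) *ᵥ u)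
        ((g : Matrix (Fin n) (Fin n) F) *ᵥ v) = 0 ∧
      Cfsg.hermForm n F q ((g : Matrix (Fin n) (Fin n) F) *ᵥ v)
        ((g : Matrix (Fin n) (Fin n) F) *ᵥ v) = 0 := by
  refine ⟨?_, ?_, ?_⟩
  · intro t ht
    apply hc.1 t
    rw [← Matrix.mulVec_smul] at ht
    have := congrArg (fun w => ((g⁻¹ : GL (Fin n) F) : Matrix (Fin n) (Fin n) F) *ᵥ w) ht
    simp only [Matrix.mulVec_mulVec] at this
    rw [← Units.val_mul, inv_mul_cancel, Units.val_one, Matrix.one_mulVec, Matrix.one_mulVec]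
      at this
    exact this
  · rw [(mem_GU n g).1 hg]; exact hc.2.1
  · rw [(mem_GU n g).1 hg]; exact hc.2.2

theorem count_eq (hF : Fintype.card F = q ^ 2) (n : ℕ) (u u' : Fin n → F) (hu : u ≠ 0)
    (hu' : u' ≠ 0) (h0 : Cfsg.hermForm n F q u u = 0) (h0' : Cfsg.hermForm n F q u' u' = 0) :
    Nat.card {v : Fin n → F // (∀ t : F, t • u ≠ v) ∧
      Cfsg.hermForm n F q u v = 0 ∧ Cfsg.hermForm n F q v v = 0} =
    Nat.card {v : Fin n → F // (∀ t : F, t • u' ≠ v) ∧
      Cfsg.hermForm n F q u' v = 0 ∧ Cfsg.hermForm n F q v v = 0} := by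
  obtain ⟨g, hg, hgu⟩ := gu_trans0 hF n u u' hu hu' (by rw [h0, h0'])
  have hgu' : ((g⁻¹ : GL (Fin n) F) : Matrix (Fin n) (Fin n) F) *ᵥ u' = u := by
    rw [← hgu, Matrix.mulVec_mulVec, ← Units.val_mul, inv_mul_cancel, Units.val_one,
      Matrix.one_mulVec]
  refine Nat.card_congr ?_
  exact
    { toFun := fun v => ⟨(g : Matrix (Fin n) (Fin n) F) *ᵥ v.1, by
        have := cond_map n g hg u v.1 v.2
        rw [hgu] at this
        exact this⟩
      invFun := fun v => ⟨((g⁻¹ : GL (Fin n) F) : Matrix (Fin n) (Fin n) F) *ᵥ v.1, by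
        have := cond_map n g⁻¹ (inv_mem hg) u' v.1 v.2
        rw [hgu'] at this
        exact this⟩
      left_inv := fun v => by
        apply Subtype.ext
        show ((g⁻¹ : GL (Fin n) F) : Matrix (Fin n) (Fin n) F) *ᵥ
          ((g : Matrix (Fin n) (Fin n) F) *ᵥ v.1) = v.1
        rw [Matrix.mulVec_mulVec, ← Units.val_mul, inv_mul_cancel, Units.val_one,
          Matrix.one_mulVec]
      right_inv := fun v => by
        apply Subtype.ext
        show (g : Matrix (Fin n) (Fin n) F) *ᵥ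
          (((g⁻¹ : GL (Fin n) F) : Matrix (Fin n) (Fin n) F) *ᵥ v.1) = v.1
        rw [Matrix.mulVec_mulVec, ← Units.val_mul, mul_inv_cancel, Units.val_one,
          Matrix.one_mulVec] }

/-- Counting totally isotropic planes. -/
theorem lines_count (hF : Fintype.card F = q ^ 2) (n : ℕ) :
    Nat.card {W : Submodule F (Fin (n + 2) → F) // Module.finrank F W = 2 ∧
        ∀ u ∈ W, ∀ v ∈ W, Cfsg.hermForm (n + 2) F q u v = 0} *
      (((q ^ 2) ^ 2 - 1) * ((q ^ 2) ^ 2 - q ^ 2)) =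
    Nat.card {u : Fin (n + 2) → F // u ≠ 0 ∧ Cfsg.hermForm (n + 2) F q u u = 0} *
      (q ^ 2 * Nat.card {w : Fin n → F // w ≠ 0 ∧ Cfsg.hermForm n F q w w = 0}) := by
  classical
  obtain ⟨a, _, _, _, _, _, ha, _, _⟩ := three_norm hF
  have hcp := card_planes (F := F) (V := Fin (n + 2) → F)
    (fun W => ∀ u ∈ W, ∀ v ∈ W, Cfsg.hermForm (n + 2) F q u v = 0)
  rw [hF] at hcp
  rw [← hcp]
  have e : {p : (Fin (n + 2) → F) × (Fin (n + 2) → F) // p.1 ≠ 0 ∧ (∀ t : F, t • p.1 ≠ p.2) ∧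
      ∀ u ∈ Submodule.span F ({p.1, p.2} : Set (Fin (n + 2) → F)),
      ∀ v ∈ Submodule.span F ({p.1, p.2} : Set (Fin (n + 2) → F)),
        Cfsg.hermForm (n + 2) F q u v = 0} ≃
      (Σ u : {u : Fin (n + 2) → F // u ≠ 0 ∧ Cfsg.hermForm (n + 2) F q u u = 0},
        {v : Fin (n + 2) → F // (∀ t : F, t • u.1 ≠ v) ∧
          Cfsg.hermForm (n + 2) F q u.1 v = 0 ∧ Cfsg.hermForm (n + 2) F q v v = 0}) :=
    { toFun := fun p => ⟨⟨p.1.1, p.2.1, ((span_iso hF _ _ _).1 p.2.2.2).1⟩,
        ⟨p.1.2, p.2.2.1, ((span_iso hF _ _ _).1 p.2.2.2).2.1,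
          ((span_iso hF _ _ _).1 p.2.2.2).2.2⟩⟩
      invFun := fun s => ⟨(s.1.1, s.2.1), s.1.2.1, s.2.2.1,
        (span_iso hF _ _ _).2 ⟨s.1.2.2, s.2.2.2.1, s.2.2.2.2⟩⟩
      left_inv := fun p => rfl
      right_inv := fun s => rfl }
  rw [Nat.card_congr e, Nat.card_sigma]
  have hu0 : u0 n a ≠ 0 := by
    intro h
    have := congrFun h 0
    simp [u0] at this
  have hu00 : Cfsg.hermForm (n + 2) F q (u0 n a) (u0 n a) = 0 := by
    rw [u0, herm_cons, herm_cons]
    have : Cfsg.hermForm n F q (0 : Fin n → F) 0 = 0 := by simp [Cfsg.hermForm]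
    rw [this, one_pow, ← pow_succ', ha]; ring
  have hconst : ∀ u : {u : Fin (n + 2) → F // u ≠ 0 ∧ Cfsg.hermForm (n + 2) F q u u = 0},
      Nat.card {v : Fin (n + 2) → F // (∀ t : F, t • u.1 ≠ v) ∧
          Cfsg.hermForm (n + 2) F q u.1 v = 0 ∧ Cfsg.hermForm (n + 2) F q v v = 0} =
        q ^ 2 * Nat.card {w : Fin n → F // w ≠ 0 ∧ Cfsg.hermForm n F q w w = 0} := by
    intro u
    rw [count_eq hF (n + 2) u.1 (u0 n a) u.2.1 hu0 u.2.2 hu00, count_u0 hF n a ha]
  simp_rw [hconst]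
  rw [Finset.sum_const, Finset.card_univ, smul_eq_mul]
  simp only [Nat.card_eq_fintype_card]

omit [Fintype F] in
theorem card_nz [Finite F] (n : ℕ) :
    Nat.card {v : Fin n → F // v ≠ 0 ∧ Cfsg.hermForm n F q v v = 0} + 1 =
      Nat.card {v : Fin n → F // Cfsg.hermForm n F q v v = 0} := by
  classical
  rcases Nat.eq_zero_or_pos q with hq | hq
  · -- degenerate: q = 0
    subst hq
    have h1 : ∀ v : Fin n → F, Cfsg.hermForm n F 0 v v = ∑ i, v i := by
      intro v; simp [Cfsg.hermForm]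
    have e : {v : Fin n → F // Cfsg.hermForm n F 0 v v = 0} ≃
        Option {v : Fin n → F // v ≠ 0 ∧ Cfsg.hermForm n F 0 v v = 0} :=
      { toFun := fun x => if h : (x : Fin n → F) = 0 then none else some ⟨x, h, x.2⟩
        invFun := fun o => match o with
          | none => ⟨0, by rw [h1]; simp⟩
          | some c => ⟨c.1, c.2.2⟩
        left_inv := by
          intro x
          by_cases h : (x : Fin n → F) = 0
          · simp only [h, dif_pos]
            exact Subtype.ext h.symm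
          · simp only [h, dif_neg, not_false_eq_true]
        right_inv := by
          intro o
          cases o with
          | none => simp
          | some c => simp [c.2.1] }
    rw [Nat.card_congr e, Finite.card_option]
  · have e : {v : Fin n → F // Cfsg.hermForm n F q v v = 0} ≃
        Option {v : Fin n → F // v ≠ 0 ∧ Cfsg.hermForm n F q v v = 0} :=
      { toFun := fun x => if h : (x : Fin n → F) = 0 then none else some ⟨x, h, x.2⟩
        invFun := fun o => match o with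
          | none => ⟨0, by simp [Cfsg.hermForm]⟩
          | some c => ⟨c.1, c.2.2⟩
        left_inv := by
          intro x
          by_cases h : (x : Fin n → F) = 0
          · simp only [h, dif_pos]
            exact Subtype.ext h.symm
          · simp only [h, dif_neg, not_false_eq_true]
        right_inv := by
          intro o
          cases o with
          | none => simp
          | some c => simp [c.2.1] }
    rw [Nat.card_congr e, Finite.card_option]

theorem finish (q T N4 N2 M : ℕ) (hq : 2 ≤ q)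
    (h : T * (((q ^ 2) ^ 2 - 1) * ((q ^ 2) ^ 2 - q ^ 2)) = N4 * (q ^ 2 * N2))
    (hM : (M : ℤ) * (((q : ℤ) ^ 4 - 1) * ((q : ℤ) ^ 4 - (q : ℤ) ^ 2)) =
      (N4 : ℤ) * ((q : ℤ) ^ 2 * N2)) : T = M := by
  have h1 : 1 ≤ (q ^ 2) ^ 2 := Nat.one_le_pow _ _ (by positivity)
  have h2 : q ^ 2 ≤ (q ^ 2) ^ 2 := by nlinarith [Nat.one_le_pow 2 q (by omega)]
  have h3 : 1 < (q ^ 2) ^ 2 := by nlinarith [Nat.one_le_pow 2 q (by omega)]
  have h4 : q ^ 2 < (q ^ 2) ^ 2 := by nlinarith [Nat.one_le_pow 2 q (by omega)]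
  have hK : (((q ^ 2) ^ 2 - 1) * ((q ^ 2) ^ 2 - q ^ 2)) ≠ 0 := by
    apply Nat.mul_ne_zero <;> omega
  have hMn : M * (((q ^ 2) ^ 2 - 1) * ((q ^ 2) ^ 2 - q ^ 2)) = N4 * (q ^ 2 * N2) := by
    zify [h1, h2]
    rw [← hM]; ring
  exact Nat.eq_of_mul_eq_mul_right (Nat.pos_of_ne_zero hK) (h.trans hMn.symm)

/-- The number of non-zero isotropic vectors, over `ℤ`. -/
theorem nz_count (hF : Fintype.card F = q ^ 2) (n : ℕ) :
    (q : ℤ) * ((Nat.card {v : Fin n → F // v ≠ 0 ∧ Cfsg.hermForm n F q v v = 0} : ℤ) + 1) =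
      (q : ℤ) ^ (2 * n) + (-1) ^ n * ((q : ℤ) ^ (n + 1) - (q : ℤ) ^ n) := by
  have h1 := card_nz (F := F) (q := q) n
  have h2 := (counts hF n).2
  rw [← h2, ← h1]
  push_cast
  ring

/-- The unitary quadrangle of PSU_4(q): with |F| = q², the number of 2-dimensional subspaces of F^4 on which the Hermitian form Σ x_i y_i^q vanishes is (q + 1)(q³ + 1). -/
theorem result {F : Type*} [Field F] [Fintype F] {q : ℕ} (hF : Fintype.card F = q ^ 2) : Nat.card {W : Submodule F (Fin 4 → F) // Module.finrank F W = 2 ∧ ∀ u ∈ W, ∀ v ∈ W, Cfsg.hermForm 4 F q u v = 0} = (q + 1) * (q ^ 3 + 1) := by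
  obtain ⟨φ, hφ, hφφ, hq2⟩ := frob_setup hF
  have hq0 : (q : ℤ) ≠ 0 := by
    have : (2 : ℤ) ≤ q := by exact_mod_cast hq2
    omega
  have h := lines_count hF 2
  have z4 := nz_count hF 4
  have z2 := nz_count hF 2
  refine finish q _ _ _ _ hq2 h ?_
  have e4 : (Nat.card {v : Fin 4 → F // v ≠ 0 ∧ Cfsg.hermForm 4 F q v v = 0} : ℤ) =
      (q : ℤ) ^ 7 + (q : ℤ) ^ 4 - (q : ℤ) ^ 3 - 1 := by
    apply mul_left_cancel₀ hq0
    linear_combination z4
  have e2 : (Nat.card {v : Fin 2 → F // v ≠ 0 ∧ Cfsg.hermForm 2 F q v v = 0} : ℤ) =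
      (q : ℤ) ^ 3 + (q : ℤ) ^ 2 - (q : ℤ) - 1 := by
    apply mul_left_cancel₀ hq0
    linear_combination z2
  rw [e4, e2]
  push_cast
  ring

end Cfsg.Agent.S0829
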