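import Mathlib
import Cfsg.Statements.S0830
import Cfsg.Agent.S0829

set_option autoImplicit false
open Cfsg

namespace Cfsg.Agent.S0830

open Matrix Cfsg.Agent.Lib.Helper5.Herm Cfsg.Agent.S0829

/-- The unitary quadrangle of PSU_5(q): with |F| = q², the number of 2-dimensional subspaces of F^5 on which the Hermitian form vanishes is (q³ + 1)(q⁵ + 1). -/
theorem result {F : Type*} [Field F] [Fintype F] {q : ℕ} (hF : Fintype.card F = q ^ 2) : Nat.card {W : Submodule F (Fin 5 → F) // Module.finrank F W = 2 ∧ ∀ u ∈ W, ∀ v ∈ W, Cfsg.hermForm 5 F q u v = 0} = (q ^ 3 + 1) * (q ^ 5 + 1) := by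
  obtain ⟨φ, hφ, hφφ, hq2⟩ := frob_setup hF
  have hq0 : (q : ℤ) ≠ 0 := by
    have : (2 : ℤ) ≤ q := by exact_mod_cast hq2
    omega
  have h := lines_count hF 3
  have z5 := nz_count hF 5
  have z3 := nz_count hF 3
  refine finish q _ _ _ _ hq2 h ?_
  have e5 : (Nat.card {v : Fin 5 → F // v ≠ 0 ∧ Cfsg.hermForm 5 F q v v = 0} : ℤ) =
      (q : ℤ) ^ 9 - (q : ℤ) ^ 5 + (q : ℤ) ^ 4 - 1 := by
    apply mul_left_cancel₀ hq0
    linear_combination z5
  have e3 : (Nat.card {v : Fin 3 → F // v ≠ 0 ∧ Cfsg.hermForm 3 F q v v = 0} : ℤ) =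
      (q : ℤ) ^ 5 - (q : ℤ) ^ 3 + (q : ℤ) ^ 2 - 1 := by
    apply mul_left_cancel₀ hq0
    linear_combination z3
  rw [e5, e3]
  push_cast
  ring

end Cfsg.Agent.S0830
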