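import Mathlib
import Cfsg.Statements.S0833
import Cfsg.Agent.S0752

set_option autoImplicit false
open Cfsg

namespace Cfsg.Agent.S0833

theorem tm {F U W : Type*} [Field F] [AddCommGroup U] [Module F U] [AddCommGroup W] [Module F W]
    (B₁ : LinearMap.BilinForm F U) (B₂ : LinearMap.BilinForm F W) (u u' : U) (w w' : W) :
    (B₁.tmul B₂) (u ⊗ₜ w) (u' ⊗ₜ w') = B₁ u u' * B₂ w w' := by
  rw [LinearMap.BilinForm.tensorDistrib_tmul, smul_eq_mul, mul_comm]

theorem lagr {F U : Type*} [Field F] [AddCommGroup U] [Module F U] [FiniteDimensional F U]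
    (B₁ : LinearMap.BilinForm F U) (h₁ : B₁.Nondegenerate) (hA₁ : B₁.IsAlt) (k : ℕ)
    (hU : Module.finrank F U = 2 * k) :
    ∃ L : Submodule F U, Module.finrank F L = k ∧ ∀ x ∈ L, ∀ y ∈ L, B₁ x y = 0 := by
  classical
  obtain ⟨m, k', b, h1, h2, h3, h4⟩ := Cfsg.Agent.S0752.result B₁ hA₁
  have hk' : k' = 0 := by
    by_contra hne
    have hj := h4 ⟨0, Nat.pos_of_ne_zero hne⟩
    exact b.ne_zero _ (h₁.1 _ hj)
  have hcard := Module.finrank_eq_card_basis b
  simp only [Fintype.card_sum, Fintype.card_fin] at hcard
  have hm : m = k := by omega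
  refine ⟨Submodule.span F (Set.range (fun i : Fin m => b (Sum.inl (Sum.inl i)))), ?_, ?_⟩
  · rw [finrank_span_eq_card, Fintype.card_fin, hm]
    exact b.linearIndependent.comp (fun i : Fin m => Sum.inl (Sum.inl i))
      (fun i j h => by simpa using h)
  · intro x hx y hy
    induction hx using Submodule.span_induction with
    | mem x hx =>
      obtain ⟨i, rfl⟩ := hx
      induction hy using Submodule.span_induction with
      | mem y hy =>
        obtain ⟨j, rfl⟩ := hy
        exact h2 i j
      | zero => simp
      | add y y' _ _ h h' => rw [map_add, h, h', add_zero]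
      | smul a y _ h => rw [map_smul, h, smul_zero]
    | zero => simp
    | add x x' _ _ h h' => rw [map_add, LinearMap.add_apply, h, h', add_zero]
    | smul a x _ h => rw [map_smul, LinearMap.smul_apply, h, smul_zero]

/-- If B₁, B₂ are non-degenerate alternating forms on U (dim 2k) and W (dim 2l), then B₁ ⊗ B₂ on U ⊗ W is symmetric, non-degenerate, and vanishes identically on some subspace of dimension 2kl (half of dim U ⊗ W). -/
theorem result {F U W : Type*} [Field F] [Fintype F] [AddCommGroup U] [Module F U] [FiniteDimensional F U] [AddCommGroup W] [Module F W] [FiniteDimensional F W] (B₁ : LinearMap.BilinForm F U) (B₂ : LinearMap.BilinForm F W) (h₁ : B₁.Nondegenerate) (h₂ : B₂.Nondegenerate) (hA₁ : B₁.IsAlt) (hA₂ : B₂.IsAlt) (k l : ℕ) (hU : Module.finrank F U = 2 * k) (hW : Module.finrank F W = 2 * l) : (B₁.tmul B₂).IsSymm ∧ (B₁.tmul B₂).Nondegenerate ∧ (∃ X : Submodule F (TensorProduct F U W), Module.finrank F X = 2 * k * l ∧ ∀ x ∈ X, ∀ y ∈ X, (B₁.tmul B₂) x y = 0) := by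
  classical
  have hsymm : ∀ x y, (B₁.tmul B₂) x y = (B₁.tmul B₂) y x := by
    intro x y
    induction x using TensorProduct.induction_on with
    | zero => simp
    | tmul u w =>
      induction y using TensorProduct.induction_on with
      | zero => simp
      | tmul u' w' =>
        rw [tm, tm, ← hA₁.neg_eq u u', ← hA₂.neg_eq w w']; ring
      | add y y' h h' => rw [map_add, h, h', map_add, LinearMap.add_apply]
    | add x x' h h' => rw [map_add, LinearMap.add_apply, h, h', map_add]
  have hsepR : ∀ x, (∀ y, (B₁.tmul B₂) y x = 0) → x = 0 := by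
    intro x hx
    have hrep : ∀ p, ((Module.finBasis F U).tensorProduct (Module.finBasis F W)).repr x p = 0 := by
      intro p
      have h := hx (B₁.dualBasis h₁ (Module.finBasis F U) p.1 ⊗ₜ B₂.dualBasis h₂ (Module.finBasis F W) p.2)
      rw [← ((Module.finBasis F U).tensorProduct (Module.finBasis F W)).sum_repr x] at h
      simp only [map_sum, map_smul, smul_eq_mul] at h
      have h2 : ∀ q, (B₁.tmul B₂)
          (B₁.dualBasis h₁ (Module.finBasis F U) p.1 ⊗ₜ B₂.dualBasis h₂ (Module.finBasis F W) p.2)
          (((Module.finBasis F U).tensorProduct (Module.finBasis F W)) q) = if q = p then 1 else 0 := by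
        intro q
        rw [Module.Basis.tensorProduct_apply', tm, LinearMap.BilinForm.apply_dualBasis_left,
          LinearMap.BilinForm.apply_dualBasis_left]
        by_cases h1 : q.1 = p.1 <;> by_cases h2 : q.2 = p.2 <;> simp [h1, h2, Prod.ext_iff]
      simp only [h2, mul_ite, mul_one, mul_zero, Finset.sum_ite_eq', Finset.mem_univ, if_true] at h
      exact h
    rw [← ((Module.finBasis F U).tensorProduct (Module.finBasis F W)).sum_repr x]
    simp [hrep]
  refine ⟨⟨hsymm⟩, ⟨fun x hx => hsepR x (fun y => by rw [hsymm]; exact hx y), hsepR⟩, ?_⟩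
  obtain ⟨L, hL, hL0⟩ := lagr B₁ h₁ hA₁ k hU
  have hinj : Function.Injective (L.subtype.rTensor W) :=
    Module.Flat.rTensor_preserves_injective_linearMap _ L.injective_subtype
  refine ⟨LinearMap.range (L.subtype.rTensor W), ?_, ?_⟩
  · rw [LinearMap.finrank_range_of_inj hinj, Module.finrank_tensorProduct, hL, hW]; ring
  · rintro _ ⟨x, rfl⟩ _ ⟨y, rfl⟩
    induction x using TensorProduct.induction_on with
    | zero => simp
    | tmul u w =>
      induction y using TensorProduct.induction_on with
      | zero => simp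
      | tmul u' w' =>
        rw [LinearMap.rTensor_tmul, LinearMap.rTensor_tmul, tm]
        simp only [Submodule.subtype_apply]
        rw [hL0 _ u.2 _ u'.2, zero_mul]
      | add y y' h h' => rw [map_add, map_add, h, h', add_zero]
    | add x x' h h' => rw [map_add, map_add, LinearMap.add_apply, h, h', add_zero]

end Cfsg.Agent.S0833
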