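import Cfsg.Statements.S0836

set_option autoImplicit false
open Cfsg

namespace Cfsg.Agent.S0836

theorem comm_of_mul_eq {G : Type*} [Group G] (g₁ g₂ t : G) (h : g₁ * g₂ = t * g₂ * g₁) :
    t ∈ commutatorSet G := by
  refine ⟨g₁, g₂, ?_⟩
  rw [commutatorElement_def, h]
  group

/-- For i ≠ j and any scalar c, the elementary transvection 1 + c E_ij is a commutator ⁅g, h⁆ of two elements of SL_n(F) provided n ≥ 3, or n = 2 and F contains x ≠ 0 with x² ≠ 1. -/
theorem result {F : Type*} [Field F] (n : ℕ) (hn : 3 ≤ n ∨ (n = 2 ∧ ∃ x : F, x ≠ 0 ∧ x ^ 2 ≠ 1)) (i j : Fin n) (hij : i ≠ j) (c : F) (t : Matrix.SpecialLinearGroup (Fin n) F) (ht : (t : Matrix (Fin n) (Fin n) F) = Matrix.transvection i j c) : t ∈ commutatorSet (Matrix.SpecialLinearGroup (Fin n) F) := by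
  classical
  rcases hn with hn | ⟨rfl, x, hx0, hx1⟩
  · obtain ⟨k, hki, hkj⟩ : ∃ k : Fin n, k ≠ i ∧ k ≠ j := by
      have hcard : 2 < Fintype.card (Fin n) := by rw [Fintype.card_fin]; omega
      obtain ⟨k, hk⟩ := Finset.exists_mem_notMem_of_card_lt_card
        (s := ({i, j} : Finset (Fin n))) (t := Finset.univ) (by
          calc ({i, j} : Finset (Fin n)).card ≤ 2 := Finset.card_le_two
            _ < Finset.univ.card := by rw [Finset.card_univ]; exact hcard)
      simp only [Finset.mem_univ, Finset.mem_insert, Finset.mem_singleton, not_or, true_and] at hk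
      exact ⟨k, hk.1, hk.2⟩
    refine comm_of_mul_eq (G := Matrix.SpecialLinearGroup (Fin n) F)
      ⟨Matrix.transvection i k c, Matrix.det_transvection_of_ne i k (Ne.symm hki) c⟩
      ⟨Matrix.transvection k j 1, Matrix.det_transvection_of_ne k j hkj 1⟩ t ?_
    apply Subtype.ext
    change Matrix.transvection i k c * Matrix.transvection k j 1 =
      (t : Matrix (Fin n) (Fin n) F) * Matrix.transvection k j 1 * Matrix.transvection i k c
    rw [ht]
    have e1 : Matrix.single i j c * Matrix.single k j (1 : F) = 0 :=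
      Matrix.single_mul_single_of_ne c i j k (Ne.symm hkj) 1
    have e2 : Matrix.single k j (1 : F) * Matrix.single i k c = 0 :=
      Matrix.single_mul_single_of_ne 1 k j i hij.symm c
    have e3 : Matrix.single i j c * Matrix.single i k c = 0 :=
      Matrix.single_mul_single_of_ne c i j i hij.symm c
    simp only [Matrix.transvection, Matrix.add_mul, Matrix.mul_add, Matrix.one_mul, Matrix.mul_one,
      Matrix.single_mul_single_same, e1, e2, e3, mul_one, add_zero, Matrix.zero_mul]
    abel
  · have hx2 : x ^ 2 - 1 ≠ 0 := sub_ne_zero.mpr hx1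
    have hdet : (Matrix.diagonal (fun l : Fin 2 => if l = i then x else x⁻¹)).det = 1 := by
      rw [Matrix.det_diagonal, Fin.prod_univ_two]
      fin_cases i <;> fin_cases j <;> simp_all
    refine comm_of_mul_eq (G := Matrix.SpecialLinearGroup (Fin 2) F)
      ⟨Matrix.diagonal (fun l : Fin 2 => if l = i then x else x⁻¹), hdet⟩
      ⟨Matrix.transvection i j (c / (x ^ 2 - 1)), Matrix.det_transvection_of_ne i j hij _⟩ t ?_
    apply Subtype.ext
    change Matrix.diagonal (fun l : Fin 2 => if l = i then x else x⁻¹) * Matrix.transvection i j (c / (x ^ 2 - 1)) =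
      (t : Matrix (Fin 2) (Fin 2) F) * Matrix.transvection i j (c / (x ^ 2 - 1)) *
        Matrix.diagonal (fun l : Fin 2 => if l = i then x else x⁻¹)
    rw [ht, Matrix.transvection_mul_transvection_same i j hij]
    ext a b
    simp only [Matrix.transvection, Matrix.mul_add, Matrix.add_mul, Matrix.mul_one, Matrix.one_mul,
      Matrix.add_apply, Matrix.diagonal_mul, Matrix.mul_diagonal, Matrix.single_apply, Matrix.diagonal_apply]
    fin_cases i <;> fin_cases j <;> fin_cases a <;> fin_cases b <;> simp_all <;> field_simp <;> ring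

end Cfsg.Agent.S0836
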