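import Mathlib
import Cfsg.Statements.S0837
import Cfsg.Agent.S0279

set_option autoImplicit false
open Cfsg

namespace Cfsg.Agent.S0837

open Matrix Cfsg.Agent.Lib.Helper5.Herm Cfsg.Agent.S0277 Cfsg.Agent.S0279

variable {F : Type*} [Field F] {q : ℕ}

/-- The Hermitian form in block coordinates. -/
def hs (k l : ℕ) (q : ℕ) (x y : Fin k ⊕ Fin l → F) : F :=
  Cfsg.hermForm k F q (x ∘ Sum.inl) (y ∘ Sum.inl) + Cfsg.hermForm l F q (x ∘ Sum.inr) (y ∘ Sum.inr)

theorem hs_eq (k l : ℕ) (x y : Fin k ⊕ Fin l → F) : hs k l q x y = ∑ i, x i * y i ^ q := by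
  simp [hs, Cfsg.hermForm, Fintype.sum_sum_type]

theorem blocks_zero (hq : q ≠ 0) (k l : ℕ) (M N : Matrix (Fin k ⊕ Fin l) (Fin k ⊕ Fin l) F)
    (hMN : M * N = 1)
    (hU : ∀ x y, hs k l q (M *ᵥ x) (M *ᵥ y) = hs k l q x y)
    (hst : ∀ x : Fin k ⊕ Fin l → F, (∀ j, x (Sum.inr j) = 0) ↔ (∀ j, (M *ᵥ x) (Sum.inr j) = 0)) :
    M.toBlocks₂₁ = 0 ∧ M.toBlocks₁₂ = 0 := by
  classical
  constructor
  · ext j i
    have := (hst (Pi.single (Sum.inl i) 1)).1 (fun j => by simp) j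
    rw [Matrix.mulVec_single_one] at this
    exact this
  · ext i j
    have hy : M *ᵥ (N *ᵥ Pi.single (Sum.inl i) 1) = Pi.single (Sum.inl i) 1 := by
      rw [Matrix.mulVec_mulVec, hMN, Matrix.one_mulVec]
    have hy0 := (hst (N *ᵥ Pi.single (Sum.inl i) 1)).2 (fun j => by rw [hy]; simp)
    have h := hU (Pi.single (Sum.inr j) 1) (N *ᵥ Pi.single (Sum.inl i) 1)
    rw [hy, hs_eq, hs_eq, Matrix.mulVec_single_one] at h
    rw [Finset.sum_eq_single (Sum.inl i), Finset.sum_eq_single (Sum.inr j)] at h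
    · simp only [Pi.single_eq_same, one_pow, mul_one, one_mul] at h
      rw [hy0 j, zero_pow hq] at h
      exact h
    · intro b _ hb; simp [hb]
    · simp
    · intro b _ hb; simp [hb, hq]
    · simp

theorem fb_mulVec (k l : ℕ) (A : Matrix (Fin k) (Fin k) F) (D : Matrix (Fin l) (Fin l) F)
    (x : Fin k ⊕ Fin l → F) :
    Matrix.fromBlocks A 0 0 D *ᵥ x = Sum.elim (A *ᵥ (x ∘ Sum.inl)) (D *ᵥ (x ∘ Sum.inr)) := by
  rw [Matrix.fromBlocks_mulVec]; simp

theorem hs_fb (k l : ℕ) (A : Matrix (Fin k) (Fin k) F) (D : Matrix (Fin l) (Fin l) F)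
    (x y : Fin k ⊕ Fin l → F) :
    hs k l q (Matrix.fromBlocks A 0 0 D *ᵥ x) (Matrix.fromBlocks A 0 0 D *ᵥ y) =
      Cfsg.hermForm k F q (A *ᵥ (x ∘ Sum.inl)) (A *ᵥ (y ∘ Sum.inl)) +
        Cfsg.hermForm l F q (D *ᵥ (x ∘ Sum.inr)) (D *ᵥ (y ∘ Sum.inr)) := by
  rw [fb_mulVec, fb_mulVec, hs]; simp

theorem blockA (k l : ℕ) (A : Matrix (Fin k) (Fin k) F) (D : Matrix (Fin l) (Fin l) F)
    (hU : ∀ x y, hs k l q (Matrix.fromBlocks A 0 0 D *ᵥ x) (Matrix.fromBlocks A 0 0 D *ᵥ y) =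
      hs k l q x y) (u v : Fin k → F) :
    Cfsg.hermForm k F q (A *ᵥ u) (A *ᵥ v) = Cfsg.hermForm k F q u v := by
  have := hU (Sum.elim u 0) (Sum.elim v 0)
  rw [hs_fb, hs] at this
  simp only [Sum.elim_comp_inl, Sum.elim_comp_inr, Matrix.mulVec_zero] at this
  have h0 : Cfsg.hermForm l F q (0 : Fin l → F) 0 = 0 := by simp [Cfsg.hermForm]
  rw [h0, add_zero, add_zero] at this
  exact this

theorem blockD (k l : ℕ) (A : Matrix (Fin k) (Fin k) F) (D : Matrix (Fin l) (Fin l) F)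
    (hU : ∀ x y, hs k l q (Matrix.fromBlocks A 0 0 D *ᵥ x) (Matrix.fromBlocks A 0 0 D *ᵥ y) =
      hs k l q x y) (u v : Fin l → F) :
    Cfsg.hermForm l F q (D *ᵥ u) (D *ᵥ v) = Cfsg.hermForm l F q u v := by
  have := hU (Sum.elim 0 u) (Sum.elim 0 v)
  rw [hs_fb, hs] at this
  simp only [Sum.elim_comp_inl, Sum.elim_comp_inr, Matrix.mulVec_zero] at this
  have h0 : Cfsg.hermForm k F q (0 : Fin k → F) 0 = 0 := by simp [Cfsg.hermForm]
  rw [h0, zero_add, zero_add] at this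
  exact this

theorem main_of_P (hq : q ≠ 0) (n k l : ℕ) (W : Submodule F (Fin n → F))
    (P : Matrix (Fin n) (Fin k ⊕ Fin l) F) (P' : Matrix (Fin k ⊕ Fin l) (Fin n) F)
    (h1 : P' * P = 1) (h2 : P * P' = 1)
    (h3 : ∀ x y, Cfsg.hermForm n F q (P *ᵥ x) (P *ᵥ y) = hs k l q x y)
    (h4 : ∀ v, v ∈ W ↔ ∀ j, (P' *ᵥ v) (Sum.inr j) = 0) :
    Nonempty (↥((Cfsg.stabilizing (Cfsg.glToMat (Fin n) F) (W : Set (Fin n → F))).subgroupOf
      (Cfsg.GU n F q)) ≃* ↥(Cfsg.GU k F q) × ↥(Cfsg.GU l F q)) := by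
  classical
  let f : Matrix (Fin k) (Fin k) F × Matrix (Fin l) (Fin l) F →* Matrix (Fin n) (Fin n) F :=
    { toFun := fun p => P * Matrix.fromBlocks p.1 0 0 p.2 * P'
      map_one' := by
        show P * Matrix.fromBlocks (1 : Matrix (Fin k) (Fin k) F) 0 0
          (1 : Matrix (Fin l) (Fin l) F) * P' = 1
        rw [Matrix.fromBlocks_one, Matrix.mul_one, h2]
      map_mul' := by
        intro a b
        show P * Matrix.fromBlocks (a.1 * b.1) 0 0 (a.2 * b.2) * P' =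
          (P * Matrix.fromBlocks a.1 0 0 a.2 * P') * (P * Matrix.fromBlocks b.1 0 0 b.2 * P')
        have : Matrix.fromBlocks (a.1 * b.1) 0 0 (a.2 * b.2) =
            Matrix.fromBlocks a.1 0 0 a.2 * Matrix.fromBlocks b.1 0 0 b.2 := by
          rw [Matrix.fromBlocks_multiply]; simp
        rw [this]
        calc P * (Matrix.fromBlocks a.1 0 0 a.2 * Matrix.fromBlocks b.1 0 0 b.2) * P'
            = P * Matrix.fromBlocks a.1 0 0 a.2 * (P' * P) * Matrix.fromBlocks b.1 0 0 b.2 * P' := by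
              rw [h1, Matrix.mul_one]; simp only [Matrix.mul_assoc]
          _ = _ := by simp only [Matrix.mul_assoc] }
  let Ψ : GL (Fin k) F × GL (Fin l) F →* GL (Fin n) F :=
    (Units.map f).comp (MulEquiv.prodUnits.symm.toMonoidHom)
  have hΨ : ∀ (a : GL (Fin k) F) (d : GL (Fin l) F),
      ((Ψ (a, d) : GL (Fin n) F) : Matrix (Fin n) (Fin n) F) =
        P * Matrix.fromBlocks (a : Matrix (Fin k) (Fin k) F) 0 0 (d : Matrix (Fin l) (Fin l) F) * P' :=
    fun a d => rfl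
  have e3 : ∀ (M : Matrix (Fin k ⊕ Fin l) (Fin k ⊕ Fin l) F) (v : Fin n → F),
      (P * M * P') *ᵥ v = P *ᵥ (M *ᵥ (P' *ᵥ v)) := by
    intro M v
    rw [Matrix.mulVec_mulVec, Matrix.mulVec_mulVec, Matrix.mul_assoc]
  have hGU : ∀ (a : GL (Fin k) F) (d : GL (Fin l) F), a ∈ Cfsg.GU k F q → d ∈ Cfsg.GU l F q →
      Ψ (a, d) ∈ Cfsg.GU n F q := by
    intro a d ha hd
    rw [mem_GU]
    intro x y
    rw [hΨ, e3, e3, h3, hs_fb, (mem_GU k a).1 ha, (mem_GU l d).1 hd]
    have : Cfsg.hermForm k F q ((P' *ᵥ x) ∘ Sum.inl) ((P' *ᵥ y) ∘ Sum.inl) +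
        Cfsg.hermForm l F q ((P' *ᵥ x) ∘ Sum.inr) ((P' *ᵥ y) ∘ Sum.inr) =
        hs k l q (P' *ᵥ x) (P' *ᵥ y) := rfl
    rw [this, ← h3, Matrix.mulVec_mulVec, Matrix.mulVec_mulVec, h2, Matrix.one_mulVec,
      Matrix.one_mulVec]
  have hSt : ∀ (a : GL (Fin k) F) (d : GL (Fin l) F),
      Ψ (a, d) ∈ Cfsg.stabilizing (Cfsg.glToMat (Fin n) F) (W : Set (Fin n → F)) := by
    intro a d v
    show v ∈ W ↔ ((Ψ (a, d) : GL (Fin n) F) : Matrix (Fin n) (Fin n) F) *ᵥ v ∈ W
    rw [h4, h4, hΨ, e3, Matrix.mulVec_mulVec _ P' P, h1, Matrix.one_mulVec, fb_mulVec]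
    simp only [Sum.elim_inr]
    constructor
    · intro h j
      have : (P' *ᵥ v) ∘ Sum.inr = 0 := funext h
      rw [this, Matrix.mulVec_zero]; rfl
    · intro h j
      have h5 : (d : Matrix (Fin l) (Fin l) F) *ᵥ ((P' *ᵥ v) ∘ Sum.inr) = 0 := funext h
      have h6 := congrArg (fun w => ((d⁻¹ : GL (Fin l) F) : Matrix (Fin l) (Fin l) F) *ᵥ w) h5
      simp only [Matrix.mulVec_mulVec, Matrix.mulVec_zero] at h6
      rw [← Units.val_mul, inv_mul_cancel, Units.val_one, Matrix.one_mulVec] at h6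
      exact congrFun h6 j
  let Ψ' : ↥(Cfsg.GU k F q) × ↥(Cfsg.GU l F q) →*
      ↥((Cfsg.stabilizing (Cfsg.glToMat (Fin n) F) (W : Set (Fin n → F))).subgroupOf
        (Cfsg.GU n F q)) :=
    MonoidHom.mk' (fun p => ⟨⟨Ψ (p.1.1, p.2.1), hGU _ _ p.1.2 p.2.2⟩, hSt _ _⟩) (by
      intro p p'
      apply Subtype.ext
      apply Subtype.ext
      exact map_mul Ψ (p.1.1, p.2.1) (p'.1.1, p'.2.1))
  have hΨ' : ∀ p, (((Ψ' p : ↥((Cfsg.stabilizing (Cfsg.glToMat (Fin n) F)
      (W : Set (Fin n → F))).subgroupOf (Cfsg.GU n F q))) : ↥(Cfsg.GU n F q)) : GL (Fin n) F) =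
      Ψ (p.1.1, p.2.1) := fun p => rfl
  have hinj : Function.Injective Ψ' := by
    intro p p' h
    have h5 : Ψ (p.1.1, p.2.1) = Ψ (p'.1.1, p'.2.1) := by rw [← hΨ', ← hΨ', h]
    have h6 := congrArg (fun g : GL (Fin n) F => P' * (g : Matrix (Fin n) (Fin n) F) * P) h5
    simp only [hΨ] at h6
    have h7 : ∀ M : Matrix (Fin k ⊕ Fin l) (Fin k ⊕ Fin l) F, P' * (P * M * P') * P = M := by
      intro M
      calc P' * (P * M * P') * P = (P' * P) * M * (P' * P) := by simp only [Matrix.mul_assoc]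
        _ = M := by rw [h1, Matrix.one_mul, Matrix.mul_one]
    rw [h7, h7, Matrix.fromBlocks_inj] at h6
    apply Prod.ext
    · apply Subtype.ext
      apply Units.ext
      exact h6.1
    · apply Subtype.ext
      apply Units.ext
      exact h6.2.2.2
  have hconj : ∀ g : GL (Fin n) F, g ∈ Cfsg.GU n F q →
      g ∈ Cfsg.stabilizing (Cfsg.glToMat (Fin n) F) (W : Set (Fin n → F)) →
      (∀ x y, hs k l q ((P' * (g : Matrix (Fin n) (Fin n) F) * P) *ᵥ x)
        ((P' * (g : Matrix (Fin n) (Fin n) F) * P) *ᵥ y) = hs k l q x y) ∧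
      (∀ x : Fin k ⊕ Fin l → F, (∀ j, x (Sum.inr j) = 0) ↔
        (∀ j, ((P' * (g : Matrix (Fin n) (Fin n) F) * P) *ᵥ x) (Sum.inr j) = 0)) := by
    intro g hgU hgS
    have e4 : ∀ x, (P' * (g : Matrix (Fin n) (Fin n) F) * P) *ᵥ x =
        P' *ᵥ ((g : Matrix (Fin n) (Fin n) F) *ᵥ (P *ᵥ x)) := by
      intro x
      rw [Matrix.mulVec_mulVec, Matrix.mulVec_mulVec, Matrix.mul_assoc]
    constructor
    · intro x y
      rw [← h3, e4, e4, Matrix.mulVec_mulVec _ P P', Matrix.mulVec_mulVec _ P P', h2,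
        Matrix.one_mulVec, Matrix.one_mulVec, (mem_GU n g).1 hgU, h3]
    · intro x
      rw [e4, ← h4]
      have h5 : (∀ j, x (Sum.inr j) = 0) ↔ P *ᵥ x ∈ W := by
        rw [h4, Matrix.mulVec_mulVec, h1, Matrix.one_mulVec]
      rw [h5]
      exact hgS (P *ᵥ x)
  have hsurj : Function.Surjective Ψ' := by
    intro g
    have hgU : (g.1 : GL (Fin n) F) ∈ Cfsg.GU n F q := g.1.2
    have hgS : (g.1 : GL (Fin n) F) ∈
        Cfsg.stabilizing (Cfsg.glToMat (Fin n) F) (W : Set (Fin n → F)) := g.2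
    obtain ⟨M, hM⟩ : ∃ M, M = P' * ((g.1 : GL (Fin n) F) : Matrix (Fin n) (Fin n) F) * P :=
      ⟨_, rfl⟩
    obtain ⟨N, hN⟩ : ∃ N, N = P' * (((g.1 : GL (Fin n) F)⁻¹ : GL (Fin n) F) :
      Matrix (Fin n) (Fin n) F) * P := ⟨_, rfl⟩
    have hMN : M * N = 1 := by
      rw [hM, hN]
      calc P' * ((g.1 : GL (Fin n) F) : Matrix (Fin n) (Fin n) F) * P *
            (P' * (((g.1 : GL (Fin n) F)⁻¹ : GL (Fin n) F) : Matrix (Fin n) (Fin n) F) * P)
          = P' * (((g.1 : GL (Fin n) F) : Matrix (Fin n) (Fin n) F) * (P * P') *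
            (((g.1 : GL (Fin n) F)⁻¹ : GL (Fin n) F) : Matrix (Fin n) (Fin n) F)) * P := by
            simp only [Matrix.mul_assoc]
        _ = 1 := by
            rw [h2, Matrix.mul_one, ← Units.val_mul, mul_inv_cancel, Units.val_one, Matrix.mul_one,
              h1]
    have hNM : N * M = 1 := by
      rw [hM, hN]
      calc P' * (((g.1 : GL (Fin n) F)⁻¹ : GL (Fin n) F) : Matrix (Fin n) (Fin n) F) * P *
            (P' * ((g.1 : GL (Fin n) F) : Matrix (Fin n) (Fin n) F) * P)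
          = P' * ((((g.1 : GL (Fin n) F)⁻¹ : GL (Fin n) F) : Matrix (Fin n) (Fin n) F) * (P * P') *
            ((g.1 : GL (Fin n) F) : Matrix (Fin n) (Fin n) F)) * P := by
            simp only [Matrix.mul_assoc]
        _ = 1 := by
            rw [h2, Matrix.mul_one, ← Units.val_mul, inv_mul_cancel, Units.val_one, Matrix.mul_one,
              h1]
    obtain ⟨hUM, hstM⟩ := hconj g.1.1 hgU hgS
    obtain ⟨hUN, hstN⟩ := hconj (g.1.1)⁻¹ (inv_mem hgU) (inv_mem hgS)
    rw [← hM] at hUM hstM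
    rw [← hN] at hUN hstN
    obtain ⟨hM21, hM12⟩ := blocks_zero hq k l M N hMN hUM hstM
    obtain ⟨hN21, hN12⟩ := blocks_zero hq k l N M hNM hUN hstN
    have hMb : M = Matrix.fromBlocks M.toBlocks₁₁ 0 0 M.toBlocks₂₂ := by
      have := Matrix.fromBlocks_toBlocks M
      rw [hM21, hM12] at this
      exact this.symm
    have hNb : N = Matrix.fromBlocks N.toBlocks₁₁ 0 0 N.toBlocks₂₂ := by
      have := Matrix.fromBlocks_toBlocks N
      rw [hN21, hN12] at this
      exact this.symm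
    have hprod1 : M.toBlocks₁₁ * N.toBlocks₁₁ = 1 ∧ M.toBlocks₂₂ * N.toBlocks₂₂ = 1 := by
      have := hMN
      rw [hMb, hNb, Matrix.fromBlocks_multiply, ← Matrix.fromBlocks_one, Matrix.fromBlocks_inj]
        at this
      simp only [Matrix.mul_zero, Matrix.zero_mul, add_zero, zero_add] at this
      exact ⟨this.1, this.2.2.2⟩
    have hprod2 : N.toBlocks₁₁ * M.toBlocks₁₁ = 1 ∧ N.toBlocks₂₂ * M.toBlocks₂₂ = 1 := by
      have := hNM
      rw [hMb, hNb, Matrix.fromBlocks_multiply, ← Matrix.fromBlocks_one, Matrix.fromBlocks_inj]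
        at this
      simp only [Matrix.mul_zero, Matrix.zero_mul, add_zero, zero_add] at this
      exact ⟨this.1, this.2.2.2⟩
    rw [hMb] at hUM
    have haU : (⟨M.toBlocks₁₁, N.toBlocks₁₁, hprod1.1, hprod2.1⟩ : GL (Fin k) F) ∈ Cfsg.GU k F q := by
      rw [mem_GU]
      exact fun u v => blockA k l _ _ hUM u v
    have hdU : (⟨M.toBlocks₂₂, N.toBlocks₂₂, hprod1.2, hprod2.2⟩ : GL (Fin l) F) ∈ Cfsg.GU l F q := by
      rw [mem_GU]
      exact fun u v => blockD k l _ _ hUM u v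
    refine ⟨(⟨_, haU⟩, ⟨_, hdU⟩), ?_⟩
    apply Subtype.ext
    apply Subtype.ext
    apply Units.ext
    rw [hΨ']
    show P * Matrix.fromBlocks M.toBlocks₁₁ 0 0 M.toBlocks₂₂ * P' = _
    rw [← hMb, hM]
    calc P * (P' * ((g.1 : GL (Fin n) F) : Matrix (Fin n) (Fin n) F) * P) * P'
        = (P * P') * ((g.1 : GL (Fin n) F) : Matrix (Fin n) (Fin n) F) * (P * P') := by
          simp only [Matrix.mul_assoc]
      _ = _ := by rw [h2, Matrix.one_mul, Matrix.mul_one]
  exact ⟨(MulEquiv.ofBijective Ψ' ⟨hinj, hsurj⟩).symm⟩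

variable [Fintype F]

theorem phi_ne_id (hF : Fintype.card F = q ^ 2) (φ : F →+* F) (hφ : ∀ a, φ a = a ^ q) :
    φ ≠ RingHom.id F := by
  classical
  obtain ⟨φ', hφ', hφφ', hq2⟩ := frob_setup hF
  intro hid
  have h1 := card_fixed_ne_zero hF
  have h2 : Nat.card {c : F // c ≠ 0 ∧ c ^ q = c} = q ^ 2 - 1 := by
    rw [← hF, Nat.card_eq_fintype_card, ← Fintype.card_units, ← Nat.card_eq_fintype_card,
      ← Nat.card_eq_fintype_card]
    refine Nat.card_congr
      { toFun := fun c => Units.mk0 c.1 c.2.1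
        invFun := fun u => ⟨u.1, Units.ne_zero u, by rw [← hφ, hid]; rfl⟩
        left_inv := fun c => rfl
        right_inv := fun u => by apply Units.ext; rfl }
  rw [h1] at h2
  have : q < q ^ 2 := by nlinarith
  omega

omit [Fintype F] in
theorem herm_symm (φ : F →+* F) (hφ : ∀ a, φ a = a ^ q) (hφφ : ∀ a, φ (φ a) = a) (n : ℕ)
    (x y : Fin n → F) : Cfsg.hermForm n F q y x = φ (Cfsg.hermForm n F q x y) := by
  rw [herm_eq φ hφ, herm_eq φ hφ, map_sum]
  refine Finset.sum_congr rfl fun i _ => ?_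
  rw [map_mul, hφφ, mul_comm]

theorem exists_P (hF : Fintype.card F = q ^ 2) (n k : ℕ) (hk : k ≤ n)
    (W : Submodule F (Fin n → F)) (hWk : Module.finrank F W = k)
    (hW : ∀ u ∈ W, (∀ v ∈ W, Cfsg.hermForm n F q u v = 0) → u = 0) :
    ∃ (P : Matrix (Fin n) (Fin k ⊕ Fin (n - k)) F) (P' : Matrix (Fin k ⊕ Fin (n - k)) (Fin n) F),
      P' * P = 1 ∧ P * P' = 1 ∧
      (∀ x y, Cfsg.hermForm n F q (P *ᵥ x) (P *ᵥ y) = hs k (n - k) q x y) ∧
      (∀ v, v ∈ W ↔ ∀ j, (P' *ᵥ v) (Sum.inr j) = 0) := by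
  classical
  obtain ⟨φ, hφ, hφφ, hq2⟩ := frob_setup hF
  have hσ := phi_ne_id hF φ hφ
  have hsym := herm_symm φ hφ hφφ n
  have hS : (hB φ n).IsSymm := by
    refine ⟨fun x y => ?_⟩
    rw [hB_apply φ hφ, hB_apply φ hφ]
    exact (hsym y x).symm
  have hBn : (hB φ n).Nondegenerate := by
    constructor
    · intro x hx
      ext i
      have := hx (Pi.single i 1)
      rw [hB_apply φ hφ, herm_eq φ hφ, Finset.sum_eq_single i] at this
      · simp only [Pi.single_eq_same, one_mul] at this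
        have h3 := congrArg φ this
        rwa [hφφ, map_zero] at h3
      · intro j _ hj
        simp [hj]
      · intro hi; exact absurd (Finset.mem_univ i) hi
    · intro y hy
      ext i
      have := hy (Pi.single i 1)
      rw [hB_apply φ hφ, herm_eq φ hφ, Finset.sum_eq_single i] at this
      · simpa using this
      · intro j _ hj
        simp [hj]
      · intro hi; exact absurd (Finset.mem_univ i) hi
  obtain ⟨W', hW'def⟩ : ∃ W', W' = Cfsg.Agent.S0751.perp φ (hB φ n) W := ⟨_, rfl⟩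
  have hW'mem : ∀ w, w ∈ W' ↔ ∀ x ∈ W, Cfsg.hermForm n F q w x = 0 := by
    intro w
    rw [hW'def, Cfsg.Agent.S0751.mem_perp]
    constructor
    · intro h x hx
      rw [← hB_apply φ hφ]; exact h x hx
    · intro h x hx
      rw [hB_apply φ hφ]; exact h x hx
  have hfin : Module.finrank F W' = n - k := by
    have := Cfsg.Agent.S0751.finrank_perp φ (hB φ n) hφφ hBn W
    rw [Module.finrank_fin_fun, ← hW'def] at this
    omega
  have hW' : ∀ u ∈ W', (∀ v ∈ W', Cfsg.hermForm n F q u v = 0) → u = 0 := by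
    intro u hu h
    have h1 : u ∈ Cfsg.Agent.S0751.perp φ (hB φ n) W' := by
      rw [Cfsg.Agent.S0751.mem_perp]
      intro x hx
      rw [hB_apply φ hφ]
      exact h x hx
    rw [hW'def, Cfsg.Agent.S0751.perp_perp φ (hB φ n) hφφ hS hBn] at h1
    exact hW u h1 ((hW'mem u).1 hu)
  have honb : ∀ (m : ℕ) (X : Submodule F (Fin n → F)), Module.finrank F X = m →
      (∀ u ∈ X, (∀ v ∈ X, Cfsg.hermForm n F q u v = 0) → u = 0) →
      ∃ b : Fin m → (Fin n → F), (∀ i, b i ∈ X) ∧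
        ∀ i j, Cfsg.hermForm n F q (b i) (b j) = if i = j then 1 else 0 := by
    intro m X hXm hX
    have hBX : ∀ x y : X, ((hB φ n).domRestrict₁₂ X X) x y =
        Cfsg.hermForm n F q (y : Fin n → F) (x : Fin n → F) := fun x y => by
      rw [LinearMap.domRestrict₁₂_apply, hB_apply φ hφ]
    have hSX : ((hB φ n).domRestrict₁₂ X X).IsSymm := by
      refine ⟨fun x y => ?_⟩
      rw [hBX, hBX]
      exact (hsym _ _).symm
    have hNX : ((hB φ n).domRestrict₁₂ X X).Nondegenerate := by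
      constructor
      · intro x hx
        apply Subtype.ext
        apply hX x.1 x.2
        intro v hv
        have := hx ⟨v, hv⟩
        rw [hBX] at this
        rw [hsym, this, map_zero]
      · intro y hy
        apply Subtype.ext
        apply hX y.1 y.2
        intro v hv
        have := hy ⟨v, hv⟩
        rw [hBX] at this
        exact this
    obtain ⟨b, hb⟩ := Cfsg.Agent.S0755.onb φ hσ hφφ m ↥X _ hSX hNX hXm
    refine ⟨fun i => (b i : Fin n → F), fun i => (b i).2, fun i j => ?_⟩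
    have := hb j i
    rw [hBX] at this
    rw [this]
    simp [eq_comm]
  obtain ⟨b, hbW, hb⟩ := honb k W hWk hW
  obtain ⟨b', hbW', hb'⟩ := honb (n - k) W' hfin hW'
  obtain ⟨c, hcdef⟩ : ∃ c : Fin k ⊕ Fin (n - k) → (Fin n → F), c = Sum.elim b b' := ⟨_, rfl⟩
  have hc : ∀ i j, Cfsg.hermForm n F q (c i) (c j) = if i = j then 1 else 0 := by
    rintro (i | i) (j | j)
    · rw [hcdef]; simp only [Sum.elim_inl]; rw [hb]; simp
    · rw [hcdef]; simp only [Sum.elim_inl, Sum.elim_inr]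
      rw [hsym, (hW'mem (b' j)).1 (hbW' j) (b i) (hbW i), map_zero]; simp
    · rw [hcdef]; simp only [Sum.elim_inl, Sum.elim_inr]
      rw [(hW'mem (b' i)).1 (hbW' i) (b j) (hbW j)]; simp
    · rw [hcdef]; simp only [Sum.elim_inr]; rw [hb']; simp
  obtain ⟨P, hPdef⟩ : ∃ P : Matrix (Fin n) (Fin k ⊕ Fin (n - k)) F,
      P = Matrix.of (fun i' i => c i i') := ⟨_, rfl⟩
  obtain ⟨P', hP'def⟩ : ∃ P' : Matrix (Fin k ⊕ Fin (n - k)) (Fin n) F,
      P' = Matrix.of (fun i i' => φ (c i i')) := ⟨_, rfl⟩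
  have h1 : P' * P = 1 := by
    ext i j
    rw [Matrix.mul_apply, Matrix.one_apply]
    have := hc j i
    rw [herm_eq φ hφ] at this
    rw [hPdef, hP'def]
    simp only [Matrix.of_apply]
    rw [show (if i = j then (1 : F) else 0) = if j = i then 1 else 0 by simp [eq_comm], ← this]
    exact Finset.sum_congr rfl fun i' _ => mul_comm _ _
  have h2 : P * P' = 1 :=
    (Matrix.mul_eq_one_comm_of_equiv (Fintype.equivOfCardEq (by simp; omega))).1 h1
  have hPt : Pᵀ * P.map φ = 1 := by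
    have := congrArg Matrix.transpose h1
    rw [Matrix.transpose_mul, Matrix.transpose_one] at this
    rw [← this, hPdef, hP'def]
    rfl
  refine ⟨P, P', h1, h2, ?_, ?_⟩
  · intro x y
    rw [herm_eq φ hφ, hs_eq]
    have e1 : (fun i' => φ ((P *ᵥ y) i')) = P.map φ *ᵥ (fun j => φ (y j)) := by
      funext i'
      exact RingHom.map_mulVec φ P y i'
    calc ∑ i', (P *ᵥ x) i' * φ ((P *ᵥ y) i')
        = (P *ᵥ x) ⬝ᵥ (P.map φ *ᵥ (fun j => φ (y j))) := by rw [← e1]; rfl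
      _ = x ⬝ᵥ (Pᵀ *ᵥ (P.map φ *ᵥ (fun j => φ (y j)))) := by
          rw [dotProduct_comm, Matrix.dotProduct_mulVec, dotProduct_comm, Matrix.mulVec_transpose]
      _ = x ⬝ᵥ (fun j => φ (y j)) := by rw [Matrix.mulVec_mulVec, hPt, Matrix.one_mulVec]
      _ = ∑ i, x i * y i ^ q := by simp only [dotProduct, hφ]
  · intro v
    have e5 : ∀ i, (P' *ᵥ v) i = Cfsg.hermForm n F q v (c i) := by
      intro i
      rw [herm_eq φ hφ, hP'def]
      simp only [Matrix.mulVec, dotProduct, Matrix.of_apply]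
      exact Finset.sum_congr rfl fun i' _ => mul_comm _ _
    constructor
    · intro hv j
      rw [e5, hcdef]
      simp only [Sum.elim_inr]
      rw [hsym, (hW'mem (b' j)).1 (hbW' j) v hv, map_zero]
    · intro h
      have hv : v = P *ᵥ (P' *ᵥ v) := by rw [Matrix.mulVec_mulVec, h2, Matrix.one_mulVec]
      have hsum : P *ᵥ (P' *ᵥ v) = ∑ i, (P' *ᵥ v) i • c i := by
        funext i'
        rw [hPdef]
        simp only [Matrix.mulVec, dotProduct, Matrix.of_apply, Finset.sum_apply, Pi.smul_apply,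
          smul_eq_mul]
        exact Finset.sum_congr rfl fun i _ => mul_comm _ _
      rw [hv, hsum, Fintype.sum_sum_type]
      apply Submodule.add_mem
      · apply Submodule.sum_mem
        intro i _
        rw [hcdef]
        exact Submodule.smul_mem _ _ (hbW i)
      · apply Submodule.sum_mem
        intro j _
        rw [h j, zero_smul]
        exact Submodule.zero_mem _

/-- If W ≤ F^n (|F| = q²) is a k-dimensional subspace on which the Hermitian form Σ x_i y_i^q is non-degenerate, then the stabiliser of W in GU_n(q) is isomorphic to GU_k(q) × GU_(n−k)(q). -/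
theorem result {F : Type*} [Field F] [Fintype F] {q : ℕ} (hF : Fintype.card F = q ^ 2) (n k : ℕ) (hk : k ≤ n) (W : Submodule F (Fin n → F)) (hWk : Module.finrank F W = k) (hW : ∀ u ∈ W, (∀ v ∈ W, Cfsg.hermForm n F q u v = 0) → u = 0) : Nonempty (↥((Cfsg.stabilizing (Cfsg.glToMat (Fin n) F) (W : Set (Fin n → F))).subgroupOf (Cfsg.GU n F q)) ≃* ↥(Cfsg.GU k F q) × ↥(Cfsg.GU (n - k) F q)) := by
  obtain ⟨φ, hφ, hφφ, hq2⟩ := frob_setup hF
  obtain ⟨P, P', h1, h2, h3, h4⟩ := exists_P hF n k hk W hWk hW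
  exact main_of_P (by omega) n k (n - k) W P P' h1 h2 h3 h4

end Cfsg.Agent.S0837
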