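import Mathlib
import Cfsg.Statements.S0838
import Cfsg.Agent.S0756

set_option autoImplicit false
open Cfsg

namespace Cfsg.Agent.S0838

theorem gram_equiv {F : Type*} [Field F] {n : ℕ} (B B' : LinearMap.BilinForm F (Fin n → F))
    (b b' : Module.Basis (Fin n) F (Fin n → F)) (h : ∀ i j, B (b i) (b j) = B' (b' i) (b' j)) :
    B'.comp (b.equiv b' (Equiv.refl _)).toLinearMap (b.equiv b' (Equiv.refl _)).toLinearMap = B := by
  apply LinearMap.BilinForm.ext_basis b
  intro i j
  simp [h]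

theorem gram_diag {F : Type*} [Field F] {m : ℕ} (B B' : LinearMap.BilinForm F (Fin (m + 1) → F))
    (b b' : Module.Basis (Fin (m + 1)) F (Fin (m + 1) → F))
    (o : ∀ i j, i ≠ j → B (b i) (b j) = 0) (u : ∀ i, i ≠ Fin.last m → B (b i) (b i) = 1)
    (o' : ∀ i j, i ≠ j → B' (b' i) (b' j) = 0) (u' : ∀ i, i ≠ Fin.last m → B' (b' i) (b' i) = 1)
    (hl : B (b (Fin.last m)) (b (Fin.last m)) = B' (b' (Fin.last m)) (b' (Fin.last m))) :
    ∀ i j, B (b i) (b j) = B' (b' i) (b' j) := by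
  intro i j
  by_cases hij : i = j
  · subst hij
    by_cases hi : i = Fin.last m
    · subst hi; exact hl
    · rw [u i hi, u' i hi]
  · rw [o i j hij, o' i j hij]

/-- Over a finite field with 2 ≠ 0 and n odd: two quadratic forms Q₁, Q₂ on F^n with non-degenerate polar forms are similar — there are an invertible linear map g and a scalar c ≠ 0 with Q₂ (g v) = c · Q₁ v for all v. -/
theorem result {F : Type*} [Field F] [Fintype F] (h2 : (2 : F) ≠ 0) {n : ℕ} (hn : Odd n) (Q₁ Q₂ : QuadraticForm F (Fin n → F)) (h₁ : (QuadraticMap.polarBilin Q₁).Nondegenerate) (h₂ : (QuadraticMap.polarBilin Q₂).Nondegenerate) : ∃ (g : (Fin n → F) ≃ₗ[F] (Fin n → F)) (c : F), c ≠ 0 ∧ ∀ v, Q₂ (g v) = c * Q₁ v := by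
  classical
  have hF : ringChar F ≠ 2 := by
    intro h
    apply h2
    have := CharP.cast_eq_zero F (ringChar F)
    rw [h] at this
    exact_mod_cast this
  obtain ⟨α, hα⟩ := FiniteField.exists_nonsquare hF
  have hα0 : α ≠ 0 := by rintro rfl; exact hα ⟨0, by simp⟩
  obtain ⟨m, rfl⟩ : ∃ m, n = m + 1 := by
    obtain ⟨k, hk⟩ := hn; exact ⟨2 * k, by omega⟩
  have hdim : Module.finrank F (Fin (m + 1) → F) = m + 1 := by simp
  obtain ⟨B1, hB1⟩ : ∃ B1 : LinearMap.BilinForm F (Fin (m + 1) → F), B1 = QuadraticMap.polarBilin Q₁ := ⟨_, rfl⟩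
  obtain ⟨B2, hB2⟩ : ∃ B2 : LinearMap.BilinForm F (Fin (m + 1) → F), B2 = QuadraticMap.polarBilin Q₂ := ⟨_, rfl⟩
  rw [← hB1] at h₁
  rw [← hB2] at h₂
  have hS1 : LinearMap.BilinForm.IsSymm B1 := ⟨fun x y => by rw [hB1]; exact QuadraticMap.polar_comm Q₁ x y⟩
  have hS2 : LinearMap.BilinForm.IsSymm B2 := ⟨fun x y => by rw [hB2]; exact QuadraticMap.polar_comm Q₂ x y⟩
  have hQ1 : ∀ v, Q₁ v = (2 : F)⁻¹ * B1 v v := by
    intro v
    rw [hB1, QuadraticMap.polarBilin_apply_apply, QuadraticMap.polar_self, two_smul]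
    field_simp
    ring
  have hQ2 : ∀ v, Q₂ v = (2 : F)⁻¹ * B2 v v := by
    intro v
    rw [hB2, QuadraticMap.polarBilin_apply_apply, QuadraticMap.polar_self, two_smul]
    field_simp
    ring
  have hS3 : LinearMap.BilinForm.IsSymm (α • B1) := ⟨fun x y => by
    simp only [LinearMap.smul_apply]; rw [hS1.eq x y]⟩
  have hN3 : (α • B1).Nondegenerate := by
    refine ⟨fun x hx => h₁.1 x (fun y => ?_), fun y hy => h₁.2 y (fun x => ?_)⟩
    · have := hx y
      simpa [hα0] using this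
    · have := hy x
      simpa [hα0] using this
  obtain ⟨b1, o1, u1, l1⟩ := Cfsg.Agent.S0756.result h2 B1 hS1 h₁ hdim α hα
  obtain ⟨b2, o2, u2, l2⟩ := Cfsg.Agent.S0756.result h2 B2 hS2 h₂ hdim α hα
  obtain ⟨b3, o3, u3, l3⟩ := Cfsg.Agent.S0756.result h2 (α • B1) hS3 hN3 hdim α hα
  by_cases hd12 : B1 (b1 (Fin.last m)) (b1 (Fin.last m)) = B2 (b2 (Fin.last m)) (b2 (Fin.last m))
  · have hg := gram_equiv B1 B2 b1 b2 (gram_diag B1 B2 b1 b2 o1 u1 o2 u2 hd12)
    refine ⟨b1.equiv b2 (Equiv.refl _), 1, one_ne_zero, fun v => ?_⟩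
    rw [hQ1, hQ2, one_mul, ← hg]
    rfl
  · by_cases hd32 : (α • B1) (b3 (Fin.last m)) (b3 (Fin.last m)) = B2 (b2 (Fin.last m)) (b2 (Fin.last m))
    · have hg := gram_equiv (α • B1) B2 b3 b2 (gram_diag (α • B1) B2 b3 b2 o3 u3 o2 u2 hd32)
      refine ⟨b3.equiv b2 (Equiv.refl _), α, hα0, fun v => ?_⟩
      have h3 : B2 (b3.equiv b2 (Equiv.refl _) v) (b3.equiv b2 (Equiv.refl _) v) = α * B1 v v := by
        have := congrArg (fun X : LinearMap.BilinForm F (Fin (m + 1) → F) => X v v) hg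
        simpa using this
      rw [hQ1, hQ2, h3]
      ring
    · exfalso
      have hd13 : B1 (b1 (Fin.last m)) (b1 (Fin.last m)) = (α • B1) (b3 (Fin.last m)) (b3 (Fin.last m)) := by
        rcases l1 with h | h <;> rcases l2 with h' | h' <;> rcases l3 with h'' | h'' <;>
          first
          | exact absurd (h.trans h'.symm) hd12
          | exact absurd (h''.trans h'.symm) hd32
          | rw [h, h'']
      have hg := gram_equiv B1 (α • B1) b1 b3 (gram_diag B1 (α • B1) b1 b3 o1 u1 o3 u3 hd13)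
      have hm := congrArg LinearMap.BilinForm.toMatrix' hg
      rw [LinearMap.BilinForm.toMatrix'_comp] at hm
      have hdet := congrArg Matrix.det hm
      rw [Matrix.det_mul, Matrix.det_mul, Matrix.det_transpose, map_smul, Matrix.det_smul] at hdet
      have hM : (LinearMap.BilinForm.toMatrix' B1).det ≠ 0 :=
        Matrix.nondegenerate_iff_det_ne_zero.1 (LinearMap.BilinForm.Nondegenerate.toMatrix' h₁)
      obtain ⟨k, hk⟩ := hn
      have hm2 : m = 2 * k := by omega
      simp only [Fintype.card_fin] at hdet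
      obtain ⟨P, hP⟩ : ∃ P : F, P = (LinearMap.toMatrix' (b1.equiv b3 (Equiv.refl _)).toLinearMap).det := ⟨_, rfl⟩
      rw [← hP] at hdet
      have h1 : α * (α ^ k * P) ^ 2 = 1 := by
        have : (P * (α ^ (m + 1) * (LinearMap.BilinForm.toMatrix' B1).det) * P - (LinearMap.BilinForm.toMatrix' B1).det) = 0 := by
          rw [hdet]; ring
        have h' : (LinearMap.BilinForm.toMatrix' B1).det * (α ^ (m + 1) * P ^ 2 - 1) = 0 := by
          rw [← this]; ring
        rcases mul_eq_zero.1 h' with h'' | h''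
        · exact absurd h'' hM
        · rw [hm2] at h''
          linear_combination h''
      apply hα
      obtain ⟨y, hy⟩ : ∃ y : F, y = α ^ k * P := ⟨_, rfl⟩
      rw [← hy] at h1
      have hne : y ≠ 0 := by
        intro h0; rw [h0] at h1; simp at h1
      refine ⟨y⁻¹, ?_⟩
      field_simp
      linear_combination h1

end Cfsg.Agent.S0838
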