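import Cfsg.Statements.S0841
import Cfsg.Agent.Lib.Helper2.ClassTwo

set_option autoImplicit false
open Cfsg

namespace Cfsg.Agent.S0841

/-- If the commutator subgroup of G lies in the centre, then for all x, y in G and every natural number n one has (x * y) ^ n = x ^ n * y ^ n * c ^ (n * (n - 1) / 2) with c = y⁻¹ * x⁻¹ * y * x. -/
theorem result {G : Type*} [Group G] (hG : commutator G ≤ Subgroup.center G) (x y : G) (n : ℕ) : (x * y) ^ n = x ^ n * y ^ n * (y⁻¹ * x⁻¹ * y * x) ^ (n * (n - 1) / 2) := by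
  have hc : y⁻¹ * x⁻¹ * y * x ∈ Subgroup.center G := by
    apply hG
    rw [commutator_def]
    have h := Subgroup.commutator_mem_commutator (Subgroup.mem_top y⁻¹) (Subgroup.mem_top x⁻¹)
      (G := G)
    simpa [commutatorElement_def] using h
  have hc2 : ∀ z, (y⁻¹ * x⁻¹ * y * x) * z = z * (y⁻¹ * x⁻¹ * y * x) := fun z =>
    (Subgroup.mem_center_iff.mp hc z).symm
  have hyx : y * x = (y⁻¹ * x⁻¹ * y * x) * x * y := by
    rw [hc2 x, mul_assoc x, hc2 y]; group
  rw [Cfsg.Agent.Lib.Helper2.mul_pow_of_central x y _ hc2 hyx n, Nat.choose_two_right]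
  have h3 : ∀ z, (y⁻¹ * x⁻¹ * y * x) ^ (n * (n - 1) / 2) * z =
      z * (y⁻¹ * x⁻¹ * y * x) ^ (n * (n - 1) / 2) := fun z =>
    ((show Commute (y⁻¹ * x⁻¹ * y * x) z from hc2 z).pow_left _)
  rw [mul_assoc, h3]

end Cfsg.Agent.S0841
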