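import Cfsg.Statements.S0842
import Cfsg.Agent.Lib.Lead.QuatSyl2

set_option autoImplicit false
open Cfsg

namespace Cfsg.Agent.S0842

theorem result {G : Type*} [Group G] [Finite G] (S : Sylow 2 G) (n : ℕ) (e : (S : Subgroup G) ≃* QuaternionGroup (2 ^ (n + 2))) (D : Subgroup G) (hD : D = ⁅(S : Subgroup G), (S : Subgroup G)⁆) : ∃ K : Subgroup G, Odd (Nat.card K) ∧ K ≤ Subgroup.centralizer (D : Set G) ∧ Subgroup.normalizer (D : Set G) ≤ Subgroup.normalizer (K : Set G) ∧ K ⊔ (S : Subgroup G) = Subgroup.normalizer (D : Set G) ∧ K ⊔ ((S : Subgroup G) ⊓ Subgroup.centralizer (D : Set G)) = Subgroup.centralizer (D : Set G) ∧ ((Subgroup.centralizer (D : Set G)).subgroupOf (Subgroup.normalizer (D : Set G))).index = 2 := by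
  obtain ⟨K, x, s, L, hx, h1, h2, h3, h4, h5, h6, -⟩ :=
    Cfsg.Agent.Lib.Lead.qs_core S n e D hD _ _ rfl rfl
  exact ⟨K, h1, h2, h3, h4, h5, h6⟩

end Cfsg.Agent.S0842
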