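import Cfsg.Statements.S0845
import Cfsg.Agent.Lib.Lead.QuatSyl4

set_option autoImplicit false
open Cfsg

namespace Cfsg.Agent.S0845

theorem result {G : Type*} [Group G] [Finite G] (S : Sylow 2 G) (n : ℕ) (e : (S : Subgroup G) ≃* QuaternionGroup (2 ^ (n + 2))) : ∃ M : Subgroup G, M.Normal ∧ Even (Nat.card M) ∧ ¬ commutator G ≤ M := by
  exact Cfsg.Agent.Lib.Lead.qs_even_normal S n e

end Cfsg.Agent.S0845
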