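import Cfsg.Statements.S0849
import Cfsg.Agent.Lib.Lead.CharInd2

set_option autoImplicit false

namespace Cfsg.Agent.S0849

open Cfsg Cfsg.Agent.Lib.Lead Cfsg.Agent.Lib.Helper2

theorem result {G : Type*} [Group G] [Fintype G] (H : Subgroup G) (S : Set G) (hSH : S ⊆ H) (hHS : ∀ h ∈ H, ∀ s ∈ S, h * s * h⁻¹ ∈ S) (hTI : ∀ g : G, g ∉ H → ∀ s ∈ S, g * s * g⁻¹ ∉ S) (hinv : ∀ s ∈ S, s⁻¹ ∈ S) (φ : H → ℂ) (hφ : Cfsg.IsClassFunction H φ) (hφS : ∀ x : H, (x : G) ∉ S → φ x = 0) (u v : G) (hu : orderOf u = 2) (hv : orderOf v = 2) : ∑ᶠ p ∈ {p : G × G | IsConj u p.1 ∧ IsConj v p.2}, Cfsg.indFun H φ (p.1 * p.2) = (H.index : ℂ) * ∑ᶠ p ∈ {p : H × H | IsConj u (p.1 : G) ∧ IsConj v (p.2 : G)}, φ (p.1 * p.2) := by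
  classical
  rw [finsum_mem_eq_finite_toFinset_sum _ (Set.toFinite _),
    finsum_mem_eq_finite_toFinset_sum _ (Set.toFinite _)]
  set A : Finset (G × G) := (Set.toFinite {p : G × G | IsConj u p.1 ∧ IsConj v p.2}).toFinset
    with hA
  set B : Finset (H × H) :=
    (Set.toFinite {p : H × H | IsConj u (p.1 : G) ∧ IsConj v (p.2 : G)}).toFinset with hB
  have hAmem : ∀ p : G × G, p ∈ A ↔ IsConj u p.1 ∧ IsConj v p.2 := by
    intro p; simp [hA]
  have hBmem : ∀ p : H × H, p ∈ B ↔ IsConj u (p.1 : G) ∧ IsConj v (p.2 : G) := by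
    intro p; simp [hB]
  -- conjugation invariance
  have hconj : ∀ x : G, ∑ p ∈ A, extendByZero H φ (x⁻¹ * (p.1 * p.2) * x)
      = ∑ p ∈ A, extendByZero H φ (p.1 * p.2) := by
    intro x
    apply Finset.sum_bij' (fun p _ => (x⁻¹ * p.1 * x, x⁻¹ * p.2 * x))
      (fun p _ => (x * p.1 * x⁻¹, x * p.2 * x⁻¹))
    · intro p hp
      rw [hAmem] at hp ⊢
      refine ⟨hp.1.trans ?_, hp.2.trans ?_⟩
      · exact isConj_iff.mpr ⟨x⁻¹, by simp⟩
      · exact isConj_iff.mpr ⟨x⁻¹, by simp⟩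
    · intro p hp
      rw [hAmem] at hp ⊢
      refine ⟨hp.1.trans ?_, hp.2.trans ?_⟩
      · exact isConj_iff.mpr ⟨x, rfl⟩
      · exact isConj_iff.mpr ⟨x, rfl⟩
    · intro p _
      ext <;> simp [mul_assoc]
    · intro p _
      ext <;> simp [mul_assoc]
    · intro p _
      congr 1
      simp [mul_assoc]
  have hsq : ∀ a : G, IsConj u a → a * a = 1 := by
    intro a ha
    obtain ⟨c, hc⟩ := isConj_iff.mp ha
    have h2 : u * u = 1 := by
      have := pow_orderOf_eq_one u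
      rw [hu, pow_two] at this
      exact this
    rw [← hc]
    calc c * u * c⁻¹ * (c * u * c⁻¹) = c * (u * u) * c⁻¹ := by group
      _ = 1 := by rw [h2]; group
  have hsq' : ∀ a : G, IsConj v a → a * a = 1 := by
    intro a ha
    obtain ⟨c, hc⟩ := isConj_iff.mp ha
    have h2 : v * v = 1 := by
      have := pow_orderOf_eq_one v
      rw [hv, pow_two] at this
      exact this
    rw [← hc]
    calc c * v * c⁻¹ * (c * v * c⁻¹) = c * (v * v) * c⁻¹ := by group
      _ = 1 := by rw [h2]; group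
  -- the main identity
  have hmain : ∑ p ∈ A, extendByZero H φ (p.1 * p.2) = ∑ q ∈ B, φ (q.1 * q.2) := by
    symm
    apply Finset.sum_bij_ne_zero (fun q _ _ => ((q.1 : G), (q.2 : G)))
    · intro q hq _
      rw [hBmem] at hq
      rw [hAmem]
      exact hq
    · intro q₁ _ _ q₂ _ _ h
      have h1 := congrArg Prod.fst h
      have h2 := congrArg Prod.snd h
      simp only at h1 h2
      exact Prod.ext (Subtype.ext h1) (Subtype.ext h2)
    · intro p hp hne
      rw [hAmem] at hp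
      have hmemH : p.1 * p.2 ∈ H := by
        by_contra hn
        exact hne (extendByZero_not_mem H φ hn)
      have hval : extendByZero H φ (p.1 * p.2) = φ ⟨p.1 * p.2, hmemH⟩ :=
        extendByZero_mem H φ hmemH
      have hS : p.1 * p.2 ∈ S := by
        by_contra hn
        exact hne (by rw [hval]; exact hφS ⟨_, hmemH⟩ hn)
      have ha2 := hsq p.1 hp.1
      have hb2 := hsq' p.2 hp.2
      have hainv : p.1⁻¹ = p.1 := inv_eq_of_mul_eq_one_left ha2
      have hbinv : p.2⁻¹ = p.2 := inv_eq_of_mul_eq_one_left hb2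
      have hinvS : (p.1 * p.2)⁻¹ ∈ S := hinv _ hS
      have e1 : p.1 * (p.1 * p.2) * p.1⁻¹ = (p.1 * p.2)⁻¹ := by
        rw [mul_inv_rev, hainv, hbinv, ← mul_assoc, ha2, one_mul]
      have e2 : p.2 * (p.1 * p.2) * p.2⁻¹ = (p.1 * p.2)⁻¹ := by
        rw [mul_inv_rev, hainv, hbinv, mul_assoc, mul_assoc, hb2, mul_one]
      have haH : p.1 ∈ H := by
        by_contra hn
        exact hTI p.1 hn _ hS (by rw [e1]; exact hinvS)
      have hbH : p.2 ∈ H := by
        by_contra hn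
        exact hTI p.2 hn _ hS (by rw [e2]; exact hinvS)
      refine ⟨(⟨p.1, haH⟩, ⟨p.2, hbH⟩), ?_, ?_, rfl⟩
      · rw [hBmem]; exact hp
      · rw [hval] at hne
        exact hne
    · intro q hq _
      have hmemH : (q.1 : G) * (q.2 : G) ∈ H := H.mul_mem q.1.2 q.2.2
      rw [extendByZero_mem H φ hmemH]
      rfl
  have hL : ∑ p ∈ A, indFun H φ (p.1 * p.2)
      = (Nat.card H : ℂ)⁻¹ * ((Fintype.card G : ℂ) * ∑ q ∈ B, φ (q.1 * q.2)) := by
    unfold indFun
    rw [← Finset.mul_sum, Finset.sum_comm]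
    congr 1
    rw [Finset.sum_congr rfl (fun x _ => hconj x), hmain]
    simp
  rw [hL, ← mul_assoc]
  congr 1
  have hidx := H.index_mul_card
  have hc0 : (Nat.card H : ℂ) ≠ 0 := by
    exact_mod_cast (Nat.card_pos (α := H)).ne'
  rw [inv_mul_eq_div, div_eq_iff hc0, ← Nat.card_eq_fintype_card]
  exact_mod_cast hidx.symm

end Cfsg.Agent.S0849
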