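import Cfsg.Statements.S0851
import Cfsg.Agent.Lib.Lead.TIFrob2
import Cfsg.Agent.S0170

set_option autoImplicit false
open Cfsg
open Cfsg.Agent.Lib.Lead Cfsg.Agent.Lib.Helper2 Module
open scoped ComplexConjugate

namespace Cfsg.Agent.S0851

/-- Let K be a subgroup of the finite group G that meets each conjugate by an element outside its normalizer N trivially, is properly contained in N, and contains the centralizer of each of its non-identity elements (a T.I. subgroup with Frobenius normalizer). Suppose K is abelian, let e be the index of K in N, and call an irreducible character of N relevant when it takes at some element of K a value different from its degree. Then either there is exactly one relevant character and K is an elementary abelian p-group of order e + 1 for some prime p, or there are a sign ε and an injective map f from the relevant characters to the irreducible characters of G such that inducing χ - ξ to G gives ε (f χ - f ξ) for all relevant χ and ξ. -/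
theorem result {G : Type*} [Group G] [Fintype G] (K : Subgroup G) (hTI : ∀ g : G, g ∉ Subgroup.normalizer (K : Set G) → ∀ k ∈ K, g * k * g⁻¹ ∈ K → k = 1) (hlt : K < Subgroup.normalizer (K : Set G)) (hC : ∀ k ∈ K, k ≠ 1 → Subgroup.centralizer ({k} : Set G) ≤ K) (hab : ∀ a ∈ K, ∀ b ∈ K, a * b = b * a) : (Nat.card {χ : Cfsg.IrrCharacter (Subgroup.normalizer (K : Set G)) // ∃ k : Subgroup.normalizer (K : Set G), (k : G) ∈ K ∧ (χ : ↥(Subgroup.normalizer (K : Set G)) → ℂ) k ≠ (χ : ↥(Subgroup.normalizer (K : Set G)) → ℂ) 1} = 1 ∧ ∃ p : ℕ, p.Prime ∧ Cfsg.IsElementaryAbelian p K ∧ Nat.card K = (K.subgroupOf (Subgroup.normalizer (K : Set G))).index + 1) ∨ ∃ (ε : ℂ) (f : {χ : Cfsg.IrrCharacter (Subgroup.normalizer (K : Set G)) // ∃ k : Subgroup.normalizer (K : Set G), (k : G) ∈ K ∧ (χ : ↥(Subgroup.normalizer (K : Set G)) → ℂ) k ≠ (χ : ↥(Subgroup.normalizer (K : Set G)) → ℂ) 1} → Cfsg.IrrCharacter G), (ε = 1 ∨ ε = -1) ∧ Function.Injective f ∧ ∀ χ ξ, Cfsg.indFun (Subgroup.normalizer (K : Set G)) ((χ.1 : ↥(Subgroup.normalizer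 (K : Set G)) → ℂ) - (ξ.1 : ↥(Subgroup.normalizer (K : Set G)) → ℂ)) = ε • ((f χ : G → ℂ) - (f ξ : G → ℂ)) := by
  classical
  letI : Fintype (Subgroup.normalizer (K : Set G)) := Fintype.ofFinite _
  haveI : Finite (IrrCharacter (Subgroup.normalizer (K : Set G))) := irr_finite
  set A : Subgroup (Subgroup.normalizer (K : Set G)) :=
    K.subgroupOf (Subgroup.normalizer (K : Set G)) with hA
  haveI hAn : A.Normal := Subgroup.normal_in_normalizer
  have hCA : ∀ n ∈ A, n ≠ 1 → Subgroup.centralizer ({n} : Set (Subgroup.normalizer (K : Set G))) ≤ A := by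
    intro n hn hn1 c hc
    rw [hA, Subgroup.mem_subgroupOf]
    apply hC (n : G) (Subgroup.mem_subgroupOf.mp hn) (fun h => hn1 (Subtype.ext h))
    rw [Subgroup.mem_centralizer_iff]
    intro y hy
    rw [Set.mem_singleton_iff] at hy
    rw [hy]
    have := Subgroup.mem_centralizer_iff.mp hc n (Set.mem_singleton n)
    exact congrArg Subtype.val this
  have habA : ∀ a ∈ A, ∀ b ∈ A, a * b = b * a := by
    intro a ha b hb
    apply Subtype.ext
    exact hab (a : G) (Subgroup.mem_subgroupOf.mp ha) (b : G) (Subgroup.mem_subgroupOf.mp hb)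
  set R := {χ : Cfsg.IrrCharacter (Subgroup.normalizer (K : Set G)) // ∃ k : Subgroup.normalizer (K : Set G), (k : G) ∈ K ∧ (χ : ↥(Subgroup.normalizer (K : Set G)) → ℂ) k ≠ (χ : ↥(Subgroup.normalizer (K : Set G)) → ℂ) 1} with hRdef
  haveI : Finite R := Subtype.finite
  have hrelprop : ∀ χ : R, (χ.1 : ↥(Subgroup.normalizer (K : Set G)) → ℂ) 1 = (A.index : ℂ) ∧
      (∀ x : Subgroup.normalizer (K : Set G), (x : G) ∉ K → (χ.1 : ↥(Subgroup.normalizer (K : Set G)) → ℂ) x = 0) := by
    intro χ
    obtain ⟨h1, h2, -⟩ := frob_relevant A hCA habA χ.1.2 χ.2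
    exact ⟨h1, fun x hx => h2 x hx⟩
  by_cases hone : Nat.card R = 1
  · left
    refine ⟨hone, ?_⟩
    obtain ⟨hcard, hconjall⟩ := frob_unique_relevant A hCA habA hone
    have hcardK : Nat.card K = A.index + 1 := by
      rw [← hcard]
      exact (Nat.card_congr (Subgroup.subgroupOfEquivOfLe hlt.le).toEquiv).symm
    -- a non-identity element of K
    obtain ⟨⟨χ₀, k, hkK, hkχ⟩, -⟩ := Nat.card_eq_one_iff_exists.mp hone
    have hk1 : (k : G) ≠ 1 := by
      intro h
      apply hkχ
      have : k = 1 := Subtype.ext h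
      rw [this]
    have hord : orderOf (k : G) ≠ 1 := fun h => hk1 (orderOf_eq_one_iff.mp h)
    obtain ⟨p, hp, hpd⟩ := Nat.exists_prime_and_dvd hord
    set z := (k : G) ^ (orderOf (k : G) / p) with hz
    have hzord : orderOf z = p := orderOf_pow_orderOf_div (orderOf_pos (k : G)).ne' hpd
    have hz1 : z ≠ 1 := by
      intro h
      rw [h, orderOf_one] at hzord
      exact hp.one_lt.ne hzord
    have hzK : z ∈ K := K.pow_mem hkK _
    refine ⟨p, hp, ⟨⟨⟨fun a b => Subtype.ext (hab a a.2 b b.2)⟩⟩, ?_⟩, hcardK⟩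
    intro a ha
    by_cases ha1 : a = 1
    · rw [ha1, one_pow]
    · have hc := hconjall ⟨z, hlt.le hzK⟩ hzK ⟨a, hlt.le ha⟩ ha
        (fun h => hz1 (congrArg Subtype.val h)) (fun h => ha1 (congrArg Subtype.val h))
      obtain ⟨c, hc⟩ := isConj_iff.mp hc
      have hc' : (c : G) * z * (c : G)⁻¹ = a := congrArg Subtype.val hc
      rw [← hc', conj_pow, ← hzord, pow_orderOf_eq_one]
      group
  · right
    by_cases hzero : Nat.card R = 0
    · haveI : IsEmpty R := by
        rcases Nat.card_eq_zero.mp hzero with h | h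
        · exact h
        · exact absurd ‹Finite R› (not_finite_iff_infinite.mpr h)
      exact ⟨1, fun χ => isEmptyElim χ, Or.inl rfl, fun a => isEmptyElim a, fun χ => isEmptyElim χ⟩
    · have hn : 2 ≤ Nat.card R := by omega
      let eqv : R ≃ Fin (Nat.card R) := Finite.equivFin R
      obtain ⟨ε, hε, θ, hθirr, hθinj, hθ⟩ := Cfsg.Agent.S0170.result (K : Set G)
        (fun x hx => hlt.le hx) (fun g hg s hs h => hTI g hg s hs h) (Nat.card R) hn
        (fun i => ((eqv.symm i).1 : ↥(Subgroup.normalizer (K : Set G)) → ℂ))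
        (fun i => (eqv.symm i).1.2)
        (by
          intro i j h
          have h1 : (eqv.symm i).1 = (eqv.symm j).1 := Subtype.ext h
          exact eqv.symm.injective (Subtype.ext h1))
        (fun i x hx => (hrelprop (eqv.symm i)).2 x hx)
        (fun i j => by rw [(hrelprop (eqv.symm i)).1, (hrelprop (eqv.symm j)).1])
      refine ⟨ε, fun χ => ⟨θ (eqv χ), hθirr _⟩, hε, ?_, ?_⟩
      · intro χ ξ h
        have h1 : θ (eqv χ) = θ (eqv ξ) := congrArg Subtype.val h
        exact eqv.injective (hθinj h1)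
      · intro χ ξ
        have h1 := hθ (eqv χ) (eqv ξ)
        simp only [Equiv.symm_apply_apply] at h1
        have hsub : (χ.1 : ↥(Subgroup.normalizer (K : Set G)) → ℂ) - (ξ.1 : ↥(Subgroup.normalizer (K : Set G)) → ℂ) =
            (χ.1 : ↥(Subgroup.normalizer (K : Set G)) → ℂ) + (-1 : ℂ) • (ξ.1 : ↥(Subgroup.normalizer (K : Set G)) → ℂ) := by
          rw [neg_one_smul, sub_eq_add_neg]
        rw [hsub, indFun_add, indFun_smul, neg_one_smul, ← sub_eq_add_neg]
        exact h1

end Cfsg.Agent.S0851
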