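import Cfsg.Statements.S0852
import Cfsg.Agent.Lib.Lead.TICoh

set_option autoImplicit false
open Cfsg
open Cfsg.Agent.Lib.Lead Cfsg.Agent.Lib.Helper2

namespace Cfsg.Agent.S0852

/-- Let K be a subgroup of the finite group G that meets each conjugate by an element outside its normalizer N trivially, is properly contained in N, and contains the centralizer of each of its non-identity elements (a T.I. subgroup with Frobenius normalizer). Let S be the set of irreducible characters of N taking at some element of K a value different from their degree, suppose S has at least two members, and let star be a linear isometry on the integer span of S into the generalized characters of G that agrees with induction on the members vanishing at the identity (so S is coherent, with star as the extending isometry). Then an irreducible character ψ of G is of the form star χ or -star χ for some χ in S if and only if ψ is not constant on the non-identity elements of K. -/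
theorem result {G : Type*} [Group G] [Fintype G] (K : Subgroup G) (hTI : ∀ g : G, g ∉ Subgroup.normalizer (K : Set G) → ∀ k ∈ K, g * k * g⁻¹ ∈ K → k = 1) (hlt : K < Subgroup.normalizer (K : Set G)) (hC : ∀ k ∈ K, k ≠ 1 → Subgroup.centralizer ({k} : Set G) ≤ K) [Fintype ↥(Subgroup.normalizer (K : Set G))] (S : Set (↥(Subgroup.normalizer (K : Set G)) → ℂ)) (hS : S = {χ : ↥(Subgroup.normalizer (K : Set G)) → ℂ | Cfsg.IsIrrCharacter ↥(Subgroup.normalizer (K : Set G)) χ ∧ ∃ k : ↥(Subgroup.normalizer (K : Set G)), (k : G) ∈ K ∧ χ k ≠ χ 1}) (htwo : ∃ χ ∈ S, ∃ ξ ∈ S, χ ≠ ξ) (star : (↥(Subgroup.normalizer (K : Set G)) → ℂ) → (G → ℂ)) (hstar : Cfsg.IsLinearIsometryOn (Cfsg.zspan S) star) (hext : ∀ α ∈ Cfsg.zspanOn S ({1}ᶜ : Set ↥(Subgroup.normalizer (K : Set G))), star α = Cfsg.indFun (Subgroup.normalizer (K : Set G)) α) (ψ : G → ℂ) (hψ : Cfsg.IsIrrCharacter G ψ) : (∃ χ ∈ S, ψ = star χ ∨ ψ = -star χ) ↔ ∃ a ∈ K, ∃ b ∈ K, a ≠ 1 ∧ b ≠ 1 ∧ ψ a ≠ ψ b := by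
  classical
  let A : Subgroup (Subgroup.normalizer (K : Set G)) :=
    K.subgroupOf (Subgroup.normalizer (K : Set G))
  haveI hAn : A.Normal := Subgroup.normal_in_normalizer
  have hCA : ∀ n ∈ A, n ≠ 1 →
      Subgroup.centralizer ({n} : Set (Subgroup.normalizer (K : Set G))) ≤ A := by
    intro n hn hn1 c hc
    show c ∈ K.subgroupOf _
    rw [Subgroup.mem_subgroupOf]
    apply hC (n : G) (Subgroup.mem_subgroupOf.mp hn) (fun h => hn1 (Subtype.ext h))
    rw [Subgroup.mem_centralizer_iff]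
    intro y hy
    rw [Set.mem_singleton_iff] at hy
    rw [hy]
    have := Subgroup.mem_centralizer_iff.mp hc n (Set.mem_singleton n)
    exact congrArg Subtype.val this
  have hSmem : ∀ χ, χ ∈ S ↔ (IsIrrCharacter (Subgroup.normalizer (K : Set G)) χ ∧
      ∃ k : Subgroup.normalizer (K : Set G), k ∈ A ∧ χ k ≠ χ 1) := by
    intro χ; rw [hS]; rfl
  have hcfψ : IsClassFunction G ψ := isClassFunction_irr ⟨ψ, hψ⟩
  have hrel : ∀ Φ : ↥(Subgroup.normalizer (K : Set G)) → ℂ,
      (∀ ζ ∈ S, ∀ ξ ∈ S, ∀ a b : ℤ, (a • ζ + b • ξ) 1 = 0 →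
        classInner Φ (a • ζ + b • ξ) = 0) →
      ∀ ζ ξ : IrrCharacter (Subgroup.normalizer (K : Set G)),
        (∃ k : Subgroup.normalizer (K : Set G), k ∈ A ∧
          (ζ : ↥(Subgroup.normalizer (K : Set G)) → ℂ) k ≠ (ζ : ↥(Subgroup.normalizer (K : Set G)) → ℂ) 1) →
        (∃ k : Subgroup.normalizer (K : Set G), k ∈ A ∧
          (ξ : ↥(Subgroup.normalizer (K : Set G)) → ℂ) k ≠ (ξ : ↥(Subgroup.normalizer (K : Set G)) → ℂ) 1) →
        (ξ : ↥(Subgroup.normalizer (K : Set G)) → ℂ) 1 * classInner Φ ζ =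
          (ζ : ↥(Subgroup.normalizer (K : Set G)) → ℂ) 1 * classInner Φ ξ := by
    intro Φ hΦ ζ ξ hζ hξ
    have hζS : (ζ : ↥(Subgroup.normalizer (K : Set G)) → ℂ) ∈ S := (hSmem _).mpr ⟨ζ.2, hζ⟩
    have hξS : (ξ : ↥(Subgroup.normalizer (K : Set G)) → ℂ) ∈ S := (hSmem _).mpr ⟨ξ.2, hξ⟩
    obtain ⟨dζ, hdζ⟩ := irr_one_eq_natCast ζ
    obtain ⟨dξ, hdξ⟩ := irr_one_eq_natCast ξ
    have h1 := hΦ _ hζS _ hξS (dξ : ℤ) (-(dζ : ℤ)) (by
      show (dξ : ℤ) • (ζ : ↥(Subgroup.normalizer (K : Set G)) → ℂ) 1 +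
        (-(dζ : ℤ)) • (ξ : ↥(Subgroup.normalizer (K : Set G)) → ℂ) 1 = 0
      rw [hdζ, hdξ, zsmul_eq_mul, zsmul_eq_mul]; push_cast; ring)
    rw [classInner_zsmul_add_right] at h1
    rw [hdζ, hdξ]
    push_cast at h1
    linear_combination h1
  have hstarα : ∀ ζ ∈ S, ∀ ξ ∈ S, ∀ a b : ℤ, (a • ζ + b • ξ) 1 = 0 →
      indFun (Subgroup.normalizer (K : Set G)) (a • ζ + b • ξ) = a • star ζ + b • star ξ := by
    intro ζ hζ ξ hξ a b h1
    obtain ⟨hmem, hst⟩ := coh_alpha S star hstar hζ hξ a b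
    rw [← hst]
    symm
    apply hext
    refine ⟨hmem, fun x hx => ?_⟩
    have : x = 1 := by simpa using hx
    rw [this]; exact h1
  constructor
  · rintro ⟨χ, hχS, hψχ⟩
    by_contra hcon
    push Not at hcon
    have hχ := (hSmem χ).mp hχS
    have hχzs : χ ∈ zspan S := Submodule.subset_span hχS
    have hgenχ := hstar.2.2.2 χ hχzs
    have hcfstar := isGenChar_isClassFunction hgenχ
    have hstarconst : ∀ a ∈ K, ∀ b ∈ K, a ≠ 1 → b ≠ 1 → star χ a = star χ b := by
      intro a ha b hb ha1 hb1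
      have h0 := hcon a ha b hb ha1 hb1
      rcases hψχ with h | h
      · rw [h] at h0; exact h0
      · rw [h] at h0
        simp only [Pi.neg_apply] at h0
        exact neg_injective h0
    let Φ : ↥(Subgroup.normalizer (K : Set G)) → ℂ := fun n => star χ n - χ n
    have hΦcf : IsClassFunction (Subgroup.normalizer (K : Set G)) Φ := by
      intro g h
      show star χ ((h * g * h⁻¹ : Subgroup.normalizer (K : Set G)) : G) - χ (h * g * h⁻¹) =
        star χ (g : G) - χ g
      have e' : χ (h * g * h⁻¹) = χ g := isClassFunction_irr ⟨χ, hχ.1⟩ g h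
      rw [e']
      have : ((h * g * h⁻¹ : Subgroup.normalizer (K : Set G)) : G) =
          (h : G) * g * (h : G)⁻¹ := by push_cast; rfl
      rw [this, hcfstar (g : G) (h : G)]
    have hΦrel := hrel Φ (by
      intro ζ hζ ξ hξ a b h1
      have hst := hstarα ζ hζ ξ hξ a b h1
      obtain ⟨hmem, hst2⟩ := coh_alpha S star hstar hζ hξ a b
      have e1 : Φ = (fun n : Subgroup.normalizer (K : Set G) => star χ n) - χ := rfl
      rw [e1, classInner_sub_left, ← frobenius_reciprocity' _ _ (star χ) hcfstar, hst, ← hst2,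
        hstar.2.2.1 χ hχzs _ hmem, sub_self])
    have hΦconst := frob_const A Φ hΦcf hΦrel
    obtain ⟨χ₁, hχ₁, χ₂, hχ₂, hne12⟩ := htwo
    have hex : ∃ ξ ∈ S, χ ≠ ξ := by
      by_cases h : χ = χ₁
      · exact ⟨χ₂, hχ₂, by rw [h]; exact hne12⟩
      · exact ⟨χ₁, hχ₁, h⟩
    obtain ⟨ξ, hξS, hneξ⟩ := hex
    have hξ := (hSmem ξ).mp hξS
    obtain ⟨a, ha, b, hb, ha1, hb1, hab⟩ := frob_not_const A hCA hχ.1 hξ.1 hχ.2 hξ.2 hneξ
    apply hab
    have h1 : star χ (a : G) - χ a = star χ (b : G) - χ b := hΦconst a ha b hb ha1 hb1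
    have h2 := hstarconst (a : G) (Subgroup.mem_subgroupOf.mp ha) (b : G)
      (Subgroup.mem_subgroupOf.mp hb) (fun h => ha1 (Subtype.ext h))
      (fun h => hb1 (Subtype.ext h))
    rw [h2] at h1
    exact sub_right_injective h1
  · rintro ⟨a, ha, b, hb, ha1, hb1, hab⟩
    by_contra hcon
    push Not at hcon
    apply hab
    have horth : ∀ ζ ∈ S, classInner ψ (star ζ) = 0 := by
      intro ζ hζ
      have hζ' := (hSmem ζ).mp hζ
      rcases coh_star_irr S star hstar hζ hζ'.1 with h | h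
      · rw [irr_orthonormal hψ h, if_neg (hcon ζ hζ).1]
      · have h3 := irr_orthonormal hψ h
        rw [if_neg (hcon ζ hζ).2, classInner_neg_right] at h3
        exact neg_eq_zero.mp h3
    let Φ : ↥(Subgroup.normalizer (K : Set G)) → ℂ := fun n => ψ n
    have hΦcf : IsClassFunction (Subgroup.normalizer (K : Set G)) Φ := by
      intro g h
      show ψ ((h * g * h⁻¹ : Subgroup.normalizer (K : Set G)) : G) = ψ (g : G)
      have : ((h * g * h⁻¹ : Subgroup.normalizer (K : Set G)) : G) =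
          (h : G) * g * (h : G)⁻¹ := by push_cast; rfl
      rw [this, hcfψ (g : G) (h : G)]
    have hΦrel := hrel Φ (by
      intro ζ hζ ξ hξ a b h1
      show classInner (fun n : Subgroup.normalizer (K : Set G) => ψ n) _ = 0
      rw [← frobenius_reciprocity' _ _ ψ hcfψ, hstarα ζ hζ ξ hξ a b h1, zsmul_fun_eq,
        zsmul_fun_eq, classInner_add_right, classInner_smul_right, classInner_smul_right,
        horth ζ hζ, horth ξ hξ, mul_zero, mul_zero, add_zero])
    exact frob_const A Φ hΦcf hΦrel ⟨a, hlt.le ha⟩ ha ⟨b, hlt.le hb⟩ hb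
      (fun h => ha1 (congrArg Subtype.val h)) (fun h => hb1 (congrArg Subtype.val h))

end Cfsg.Agent.S0852
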