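import Cfsg.Statements.S0853
import Cfsg.Agent.Lib.Lead.TIFrob4

set_option autoImplicit false
open Cfsg
open Cfsg.Agent.Lib.Lead Cfsg.Agent.Lib.Helper2

namespace Cfsg.Agent.S0853

/-- Let K be a subgroup of the finite group G that meets each conjugate by an element outside its normalizer N trivially, is properly contained in N, and contains the centralizer of each of its non-identity elements (a T.I. subgroup with Frobenius normalizer). Let S be the set of irreducible characters of N taking at some element of K a value different from their degree, suppose S has at least two members, and let star be a linear isometry on the integer span of S into the generalized characters of G that agrees with induction on the members vanishing at the identity (so S is coherent, with star as the extending isometry). Then there is a single integer m such that star χ k - χ k = m * χ 1 / e for every χ in S and every non-identity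 element k of K, where e is the index of K in N. -/
theorem result {G : Type*} [Group G] [Fintype G] (K : Subgroup G) (hTI : ∀ g : G, g ∉ Subgroup.normalizer (K : Set G) → ∀ k ∈ K, g * k * g⁻¹ ∈ K → k = 1) (hlt : K < Subgroup.normalizer (K : Set G)) (hC : ∀ k ∈ K, k ≠ 1 → Subgroup.centralizer ({k} : Set G) ≤ K) [Fintype ↥(Subgroup.normalizer (K : Set G))] (S : Set (↥(Subgroup.normalizer (K : Set G)) → ℂ)) (hS : S = {χ : ↥(Subgroup.normalizer (K : Set G)) → ℂ | Cfsg.IsIrrCharacter ↥(Subgroup.normalizer (K : Set G)) χ ∧ ∃ k : ↥(Subgroup.normalizer (K : Set G)), (k : G) ∈ K ∧ χ k ≠ χ 1}) (htwo : ∃ χ ∈ S, ∃ ξ ∈ S, χ ≠ ξ) (star : (↥(Subgroup.normalizer (K : Set G)) → ℂ) → (G → ℂ)) (hstar : Cfsg.IsLinearIsometryOn (Cfsg.zspan S) star) (hext : ∀ α ∈ Cfsg.zspanOn S ({1}ᶜ : Set ↥(Subgroup.normalizer (K : Set G))), star α = Cfsg.indFun (Subgroup.normalizer (K : Set G)) α) : ∃ m : ℤ, ∀ χ ∈ S, ∀ k : ↥(Subgroup.normalizer (K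 : Set G)), (k : G) ∈ K → k ≠ 1 → star χ k - χ k = (m : ℂ) * χ 1 / ((K.subgroupOf (Subgroup.normalizer (K : Set G))).index : ℂ) := by
  classical
  let A : Subgroup (Subgroup.normalizer (K : Set G)) :=
    K.subgroupOf (Subgroup.normalizer (K : Set G))
  haveI hAn : A.Normal := Subgroup.normal_in_normalizer
  letI : Fintype A := Fintype.ofFinite A
  have hCA : ∀ n ∈ A, n ≠ 1 →
      Subgroup.centralizer ({n} : Set (Subgroup.normalizer (K : Set G))) ≤ A := by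
    intro n hn hn1 c hc
    show c ∈ K.subgroupOf _
    rw [Subgroup.mem_subgroupOf]
    apply hC (n : G) (Subgroup.mem_subgroupOf.mp hn) (fun h => hn1 (Subtype.ext h))
    rw [Subgroup.mem_centralizer_iff]
    intro y hy
    rw [Set.mem_singleton_iff] at hy
    rw [hy]
    have := Subgroup.mem_centralizer_iff.mp hc n (Set.mem_singleton n)
    exact congrArg Subtype.val this
  have hSmem : ∀ χ, χ ∈ S ↔ (IsIrrCharacter (Subgroup.normalizer (K : Set G)) χ ∧
      ∃ k : Subgroup.normalizer (K : Set G), k ∈ A ∧ χ k ≠ χ 1) := by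
    intro χ; rw [hS]; rfl
  have hidx : 0 < A.index := Nat.pos_of_ne_zero Subgroup.index_ne_zero_of_finite
  have hrel : ∀ Φ : ↥(Subgroup.normalizer (K : Set G)) → ℂ,
      (∀ ζ ∈ S, ∀ ξ ∈ S, ∀ a b : ℤ, (a • ζ + b • ξ) 1 = 0 →
        classInner Φ (a • ζ + b • ξ) = 0) →
      ∀ ζ ξ : IrrCharacter (Subgroup.normalizer (K : Set G)),
        (∃ k : Subgroup.normalizer (K : Set G), k ∈ A ∧
          (ζ : ↥(Subgroup.normalizer (K : Set G)) → ℂ) k ≠ (ζ : ↥(Subgroup.normalizer (K : Set G)) → ℂ) 1) →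
        (∃ k : Subgroup.normalizer (K : Set G), k ∈ A ∧
          (ξ : ↥(Subgroup.normalizer (K : Set G)) → ℂ) k ≠ (ξ : ↥(Subgroup.normalizer (K : Set G)) → ℂ) 1) →
        (ξ : ↥(Subgroup.normalizer (K : Set G)) → ℂ) 1 * classInner Φ ζ =
          (ζ : ↥(Subgroup.normalizer (K : Set G)) → ℂ) 1 * classInner Φ ξ := by
    intro Φ hΦ ζ ξ hζ hξ
    have hζS : (ζ : ↥(Subgroup.normalizer (K : Set G)) → ℂ) ∈ S := (hSmem _).mpr ⟨ζ.2, hζ⟩
    have hξS : (ξ : ↥(Subgroup.normalizer (K : Set G)) → ℂ) ∈ S := (hSmem _).mpr ⟨ξ.2, hξ⟩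
    obtain ⟨dζ, hdζ⟩ := irr_one_eq_natCast ζ
    obtain ⟨dξ, hdξ⟩ := irr_one_eq_natCast ξ
    have h1 := hΦ _ hζS _ hξS (dξ : ℤ) (-(dζ : ℤ)) (by
      show (dξ : ℤ) • (ζ : ↥(Subgroup.normalizer (K : Set G)) → ℂ) 1 +
        (-(dζ : ℤ)) • (ξ : ↥(Subgroup.normalizer (K : Set G)) → ℂ) 1 = 0
      rw [hdζ, hdξ, zsmul_eq_mul, zsmul_eq_mul]; push_cast; ring)
    rw [classInner_zsmul_add_right] at h1
    rw [hdζ, hdξ]
    push_cast at h1
    linear_combination h1
  have hstarα : ∀ ζ ∈ S, ∀ ξ ∈ S, ∀ a b : ℤ, (a • ζ + b • ξ) 1 = 0 →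
      indFun (Subgroup.normalizer (K : Set G)) (a • ζ + b • ξ) = a • star ζ + b • star ξ := by
    intro ζ hζ ξ hξ a b h1
    obtain ⟨hmem, hst⟩ := coh_alpha S star hstar hζ hξ a b
    rw [← hst]
    symm
    apply hext
    refine ⟨hmem, fun x hx => ?_⟩
    have : x = 1 := by simpa using hx
    rw [this]; exact h1
  -- the degrees
  have ht : ∀ ζ : IrrCharacter (Subgroup.normalizer (K : Set G)), ∃ t : ℕ,
      (∃ k : Subgroup.normalizer (K : Set G), k ∈ A ∧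
        (ζ : ↥(Subgroup.normalizer (K : Set G)) → ℂ) k ≠ (ζ : ↥(Subgroup.normalizer (K : Set G)) → ℂ) 1) →
      (ζ : ↥(Subgroup.normalizer (K : Set G)) → ℂ) 1 = ((A.index * t : ℕ) : ℂ) := by
    intro ζ
    by_cases hζ : ∃ k : Subgroup.normalizer (K : Set G), k ∈ A ∧
        (ζ : ↥(Subgroup.normalizer (K : Set G)) → ℂ) k ≠ (ζ : ↥(Subgroup.normalizer (K : Set G)) → ℂ) 1
    · obtain ⟨-, -, lam, -, heq⟩ := frob_relevant' A hCA ζ.2 hζ
      obtain ⟨n, hn⟩ := irr_one_eq_natCast lam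
      exact ⟨n, fun _ => by rw [heq, indFun_one, hn]; push_cast; ring⟩
    · exact ⟨0, fun h => absurd h hζ⟩
  choose t ht using ht
  -- the integer values
  have hz : ∀ ζ : IrrCharacter (Subgroup.normalizer (K : Set G)), ∃ z : ℤ,
      (∃ k : Subgroup.normalizer (K : Set G), k ∈ A ∧
        (ζ : ↥(Subgroup.normalizer (K : Set G)) → ℂ) k ≠ (ζ : ↥(Subgroup.normalizer (K : Set G)) → ℂ) 1) →
      ∀ k : Subgroup.normalizer (K : Set G), k ∈ A → k ≠ 1 →
        star (ζ : ↥(Subgroup.normalizer (K : Set G)) → ℂ) k -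
          (ζ : ↥(Subgroup.normalizer (K : Set G)) → ℂ) k = (z : ℂ) := by
    intro ζ
    by_cases hζ : ∃ k : Subgroup.normalizer (K : Set G), k ∈ A ∧
        (ζ : ↥(Subgroup.normalizer (K : Set G)) → ℂ) k ≠ (ζ : ↥(Subgroup.normalizer (K : Set G)) → ℂ) 1
    · have hζS : (ζ : ↥(Subgroup.normalizer (K : Set G)) → ℂ) ∈ S := (hSmem _).mpr ⟨ζ.2, hζ⟩
      have hζzs : (ζ : ↥(Subgroup.normalizer (K : Set G)) → ℂ) ∈ zspan S :=
        Submodule.subset_span hζS
      have hgenζ := hstar.2.2.2 _ hζzs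
      have hcfstar := isGenChar_isClassFunction hgenζ
      let Φ : ↥(Subgroup.normalizer (K : Set G)) → ℂ := fun n =>
        star (ζ : ↥(Subgroup.normalizer (K : Set G)) → ℂ) n -
          (ζ : ↥(Subgroup.normalizer (K : Set G)) → ℂ) n
      have hΦcf : IsClassFunction (Subgroup.normalizer (K : Set G)) Φ := by
        intro g h
        show star (ζ : ↥(Subgroup.normalizer (K : Set G)) → ℂ)
            ((h * g * h⁻¹ : Subgroup.normalizer (K : Set G)) : G) -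
            (ζ : ↥(Subgroup.normalizer (K : Set G)) → ℂ) (h * g * h⁻¹) =
          star (ζ : ↥(Subgroup.normalizer (K : Set G)) → ℂ) (g : G) -
            (ζ : ↥(Subgroup.normalizer (K : Set G)) → ℂ) g
        have e' : (ζ : ↥(Subgroup.normalizer (K : Set G)) → ℂ) (h * g * h⁻¹) =
            (ζ : ↥(Subgroup.normalizer (K : Set G)) → ℂ) g := isClassFunction_irr ζ g h
        rw [e']
        have : ((h * g * h⁻¹ : Subgroup.normalizer (K : Set G)) : G) =
            (h : G) * g * (h : G)⁻¹ := by push_cast; rfl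
        rw [this, hcfstar (g : G) (h : G)]
      have e1 : Φ = (fun n : Subgroup.normalizer (K : Set G) =>
          star (ζ : ↥(Subgroup.normalizer (K : Set G)) → ℂ) n) -
          (ζ : ↥(Subgroup.normalizer (K : Set G)) → ℂ) := rfl
      have hΦrel := hrel Φ (by
        intro ζ' hζ' ξ hξ a b h1
        have hst := hstarα ζ' hζ' ξ hξ a b h1
        obtain ⟨hmem, hst2⟩ := coh_alpha S star hstar hζ' hξ a b
        rw [e1, classInner_sub_left, ← frobenius_reciprocity' _ _ _ hcfstar, hst, ← hst2,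
          hstar.2.2.1 _ hζzs _ hmem, sub_self])
      have hint : ∀ ξ : IrrCharacter (Subgroup.normalizer (K : Set G)), ∃ z : ℤ,
          classInner Φ ξ = (z : ℂ) := by
        intro ξ
        rw [e1, classInner_sub_left, ← frobenius_reciprocity' _ _ _ hcfstar]
        obtain ⟨z1, hz1⟩ := isGenChar_inner_int hgenζ
          (isCharacter_indFun (Subgroup.normalizer (K : Set G))
            (isCharacter_of_isIrrCharacter ξ.2))
        obtain ⟨n2, hn2⟩ := classInner_isCharacter_nat (isCharacter_of_isIrrCharacter ζ.2)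
          (isCharacter_of_isIrrCharacter ξ.2)
        exact ⟨z1 - n2, by rw [hz1, hn2]; push_cast; ring⟩
      obtain ⟨r, hr⟩ := frob_const_rat A Φ hΦcf hΦrel hint
      obtain ⟨k₀, hk₀A, hk₀⟩ := hζ
      have hk₀1 : k₀ ≠ 1 := by rintro rfl; exact hk₀ rfl
      have hintg : IsIntegral ℤ (r : ℂ) := by
        rw [← hr k₀ hk₀A hk₀1]
        exact IsIntegral.sub (isGenChar_isIntegral hgenζ _)
          (isCharacter_isIntegral (isCharacter_of_isIrrCharacter ζ.2) _)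
      obtain ⟨z, hzr⟩ := rat_isIntegral_int r hintg
      refine ⟨z, fun _ k hk hk1 => ?_⟩
      have := hr k hk hk1
      rw [hzr] at this
      rw [← Rat.cast_intCast]
      exact this
    · exact ⟨0, fun h => absurd h hζ⟩
  choose z hz using hz
  -- proportionality
  have hrelz : ∀ ζ ξ : IrrCharacter (Subgroup.normalizer (K : Set G)),
      (∃ k : Subgroup.normalizer (K : Set G), k ∈ A ∧
        (ζ : ↥(Subgroup.normalizer (K : Set G)) → ℂ) k ≠ (ζ : ↥(Subgroup.normalizer (K : Set G)) → ℂ) 1) →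
      (∃ k : Subgroup.normalizer (K : Set G), k ∈ A ∧
        (ξ : ↥(Subgroup.normalizer (K : Set G)) → ℂ) k ≠ (ξ : ↥(Subgroup.normalizer (K : Set G)) → ℂ) 1) →
      (t ξ : ℤ) * z ζ = (t ζ : ℤ) * z ξ := by
    intro ζ ξ hζ hξ
    have hζS : (ζ : ↥(Subgroup.normalizer (K : Set G)) → ℂ) ∈ S := (hSmem _).mpr ⟨ζ.2, hζ⟩
    have hξS : (ξ : ↥(Subgroup.normalizer (K : Set G)) → ℂ) ∈ S := (hSmem _).mpr ⟨ξ.2, hξ⟩
    have h1 : (((A.index * t ξ : ℕ) : ℤ) • (ζ : ↥(Subgroup.normalizer (K : Set G)) → ℂ) +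
        (-((A.index * t ζ : ℕ) : ℤ)) • (ξ : ↥(Subgroup.normalizer (K : Set G)) → ℂ)) 1 = 0 := by
      show ((A.index * t ξ : ℕ) : ℤ) • (ζ : ↥(Subgroup.normalizer (K : Set G)) → ℂ) 1 +
        (-((A.index * t ζ : ℕ) : ℤ)) • (ξ : ↥(Subgroup.normalizer (K : Set G)) → ℂ) 1 = 0
      rw [ht ζ hζ, ht ξ hξ, zsmul_eq_mul, zsmul_eq_mul]; push_cast; ring
    have hst := hstarα _ hζS _ hξS _ _ h1
    obtain ⟨k₀, hk₀A, hk₀⟩ := id hζ
    have hk₀1 : k₀ ≠ 1 := by rintro rfl; exact hk₀ rfl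
    have hvanζ := (frob_relevant' A hCA ζ.2 hζ).1
    have hvanξ := (frob_relevant' A hCA ξ.2 hξ).1
    have hαcf : IsClassFunction (Subgroup.normalizer (K : Set G))
        (((A.index * t ξ : ℕ) : ℤ) • (ζ : ↥(Subgroup.normalizer (K : Set G)) → ℂ) +
        (-((A.index * t ζ : ℕ) : ℤ)) • (ξ : ↥(Subgroup.normalizer (K : Set G)) → ℂ)) := by
      intro g h
      show ((A.index * t ξ : ℕ) : ℤ) • (ζ : ↥(Subgroup.normalizer (K : Set G)) → ℂ) (h * g * h⁻¹) +
        (-((A.index * t ζ : ℕ) : ℤ)) • (ξ : ↥(Subgroup.normalizer (K : Set G)) → ℂ) (h * g * h⁻¹) =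
        ((A.index * t ξ : ℕ) : ℤ) • (ζ : ↥(Subgroup.normalizer (K : Set G)) → ℂ) g +
        (-((A.index * t ζ : ℕ) : ℤ)) • (ξ : ↥(Subgroup.normalizer (K : Set G)) → ℂ) g
      rw [isClassFunction_irr ζ g h, isClassFunction_irr ξ g h]
    have hαvan : ∀ x : Subgroup.normalizer (K : Set G), (x : G) ∉ K →
        (((A.index * t ξ : ℕ) : ℤ) • (ζ : ↥(Subgroup.normalizer (K : Set G)) → ℂ) +
        (-((A.index * t ζ : ℕ) : ℤ)) • (ξ : ↥(Subgroup.normalizer (K : Set G)) → ℂ)) x = 0 := by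
      intro x hx
      show ((A.index * t ξ : ℕ) : ℤ) • (ζ : ↥(Subgroup.normalizer (K : Set G)) → ℂ) x +
        (-((A.index * t ζ : ℕ) : ℤ)) • (ξ : ↥(Subgroup.normalizer (K : Set G)) → ℂ) x = 0
      rw [hvanζ x hx, hvanξ x hx]; simp
    have hev : ((A.index * t ξ : ℕ) : ℤ) • (ζ : ↥(Subgroup.normalizer (K : Set G)) → ℂ) k₀ +
        (-((A.index * t ζ : ℕ) : ℤ)) • (ξ : ↥(Subgroup.normalizer (K : Set G)) → ℂ) k₀ =
        ((A.index * t ξ : ℕ) : ℤ) • star (ζ : ↥(Subgroup.normalizer (K : Set G)) → ℂ) (k₀ : G) +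
        (-((A.index * t ζ : ℕ) : ℤ)) • star (ξ : ↥(Subgroup.normalizer (K : Set G)) → ℂ) (k₀ : G) := by
      have h2 := congrFun hst (k₀ : G)
      rw [indFun_eq_of_TI_frob K hTI hC _ hαcf hαvan h1 k₀] at h2
      exact h2
    have e1 := hz ζ hζ k₀ hk₀A hk₀1
    have e2 := hz ξ hξ k₀ hk₀A hk₀1
    rw [zsmul_eq_mul, zsmul_eq_mul, zsmul_eq_mul, zsmul_eq_mul] at hev
    push_cast at hev
    have h3 : (A.index : ℂ) * ((t ξ : ℂ) * (z ζ : ℂ)) = (A.index : ℂ) * ((t ζ : ℂ) * (z ξ : ℂ)) := by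
      rw [← e1, ← e2]
      linear_combination -hev
    have hidx0 : (A.index : ℂ) ≠ 0 := by exact_mod_cast hidx.ne'
    have h4 := mul_left_cancel₀ hidx0 h3
    exact_mod_cast h4
  -- a relevant character
  obtain ⟨χ₁, hχ₁, -⟩ := htwo
  have hχ₁' := (hSmem χ₁).mp hχ₁
  let ζ₀ : IrrCharacter (Subgroup.normalizer (K : Set G)) := ⟨χ₁, hχ₁'.1⟩
  have hζ₀ : ∃ k : Subgroup.normalizer (K : Set G), k ∈ A ∧
      (ζ₀ : ↥(Subgroup.normalizer (K : Set G)) → ℂ) k ≠ (ζ₀ : ↥(Subgroup.normalizer (K : Set G)) → ℂ) 1 := hχ₁'.2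
  have ht₀pos : 0 < t ζ₀ := by
    rcases Nat.eq_zero_or_pos (t ζ₀) with h | h
    · exfalso
      have h1 := ht ζ₀ hζ₀
      rw [h, mul_zero, Nat.cast_zero] at h1
      exact isIrrCharacter_one_ne_zero ζ₀.2 h1
    · exact h
  have hdvd : (t ζ₀ : ℤ) ∣ z ζ₀ := by
    rw [Int.natCast_dvd]
    by_contra hnd
    have hgpos : 0 < Nat.gcd (t ζ₀) (z ζ₀).natAbs := Nat.gcd_pos_of_pos_left _ ht₀pos
    have hcop := Nat.coprime_div_gcd_div_gcd hgpos
    have ht' : t ζ₀ / Nat.gcd (t ζ₀) (z ζ₀).natAbs ≠ 1 := by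
      intro h
      apply hnd
      have h1 : t ζ₀ = Nat.gcd (t ζ₀) (z ζ₀).natAbs := by
        have := Nat.div_mul_cancel (Nat.gcd_dvd_left (t ζ₀) (z ζ₀).natAbs)
        rw [h, one_mul] at this
        exact this.symm
      rw [h1]; exact Nat.gcd_dvd_right _ _
    obtain ⟨r, hr, hrd⟩ := Nat.exists_prime_and_dvd ht'
    apply frob_no_common_prime A hCA t ht ⟨ζ₀, hζ₀⟩ r hr
    intro ξ hξ
    have h1 := hrelz ζ₀ ξ hζ₀ hξ
    have h2 : t ξ * (z ζ₀).natAbs = t ζ₀ * (z ξ).natAbs := by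
      have := congrArg Int.natAbs h1
      rwa [Int.natAbs_mul, Int.natAbs_mul, Int.natAbs_natCast, Int.natAbs_natCast] at this
    have h3 : t ζ₀ / Nat.gcd (t ζ₀) (z ζ₀).natAbs ∣
        t ξ * ((z ζ₀).natAbs / Nat.gcd (t ζ₀) (z ζ₀).natAbs) := by
      have h4 : t ζ₀ ∣ t ξ * (z ζ₀).natAbs := ⟨_, h2⟩
      obtain ⟨a, ha⟩ := Nat.gcd_dvd_left (t ζ₀) (z ζ₀).natAbs
      obtain ⟨b, hb⟩ := Nat.gcd_dvd_right (t ζ₀) (z ζ₀).natAbs
      have ea : t ζ₀ / Nat.gcd (t ζ₀) (z ζ₀).natAbs = a :=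
        Nat.div_eq_of_eq_mul_right hgpos ha
      have eb : (z ζ₀).natAbs / Nat.gcd (t ζ₀) (z ζ₀).natAbs = b :=
        Nat.div_eq_of_eq_mul_right hgpos hb
      rw [ea, eb]
      have h5 : Nat.gcd (t ζ₀) (z ζ₀).natAbs * a ∣ Nat.gcd (t ζ₀) (z ζ₀).natAbs * (t ξ * b) := by
        have : Nat.gcd (t ζ₀) (z ζ₀).natAbs * (t ξ * b) = t ξ * (z ζ₀).natAbs := by
          conv_rhs => rw [hb]
          ring
        rw [this, ← ha]; exact h4
      exact Nat.dvd_of_mul_dvd_mul_left hgpos h5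
    exact hrd.trans (hcop.dvd_of_dvd_mul_right h3)
  obtain ⟨m, hm⟩ := hdvd
  refine ⟨m, ?_⟩
  intro χ hχS k hkK hk1
  have hχ := (hSmem χ).mp hχS
  let ζ : IrrCharacter (Subgroup.normalizer (K : Set G)) := ⟨χ, hχ.1⟩
  have hζ : ∃ k : Subgroup.normalizer (K : Set G), k ∈ A ∧
      (ζ : ↥(Subgroup.normalizer (K : Set G)) → ℂ) k ≠ (ζ : ↥(Subgroup.normalizer (K : Set G)) → ℂ) 1 := hχ.2
  have e1 : star χ k - χ k = (z ζ : ℂ) := hz ζ hζ k (Subgroup.mem_subgroupOf.mpr hkK) hk1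
  have e2 : χ 1 = ((A.index * t ζ : ℕ) : ℂ) := ht ζ hζ
  have e3 : z ζ = m * t ζ := by
    have h1 := hrelz ζ ζ₀ hζ hζ₀
    rw [hm] at h1
    have h2 : (t ζ₀ : ℤ) * z ζ = (t ζ₀ : ℤ) * (m * t ζ) := by rw [h1]; ring
    exact mul_left_cancel₀ (by exact_mod_cast ht₀pos.ne') h2
  have hidx0 : (A.index : ℂ) ≠ 0 := by exact_mod_cast hidx.ne'
  rw [e1, e2, e3]
  show ((m * (t ζ : ℤ) : ℤ) : ℂ) = (m : ℂ) * ((A.index * t ζ : ℕ) : ℂ) / (A.index : ℂ)
  push_cast
  field_simp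

end Cfsg.Agent.S0853
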