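import Cfsg.Statements.S0864
import Cfsg.Agent.Lib.Lead.CharLinExt

set_option autoImplicit false
open Cfsg

namespace Cfsg.Agent.S0864

open Cfsg.Agent.Lib.Lead Cfsg.Agent.Lib.Helper2 Module

/-- A character of degree one is a homomorphism to the units of `ℂ`. -/
theorem exists_hom_of_isCharacter_one {G : Type*} [Group G] {χ : G → ℂ}
    (h : Cfsg.IsCharacter G χ) (h1 : χ 1 = 1) : ∃ φ : G →* ℂˣ, ∀ g, χ g = (φ g : ℂ) := by
  obtain ⟨n, ρ, rfl⟩ := h
  have hn : finrank ℂ (Fin n → ℂ) = 1 := by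
    rw [Representation.char_one] at h1; exact_mod_cast h1
  exact exists_hom_of_linear ⟨n, ρ, isIrreducible_of_finrank_eq_one ρ hn, rfl⟩ h1

/-- Let N be a normal subgroup of the finite group G and λ a character of N of degree 1 invariant under conjugation by G. Suppose that for every prime p dividing the order of λ (in the group of functions under pointwise multiplication) there is a subgroup H containing N, of index prime to p and with the index of N in H a power of p, together with a character of H of degree 1 restricting to λ. Then λ is the restriction of a character of G of degree 1. -/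
theorem result {G : Type*} [Group G] [Finite G] (N : Subgroup G) [hN : N.Normal] (lam : N → ℂ) (hlam : Cfsg.IsCharacter N lam ∧ lam 1 = 1) (hinv : ∀ (g : G) (n : N), lam ⟨g * n * g⁻¹, hN.conj_mem (n : G) n.2 g⟩ = lam n) (hsyl : ∀ p : ℕ, p.Prime → p ∣ orderOf lam → ∃ (H : Subgroup G) (hNH : N ≤ H) (ν : H → ℂ), Nat.Coprime H.index p ∧ (∃ k : ℕ, N.relIndex H = p ^ k) ∧ Cfsg.IsCharacter H ν ∧ ν 1 = 1 ∧ ∀ n : N, ν ⟨(n : G), hNH n.2⟩ = lam n) : ∃ μ : G → ℂ, Cfsg.IsCharacter G μ ∧ μ 1 = 1 ∧ ∀ n : N, μ n = lam n := by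
  classical
  obtain ⟨lam₀, hlam₀⟩ := exists_hom_of_isCharacter_one hlam.1 hlam.2
  have hfun : lam = fun n => (lam₀ n : ℂ) := funext hlam₀
  have hcard : lam ^ (Nat.card N) = 1 := by
    funext m
    rw [Pi.pow_apply, hlam₀, ← Units.val_pow_eq_pow_val, ← map_pow, pow_card_eq_one', map_one]
    rfl
  have ho : orderOf lam ≠ 0 :=
    (isOfFinOrder_iff_pow_eq_one.mpr ⟨Nat.card N, Nat.card_pos, hcard⟩).orderOf_pos.ne'
  have hpow : ∀ m : N, lam₀ m ^ (orderOf lam) = 1 := by
    intro m
    apply Units.ext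
    have h1 := congrFun (pow_orderOf_eq_one lam) m
    rw [Pi.pow_apply, hlam₀] at h1
    rw [Units.val_pow_eq_pow_val, h1]; rfl
  obtain ⟨μ', hμ'⟩ := linear_extends_of_coprime_index N lam₀ (fun g m => by
      apply Units.ext
      rw [← hlam₀, ← hlam₀]; exact hinv g m) (orderOf lam) ho hpow (by
      intro p hp hpo
      obtain ⟨H, hNH, ν, hcop, -, hνchar, hν1, hνN⟩ := hsyl p hp hpo
      obtain ⟨ν', hν'⟩ := exists_hom_of_isCharacter_one hνchar hν1
      refine ⟨H, hNH, ν', fun h => hp.one_lt.ne' (hcop.symm.eq_one_of_dvd h), fun m => ?_⟩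
      apply Units.ext
      rw [← hν', hνN, hlam₀])
  refine ⟨fun g => (μ' g : ℂ), isCharacter_of_isIrrCharacter (isIrrCharacter_of_hom μ'), ?_, ?_⟩
  · simp
  · intro n
    show ((μ' (n : G) : ℂˣ) : ℂ) = lam n
    rw [hμ', hlam₀]

end Cfsg.Agent.S0864
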