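import Cfsg.Statements.S0862
import Cfsg.Agent.S0864
import Cfsg.Agent.Lib.Lead.CharDet

set_option autoImplicit false
open Cfsg

namespace Cfsg.Agent.S0862

open Cfsg.Agent.Lib.Lead Cfsg.Agent.Lib.Helper2 Module Cfsg.Agent.S0864

/-- Let N be a normal subgroup of the finite group G and ϑ an irreducible character of N of degree d coprime to the index of N, which is the restriction of some irreducible character of G. Let μ be a character of G of degree 1 whose restriction to N is the determinantal character of ϑ. Then there is exactly one irreducible character χ of G restricting to ϑ whose determinantal character is μ. -/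
theorem result {G : Type*} [Group G] [Finite G] (N : Subgroup G) [N.Normal] (ϑ : N → ℂ) (hϑ : Cfsg.IsIrrCharacter N ϑ) (d : ℕ) (hd : ϑ 1 = d) (hcop : Nat.Coprime N.index d) (hext : ∃ η : G → ℂ, Cfsg.IsIrrCharacter G η ∧ (∀ n : N, η n = ϑ n)) (μ : G → ℂ) (hμ : Cfsg.IsCharacter G μ ∧ μ 1 = 1) (hμN : ∀ n : N, μ n = Cfsg.detChar ϑ n) : ∃! χ : G → ℂ, Cfsg.IsIrrCharacter G χ ∧ (∀ n : N, χ n = ϑ n) ∧ Cfsg.detChar χ = μ := by
  classical
  letI := Fintype.ofFinite G
  obtain ⟨η, hη, hηN⟩ := hext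
  obtain ⟨φμ, hφμ⟩ := exists_hom_of_isCharacter_one hμ.1 hμ.2
  obtain ⟨φη, hφη⟩ := exists_detChar_hom hη
  set δ : G →* ℂˣ := φμ * φη⁻¹ with hδ
  have hδapp : ∀ g, δ g = φμ g * (φη g)⁻¹ := fun g => rfl
  have hδN : ∀ n : N, δ (n : G) = 1 := by
    intro n
    rw [hδapp, mul_inv_eq_one]
    apply Units.ext
    rw [← hφμ, ← hφη, hμN, detChar_res N hη hϑ hηN]
  set j := N.index with hj
  have hpowj : ∀ (ψ : G →* ℂˣ), (∀ n : N, ψ (n : G) = 1) → ∀ g, ψ g ^ j = 1 := by
    intro ψ hψ g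
    have hgj : g ^ j ∈ N := Subgroup.pow_index_mem N g
    rw [← map_pow]
    exact hψ ⟨g ^ j, hgj⟩
  have hη1 : η 1 = d := by
    have := hηN 1
    rw [hd] at this
    exact this
  have hbez : (d : ℤ) * Nat.gcdA d j + (j : ℤ) * Nat.gcdB d j = 1 := by
    have := Nat.gcd_eq_gcd_ab d j
    rw [Nat.Coprime.gcd_eq_one hcop.symm] at this
    exact_mod_cast this.symm
  set a := Nat.gcdA d j with ha
  set b := Nat.gcdB d j with hb
  -- a hom with trivial restriction to N is determined by its d-th power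
  have hkey : ∀ (ψ : G →* ℂˣ), (∀ n : N, ψ (n : G) = 1) → ∀ g, ψ g = (ψ g ^ d) ^ a := by
    intro ψ hψ g
    have h1 : ψ g = ψ g ^ ((d : ℤ) * a + (j : ℤ) * b) := by rw [hbez, zpow_one]
    rw [zpow_add, zpow_mul, zpow_mul, zpow_natCast, zpow_natCast, hpowj ψ hψ g, one_zpow,
      mul_one] at h1
    exact h1
  set β : G →* ℂˣ := δ ^ a with hβ
  have hβapp : ∀ g, β g = δ g ^ a := fun g => rfl
  have hβN : ∀ n : N, β (n : G) = 1 := by
    intro n; rw [hβapp, hδN, one_zpow]
  have hβd : ∀ g, β g ^ d = δ g := by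
    intro g
    have h1 := hkey δ hδN g
    rw [hβapp, ← zpow_natCast, ← zpow_mul, mul_comm, zpow_mul, zpow_natCast]
    exact h1.symm
  obtain ⟨hχirr, hχdet⟩ := twist_linear hη β d hη1
  refine ⟨fun g => (β g : ℂ) * η g, ⟨hχirr, fun n => ?_, ?_⟩, ?_⟩
  · show ((β (n : G) : ℂˣ) : ℂ) * η n = ϑ n
    rw [hβN, Units.val_one, one_mul, hηN]
  · funext g
    rw [hχdet, hφη, hφμ, ← Units.val_pow_eq_pow_val, hβd, hδapp, ← Units.val_mul,
      inv_mul_cancel_right]
  · rintro χ' ⟨hχ'irr, hχ'N, hχ'det⟩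
    haveI : (N.subtype.range).Normal := by rw [Subgroup.range_subtype]; infer_instance
    obtain ⟨m, ρ, hρirr, hΨeq, hρN, hm⟩ := gallagher_embed N.subtype N.subtype_injective hϑ
      (isCharacter_of_isIrrCharacter hη) hηN hχ'irr 1
      (fun n => by rw [Nat.cast_one, one_mul]; exact hχ'N n)
    subst hm
    obtain ⟨β', hβ'⟩ := exists_hom_of_linear (⟨1, ρ, hρirr, rfl⟩ : IsIrrCharacter G ρ.character)
      (by rw [Representation.char_one]; simp)
    have hχ'eq : χ' = fun g => (β' g : ℂ) * η g := by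
      funext g
      rw [hΨeq, Pi.mul_apply, hβ']
    have hβ'N : ∀ n : N, β' (n : G) = 1 := by
      intro n
      apply Units.ext
      rw [← hβ']
      show LinearMap.trace ℂ _ (ρ (N.subtype n)) = _
      rw [hρN n]; simp
    obtain ⟨-, hχ'det2⟩ := twist_linear hη β' d hη1
    have hβ'd : ∀ g, β' g ^ d = δ g := by
      intro g
      have h1 := hχ'det2 g
      rw [← hχ'eq, hχ'det, hφμ, hφη] at h1
      rw [hδapp, eq_mul_inv_iff_mul_eq]
      apply Units.ext
      rw [Units.val_mul, Units.val_pow_eq_pow_val]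
      exact h1.symm
    rw [hχ'eq]
    funext g
    have : β' g = β g := by
      rw [hkey β' hβ'N g, hβ'd, hβapp]
    rw [this]

end Cfsg.Agent.S0862
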