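import Cfsg.Statements.S0865
import Cfsg.Agent.S0864

set_option autoImplicit false
open Cfsg

namespace Cfsg.Agent.S0865

open Cfsg.Agent.Lib.Lead Cfsg.Agent.Lib.Helper2 Module Cfsg.Agent.S0864

/-- Let N be a normal subgroup of the finite group G and λ a character of N of degree 1, invariant under conjugation by G, whose order (under pointwise multiplication) is coprime to the index of N. Then there is a character μ of G of degree 1 restricting to λ with the same order as λ, and μ is the only degree-1 character of G restricting to λ whose order is coprime to the index of N. -/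
theorem result {G : Type*} [Group G] [Finite G] (N : Subgroup G) [hN : N.Normal] (lam : N → ℂ) (hlam : Cfsg.IsCharacter N lam ∧ lam 1 = 1) (hinv : ∀ (g : G) (n : N), lam ⟨g * n * g⁻¹, hN.conj_mem (n : G) n.2 g⟩ = lam n) (hcop : Nat.Coprime N.index (orderOf lam)) : ∃ μ : G → ℂ, (Cfsg.IsCharacter G μ ∧ μ 1 = 1 ∧ (∀ n : N, μ n = lam n) ∧ orderOf μ = orderOf lam) ∧ ∀ μ' : G → ℂ, Cfsg.IsCharacter G μ' ∧ μ' 1 = 1 → (∀ n : N, μ' n = lam n) → Nat.Coprime N.index (orderOf μ') → μ' = μ := by
  classical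
  obtain ⟨lam₀, hlam₀⟩ := exists_hom_of_isCharacter_one hlam.1 hlam.2
  set o := orderOf lam with ho
  set j := N.index with hj
  have hpow : ∀ m : N, lam₀ m ^ o = 1 := by
    intro m
    apply Units.ext
    have h1 := congrFun (pow_orderOf_eq_one lam) m
    rw [Pi.pow_apply, hlam₀] at h1
    rw [Units.val_pow_eq_pow_val, h1]; rfl
  let V : G →* ℂˣ := MonoidHom.transfer lam₀
  have hVN : ∀ m : N, V m = lam₀ m ^ j := by
    intro m
    apply transfer_apply_of_normal N lam₀ (m : G)
      (fun x => by have := hN.conj_mem m m.2 x⁻¹; rwa [inv_inv] at this) (lam₀ m)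
    intro x
    apply Units.ext
    rw [← hlam₀, ← hlam₀]
    have := hinv x⁻¹ m
    convert this using 2
    apply Subtype.ext; simp
  have hVo : ∀ g : G, V g ^ o = 1 := by
    intro g
    have hmem : V g ∈ lam₀.range := by
      letI := N.fintypeQuotientOfFiniteIndex
      show MonoidHom.transfer lam₀ g ∈ lam₀.range
      rw [MonoidHom.transfer_def lam₀ (default : N.LeftTransversal) g]
      unfold Subgroup.leftTransversals.diff
      exact Subgroup.prod_mem _ (fun q _ => ⟨_, rfl⟩)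
    obtain ⟨m, hm⟩ := hmem
    rw [← hm, hpow]
  have hbez : (o : ℤ) * Nat.gcdA o j + (j : ℤ) * Nat.gcdB o j = 1 := by
    have := Nat.gcd_eq_gcd_ab o j
    rw [Nat.Coprime.gcd_eq_one hcop.symm] at this
    exact_mod_cast this.symm
  set b := Nat.gcdB o j with hb
  let φ : G →* ℂˣ := V ^ b
  have hφapp : ∀ g, φ g = V g ^ b := fun g => rfl
  have hφN : ∀ m : N, φ m = lam₀ m := by
    intro m
    rw [hφapp, hVN, ← zpow_natCast, ← zpow_mul]
    have : (j : ℤ) * b = 1 - (o : ℤ) * Nat.gcdA o j := by linarith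
    rw [this, zpow_sub, zpow_one, zpow_mul, zpow_natCast, hpow, one_zpow]; simp
  have hφo : ∀ g, φ g ^ o = 1 := by
    intro g
    rw [hφapp, ← zpow_natCast, ← zpow_mul, mul_comm, zpow_mul, zpow_natCast, hVo, one_zpow]
  refine ⟨fun g => (φ g : ℂ), ⟨isCharacter_of_isIrrCharacter (isIrrCharacter_of_hom φ),
    by simp, fun n => by show ((φ (n : G) : ℂˣ) : ℂ) = lam n; rw [hφN, hlam₀], ?_⟩, ?_⟩
  · apply Nat.dvd_antisymm
    · apply orderOf_dvd_of_pow_eq_one
      funext g
      rw [Pi.pow_apply, ← Units.val_pow_eq_pow_val, hφo]; rfl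
    · apply orderOf_dvd_of_pow_eq_one
      funext m
      have h1 := congrFun (pow_orderOf_eq_one (fun g : G => (φ g : ℂ))) (m : G)
      rw [Pi.pow_apply] at h1 ⊢
      rw [hlam₀, ← hφN]; exact h1
  · intro μ' hμ' hμ'N hcop'
    obtain ⟨φ', hφ'⟩ := exists_hom_of_isCharacter_one hμ'.1 hμ'.2
    funext g
    rw [hφ']
    show ((φ' g : ℂˣ) : ℂ) = ((φ g : ℂˣ) : ℂ)
    congr 1
    have h1 : (φ' g * (φ g)⁻¹) ^ j = 1 := by
      have hgj : g ^ j ∈ N := Subgroup.pow_index_mem N g
      rw [mul_pow, inv_pow, ← map_pow, ← map_pow]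
      have e1 : φ' (g ^ j) = lam₀ ⟨g ^ j, hgj⟩ := by
        apply Units.ext; rw [← hφ', ← hlam₀]; exact hμ'N ⟨g ^ j, hgj⟩
      have e2 : φ (g ^ j) = lam₀ ⟨g ^ j, hgj⟩ := hφN ⟨g ^ j, hgj⟩
      rw [e1, e2, mul_inv_cancel]
    have h2 : (φ' g * (φ g)⁻¹) ^ (orderOf μ' * o) = 1 := by
      have e1 : φ' g ^ (orderOf μ') = 1 := by
        apply Units.ext
        have := congrFun (pow_orderOf_eq_one μ') g
        rw [Pi.pow_apply, hφ'] at this
        rw [Units.val_pow_eq_pow_val, this]; rfl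
      rw [mul_pow, inv_pow, pow_mul, e1, one_pow, mul_comm (orderOf μ') o, pow_mul, hφo, one_pow,
        inv_one, mul_one]
    have h3 := pow_gcd_eq_one.mpr ⟨h1, h2⟩
    have h4 : Nat.gcd j (orderOf μ' * o) = 1 := Nat.Coprime.mul_right hcop' hcop
    rw [h4, pow_one] at h3
    exact mul_inv_eq_one.mp h3

end Cfsg.Agent.S0865
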