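import Cfsg.Statements.S0866
import Cfsg.Agent.S0864
import Cfsg.Agent.Lib.Lead.CharDet
import Cfsg.Agent.Lib.Lead.CharExtFrame2

set_option autoImplicit false
open Cfsg

namespace Cfsg.Agent.S0866

open Cfsg.Agent.Lib.Lead Cfsg.Agent.Lib.Helper2 Module Cfsg.Agent.S0864

/-- Let N be a normal subgroup of the finite group G and ϑ an irreducible character of N, invariant under conjugation by G, of degree d coprime to the index of N. Then ϑ is the restriction of an irreducible character of G if and only if the determinantal character of ϑ is the restriction of a character of G of degree 1. -/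
theorem result {G : Type*} [Group G] [Finite G] (N : Subgroup G) [hN : N.Normal] (ϑ : N → ℂ) (hϑ : Cfsg.IsIrrCharacter N ϑ) (hinv : ∀ (g : G) (n : N), ϑ ⟨g * n * g⁻¹, hN.conj_mem (n : G) n.2 g⟩ = ϑ n) (d : ℕ) (hd : ϑ 1 = d) (hcop : Nat.Coprime N.index d) : (∃ χ : G → ℂ, Cfsg.IsIrrCharacter G χ ∧ (∀ n : N, χ n = ϑ n)) ↔ ∃ μ : G → ℂ, Cfsg.IsCharacter G μ ∧ μ 1 = 1 ∧ ∀ n : N, μ n = Cfsg.detChar ϑ n := by
  classical
  constructor
  · rintro ⟨χ, hχ, hres⟩
    exact ⟨Cfsg.detChar χ, (detChar_linear hχ).1, (detChar_linear hχ).2,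
      fun n => detChar_res N hχ hϑ hres n⟩
  · rintro ⟨μ, hμc, hμ1, hμN⟩
    obtain ⟨φμ, hφμ⟩ := exists_hom_of_isCharacter_one hμc hμ1
    have hϑ' := hϑ
    obtain ⟨d', R, hR, rfl⟩ := hϑ
    haveI := hR
    have hdd : d' = d := by
      rw [Representation.char_one] at hd
      have : finrank ℂ (Fin d' → ℂ) = d' := by simp
      rw [this] at hd
      exact_mod_cast hd
    haveI := pe_finite N R hinv
    apply exists_extension_of_frame N R hinv
    intro hMn lam₀ hinv₀ hlam₀
    let ν : projExt N R (Nat.card G) →* ℂˣ := (φμ.comp (peFst N R)) * (detHom (peRep N R))⁻¹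
    have hν : ∀ m : N.comap (peFst N R), ν m = lam₀ m ^ d' := by
      intro m
      have h1 := hlam₀ m m.2
      have h2 := congrArg LinearMap.det h1
      rw [LinearMap.det_smul] at h2
      have hfin : finrank ℂ (Fin d' → ℂ) = d' := by simp
      rw [hfin] at h2
      have h3 : LinearMap.det (R ⟨peFst N R m, m.2⟩) = (φμ (peFst N R m) : ℂ) := by
        rw [← detChar_eq_det_of_irr hϑ' R rfl, ← hμN, hφμ]
      rw [h3] at h2
      show φμ (peFst N R m) * (detHom (peRep N R) m)⁻¹ = lam₀ m ^ d'
      rw [mul_inv_eq_iff_eq_mul]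
      apply Units.ext
      rw [Units.val_mul, Units.val_pow_eq_pow_val, detHom_apply, ← h2]
    let V : projExt N R (Nat.card G) →* ℂˣ := MonoidHom.transfer lam₀
    have hV : ∀ m : N.comap (peFst N R), V m = lam₀ m ^ N.index := by
      intro m
      have hidx : (N.comap (peFst N R)).index = N.index :=
        Subgroup.index_comap_of_surjective N (peFst_surjective N R hinv)
      rw [← hidx]
      apply transfer_apply_of_normal (N.comap (peFst N R)) lam₀
        (m : projExt N R (Nat.card G))
        (fun x => by have := hMn.conj_mem m m.2 x⁻¹; rwa [inv_inv] at this) (lam₀ m)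
      intro x
      have := hinv₀ x⁻¹ m
      convert this using 2
      apply Subtype.ext; simp
    have hbez : (d' : ℤ) * Nat.gcdA d' N.index + (N.index : ℤ) * Nat.gcdB d' N.index = 1 := by
      have := Nat.gcd_eq_gcd_ab d' N.index
      rw [Nat.Coprime.gcd_eq_one (hdd ▸ hcop.symm)] at this
      exact_mod_cast this.symm
    refine ⟨ν ^ (Nat.gcdA d' N.index) * V ^ (Nat.gcdB d' N.index), fun m => ?_⟩
    show (ν m) ^ (Nat.gcdA d' N.index) * (V m) ^ (Nat.gcdB d' N.index) = lam₀ m
    rw [hν, hV, ← zpow_natCast, ← zpow_mul, ← zpow_natCast (lam₀ m) N.index, ← zpow_mul,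
      ← zpow_add, hbez, zpow_one]

end Cfsg.Agent.S0866
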