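import Cfsg.Statements.S0867
import Cfsg.Agent.S0862
import Cfsg.Agent.S0865
import Cfsg.Agent.S0866
import Cfsg.Agent.Lib.Lead.CharDet

set_option autoImplicit false
open Cfsg

namespace Cfsg.Agent.S0867

open Cfsg.Agent.Lib.Lead

/-- Let N be a normal subgroup of the finite group G and ϑ an irreducible character of N of degree d, invariant under conjugation by G, such that the index of N is coprime to the product of d and the determinantal order of ϑ. Then there is an irreducible character χ of G restricting to ϑ whose determinantal order equals that of ϑ, and χ is the only irreducible character of G restricting to ϑ whose determinantal order is coprime to the index of N. -/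
theorem result {G : Type*} [Group G] [Finite G] (N : Subgroup G) [hN : N.Normal] (ϑ : N → ℂ) (hϑ : Cfsg.IsIrrCharacter N ϑ) (hinv : ∀ (g : G) (n : N), ϑ ⟨g * n * g⁻¹, hN.conj_mem (n : G) n.2 g⟩ = ϑ n) (d : ℕ) (hd : ϑ 1 = d) (hcop : Nat.Coprime N.index (Cfsg.detOrder ϑ * d)) : ∃ χ : G → ℂ, (Cfsg.IsIrrCharacter G χ ∧ (∀ n : N, χ n = ϑ n) ∧ Cfsg.detOrder χ = Cfsg.detOrder ϑ) ∧ ∀ χ' : G → ℂ, Cfsg.IsIrrCharacter G χ' → (∀ n : N, χ' n = ϑ n) → Nat.Coprime N.index (Cfsg.detOrder χ') → χ' = χ := by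
  have hlam := detChar_linear hϑ
  have hlaminv := detChar_conj_invariant N hϑ hinv
  have hcop1 : Nat.Coprime N.index (orderOf (Cfsg.detChar ϑ)) :=
    Nat.Coprime.coprime_mul_right_right hcop
  have hcop2 : Nat.Coprime N.index d := Nat.Coprime.coprime_mul_left_right hcop
  obtain ⟨μ, ⟨hμc, hμ1, hμN, hμo⟩, hμuniq⟩ :=
    Cfsg.Agent.S0865.result N (Cfsg.detChar ϑ) hlam hlaminv hcop1
  have hext := (Cfsg.Agent.S0866.result N ϑ hϑ hinv d hd hcop2).mpr ⟨μ, hμc, hμ1, hμN⟩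
  obtain ⟨χ, ⟨hχ, hχN, hχdet⟩, hχuniq⟩ :=
    Cfsg.Agent.S0862.result N ϑ hϑ d hd hcop2 hext μ ⟨hμc, hμ1⟩ hμN
  refine ⟨χ, ⟨hχ, hχN, ?_⟩, ?_⟩
  · unfold Cfsg.detOrder
    rw [hχdet, hμo]
  · intro χ' hχ' hχ'N hcop'
    apply hχuniq
    exact ⟨hχ', hχ'N, hμuniq (Cfsg.detChar χ') (detChar_linear hχ')
      (fun n => detChar_res N hχ' hϑ hχ'N n) hcop'⟩

end Cfsg.Agent.S0867
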