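import Cfsg.Statements.S4455
import Cfsg.Agent.S0867
import Cfsg.Agent.Lib.Lead.CharOp

set_option autoImplicit false
set_option maxHeartbeats 800000

namespace Cfsg.Agent.S4455

open Cfsg Cfsg.Agent.Lib.Lead Cfsg.Agent.Lib.Helper2 Module
open scoped ComplexConjugate

theorem result {G : Type*} [Group G] [Finite G] (p : ℕ) (hp : p.Prime) : (Nat.card (Cfsg.pResidual p G) : ℤ) ≡ (∑ᶠ χ ∈ {χ : Cfsg.IrrCharacter G | ¬ p ∣ Cfsg.charDegree (χ : G → ℂ) ∧ ¬ p ∣ Cfsg.detOrder (χ : G → ℂ)}, (Cfsg.charDegree (χ : G → ℂ) : ℤ) ^ 2) [ZMOD p] := by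
  classical
  letI := Fintype.ofFinite G
  haveI : Fact p.Prime := ⟨hp⟩
  haveI hNn : (pResidual p G).Normal := pResidual_normal p G
  letI : Fintype (pResidual p G) := Fintype.ofFinite _
  haveI : Finite (IrrCharacter G) := irr_finite
  letI : Fintype (IrrCharacter G) := Fintype.ofFinite _
  haveI : Finite (IrrCharacter (pResidual p G)) := irr_finite
  letI : Fintype (IrrCharacter (pResidual p G)) := Fintype.ofFinite _
  obtain ⟨k, hk⟩ := IsPGroup.iff_card.mp (isPGroup_quotient_pResidual p G)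
  have hidx : (pResidual p G).index = p ^ k := by
    rw [Subgroup.index_eq_card]; exact hk
  have key1 := card_modEq_sum_invariant (pResidual p G) hp hidx
  refine key1.trans ?_
  -- drop the characters of degree divisible by p
  have key2 : (∑ θ : IrrCharacter (pResidual p G),
      (if (∀ g : G, twist (pResidual p G) g (θ : pResidual p G → ℂ) = θ) then
        (charDegree (θ : pResidual p G → ℂ) : ℤ) ^ 2 else 0)) ≡
      (∑ θ : IrrCharacter (pResidual p G),
      (if (∀ g : G, twist (pResidual p G) g (θ : pResidual p G → ℂ) = θ) ∧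
          ¬ p ∣ charDegree (θ : pResidual p G → ℂ) then
        (charDegree (θ : pResidual p G → ℂ) : ℤ) ^ 2 else 0)) [ZMOD p] := by
    rw [Int.modEq_iff_dvd, ← Finset.sum_sub_distrib]
    apply Finset.dvd_sum
    intro θ _
    by_cases h1 : ∀ g : G, twist (pResidual p G) g (θ : pResidual p G → ℂ) = θ
    · by_cases h2 : p ∣ charDegree (θ : pResidual p G → ℂ)
      · rw [if_neg (fun h => h.2 h2), if_pos h1, zero_sub]
        apply Dvd.dvd.neg_right
        apply Dvd.dvd.pow _ two_ne_zero
        exact_mod_cast h2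
      · rw [if_pos ⟨h1, h2⟩, if_pos h1, sub_self]
        exact dvd_zero _
    · rw [if_neg (fun h => h1 h.1), if_neg h1, sub_self]
      exact dvd_zero _
  refine key2.trans ?_
  rw [← Finset.sum_filter, finsum_mem_eq_finite_toFinset_sum _ (Set.toFinite _)]
  apply Int.ModEq.symm
  unfold Int.ModEq
  congr 1
  have hcopθ : ∀ θ : IrrCharacter (pResidual p G), ¬ p ∣ charDegree (θ : pResidual p G → ℂ) →
      Nat.Coprime (pResidual p G).index
        (detOrder (θ : pResidual p G → ℂ) * charDegree (θ : pResidual p G → ℂ)) := by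
    intro θ hd
    rw [hidx]
    apply Nat.Coprime.pow_left
    exact Nat.Coprime.mul_right (detOrder_coprime_pResidual hp θ.2).symm
      ((Nat.Prime.coprime_iff_not_dvd hp).mpr hd)
  have hext : ∀ θ : IrrCharacter (pResidual p G),
      (∀ g : G, twist (pResidual p G) g (θ : pResidual p G → ℂ) = θ) →
      ¬ p ∣ charDegree (θ : pResidual p G → ℂ) →
      ∃ χ : G → ℂ, (IsIrrCharacter G χ ∧ (∀ n : pResidual p G, χ n = (θ : pResidual p G → ℂ) n) ∧
        detOrder χ = detOrder (θ : pResidual p G → ℂ)) ∧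
        ∀ χ' : G → ℂ, IsIrrCharacter G χ' →
          (∀ n : pResidual p G, χ' n = (θ : pResidual p G → ℂ) n) →
          Nat.Coprime (pResidual p G).index (detOrder χ') → χ' = χ := by
    intro θ hinv hd
    exact Cfsg.Agent.S0867.result (pResidual p G) (θ : pResidual p G → ℂ) θ.2
      (fun g n => congrFun (hinv g) n) (charDegree (θ : pResidual p G → ℂ))
      (isIrrCharacter_one_eq_charDegree θ.2) (hcopθ θ hd)
  have hdegres : ∀ χ : G → ℂ, charDegree (fun n : pResidual p G => χ n) = charDegree χ := by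
    intro χ; rfl
  have hcopχ : ∀ χ : G → ℂ, ¬ p ∣ detOrder χ → Nat.Coprime (pResidual p G).index (detOrder χ) := by
    intro χ h
    rw [hidx]
    exact Nat.Coprime.pow_left _ ((Nat.Prime.coprime_iff_not_dvd hp).mpr h)
  refine Finset.sum_bij
    (fun χ hχ => (⟨fun n : pResidual p G => (χ : G → ℂ) n,
      isIrrCharacter_res_of_index_pow (pResidual p G) hp hidx χ.2
        ((Set.Finite.mem_toFinset _).mp hχ).1⟩ : IrrCharacter (pResidual p G))) ?_ ?_ ?_ ?_
  · intro χ hχ
    rw [Finset.mem_filter]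
    refine ⟨Finset.mem_univ _, ?_, ?_⟩
    · intro g
      funext n
      exact isClassFunction_irr χ (n : G) g
    · exact ((Set.Finite.mem_toFinset _).mp hχ).1
  · intro χ₁ h₁ χ₂ h₂ heq
    have h₁' := (Set.Finite.mem_toFinset _).mp h₁
    have h₂' := (Set.Finite.mem_toFinset _).mp h₂
    have hθirr := isIrrCharacter_res_of_index_pow (pResidual p G) hp hidx χ₁.2 h₁'.1
    obtain ⟨χ₀, -, huniq⟩ := hext ⟨_, hθirr⟩
      (fun g => funext fun n => isClassFunction_irr χ₁ (n : G) g) h₁'.1
    have e1 := huniq χ₁ χ₁.2 (fun n => rfl) (hcopχ _ h₁'.2)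
    have e2 := huniq χ₂ χ₂.2 (fun n => (congrFun (congrArg Subtype.val heq) n).symm)
      (hcopχ _ h₂'.2)
    exact Subtype.ext (e1.trans e2.symm)
  · intro θ hθ
    obtain ⟨-, hinv, hd⟩ := Finset.mem_filter.mp hθ
    obtain ⟨χ₀, ⟨hirr, hres, hdet⟩, -⟩ := hext θ hinv hd
    have hdeg0 : charDegree χ₀ = charDegree (θ : pResidual p G → ℂ) := by
      rw [← hdegres χ₀]
      congr 1
      exact funext hres
    refine ⟨⟨χ₀, hirr⟩, ?_, ?_⟩
    · rw [Set.Finite.mem_toFinset]
      refine ⟨by rw [hdeg0]; exact hd, ?_⟩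
      show ¬ p ∣ detOrder χ₀
      rw [hdet]
      intro h
      have := detOrder_coprime_pResidual hp θ.2
      exact hp.one_lt.ne' (Nat.eq_one_of_dvd_coprimes this.symm (dvd_refl p) h) |> fun x => x
    · exact Subtype.ext (funext hres)
  · intro χ hχ
    rfl

end Cfsg.Agent.S4455
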