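import Cfsg.Statements.S4456
import Cfsg.Agent.S4455
import Cfsg.Agent.Lib.Lead.CharOp
import Cfsg.Agent.Lib.Lead.CharMGroup
import Cfsg.Agent.Lib.Lead.CharCodeg

set_option autoImplicit false
set_option maxHeartbeats 800000

namespace Cfsg.Agent.S4456

open Cfsg Cfsg.Agent.Lib.Lead Cfsg.Agent.Lib.Helper2 Module
open scoped ComplexConjugate

theorem detOrder_hom_aux {G : Type*} [Group G] [Finite G] (l : G →* ℂˣ) :
    detOrder (fun g => (l g : ℂ)) = orderOf l := by
  unfold detOrder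
  rw [detChar_eq_self_of_linear (isIrrCharacter_of_hom l) (by simp)]
  exact orderOf_injective (unitsCoeHom G) unitsCoeHom_injective l

theorem result {G : Type*} [Group G] [Finite G] (p : ℕ) (hp : p.Prime) (hdeg : ∀ χ : Cfsg.IrrCharacter G, Cfsg.charDegree (χ : G → ℂ) ≠ 1 → p ∣ Cfsg.charDegree (χ : G → ℂ)) : ∃ N : Subgroup G, N.Normal ∧ (Nat.card N).Coprime p ∧ ∃ k : ℕ, N.index = p ^ k := by
  classical
  letI := Fintype.ofFinite G
  haveI : Fact p.Prime := ⟨hp⟩
  haveI hNn : (pResidual p G).Normal := pResidual_normal p G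
  haveI : Finite (IrrCharacter G) := irr_finite
  letI : Fintype (IrrCharacter G) := Fintype.ofFinite _
  obtain ⟨k, hk⟩ := IsPGroup.iff_card.mp (isPGroup_quotient_pResidual p G)
  have hidx : (pResidual p G).index = p ^ k := by
    rw [Subgroup.index_eq_card]; exact hk
  refine ⟨pResidual p G, hNn, ?_, k, hidx⟩
  have key := Cfsg.Agent.S4455.result (G := G) p hp
  -- the group of linear characters
  haveI : Finite (G →* ℂˣ) :=
    Finite.of_injective (fun l : G →* ℂˣ => (⟨fun g => (l g : ℂ), isIrrCharacter_of_hom l⟩ :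
      IrrCharacter G)) (by
        intro a b h
        ext g
        exact congrFun (congrArg Subtype.val h) g)
  let T : Subgroup (G →* ℂˣ) :=
    { carrier := {l | ¬ p ∣ orderOf l}
      mul_mem' := by
        intro a b ha hb h
        have h1 := (Commute.all a b).orderOf_mul_dvd_lcm
        have h2 := dvd_trans h h1
        have h3 : p ∣ orderOf a * orderOf b := dvd_trans h2 (Nat.lcm_dvd_mul _ _)
        rcases hp.dvd_mul.mp h3 with h4 | h4
        · exact ha h4
        · exact hb h4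
      one_mem' := by
        show ¬ p ∣ orderOf (1 : G →* ℂˣ)
        rw [orderOf_one]
        exact hp.one_lt.ne' ∘ Nat.dvd_one.mp
      inv_mem' := by
        intro a ha
        show ¬ p ∣ orderOf a⁻¹
        convert ha using 2
        exact orderOf_inv a }
  have hT : ¬ p ∣ Nat.card T := by
    intro h
    obtain ⟨t, ht⟩ := exists_prime_orderOf_dvd_card' (G := T) p h
    have h1 : orderOf (t : G →* ℂˣ) = p := by rw [Subgroup.orderOf_coe]; exact ht
    exact t.2 (by rw [h1])
  -- the sum is the number of elements of T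
  have hS : (∑ᶠ χ ∈ {χ : Cfsg.IrrCharacter G | ¬ p ∣ Cfsg.charDegree (χ : G → ℂ) ∧
      ¬ p ∣ Cfsg.detOrder (χ : G → ℂ)}, (Cfsg.charDegree (χ : G → ℂ) : ℤ) ^ 2) =
      (Nat.card T : ℤ) := by
    rw [finsum_mem_eq_finite_toFinset_sum _ (Set.toFinite _)]
    have h1 : ∀ χ ∈ (Set.toFinite {χ : Cfsg.IrrCharacter G | ¬ p ∣ Cfsg.charDegree (χ : G → ℂ) ∧
        ¬ p ∣ Cfsg.detOrder (χ : G → ℂ)}).toFinset,
        (Cfsg.charDegree (χ : G → ℂ) : ℤ) ^ 2 = 1 := by
      intro χ hχ
      have h2 := ((Set.Finite.mem_toFinset _).mp hχ).1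
      have h3 : charDegree (χ : G → ℂ) = 1 := by
        by_contra h4; exact h2 (hdeg χ h4)
      rw [h3]; simp
    rw [Finset.sum_congr rfl h1, Finset.sum_const, nsmul_eq_mul, mul_one,
      ← Set.ncard_eq_toFinset_card, ← Nat.card_coe_set_eq]
    congr 1
    apply Nat.card_congr
    symm
    refine Equiv.ofBijective (fun t : T => (⟨⟨fun g => ((t : G →* ℂˣ) g : ℂ),
      isIrrCharacter_of_hom (t : G →* ℂˣ)⟩, ?_⟩ :
        {χ : Cfsg.IrrCharacter G | ¬ p ∣ Cfsg.charDegree (χ : G → ℂ) ∧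
          ¬ p ∣ Cfsg.detOrder (χ : G → ℂ)})) ⟨?_, ?_⟩
    · show ¬ p ∣ charDegree (fun g => ((t : G →* ℂˣ) g : ℂ)) ∧
        ¬ p ∣ detOrder (fun g => ((t : G →* ℂˣ) g : ℂ))
      have h1 : charDegree (fun g => ((t : G →* ℂˣ) g : ℂ)) = 1 :=
        charDegree_of_one_eq (by simp)
      rw [h1, detOrder_hom_aux]
      exact ⟨hp.one_lt.ne' ∘ Nat.dvd_one.mp, t.2⟩
    · intro a b h
      apply Subtype.ext
      ext g
      have := congrArg (fun z : {χ : Cfsg.IrrCharacter G | ¬ p ∣ Cfsg.charDegree (χ : G → ℂ) ∧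
          ¬ p ∣ Cfsg.detOrder (χ : G → ℂ)} => ((z : IrrCharacter G) : G → ℂ) g) h
      exact this
    · rintro ⟨χ, hχ1, hχ2⟩
      have h3 : charDegree (χ : G → ℂ) = 1 := by
        by_contra h4; exact hχ1 (hdeg χ h4)
      obtain ⟨l, hl⟩ := exists_hom_of_linear χ.2
        (by rw [isIrrCharacter_one_eq_charDegree χ.2, h3]; simp)
      have hχl : (χ : G → ℂ) = fun g => (l g : ℂ) := funext hl
      have hlT : l ∈ T := by
        show ¬ p ∣ orderOf l
        rw [← detOrder_hom_aux, ← hχl]; exact hχ2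
      refine ⟨⟨l, hlT⟩, ?_⟩
      apply Subtype.ext
      apply Subtype.ext
      exact hχl.symm
  rw [hS] at key
  rw [Nat.coprime_comm, Nat.Prime.coprime_iff_not_dvd hp]
  intro hdiv
  apply hT
  have h1 : ((Nat.card (pResidual p G) : ℤ)) % p = 0 :=
    Int.emod_eq_zero_of_dvd (by exact_mod_cast hdiv)
  have h2 : ((Nat.card T : ℤ)) % p = 0 := by rw [← key, h1]
  have h3 := Int.dvd_of_emod_eq_zero h2
  exact_mod_cast h3

end Cfsg.Agent.S4456
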