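import Cfsg.Statements.S0855
import Cfsg.Agent.S0169
import Cfsg.Agent.S4456
import Cfsg.Agent.Lib.Lead.CharIto

set_option autoImplicit false
set_option maxHeartbeats 800000

namespace Cfsg.Agent.S0855

open Cfsg Cfsg.Agent.Lib.Lead Cfsg.Agent.Lib.Helper2 Module
open scoped ComplexConjugate

theorem result {G : Type*} [Group G] [Finite G] (p : ℕ) (hp : p.Prime) : (∀ χ : Cfsg.IrrCharacter G, ∃ k : ℕ, (χ : G → ℂ) 1 = (p : ℂ) ^ k) ↔ ∃ A : Subgroup G, A.Normal ∧ (∀ a ∈ A, ∀ b ∈ A, a * b = b * a) ∧ Nat.Coprime (Nat.card A) p ∧ ∃ k : ℕ, A.index = p ^ k := by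
  classical
  letI := Fintype.ofFinite G
  constructor
  · intro hall
    have hdegpow : ∀ χ : IrrCharacter G, ∃ k : ℕ, charDegree (χ : G → ℂ) = p ^ k := by
      intro χ
      obtain ⟨k, hk⟩ := hall χ
      exact ⟨k, charDegree_of_one_eq (by rw [hk]; push_cast; rfl)⟩
    have hdeg : ∀ χ : IrrCharacter G, charDegree (χ : G → ℂ) ≠ 1 →
        p ∣ charDegree (χ : G → ℂ) := by
      intro χ hne
      obtain ⟨k, hk⟩ := hdegpow χ
      rw [hk]
      apply dvd_pow_self
      rintro rfl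
      exact hne (by rw [hk, pow_zero])
    obtain ⟨N, hNn, hNcop, k, hk⟩ := Cfsg.Agent.S4456.result p hp hdeg
    haveI := hNn
    letI : Fintype N := Fintype.ofFinite N
    refine ⟨N, hNn, ?_, hNcop, k, hk⟩
    have hlin : ∀ θ : IrrCharacter N, (θ : N → ℂ) 1 = 1 := by
      intro θ
      obtain ⟨χ, -, hd, -⟩ := exists_irr_over N θ
      obtain ⟨a, ha⟩ := hdegpow χ
      rw [ha] at hd
      have h2 := irr_degree_dvd_card θ (charDegree (θ : N → ℂ))
        (isIrrCharacter_one_eq_charDegree θ.2)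
      have h3 : charDegree (θ : N → ℂ) = 1 :=
        Nat.eq_one_of_dvd_coprimes (Nat.Coprime.pow_right a hNcop) h2 hd
      rw [isIrrCharacter_one_eq_charDegree θ.2, h3]; simp
    have hab := comm_iff_all_degree_one.mpr hlin
    intro x hx y hy
    exact congrArg Subtype.val (hab ⟨x, hx⟩ ⟨y, hy⟩)
  · rintro ⟨A, hAn, hAab, -, k, hk⟩ χ
    obtain ⟨n, ρ, hirr, hρ⟩ := χ.2
    haveI := hirr
    haveI := hAn
    have h1 := Cfsg.Agent.S0169.result ρ A hAab
    rw [hk] at h1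
    obtain ⟨j, -, hj⟩ := (Nat.dvd_prime_pow hp).mp h1
    refine ⟨j, ?_⟩
    rw [← hρ, Representation.char_one, hj]
    push_cast
    rfl

end Cfsg.Agent.S0855
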