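import Cfsg.Statements.S0856
import Cfsg.Agent.Lib.Lead.CharGallagher

set_option autoImplicit false
open Cfsg

namespace Cfsg.Agent.S0856

/-- Let N be a normal subgroup of the finite group G and φ, ϑ irreducible characters of N that are invariant under conjugation by G, such that the pointwise product φ * ϑ is irreducible and ϑ is the restriction of an irreducible character χ of G. Then multiplication by χ is a bijection from the set of irreducible characters of G having nonzero inner product with the function induced from φ onto the set of those having nonzero inner product with the function induced from φ * ϑ. -/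
theorem result {G : Type*} [Group G] [Fintype G] (N : Subgroup G) [hN : N.Normal] (φ ϑ : N → ℂ) (hφ : Cfsg.IsIrrCharacter N φ) (hϑ : Cfsg.IsIrrCharacter N ϑ) (hφinv : ∀ (g : G) (n : N), φ ⟨g * n * g⁻¹, hN.conj_mem (n : G) n.2 g⟩ = φ n) (hϑinv : ∀ (g : G) (n : N), ϑ ⟨g * n * g⁻¹, hN.conj_mem (n : G) n.2 g⟩ = ϑ n) (hprod : Cfsg.IsIrrCharacter N (φ * ϑ)) (χ : G → ℂ) (hχ : Cfsg.IsIrrCharacter G χ) (hext : ∀ n : N, χ n = ϑ n) : Set.BijOn (fun β : G → ℂ => β * χ) {β : G → ℂ | Cfsg.IsIrrCharacter G β ∧ Cfsg.classInner (Cfsg.indFun N φ) β ≠ 0} {ψ : G → ℂ | Cfsg.IsIrrCharacter G ψ ∧ Cfsg.classInner (Cfsg.indFun N (φ * ϑ)) ψ ≠ 0} := by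
  obtain ⟨h1, h2, h3⟩ := Cfsg.Agent.Lib.Lead.gallagher_aux N hφ hφinv hprod
    (fun g n => by simp only [Pi.mul_apply, hφinv g n, hϑinv g n])
    (Cfsg.Agent.Lib.Lead.isCharacter_of_isIrrCharacter hχ) hext
  refine ⟨?_, ?_, ?_⟩
  · rintro β ⟨hβ, hβ2⟩
    obtain ⟨hi, he⟩ := h1 ⟨β, hβ⟩ hβ2
    exact ⟨hi, by rw [he]; exact hβ2⟩
  · rintro β ⟨hβ, hβ2⟩ β2 ⟨hβ3, hβ4⟩ hEq
    have := h2 ⟨β, hβ⟩ ⟨β2, hβ3⟩ hβ2 hβ4 hEq
    exact congrArg Subtype.val this
  · rintro ψ ⟨hψ, hψ2⟩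
    obtain ⟨β, hβ, he⟩ := h3 ⟨ψ, hψ⟩ hψ2
    exact ⟨β, ⟨β.2, hβ⟩, he.symm⟩

end Cfsg.Agent.S0856
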