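import Cfsg.Statements.S0860
import Cfsg.Agent.Lib.Lead.CharApps

set_option autoImplicit false
open Cfsg

namespace Cfsg.Agent.S0860

/-- Let a group A act on the set of irreducible characters and on the set of conjugacy classes of a finite group G in such a way that (a • χ) evaluated on the class a • C equals χ evaluated on C, for all a, χ and C. Then every element of A fixes exactly as many irreducible characters as it fixes conjugacy classes. -/
theorem result {G : Type*} [Group G] [Finite G] {A : Type*} [Group A] [MulAction A (Cfsg.IrrCharacter G)] [MulAction A (ConjClasses G)] (hcompat : ∀ (a : A) (χ : Cfsg.IrrCharacter G) (g g' : G), ConjClasses.mk g' = a • ConjClasses.mk g → ((a • χ : Cfsg.IrrCharacter G) : G → ℂ) g' = (χ : G → ℂ) g) (a : A) : Nat.card {χ : Cfsg.IrrCharacter G // a • χ = χ} = Nat.card {C : ConjClasses G // a • C = C} := by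
  classical
  letI := Fintype.ofFinite G
  let b : G → G := fun g2 => Quotient.out (a⁻¹ • ConjClasses.mk g2)
  have hb : ∀ g2, ConjClasses.mk (b g2) = a⁻¹ • ConjClasses.mk g2 := fun g2 => Quotient.out_eq _
  have hχb : ∀ χ : Cfsg.IrrCharacter G, ((a • χ : Cfsg.IrrCharacter G) : G → ℂ) = (χ : G → ℂ) ∘ b := by
    intro χ
    funext g2
    exact hcompat a χ (b g2) g2 (by rw [hb, smul_inv_smul])
  have key := Cfsg.Agent.Lib.Lead.brauer_perm_count b
    (fun χ hχ => by
      have h1 := hχb ⟨χ, hχ⟩
      rw [← h1]
      exact (a • (⟨χ, hχ⟩ : Cfsg.IrrCharacter G)).2)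
    (fun g h hc => by
      have h2 : b g = b h := by
        simp only [b]
        rw [ConjClasses.mk_eq_mk_iff_isConj.mpr hc]
      rw [h2])
  have e1 : Nat.card {χ : Cfsg.IrrCharacter G // a • χ = χ} =
      Nat.card {χ : Cfsg.IrrCharacter G // (χ : G → ℂ) ∘ b = (χ : G → ℂ)} := by
    apply Nat.card_congr
    apply Equiv.subtypeEquivRight
    intro χ
    constructor
    · intro h
      rw [← hχb χ, h]
    · intro h
      apply Subtype.ext
      rw [hχb χ, h]
  rw [e1, key]
  apply Nat.card_congr
  apply Equiv.subtypeEquivRight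
  intro C
  constructor
  · intro h
    obtain ⟨g, rfl⟩ := ConjClasses.mk_surjective C
    have h3 := ConjClasses.mk_eq_mk_iff_isConj.mpr (h g rfl)
    rw [hb] at h3
    calc a • ConjClasses.mk g = a • (a⁻¹ • ConjClasses.mk g) := by rw [h3]
      _ = ConjClasses.mk g := smul_inv_smul a _
  · intro h g hg
    subst hg
    apply ConjClasses.mk_eq_mk_iff_isConj.mp
    rw [hb, inv_smul_eq_iff]
    exact h.symm

end Cfsg.Agent.S0860
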