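import Cfsg.Statements.S0861
import Cfsg.Agent.S0169
import Cfsg.Agent.Lib.Lead.CharPElem
import Cfsg.Agent.Lib.Lead.CharComplete
import Cfsg.Agent.Lib.Lead.CharMore
import Cfsg.Agent.Lib.Lead.CharApps

set_option autoImplicit false
open Cfsg

namespace Cfsg.Agent.S0861

open Cfsg.Agent.Lib.Lead
open scoped ComplexConjugate

/-- Let P be a normal abelian Sylow p-subgroup of the finite group G and suppose some element g of P has centralizer exactly P. Then the number of irreducible characters of G is at most the order of P, and if equality holds then G / P is abelian (the commutator subgroup lies in P). -/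
theorem result {G : Type*} [Group G] [Finite G] (p : ℕ) [Fact p.Prime] (P : Sylow p G) [(P : Subgroup G).Normal] (hab : ∀ a ∈ P, ∀ b ∈ P, a * b = b * a) (g : G) (hg : g ∈ P) (hC : Subgroup.centralizer ({g} : Set G) = P) : Nat.card (Cfsg.IrrCharacter G) ≤ Nat.card P ∧ (Nat.card (Cfsg.IrrCharacter G) = Nat.card P → commutator G ≤ P) := by
  classical
  letI := Fintype.ofFinite G
  haveI : Finite (Cfsg.IrrCharacter G) := irr_finite
  letI : Fintype (Cfsg.IrrCharacter G) := Fintype.ofFinite _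
  have hp := (Fact.out : p.Prime)
  have hnv : ∀ χ : Cfsg.IrrCharacter G, ∀ x ∈ (P : Subgroup G), (χ : G → ℂ) x ≠ 0 := by
    intro χ x hx
    obtain ⟨n, ρ, hirr, hχ⟩ := χ.2
    rw [← hχ]
    obtain ⟨a, ha⟩ := (P.2 ⟨x, hx⟩)
    have hx' : x ^ (p ^ a) = 1 := by simpa using congrArg Subtype.val ha
    apply char_ne_zero_of_pow_prime_pow_eq_one ρ hp x hx'
    intro hdvd
    have h1 := Cfsg.Agent.S0169.result ρ (P : Subgroup G) hab
    exact P.not_dvd_index (dvd_trans hdvd h1)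
  set S : Finset G := Finset.univ.filter (fun x => ∃ k : ℕ, k.Coprime (Nat.card G) ∧ x = g ^ k)
    with hS
  have hmem : ∀ x, x ∈ S ↔ ∃ k : ℕ, k.Coprime (Nat.card G) ∧ x = g ^ k := by
    intro x; rw [hS, Finset.mem_filter]; simp
  have hSP : ∀ x ∈ S, x ∈ (P : Subgroup G) := by
    intro x hx
    obtain ⟨k, -, rfl⟩ := (hmem x).mp hx
    exact Subgroup.pow_mem _ hg k
  have hScl : ∀ x ∈ S, ∀ k : ℕ, k.Coprime (Nat.card G) → x ^ k ∈ S := by
    intro x hx j hj
    obtain ⟨k, hk, rfl⟩ := (hmem x).mp hx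
    exact (hmem _).mpr ⟨k * j, Nat.Coprime.mul_left hk hj, (pow_mul g k j).symm⟩
  have hScent : ∀ x ∈ S, Subgroup.centralizer ({x} : Set G) = P := by
    intro x hx
    obtain ⟨k, hk, rfl⟩ := (hmem x).mp hx
    rw [← hC]
    ext y
    simp only [Subgroup.mem_centralizer_iff, Set.mem_singleton_iff, forall_eq]
    constructor
    · intro h
      obtain ⟨l, hl⟩ := exists_pow_pow_eq g hk
      have : Commute (g ^ k) y := h
      have h2 := this.pow_left l
      rw [hl] at h2
      exact h2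
    · intro h
      have : Commute g y := h
      exact this.pow_left k
  have hgS : g ∈ S := (hmem g).mpr ⟨1, Nat.coprime_one_left _, (pow_one g).symm⟩
  have hrow : ∀ χ : Cfsg.IrrCharacter G, (S.card : ℝ) ≤ ∑ x ∈ S, ‖(χ : G → ℂ) x‖ ^ 2 := by
    intro χ
    have := isCharacter_card_nonvanishing_le_sum_norm_sq (isCharacter_of_isIrrCharacter χ.2) S hScl
    rwa [Finset.filter_true_of_mem (fun x hx => hnv χ x (hSP x hx))] at this
  have hcol : ∀ x ∈ S, ∑ χ : Cfsg.IrrCharacter G, ‖(χ : G → ℂ) x‖ ^ 2 = (Nat.card P : ℝ) := by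
    intro x hx
    have h1 := second_orthogonality x x
    rw [if_pos (IsConj.refl x), hScent x hx] at h1
    have h2 : ∀ χ : IrrCharacter G, (χ : G → ℂ) x * conj ((χ : G → ℂ) x) =
        ((‖(χ : G → ℂ) x‖ ^ 2 : ℝ) : ℂ) := by
      intro χ; rw [Complex.mul_conj, Complex.normSq_eq_norm_sq]
    rw [Finset.sum_congr rfl (fun χ _ => h2 χ), ← Complex.ofReal_sum] at h1
    exact_mod_cast h1
  have htot : ∑ χ : Cfsg.IrrCharacter G, ∑ x ∈ S, ‖(χ : G → ℂ) x‖ ^ 2 =
      (S.card : ℝ) * (Nat.card P : ℝ) := by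
    rw [Finset.sum_comm, Finset.sum_congr rfl hcol]; simp
  have hSpos : (0 : ℝ) < S.card := by exact_mod_cast Finset.card_pos.mpr ⟨g, hgS⟩
  have hle : (Nat.card (IrrCharacter G) : ℝ) * S.card ≤ S.card * Nat.card P := by
    rw [← htot, Nat.card_eq_fintype_card, ← nsmul_eq_mul, ← Finset.card_univ, ← Finset.sum_const]
    exact Finset.sum_le_sum (fun χ _ => hrow χ)
  have hle' : Nat.card (IrrCharacter G) ≤ Nat.card P := by
    have : (Nat.card (IrrCharacter G) : ℝ) ≤ Nat.card P := by nlinarith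
    exact_mod_cast this
  refine ⟨hle', ?_⟩
  intro heq
  have hrow_eq : ∀ χ : IrrCharacter G, ∑ x ∈ S, ‖(χ : G → ℂ) x‖ ^ 2 = (S.card : ℝ) := by
    by_contra hne
    push Not at hne
    obtain ⟨χ₀, hχ₀⟩ := hne
    have hlt : (S.card : ℝ) < ∑ x ∈ S, ‖(χ₀ : G → ℂ) x‖ ^ 2 :=
      lt_of_le_of_ne (hrow χ₀) (Ne.symm hχ₀)
    have : ∑ χ : IrrCharacter G, (S.card : ℝ) <
        ∑ χ : IrrCharacter G, ∑ x ∈ S, ‖(χ : G → ℂ) x‖ ^ 2 :=
      Finset.sum_lt_sum (fun χ _ => hrow χ) ⟨χ₀, Finset.mem_univ _, hlt⟩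
    rw [htot, Finset.sum_const, Finset.card_univ, nsmul_eq_mul, ← Nat.card_eq_fintype_card, heq]
      at this
    linarith [mul_comm (Nat.card P : ℝ) (S.card : ℝ)]
  have hcomm : ∀ a b : G ⧸ (P : Subgroup G), a * b = b * a := by
    letI : Fintype (G ⧸ (P : Subgroup G)) := Fintype.ofFinite _
    rw [comm_iff_all_degree_one]
    intro ψ
    have hirr : IsIrrCharacter G
        ((ψ : G ⧸ (P : Subgroup G) → ℂ) ∘ (QuotientGroup.mk' (P : Subgroup G))) :=
      isIrrCharacter_comp_of_surjective ψ.2 _ (QuotientGroup.mk'_surjective _)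
    have h1 := hrow_eq ⟨_, hirr⟩
    have h2 : ∀ x ∈ S, ‖((ψ : G ⧸ (P : Subgroup G) → ℂ) ∘
        (QuotientGroup.mk' (P : Subgroup G))) x‖ ^ 2 =
        ‖(ψ : G ⧸ (P : Subgroup G) → ℂ) 1‖ ^ 2 := by
      intro x hx
      have : (QuotientGroup.mk' (P : Subgroup G)) x = 1 :=
        (QuotientGroup.eq_one_iff x).mpr (hSP x hx)
      simp only [Function.comp_apply, this]
    rw [Finset.sum_congr rfl h2, Finset.sum_const, nsmul_eq_mul] at h1
    obtain ⟨n, hn⟩ := irr_one_eq_natCast ψ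
    rw [hn] at h1 ⊢
    rw [Complex.norm_natCast] at h1
    have h3 : ((n : ℝ)) ^ 2 = 1 := by
      have := mul_left_cancel₀ hSpos.ne' (h1.trans (mul_one _).symm)
      exact this
    have h4 : (n : ℝ) = 1 := (pow_eq_one_iff_of_nonneg (Nat.cast_nonneg n) (by norm_num)).mp h3
    have h5 : n = 1 := by exact_mod_cast h4
    rw [h5]; simp
  rw [commutator_def, Subgroup.commutator_le]
  intro a _ b _
  rw [← QuotientGroup.eq_one_iff, commutatorElement_def]
  simp only [QuotientGroup.mk_mul, QuotientGroup.mk_inv]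
  rw [hcomm (a : G ⧸ (P : Subgroup G)) b]; group

end Cfsg.Agent.S0861
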