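import Cfsg.Statements.S0869
import Mathlib

set_option autoImplicit false
open Cfsg

namespace Cfsg.Agent.S0869

/-- Let S be a nonempty finite type and R an additive subgroup of the integer-valued functions on S that is closed under pointwise multiplication. If the constant function 1 is not in R, then there exist a point x of S and a prime p such that p divides f x for every f in R. -/
theorem result {S : Type*} [Finite S] [Nonempty S] (R : AddSubgroup (S → ℤ)) (hmul : ∀ f ∈ R, ∀ g ∈ R, f * g ∈ R) (h1 : (1 : S → ℤ) ∉ R) : ∃ (x : S) (p : ℕ), p.Prime ∧ ∀ f ∈ R, (p : ℤ) ∣ f x := by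
  classical
  letI := Fintype.ofFinite S
  by_contra hcon
  push_neg at hcon
  have key : ∀ x : S, ∃ f ∈ R, f x = 1 := by
    intro x
    obtain ⟨a, ha⟩ := Int.subgroup_cyclic (R.map (Pi.evalAddMonoidHom (fun _ : S => ℤ) x))
    have hmem : ∀ f ∈ R, a ∣ f x := by
      intro f hf
      have h1 : f x ∈ R.map (Pi.evalAddMonoidHom (fun _ : S => ℤ) x) :=
        AddSubgroup.mem_map.mpr ⟨f, hf, rfl⟩
      rw [ha, ← AddSubgroup.zmultiples_eq_closure, AddSubgroup.mem_zmultiples_iff] at h1
      obtain ⟨k, hk⟩ := h1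
      exact ⟨k, by rw [← hk]; simp [mul_comm]⟩
    have ha1 : a.natAbs = 1 := by
      by_contra hne
      obtain ⟨p, hp, hpa⟩ := Nat.exists_prime_and_dvd hne
      obtain ⟨f, hf, hpf⟩ := hcon x p hp
      exact hpf ((Int.natCast_dvd.mpr hpa).trans (hmem f hf))
    have hamem : a ∈ R.map (Pi.evalAddMonoidHom (fun _ : S => ℤ) x) := by
      rw [ha]; exact AddSubgroup.subset_closure (Set.mem_singleton a)
    obtain ⟨f, hf, hfa⟩ := AddSubgroup.mem_map.mp hamem
    have hfa2 : f x = a := hfa
    rcases Int.natAbs_eq_iff.mp ha1 with h | h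
    · exact ⟨f, hf, by rw [hfa2, h]; rfl⟩
    · exact ⟨-f, R.neg_mem hf, by rw [Pi.neg_apply, hfa2, h]; simp⟩
  choose F hFR hF using key
  have hprod : ∀ T : Finset S, ∃ r ∈ R, ∏ x ∈ T, (1 - F x) = 1 - r := by
    intro T
    induction T using Finset.induction_on with
    | empty => exact ⟨0, R.zero_mem, by simp⟩
    | insert a T ha ih =>
      obtain ⟨r, hr, hrr⟩ := ih
      refine ⟨F a + r - F a * r, R.sub_mem (R.add_mem (hFR a) hr) (hmul _ (hFR a) _ hr), ?_⟩
      rw [Finset.prod_insert ha, hrr]; ring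
  obtain ⟨r, hr, hrr⟩ := hprod Finset.univ
  have h0 : ∏ x : S, (1 - F x) = 0 := by
    funext y
    rw [Finset.prod_apply]
    exact Finset.prod_eq_zero (Finset.mem_univ y) (by simp [hF])
  rw [h0] at hrr
  have : r = 1 := by
    have := sub_eq_zero.mp hrr.symm
    exact this.symm
  exact h1 (by rw [← this]; exact hr)

end Cfsg.Agent.S0869
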