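import Cfsg.Statements.S0875
import Cfsg.Agent.Lib.Lead.CharHallProj

set_option maxHeartbeats 1600000

namespace Cfsg.Agent.S0875

open Cfsg Cfsg.Agent.Lib.Lead Cfsg.Agent.Lib.Helper2

theorem result {G : Type*} [Group G] [Fintype G] (m n : ℕ) (hmn : Nat.card G = m * n) (hcop : Nat.Coprime m n) (g : G) (hg : Nat.Coprime (orderOf g) m) (ϑ : G → ℂ) (hϑ1 : ∀ x : G, (∃ v : G, IsConj v g ∧ (∃ u : G, x = u * v ∧ Commute u v ∧ Nat.Coprime (orderOf u) n ∧ Nat.Coprime (orderOf v) m)) → ϑ x = n) (hϑ0 : ∀ x : G, (¬ ∃ v : G, IsConj v g ∧ (∃ u : G, x = u * v ∧ Commute u v ∧ Nat.Coprime (orderOf u) n ∧ Nat.Coprime (orderOf v) m)) → ϑ x = 0) : ∃ c : Cfsg.IrrCharacter G → ℂ, (∀ χ, c χ ∈ Cfsg.AlgInt) ∧ ϑ = ∑ᶠ χ : Cfsg.IrrCharacter G, c χ • (χ : G → ℂ) := by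
  classical
  have hmn0 : m * n ≠ 0 := by rw [← hmn]; exact Nat.card_pos.ne'
  obtain ⟨e, hem, hen⟩ := Nat.chineseRemainder hcop 0 1
  obtain ⟨e', he'm, he'n⟩ := Nat.chineseRemainder hcop 1 0
  have hme : m ∣ e := (Nat.modEq_zero_iff_dvd).mp hem
  have hne' : n ∣ e' := (Nat.modEq_zero_iff_dvd).mp he'n
  have f1 : ∀ y : G, orderOf y ∣ m * n := fun y => hmn ▸ orderOf_dvd_natCard y
  have hiff : ∀ x : G, (∃ v : G, IsConj v g ∧ (∃ u : G, x = u * v ∧ Commute u v ∧
      Nat.Coprime (orderOf u) n ∧ Nat.Coprime (orderOf v) m)) ↔ IsConj (x ^ e) g := by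
    intro x
    constructor
    · rintro ⟨v, hv, u, rfl, huv, hu, hv'⟩
      have h1 : orderOf u ∣ m := hu.dvd_of_dvd_mul_right (f1 u)
      have h2 : orderOf v ∣ n := hv'.dvd_of_dvd_mul_left (f1 v)
      have h3 : u ^ e = 1 := orderOf_dvd_iff_pow_eq_one.mp (dvd_trans h1 hme)
      have h4 : v ^ e = v := by
        have : v ^ e = v ^ 1 := by rw [pow_eq_pow_iff_modEq]; exact hen.of_dvd h2
        rw [this, pow_one]
      rw [huv.mul_pow, h3, h4, one_mul]; exact hv
    · intro h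
      refine ⟨x ^ e, h, x ^ e', ?_, ?_, ?_, ?_⟩
      · rw [← pow_add]
        have h1 : e' + e ≡ 1 [MOD m * n] := by
          rw [← Nat.modEq_and_modEq_iff_modEq_mul hcop]
          exact ⟨by simpa using he'm.add hem, by simpa using he'n.add hen⟩
        have : x ^ (e' + e) = x ^ 1 := by rw [pow_eq_pow_iff_modEq]; exact h1.of_dvd (f1 x)
        rw [this, pow_one]
      · exact (Commute.refl x).pow_pow e' e
      · have h1 : (x ^ e') ^ m = 1 := by
          rw [← pow_mul]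
          exact orderOf_dvd_iff_pow_eq_one.mp
            (dvd_trans (f1 x) (by rw [mul_comm e' m]; exact Nat.mul_dvd_mul_left m hne'))
        exact Nat.Coprime.coprime_dvd_left (orderOf_dvd_of_pow_eq_one h1) hcop
      · have h1 : (x ^ e) ^ n = 1 := by
          rw [← pow_mul]
          exact orderOf_dvd_iff_pow_eq_one.mp (dvd_trans (f1 x) (Nat.mul_dvd_mul_right hme n))
        exact Nat.Coprime.coprime_dvd_left (orderOf_dvd_of_pow_eq_one h1) hcop.symm
  have hθ1 : ∀ x, IsConj (x ^ e) g → ϑ x = n := fun x h => hϑ1 x ((hiff x).mpr h)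
  have hθ0 : ∀ x, ¬ IsConj (x ^ e) g → ϑ x = 0 :=
    fun x h => hϑ0 x (fun h' => h ((hiff x).mp h'))
  have hconj : ∀ x h : G, IsConj (h * x * h⁻¹) g ↔ IsConj x g := by
    intro x h
    constructor
    · intro h2; exact (isConj_iff.mpr ⟨h, rfl⟩).trans h2
    · intro h2; exact (isConj_iff.mpr ⟨h, rfl⟩).symm.trans h2
  have hcl : IsClassFunction G ϑ := by
    intro x h
    have h1 : IsConj ((h * x * h⁻¹) ^ e) g ↔ IsConj (x ^ e) g := by
      rw [conj_pow]; exact hconj _ _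
    by_cases hx : IsConj (x ^ e) g
    · rw [hθ1 x hx, hθ1 _ (h1.mpr hx)]
    · rw [hθ0 x hx, hθ0 _ (fun h' => hx (h1.mp h'))]
  have hint : ∀ χ : IrrCharacter G, IsIntegral ℤ (classInner ϑ χ) := by
    apply integral_inner_of_res_elem ϑ hcl
    intro E p hp hE inst ψ
    have hcardE : Nat.card E ∣ m * n := hmn ▸ Subgroup.card_subgroup_dvd_card E
    refine @hall_proj_elem E _ inst p hp hE m n hcop hcardE hmn0 e hem hen
      {y : E | IsConj (y : G) g} ?_ (fun y : E => ϑ y) ?_ ?_ ψ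
    · intro x y
      exact hconj (x : G) (y : G)
    · intro y hy
      exact hθ1 (y : G) hy
    · intro y hy
      exact hθ0 (y : G) hy
  haveI : Finite (IrrCharacter G) := irr_finite
  letI : Fintype (IrrCharacter G) := Fintype.ofFinite _
  refine ⟨fun χ => classInner ϑ χ, fun χ => hint χ, ?_⟩
  rw [finsum_eq_sum_of_fintype]
  exact expansion ϑ hcl

end Cfsg.Agent.S0875
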