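import Cfsg.Statements.S0880
import Cfsg.Agent.Lib.Helper2.Zas1
-- import your own Cfsg.Agent.* helpers here

set_option autoImplicit false
open Cfsg

namespace Cfsg.Agent.S0880

open Cfsg.Agent.Lib.Helper2.Zas Cfsg.Agent.Lib.Lead

/-- Let G be a finite simple Zassenhaus group on Ω with n points whose two-point stabilizer E has odd order less than n - 2. Then there are two elements of G, each fixing no point of Ω, that are not conjugate. -/
theorem result {G Ω : Type*} [Group G] [Finite G] [MulAction G Ω] [Fintype Ω] (hZ : Cfsg.IsZassenhausGroup G Ω) {a b : Ω} (hab : a ≠ b) [IsSimpleGroup G] (hodd : Odd (Nat.card ↥(MulAction.stabilizer G a ⊓ MulAction.stabilizer G b : Subgroup G))) (hlt : Nat.card ↥(MulAction.stabilizer G a ⊓ MulAction.stabilizer G b : Subgroup G) < Fintype.card Ω - 2) : ∃ x y : G, (∀ c : Ω, x • c ≠ c) ∧ (∀ c : Ω, y • c ≠ c) ∧ ¬ IsConj x y := by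
  classical
  letI : Fintype G := Fintype.ofFinite G
  have h := zdata hZ
  have hn := h.three_le
  have hcard := h.card_eq hab
  obtain ⟨-, -, hcount⟩ := h.count
  obtain ⟨t₀, ht₀1, ht₀a, ht₀b⟩ := h.exists_two_fix hab
  set e := Nat.card ↥(MulAction.stabilizer G a ⊓ MulAction.stabilizer G b : Subgroup G) with hedef
  have he3 : 3 ≤ e := by
    have h1 : 1 < e := by
      rw [hedef, Finite.one_lt_card_iff_nontrivial]
      refine ⟨⟨⟨t₀, ?_⟩, 1, ?_⟩⟩
      · rw [Subgroup.mem_inf, MulAction.mem_stabilizer_iff, MulAction.mem_stabilizer_iff]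
        exact ⟨ht₀a, ht₀b⟩
      · intro h2
        exact ht₀1 (congrArg Subtype.val h2)
    obtain ⟨j, hj⟩ := hodd
    omega
  obtain ⟨k, hk⟩ : ∃ k, Nat.card Ω = k + 3 := ⟨Nat.card Ω - 3, by omega⟩
  rw [hk] at hcard hcount
  have r1 : k + 3 - 2 = k + 1 := by omega
  have r2 : k + 3 - 1 = k + 2 := by omega
  rw [r1, r2] at hcount
  rw [r2] at hcard
  set F₀ := (Finset.univ.filter (fun g : G => Nat.card (MulAction.fixedBy Ω g) = 0)).card with hF₀
  have hfpf : ∀ g : G, Nat.card (MulAction.fixedBy Ω g) = 0 ↔ ∀ c : Ω, g • c ≠ c := by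
    intro g
    constructor
    · intro h0 c hc
      haveI : Nonempty (MulAction.fixedBy Ω g) := ⟨⟨c, hc⟩⟩
      have := Nat.card_pos (α := MulAction.fixedBy Ω g)
      omega
    · intro hg
      haveI : IsEmpty (MulAction.fixedBy Ω g) := ⟨fun x => hg x.1 x.2⟩
      exact Nat.card_of_isEmpty
  have hF₀pos : 0 < F₀ := by
    have h1 : (k + 2) * (k + 1) < (k + 3) * (k + 2) * e := by
      have : (k + 3) * (k + 2) * 3 ≤ (k + 3) * (k + 2) * e := Nat.mul_le_mul_left _ he3
      nlinarith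
    omega
  obtain ⟨x₀, hx₀⟩ := Finset.card_pos.mp hF₀pos
  rw [Finset.mem_filter] at hx₀
  have hx₀f := (hfpf x₀).mp hx₀.2
  by_contra hcon
  push Not at hcon
  have hclass : Finset.univ.filter (fun g : G => Nat.card (MulAction.fixedBy Ω g) = 0) =
      classFinset x₀ := by
    ext g
    rw [Finset.mem_filter, mem_classFinset]
    constructor
    · rintro ⟨-, hg⟩
      exact hcon x₀ g hx₀f ((hfpf g).mp hg)
    · intro hg
      refine ⟨Finset.mem_univ _, (hfpf g).mpr ?_⟩
      obtain ⟨c, hc⟩ := isConj_iff.mp hg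
      intro ω hω
      apply hx₀f (c⁻¹ • ω)
      rw [← hc, mul_smul, mul_smul] at hω
      exact (smul_eq_iff_eq_inv_smul c).mp hω
  have hF₀c : F₀ * Nat.card (Subgroup.centralizer ({x₀} : Set G)) = Nat.card G := by
    rw [hF₀, hclass, card_classFinset]
    exact Subgroup.index_mul_card _
  set c := Nat.card (Subgroup.centralizer ({x₀} : Set G)) with hc
  set N := Nat.card G with hN
  obtain ⟨P, hP⟩ : ∃ P, P = (k + 2) * (k + 1) := ⟨_, rfl⟩
  rw [← hP] at hcount
  have hPpos : 0 < P := by rw [hP]; positivity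
  by_cases hc2 : c ≤ 2
  · have h1 : N ≤ 2 * F₀ := by
      calc N = F₀ * c := hF₀c.symm
        _ ≤ F₀ * 2 := Nat.mul_le_mul_left _ hc2
        _ = 2 * F₀ := mul_comm _ _
    omega
  · have h1 : 3 * F₀ ≤ N := by
      calc 3 * F₀ = F₀ * 3 := mul_comm _ _
        _ ≤ F₀ * c := Nat.mul_le_mul_left _ (by omega)
        _ = N := hF₀c
    have h2 : N ≤ 3 * P := by omega
    have h3 : (k + 3) * (k + 2) * 3 ≤ N := by
      rw [hcard]
      exact Nat.mul_le_mul_left _ he3
    rw [hP] at h2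
    nlinarith

end Cfsg.Agent.S0880
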