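import Cfsg.Statements.S0882
import Cfsg.Agent.Lib.Helper2.Zas13
import Cfsg.Agent.S0740
-- import your own Cfsg.Agent.* helpers here

set_option autoImplicit false
open Cfsg

namespace Cfsg.Agent.S0882

open Cfsg.Agent.Lib.Helper2.Zas Cfsg.Agent.Lib.Lead

/-- Let G be a finite simple Zassenhaus group on Ω with n = h + 1 points whose two-point stabilizer E has odd order e with 2e < h - 1. Then any two involutions of G are conjugate, and the number of involutions is e * (h + 1) if h is even and e * h if h is odd. -/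
theorem result {G Ω : Type*} [Group G] [Finite G] [MulAction G Ω] [Fintype Ω] (hZ : Cfsg.IsZassenhausGroup G Ω) {a b : Ω} (hab : a ≠ b) [IsSimpleGroup G] (h e : ℕ) (hh : Fintype.card Ω = h + 1) (he : Nat.card ↥(MulAction.stabilizer G a ⊓ MulAction.stabilizer G b : Subgroup G) = e) (hodd : Odd e) (hlt : 2 * e < h - 1) : (∀ x y : G, orderOf x = 2 → orderOf y = 2 → IsConj x y) ∧ Nat.card {x : G // orderOf x = 2} = (if Even h then e * (h + 1) else e * h) := by
  classical
  letI : Fintype G := Fintype.ofFinite G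
  have hswap : ∀ c d : Ω, c ≠ d → ∃ s : G, s * s = 1 ∧ s • c = d ∧ s • d = c := by
    intro c d hcd
    obtain ⟨s, hso, hsc, hsd⟩ := (Cfsg.Agent.S0740.result hZ hcd).1
    have hs : s * s = 1 := by
      have h1 := pow_orderOf_eq_one s
      rw [hso, pow_two] at h1
      exact h1
    exact ⟨s, hs, hsc, hsd⟩
  have hodd' : Odd (Nat.card ↥(MulAction.stabilizer G a ⊓ MulAction.stabilizer G b :
      Subgroup G)) := by rw [he]; exact hodd
  obtain ⟨hconj, hcard⟩ := invol_main hZ hab hodd' hswap
  have hiff : ∀ x : G, orderOf x = 2 ↔ x * x = 1 ∧ x ≠ 1 := by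
    intro x
    rw [orderOf_eq_prime_iff (p := 2), pow_two]
  refine ⟨fun x y hx hy => hconj x y ((hiff x).mp hx).1 ((hiff x).mp hx).2 ((hiff y).mp hy).1
    ((hiff y).mp hy).2, ?_⟩
  have hc2 : Nat.card {x : G // orderOf x = 2} =
      (Finset.univ.filter (fun s : G => s * s = 1 ∧ s ≠ 1)).card := by
    rw [Nat.card_eq_fintype_card, Fintype.card_subtype]
    congr 1
    ext x
    simp only [Finset.mem_filter, Finset.mem_univ, true_and]
    exact hiff x
  rw [hc2, hcard, he, hh]
  by_cases hev : Even h
  · rw [if_pos hev, if_pos (Even.add_one hev)]; ring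
  · rw [if_neg hev, if_neg (Nat.not_odd_iff_even.mpr (Nat.not_even_iff_odd.mp hev).add_one),
      Nat.add_sub_cancel]
    ring

end Cfsg.Agent.S0882
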