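import Cfsg.Statements.S0883
import Cfsg.Agent.Lib.Helper2.Zas4
import Cfsg.Agent.S0740
-- import your own Cfsg.Agent.* helpers here

set_option autoImplicit false
open Cfsg

namespace Cfsg.Agent.S0883

open Cfsg.Agent.Lib.Helper2.Zas Cfsg.Agent.Lib.Lead

/-- Let G be a finite simple Zassenhaus group on Ω with h + 1 points whose two-point stabilizer E has odd order e with 2e < h - 1, and let H be the subgroup of the stabilizer of a consisting of the identity and the elements fixing no point other than a (given here as a subgroup of the stabilizer of order one less than the number of points whose non-identity elements fix only a; it is the Frobenius kernel of the stabilizer). If a non-identity element u of H is a product of two involutions of G, then u is an involution. -/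
theorem result {G Ω : Type*} [Group G] [Finite G] [MulAction G Ω] [Fintype Ω] (hZ : Cfsg.IsZassenhausGroup G Ω) {a b : Ω} (hab : a ≠ b) [IsSimpleGroup G] (h e : ℕ) (hh : Fintype.card Ω = h + 1) (he : Nat.card ↥(MulAction.stabilizer G a ⊓ MulAction.stabilizer G b : Subgroup G) = e) (hodd : Odd e) (hlt : 2 * e < h - 1) (H : Subgroup G) (hHa : H ≤ MulAction.stabilizer G a) (hHcard : Nat.card H + 1 = Fintype.card Ω) (hHfix : ∀ u ∈ H, u ≠ 1 → ∀ c : Ω, u • c = c → c = a) (u : G) (hu : u ∈ H) (hu1 : u ≠ 1) (x y : G) (hx : orderOf x = 2) (hy : orderOf y = 2) (hxy : x * y = u) : orderOf u = 2 := by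
  classical
  have hz := zdata hZ
  haveI : Fact (Nat.Prime 2) := ⟨Nat.prime_two⟩
  have hHcard' : Nat.card H + 1 = Nat.card Ω := by
    rw [Nat.card_eq_fintype_card (α := Ω)]; exact hHcard
  have hx2 : x * x = 1 := by
    have := pow_orderOf_eq_one x
    rwa [hx, pow_two] at this
  have hy2 : y * y = 1 := by
    have := pow_orderOf_eq_one y
    rwa [hy, pow_two] at this
  have hx1 : x ≠ 1 := by
    intro h1
    rw [h1, orderOf_one] at hx
    omega
  have hyinv : y⁻¹ = y := inv_eq_of_mul_eq_one_left hy2
  have hinv : x * u * x⁻¹ = u⁻¹ := by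
    rw [← hxy, mul_inv_rev, hyinv]
    have e1 : x * (x * y) * x⁻¹ = (x * x) * y * x⁻¹ := by group
    rw [e1, hx2, one_mul]
  have hxa : x • a = a := by
    by_contra hxa
    apply hu1
    refine hz.kernel_ti H hHfix hHa hxa hu ?_
    rw [hinv]
    exact H.inv_mem hu
  have hswap : ∀ b b' : Ω, b ≠ b' → ∃ s : G, s * s = 1 ∧ s • b = b' ∧ s • b' = b := by
    intro b b' hbb
    obtain ⟨s, hs, hsb, hsb'⟩ := (Cfsg.Agent.S0740.result hZ hbb).1
    refine ⟨s, ?_, hsb, hsb'⟩
    have := pow_orderOf_eq_one s
    rwa [hs, pow_two] at this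
  have hoddn : Odd (Fintype.card Ω) := by
    by_contra hne
    rw [Nat.not_odd_iff_even] at hne
    have h2 := hz.invol_fix_even hne hx2 hx1
    haveI : Nonempty (MulAction.fixedBy Ω x) := ⟨⟨a, hxa⟩⟩
    have h3 : 0 < Nat.card (MulAction.fixedBy Ω x) := Nat.card_pos
    have h4 : Nat.card (MulAction.fixedBy Ω x) = 2 := by omega
    obtain ⟨p, q, hpq, -⟩ := Nat.card_eq_two_iff.mp h4
    obtain ⟨c, hca, hxc⟩ : ∃ c : Ω, c ≠ a ∧ x • c = c := by
      by_cases hp : (p : Ω) = a
      · refine ⟨q, ?_, q.2⟩
        intro hq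
        exact hpq (Subtype.ext (hp.trans hq.symm))
      · exact ⟨p, hp, p.2⟩
    have hmem : x ∈ MulAction.stabilizer G a ⊓ MulAction.stabilizer G c := by
      rw [Subgroup.mem_inf, MulAction.mem_stabilizer_iff, MulAction.mem_stabilizer_iff]
      exact ⟨hxa, hxc⟩
    have h5 := Subgroup.orderOf_dvd_natCard _ hmem
    rw [hx, hz.card_two_stab hab (Ne.symm hca), he] at h5
    obtain ⟨j, hj⟩ := hodd
    omega
  have hcent := hz.invol_central hoddn hswap H hHa hHcard' hHfix hx2 hx1 hxa hu
  have hcomm : x * u * x⁻¹ = u := by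
    have h1 : u * x = x * u := mul_inv_eq_iff_eq_mul.mp hcent
    rw [← h1, mul_assoc, mul_inv_cancel, mul_one]
  have huu : u * u = 1 := by
    have h1 : u = u⁻¹ := hcomm.symm.trans hinv
    calc u * u = u * u⁻¹ := by rw [← h1]
      _ = 1 := mul_inv_cancel u
  exact orderOf_eq_prime (by rw [pow_two]; exact huu) hu1

end Cfsg.Agent.S0883
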