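import Cfsg.Statements.S0884
import Cfsg.Agent.Lib.Helper2.Zas14
import Cfsg.Agent.S0740
-- import your own Cfsg.Agent.* helpers here

set_option autoImplicit false
open Cfsg

namespace Cfsg.Agent.S0884

open Cfsg.Agent.Lib.Helper2.Zas Cfsg.Agent.Lib.Lead

/-- Let G be a finite simple Zassenhaus group on Ω with h + 1 points whose two-point stabilizer E has odd order e with 2e < h - 1, and let H be the subgroup of the stabilizer of a consisting of the identity and the elements fixing no point other than a (given here as a subgroup of the stabilizer of order one less than the number of points whose non-identity elements fix only a; it is the Frobenius kernel of the stabilizer). Then at least e conjugacy classes of G contain no element of H. -/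
theorem result {G Ω : Type*} [Group G] [Finite G] [MulAction G Ω] [Fintype Ω] (hZ : Cfsg.IsZassenhausGroup G Ω) {a b : Ω} (hab : a ≠ b) [IsSimpleGroup G] (h e : ℕ) (hh : Fintype.card Ω = h + 1) (he : Nat.card ↥(MulAction.stabilizer G a ⊓ MulAction.stabilizer G b : Subgroup G) = e) (hodd : Odd e) (hlt : 2 * e < h - 1) (H : Subgroup G) (hHa : H ≤ MulAction.stabilizer G a) (hHcard : Nat.card H + 1 = Fintype.card Ω) (hHfix : ∀ u ∈ H, u ≠ 1 → ∀ c : Ω, u • c = c → c = a) : e ≤ Nat.card {C : ConjClasses G // ∀ g : G, ConjClasses.mk g = C → g ∉ H} := by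
  classical
  letI : Fintype G := Fintype.ofFinite G
  have hswap : ∀ c d : Ω, c ≠ d → ∃ s : G, s * s = 1 ∧ s • c = d ∧ s • d = c := by
    intro c d hcd
    obtain ⟨s, hso, hsc, hsd⟩ := (Cfsg.Agent.S0740.result hZ hcd).1
    have hs : s * s = 1 := by
      have h1 := pow_orderOf_eq_one s
      rw [hso, pow_two] at h1
      exact h1
    exact ⟨s, hs, hsc, hsd⟩
  have hodd' : Odd (Nat.card ↥(MulAction.stabilizer G a ⊓ MulAction.stabilizer G b :
      Subgroup G)) := by rw [he]; exact hodd
  have hlt' : Nat.card ↥(MulAction.stabilizer G a ⊓ MulAction.stabilizer G b : Subgroup G) + 1 <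
      Fintype.card Ω := by
    rw [he, hh]; omega
  have hmain := classes_main hZ hab hodd' hswap hlt' H hHa hHfix
  rw [he] at hmain
  exact hmain

end Cfsg.Agent.S0884
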