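import Cfsg.Statements.S0887
import Cfsg.Agent.Lib.Lead.CharProjExt
import Cfsg.Agent.Lib.Lead.CharClifford3
import Cfsg.Agent.Lib.Lead.CharCons

set_option autoImplicit false
open Cfsg

namespace Cfsg.Agent.S0887

open Cfsg.Agent.Lib.Lead Cfsg.Agent.Lib.Helper2

/-- Let N be a normal subgroup of the finite group G, χ an irreducible character of G and ϑ an irreducible character of N having nonzero inner product with the restriction of χ. If χ 1 = c and ϑ 1 = d as natural numbers, then d divides c and c / d divides the index of N. -/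
theorem result {G : Type*} [Group G] [Fintype G] (N : Subgroup G) [N.Normal] [Fintype N] (χ : G → ℂ) (hχ : Cfsg.IsIrrCharacter G χ) (ϑ : N → ℂ) (hϑ : Cfsg.IsIrrCharacter N ϑ) (hcon : Cfsg.classInner (fun n : N => χ n) ϑ ≠ 0) (c d : ℕ) (hc : χ 1 = c) (hd : ϑ 1 = d) : d ∣ c ∧ c / d ∣ N.index := by
  classical
  set T := charInertia N ϑ with hT
  have hNT : N ≤ T := le_charInertia N (isClassFunction_irr ⟨ϑ, hϑ⟩)
  letI : Fintype T := Fintype.ofFinite _
  have hTmem := fun g : G => mem_charInertia N ϑ g
  obtain ⟨ψ, hψ, hind, hinner⟩ := clifford_corr_surj N T hNT hϑ hTmem hχ hcon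
  obtain ⟨e, he⟩ := classInner_isCharacter_nat
    (isCharacter_res_le N T hNT (isCharacter_of_isIrrCharacter hψ)) (isCharacter_of_isIrrCharacter hϑ)
  have hres : ∀ n : N, ψ ⟨n, hNT n.2⟩ = (e : ℂ) * ϑ n := by
    intro n
    rw [← he]
    exact res_eq_smul_of_inertia N T hNT hϑ (fun g hg => (hTmem g).mp hg) hψ
      (by rw [hinner]; exact hcon) n
  have hcore : e ∣ (N.subgroupOf T).index := by
    apply ramification_dvd_index (N.subgroupOf T) hψ (isIrrCharacter_resSub N T hNT hϑ) _ e _
    · intro t n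
      have := twist_resSub N T (fun g hg => (hTmem g).mp hg) t
      exact congrFun this n
    · intro n
      exact hres ⟨((n : T) : G), Subgroup.mem_subgroupOf.mp n.2⟩
  have h1 : χ 1 = (T.index : ℂ) * ψ 1 := by rw [← hind, indFun_one]
  have h2 : ψ 1 = (e : ℂ) * d := by
    have := hres 1
    rw [hd] at this
    exact this
  have h3 : c = T.index * (e * d) := by
    have : (c : ℂ) = (T.index : ℂ) * ((e : ℂ) * d) := by rw [← hc, h1, h2]
    exact_mod_cast this
  have hdpos : 0 < d := by
    rcases Nat.eq_zero_or_pos d with h0 | h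
    · exfalso; rw [h0] at hd; exact isIrrCharacter_one_ne_zero hϑ (by simpa using hd)
    · exact h
  refine ⟨⟨T.index * e, by rw [h3]; ring⟩, ?_⟩
  have h4 : c / d = T.index * e := by
    rw [h3, ← mul_assoc, Nat.mul_div_cancel _ hdpos]
  rw [h4, ← Subgroup.relIndex_mul_index hNT, mul_comm]
  exact Nat.mul_dvd_mul hcore (dvd_refl _)

end Cfsg.Agent.S0887
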