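import Cfsg.Statements.S0888
import Cfsg.Agent.Lib.Lead.CharExtFrame
import Cfsg.Agent.Lib.Lead.CharLinExt

set_option autoImplicit false
open Cfsg

namespace Cfsg.Agent.S0888

open Cfsg.Agent.Lib.Lead Cfsg.Agent.Lib.Helper2 Module

/-- Let N be a normal subgroup of the finite group G and ϑ an irreducible character of N invariant under conjugation by G. Suppose that for every prime p there are a subgroup P containing N, of index prime to p and with the index of N in P a power of p, and an irreducible character of P restricting to ϑ. Then ϑ is the restriction of an irreducible character of G. -/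
theorem result {G : Type*} [Group G] [Finite G] (N : Subgroup G) [hN : N.Normal] (ϑ : N → ℂ) (hϑ : Cfsg.IsIrrCharacter N ϑ) (hinv : ∀ (g : G) (n : N), ϑ ⟨g * n * g⁻¹, hN.conj_mem (n : G) n.2 g⟩ = ϑ n) (hsyl : ∀ p : ℕ, p.Prime → ∃ (P : Subgroup G) (hNP : N ≤ P) (η : P → ℂ), Nat.Coprime P.index p ∧ (∃ k : ℕ, N.relIndex P = p ^ k) ∧ Cfsg.IsIrrCharacter P η ∧ ∀ n : N, η ⟨(n : G), hNP n.2⟩ = ϑ n) : ∃ χ : G → ℂ, Cfsg.IsIrrCharacter G χ ∧ ∀ n : N, χ n = ϑ n := by
  classical
  obtain ⟨d, R, hR, rfl⟩ := hϑ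
  haveI := hR
  have hd : 0 < d := by simpa using finrank_pos_of_irreducible R
  haveI := pe_finite N R hinv
  obtain ⟨lam₀, hlam₀⟩ := exists_hom_of_extension N R hinv N le_rfl (η := R.character)
    ⟨d, R, hR, rfl⟩ (fun n => rfl)
  haveI hMn : (N.comap (peFst N R)).Normal := inferInstance
  have hinv₀ : ∀ (g : projExt N R (Nat.card G)) (m : N.comap (peFst N R)),
      lam₀ ⟨g * m * g⁻¹, hMn.conj_mem m m.2 g⟩ = lam₀ m := by
    intro g m
    apply Units.ext
    apply smul_peRep_cancel N R hd (g * m * g⁻¹)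
    have h1 := hlam₀ ⟨g * m * g⁻¹, hMn.conj_mem m m.2 g⟩ (hMn.conj_mem m m.2 g)
    have h2 := hlam₀ m m.2
    have e1 : peRep N R (g * m * g⁻¹) = peRep N R g * peRep N R m * peRep N R g⁻¹ := by
      rw [map_mul, map_mul]
    have e2 : peRep N R g * peRep N R g⁻¹ = 1 := by rw [← map_mul, mul_inv_cancel, map_one]
    have e3 : (⟨peFst N R (g * m * g⁻¹), hMn.conj_mem m m.2 g⟩ : N) =
        MulAut.conjNormal (peFst N R g) ⟨peFst N R m, m.2⟩ := by
      apply Subtype.ext
      rw [MulAut.conjNormal_apply]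
      show peFst N R (g * (m : projExt N R (Nat.card G)) * g⁻¹) =
        peFst N R g * peFst N R (m : projExt N R (Nat.card G)) * (peFst N R g)⁻¹
      rw [map_mul, map_mul, map_inv]
    refine h1.trans ?_
    rw [e3]
    symm
    calc (lam₀ m : ℂ) • peRep N R (g * m * g⁻¹)
        = peRep N R g * ((lam₀ m : ℂ) • peRep N R m) * peRep N R g⁻¹ := by
          rw [e1, mul_smul_comm, smul_mul_assoc]
      _ = peRep N R g * R ⟨peFst N R m, m.2⟩ * peRep N R g⁻¹ := by rw [h2]
      _ = R (MulAut.conjNormal (peFst N R g) ⟨peFst N R m, m.2⟩) * peRep N R g *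
            peRep N R g⁻¹ := by rw [peRep_conj]
      _ = R (MulAut.conjNormal (peFst N R g) ⟨peFst N R m, m.2⟩) := by
          rw [mul_assoc, e2, mul_one]
  obtain ⟨μ, hμ⟩ := linear_extends_of_coprime_index (N.comap (peFst N R)) lam₀ hinv₀
    (Nat.card (N.comap (peFst N R))) Nat.card_pos.ne'
    (fun m => by rw [← map_pow, pow_card_eq_one', map_one]) (by
      intro p hp _
      obtain ⟨P, hNP, η, hcop, -, hη, hηN⟩ := hsyl p hp
      obtain ⟨lamP, hlamP⟩ := exists_hom_of_extension N R hinv P hNP hη hηN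
      have hMP : N.comap (peFst N R) ≤ P.comap (peFst N R) := Subgroup.comap_mono hNP
      refine ⟨P.comap (peFst N R), hMP, lamP, ?_, ?_⟩
      · rw [Subgroup.index_comap_of_surjective P (peFst_surjective N R hinv)]
        exact fun h => hp.one_lt.ne' (hcop.symm.eq_one_of_dvd h)
      · intro m
        apply Units.ext
        apply smul_peRep_cancel N R hd (m : projExt N R (Nat.card G))
        rw [hlam₀ m m.2]
        exact hlamP ⟨m, hMP m.2⟩ m.2)
  exact exists_extension_of_hom N R hinv μ (fun γ hγ => by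
    rw [show μ γ = lam₀ ⟨γ, hγ⟩ from hμ ⟨γ, hγ⟩]
    exact hlam₀ ⟨γ, hγ⟩ hγ)

end Cfsg.Agent.S0888
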