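import Cfsg.Statements.S0893
import Cfsg.Agent.Lib.Lead.CharMGroup

set_option autoImplicit false
open Cfsg
open Cfsg.Agent.Lib.Lead Module
open scoped ComplexConjugate

namespace Cfsg.Agent.S0893

/-- Let P be an extraspecial p-group of order p ^ (2 * n + 1), A an abelian subgroup of order p ^ (n + 1), and λ a character of A of degree 1 that is not identically 1 on the elements of A lying in the centre of P. Then the function induced from λ to P is an irreducible character of P and vanishes at every element outside the centre. -/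
theorem result {P : Type*} [Group P] [Fintype P] (p n : ℕ) [Fact p.Prime] (hP : Cfsg.IsExtraspecial p P) (hcard : Nat.card P = p ^ (2 * n + 1)) (A : Subgroup P) (hab : ∀ a ∈ A, ∀ b ∈ A, a * b = b * a) (hA : Nat.card A = p ^ (n + 1)) (lam : A → ℂ) (hlam : Cfsg.IsCharacter A lam ∧ lam 1 = 1) (hZ : ∃ a : A, (a : P) ∈ Subgroup.center P ∧ lam a ≠ 1) : Cfsg.IsIrrCharacter P (Cfsg.indFun A lam) ∧ ∀ x : P, x ∉ Subgroup.center P → Cfsg.indFun A lam x = 0 := by
  classical
  have hpp : p.Prime := Fact.out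
  obtain ⟨⟨hpg, hfr, hcomm⟩, hZcard⟩ := hP
  obtain ⟨a₀, ha₀Z, ha₀⟩ := hZ
  letI : Fintype A := Fintype.ofFinite A
  -- lam is multiplicative
  have hirrlam : IsIrrCharacter A lam := by
    obtain ⟨m, ρ, hρ⟩ := hlam.1
    have hm : finrank ℂ (Fin m → ℂ) = 1 := by
      have := hlam.2; rw [← hρ, Representation.char_one] at this; exact_mod_cast this
    exact ⟨m, ρ, isIrreducible_of_finrank_eq_one ρ hm, hρ⟩
  obtain ⟨μ, hμ⟩ := exists_hom_of_linear hirrlam hlam.2
  have hmul : ∀ a b : A, lam (a * b) = lam a * lam b := by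
    intro a b; rw [hμ, hμ, hμ, map_mul, Units.val_mul]
  have ha₀1 : a₀ ≠ 1 := by rintro rfl; exact ha₀ hlam.2
  have hgen : ∀ z ∈ Subgroup.center P, ∀ w ∈ Subgroup.center P, w ≠ 1 → ∃ k : ℤ, w ^ k = z := by
    intro z hz w hw hw1
    have htop := zpowers_eq_top_of_prime_card (G := Subgroup.center P) hZcard (g := ⟨w, hw⟩) (by
      intro h; exact hw1 (congrArg Subtype.val h))
    have : (⟨z, hz⟩ : Subgroup.center P) ∈ Subgroup.zpowers (⟨w, hw⟩ : Subgroup.center P) := by
      rw [htop]; trivial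
    obtain ⟨k, hk⟩ := Subgroup.mem_zpowers_iff.mp this
    exact ⟨k, by have := congrArg Subtype.val hk; simpa using this⟩
  have hZA : Subgroup.center P ≤ A := by
    intro z hz
    obtain ⟨k, hk⟩ := hgen z hz (a₀ : P) ha₀Z (fun h => ha₀1 (Subtype.ext h))
    rw [← hk]; exact A.zpow_mem a₀.2 k
  -- vanishing off centre
  have hvan : ∀ x : P, x ∉ Subgroup.center P → indFun A lam x = 0 := by
    intro x hx
    have hex : ∃ g₀ : P, g₀⁻¹ * x * g₀ * x⁻¹ ≠ 1 := by
      by_contra hcon; push Not at hcon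
      apply hx
      rw [Subgroup.mem_center_iff]
      intro g
      have h2 : g⁻¹ * x * g = x := by
        have := mul_eq_one_iff_eq_inv.mp (hcon g)
        simpa using this
      calc g * x = g * (g⁻¹ * x * g) := by rw [h2]
        _ = x * g := by group
    obtain ⟨g₀, hg₀⟩ := hex
    have hcz : ∀ g : P, g⁻¹ * x * g * x⁻¹ ∈ Subgroup.center P := by
      intro g
      rw [← hcomm]
      have : g⁻¹ * x * g * x⁻¹ = g⁻¹ * x * g⁻¹⁻¹ * x⁻¹ := by group
      rw [this, ← commutatorElement_def]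
      exact Subgroup.commutator_mem_commutator (Subgroup.mem_top _) (Subgroup.mem_top _)
    let c : P →* P := MonoidHom.mk' (fun g => g⁻¹ * x * g * x⁻¹) (by
      intro g h
      have h1 := Subgroup.mem_center_iff.mp (hcz g)
      calc (g * h)⁻¹ * x * (g * h) * x⁻¹ = h⁻¹ * ((g⁻¹ * x * g * x⁻¹) * (x * h * x⁻¹)) := by group
        _ = h⁻¹ * ((x * h * x⁻¹) * (g⁻¹ * x * g * x⁻¹)) := by rw [h1]
        _ = h⁻¹ * x * h * x⁻¹ * (g⁻¹ * x * g * x⁻¹) := by group
        _ = g⁻¹ * x * g * x⁻¹ * (h⁻¹ * x * h * x⁻¹) := by rw [h1])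
    obtain ⟨k, hk⟩ := hgen (a₀ : P) ha₀Z _ (hcz g₀) hg₀
    have hc : c (g₀ ^ k) = (a₀ : P) := by
      rw [map_zpow]; exact hk
    set h := g₀ ^ k with hh
    have hconj : h⁻¹ * x * h = (a₀ : P) * x := by
      have : h⁻¹ * x * h * x⁻¹ = (a₀ : P) := hc
      rw [← this]; group
    have hext : ∀ y : P, extendByZero A lam ((a₀ : P) * y) = lam a₀ * extendByZero A lam y := by
      intro y
      by_cases hy : y ∈ A
      · rw [Cfsg.Agent.Lib.Helper2.extendByZero_mem A lam hy,
          Cfsg.Agent.Lib.Helper2.extendByZero_mem A lam (A.mul_mem a₀.2 hy), ← hmul]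
        rfl
      · have hy' : (a₀ : P) * y ∉ A := by
          intro h'
          apply hy
          have := A.mul_mem (A.inv_mem a₀.2) h'
          simpa using this
        rw [Cfsg.Agent.Lib.Helper2.extendByZero_not_mem A lam hy,
          Cfsg.Agent.Lib.Helper2.extendByZero_not_mem A lam hy', mul_zero]
    have hS : ∑ g : P, extendByZero A lam (g⁻¹ * x * g) =
        lam a₀ * ∑ g : P, extendByZero A lam (g⁻¹ * x * g) := by
      conv_lhs => rw [← Equiv.sum_comp (Equiv.mulLeft h)]
      rw [Finset.mul_sum]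
      apply Finset.sum_congr rfl
      intro g _
      rw [← hext]
      congr 1
      have h0 := Subgroup.mem_center_iff.mp ha₀Z
      calc (Equiv.mulLeft h g)⁻¹ * x * (Equiv.mulLeft h g) = g⁻¹ * (h⁻¹ * x * h) * g := by
            simp only [Equiv.coe_mulLeft]; group
        _ = g⁻¹ * ((a₀ : P) * x) * g := by rw [hconj]
        _ = (g⁻¹ * (a₀ : P)) * x * g := by group
        _ = ((a₀ : P) * g⁻¹) * x * g := by rw [h0]
        _ = (a₀ : P) * (g⁻¹ * x * g) := by group
    have hS0 : ∑ g : P, extendByZero A lam (g⁻¹ * x * g) = 0 := by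
      have h1 : (1 - lam a₀) * ∑ g : P, extendByZero A lam (g⁻¹ * x * g) = 0 := by
        rw [sub_mul, one_mul, ← hS, sub_self]
      rcases mul_eq_zero.mp h1 with h2 | h2
      · exact absurd (sub_eq_zero.mp h2).symm ha₀
      · exact h2
    unfold Cfsg.indFun
    rw [hS0, mul_zero]
  refine ⟨?_, hvan⟩
  apply isIrrCharacter_of_norm_one (isCharacter_indFun A hlam.1)
  have hval : ∀ z : P, ∀ hz : z ∈ Subgroup.center P, indFun A lam z =
      (Nat.card A : ℂ)⁻¹ * (Nat.card P : ℂ) * lam ⟨z, hZA hz⟩ := by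
    intro z hz
    unfold Cfsg.indFun
    have h1 : ∀ g : P, extendByZero A lam (g⁻¹ * z * g) = lam ⟨z, hZA hz⟩ := by
      intro g
      have : g⁻¹ * z * g = z := by
        rw [mul_assoc, ← Subgroup.mem_center_iff.mp hz g, inv_mul_cancel_left]
      rw [this, Cfsg.Agent.Lib.Helper2.extendByZero_mem A lam (hZA hz)]
    rw [Finset.sum_congr rfl (fun g _ => h1 g), Finset.sum_const, Finset.card_univ, nsmul_eq_mul,
      Nat.card_eq_fintype_card, Nat.card_eq_fintype_card, mul_assoc]
  have hnorm : ∀ a : A, lam a * conj (lam a) = 1 := by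
    intro a
    rw [← isCharacter_inv_eq_conj hlam.1, ← hmul, mul_inv_cancel, hlam.2]
  unfold Cfsg.classInner
  rw [← Finset.sum_filter_of_ne (p := fun g => g ∈ Subgroup.center P)]
  · have h2 : ∀ g ∈ Finset.univ.filter (fun g => g ∈ Subgroup.center P),
        indFun A lam g * conj (indFun A lam g) = ((Nat.card A : ℂ)⁻¹ * (Nat.card P : ℂ)) ^ 2 := by
      intro g hg
      have hgz := (Finset.mem_filter.mp hg).2
      rw [hval g hgz, map_mul, map_mul, map_inv₀, Complex.conj_natCast, Complex.conj_natCast]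
      have := hnorm ⟨g, hZA hgz⟩
      linear_combination ((Nat.card A : ℂ)⁻¹ * (Nat.card P : ℂ)) ^ 2 * this
    rw [Finset.sum_congr rfl h2, Finset.sum_const, nsmul_eq_mul]
    have hc : (Finset.univ.filter (fun g => g ∈ Subgroup.center P)).card = p := by
      rw [← hZcard, Nat.card_eq_fintype_card, Fintype.card_subtype]
    rw [hc, hcard, hA]
    have hp0 : (p : ℂ) ≠ 0 := by exact_mod_cast hpp.ne_zero
    push_cast
    field_simp
    ring
  · intro g _ hne
    by_contra hg
    apply hne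
    rw [hvan g hg, zero_mul]

end Cfsg.Agent.S0893
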