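import Cfsg.Statements.S0894
import Cfsg.Agent.Lib.Lead.CharCenter
import Cfsg.Agent.Lib.Lead.CharMore

set_option autoImplicit false
open Cfsg

namespace Cfsg.Agent.S0894

open Cfsg.Agent.Lib.Lead Module in
open scoped ComplexConjugate in
theorem result {P : Type*} [Group P] [Finite P] (p n : ℕ) [Fact p.Prime] (hP : Cfsg.IsExtraspecial p P) (hcard : Nat.card P = p ^ (2 * n + 1)) : (∀ χ : Cfsg.IrrCharacter P, (χ : P → ℂ) 1 = 1 ∨ (χ : P → ℂ) 1 = (p : ℂ) ^ n) ∧ Nat.card {χ : Cfsg.IrrCharacter P // (χ : P → ℂ) 1 = (p : ℂ) ^ n} = p - 1 := by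
  classical
  letI := Fintype.ofFinite P
  haveI : Finite (Cfsg.IrrCharacter P) := irr_finite
  letI : Fintype (Cfsg.IrrCharacter P) := Fintype.ofFinite _
  have hp : p.Prime := Fact.out
  obtain ⟨hspec, hZcard⟩ := hP
  have hcomm : commutator P = Subgroup.center P := hspec.2.2
  have hdeg : ∀ χ : Cfsg.IrrCharacter P,
      (χ : P → ℂ) 1 = 1 ∨ (χ : P → ℂ) 1 = (p : ℂ) ^ n := by
    intro χ
    by_cases h1 : (χ : P → ℂ) 1 = 1
    · exact Or.inl h1
    · right
      obtain ⟨m, ρ, hirr, hρ⟩ := χ.2
      haveI := hirr
      have hpos := finrank_pos_of_irreducible ρ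
      have hex : ∃ z ∈ Subgroup.center P, ρ z ≠ 1 := by
        by_contra hcon
        push Not at hcon
        apply h1
        have hN : ∀ x ∈ commutator P, ρ x = 1 := fun x hx => hcon x (hcomm ▸ hx)
        obtain ⟨ψ, hψ, hψρ⟩ := isIrrCharacter_descend ρ (commutator P) hN
        have hab : ∀ a b : P ⧸ commutator P, a * b = b * a :=
          fun a b => @mul_comm (Abelianization P) _ a b
        have := (comm_iff_all_degree_one (G := P ⧸ commutator P)).mp hab ⟨ψ, hψ⟩
        rw [← hρ, hψρ]
        simpa using this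
      obtain ⟨z₀, hz₀Z, hz₀⟩ := hex
      have hgen : ∀ w ∈ Subgroup.center P, w ≠ 1 → ρ w ≠ 1 := by
        intro w hwZ hw1 hρw
        have htop := zpowers_eq_top_of_prime_card (G := Subgroup.center P) (p := p) hZcard
          (g := ⟨w, hwZ⟩) (by intro h; exact hw1 (congrArg Subtype.val h))
        have hmem : (⟨z₀, hz₀Z⟩ : Subgroup.center P) ∈
            Subgroup.zpowers (⟨w, hwZ⟩ : Subgroup.center P) := by rw [htop]; trivial
        obtain ⟨k, hk⟩ := Subgroup.mem_zpowers_iff.mp hmem
        have hk' : w ^ k = z₀ := by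
          have := congrArg Subtype.val hk
          simpa using this
        have hwK : w ∈ (ρ : P →* _).ker := MonoidHom.mem_ker.mpr hρw
        have hzK : z₀ ∈ (ρ : P →* _).ker := by rw [← hk']; exact Subgroup.zpow_mem _ hwK k
        exact hz₀ (MonoidHom.mem_ker.mp hzK)
      have hvan : ∀ g : P, g ∉ Subgroup.center P → ρ.character g = 0 := by
        intro g hg
        rw [Subgroup.mem_center_iff] at hg
        push Not at hg
        obtain ⟨y, hy⟩ := hg
        set w : P := g⁻¹ * (y * g * y⁻¹) with hw
        have hwZ : w ∈ Subgroup.center P := by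
          rw [← hcomm, commutator_def]
          have : w = g⁻¹ * y * g⁻¹⁻¹ * y⁻¹ := by rw [hw]; group
          rw [this, ← commutatorElement_def]
          exact Subgroup.commutator_mem_commutator (Subgroup.mem_top _) (Subgroup.mem_top _)
        have hw1 : w ≠ 1 := by
          intro h; apply hy
          have h2 : y * g * y⁻¹ = g := by
            have := congrArg (fun t => g * t) h
            simpa [hw, mul_assoc] using this
          calc y * g = y * g * y⁻¹ * y := by group
            _ = g * y := by rw [h2]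
        obtain ⟨c, hc1, hc2⟩ := exists_central_scalar ρ w hwZ
        have hcne : c ≠ 1 := by
          intro h; apply hgen w hwZ hw1; rw [hc1, h, one_smul]; rfl
        have h3 : ρ.character (g * w) = ρ.character g := by
          have : g * w = y * g * y⁻¹ := by rw [hw]; group
          rw [this]; exact Representation.char_conj ρ g y
        rw [hc2] at h3
        have : (c - 1) * ρ.character g = 0 := by linear_combination h3
        rcases mul_eq_zero.mp this with h | h
        · exact absurd (sub_eq_zero.mp h) hcne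
        · exact h
      have hsum := sum_char_mul_conj ρ
      have hsum2 : ∑ g : P, ρ.character g * conj (ρ.character g) =
          (p : ℂ) * (finrank ℂ (Fin m → ℂ) : ℂ) ^ 2 := by
        rw [← Finset.sum_subset (Finset.subset_univ
          (Finset.univ.filter (fun g : P => g ∈ Subgroup.center P)))]
        · have hterm : ∀ g ∈ Finset.univ.filter (fun g : P => g ∈ Subgroup.center P),
              ρ.character g * conj (ρ.character g) = (finrank ℂ (Fin m → ℂ) : ℂ) ^ 2 := by
            intro g hg
            rw [Finset.mem_filter] at hg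
            have h1 := (norm_char_eq_finrank_iff ρ g).mpr
              ((exists_central_scalar ρ g hg.2).imp (fun c h => h.1))
            rw [Complex.mul_conj, Complex.normSq_eq_norm_sq, h1]; push_cast; ring
          rw [Finset.sum_congr rfl hterm, Finset.sum_const, nsmul_eq_mul]
          congr 1
          rw [← hZcard, Nat.card_eq_fintype_card, Fintype.card_subtype]
        · intro g _ hg
          rw [Finset.mem_filter] at hg
          rw [hvan g (fun h => hg ⟨Finset.mem_univ _, h⟩), zero_mul]
      rw [hsum2, hcard] at hsum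
      have hd : finrank ℂ (Fin m → ℂ) = p ^ n := by
        have h4 : p * (finrank ℂ (Fin m → ℂ)) ^ 2 = p ^ (2 * n + 1) := by exact_mod_cast hsum
        have h5 : (finrank ℂ (Fin m → ℂ)) ^ 2 = (p ^ n) ^ 2 := by
          have : p * (finrank ℂ (Fin m → ℂ)) ^ 2 = p * (p ^ n) ^ 2 := by rw [h4]; ring
          exact Nat.eq_of_mul_eq_mul_left hp.pos this
        exact Nat.pow_left_injective (by norm_num : 2 ≠ 0) h5
      rw [← hρ, Representation.char_one, hd]; push_cast; rfl
  refine ⟨hdeg, ?_⟩
  have hn0 : n ≠ 0 := by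
    rintro rfl
    rw [mul_zero, zero_add, pow_one] at hcard
    have hZtop : Subgroup.center P = ⊤ := by
      apply Subgroup.eq_top_of_card_eq
      rw [hZcard, hcard]
    have hcb : commutator P = ⊥ := (commutator_eq_bot_iff_center_eq_top P).mpr hZtop
    rw [hcomm] at hcb
    rw [hcb, Subgroup.card_bot] at hZcard
    exact hp.one_lt.ne hZcard
  have hpn1 : (p : ℂ) ^ n ≠ 1 := by
    have : p ^ n ≠ 1 := by
      have := Nat.one_lt_pow hn0 hp.one_lt
      omega
    exact_mod_cast this
  have hss := sum_sq_degree (G := P)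
  have hlin := card_linear_irr (G := P)
  have hidx : (commutator P).index = p ^ (2 * n) := by
    have e := Subgroup.index_mul_card (commutator P)
    rw [hcard, pow_succ] at e
    have e2 : Nat.card (commutator P) = p := by rw [hcomm]; exact hZcard
    rw [e2] at e
    exact Nat.eq_of_mul_eq_mul_right hp.pos e
  rw [hidx, Nat.card_eq_fintype_card, Fintype.card_subtype] at hlin
  have hterm : ∀ χ : Cfsg.IrrCharacter P, (χ : P → ℂ) 1 ^ 2 =
      if (χ : P → ℂ) 1 = 1 then 1 else ((p : ℂ) ^ n) ^ 2 := by
    intro χ
    split_ifs with h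
    · rw [h, one_pow]
    · rw [(hdeg χ).resolve_left h]
  rw [Finset.sum_congr rfl (fun χ _ => hterm χ), Finset.sum_ite, Finset.sum_const, Finset.sum_const,
    hlin, hcard, nsmul_eq_mul, nsmul_eq_mul, mul_one] at hss
  have hk : (Finset.univ.filter (fun χ : Cfsg.IrrCharacter P => ¬ (χ : P → ℂ) 1 = 1)).card =
      p - 1 := by
    have h6 : p ^ (2 * n) + (Finset.univ.filter
        (fun χ : Cfsg.IrrCharacter P => ¬ (χ : P → ℂ) 1 = 1)).card * (p ^ n) ^ 2 =
        p ^ (2 * n + 1) := by exact_mod_cast hss
    have h7 : (p ^ n) ^ 2 = p ^ (2 * n) := by rw [← pow_mul, mul_comm]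
    rw [h7, pow_succ] at h6
    have h8 : (1 + (Finset.univ.filter
        (fun χ : Cfsg.IrrCharacter P => ¬ (χ : P → ℂ) 1 = 1)).card) * p ^ (2 * n) =
        p * p ^ (2 * n) := by rw [add_mul, one_mul, h6, mul_comm]
    have h9 := Nat.eq_of_mul_eq_mul_right (pow_pos hp.pos _) h8
    omega
  rw [Nat.card_eq_fintype_card, Fintype.card_subtype, ← hk]
  congr 1
  apply Finset.filter_congr
  intro χ _
  constructor
  · intro h h1
    rw [h] at h1; exact hpn1 h1
  · intro h
    exact (hdeg χ).resolve_left h

end Cfsg.Agent.S0894
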