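import Cfsg.Statements.S0900
import Cfsg.Agent.Lib.Lead.CharRam

set_option autoImplicit false
open Cfsg

namespace Cfsg.Agent.S0900

/-- Let N be a normal subgroup of the finite group G, χ an irreducible character of G and ϑ an irreducible character of N having nonzero inner product with the restriction of χ. Consider: (a) the restriction of χ to N is e • ϑ for a natural number e with e ^ 2 equal to the index of N; (b) χ vanishes outside N and ϑ is invariant under conjugation by G; (c) ϑ is invariant and every irreducible character of G having nonzero inner product with the function induced from ϑ equals χ. Then (a) ↔ (b) and (a) ↔ (c). -/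
theorem result {G : Type*} [Group G] [Fintype G] (N : Subgroup G) [hN : N.Normal] [Fintype N] (χ : G → ℂ) (hχ : Cfsg.IsIrrCharacter G χ) (ϑ : N → ℂ) (hϑ : Cfsg.IsIrrCharacter N ϑ) (hcon : Cfsg.classInner (fun n : N => χ n) ϑ ≠ 0) : ((∃ e : ℕ, (fun n : N => χ n) = (e : ℂ) • ϑ ∧ e ^ 2 = N.index) ↔ ((∀ g : G, g ∉ N → χ g = 0) ∧ ∀ (g : G) (n : N), ϑ ⟨g * n * g⁻¹, hN.conj_mem (n : G) n.2 g⟩ = ϑ n)) ∧ ((∃ e : ℕ, (fun n : N => χ n) = (e : ℂ) • ϑ ∧ e ^ 2 = N.index) ↔ (∀ (g : G) (n : N), ϑ ⟨g * n * g⁻¹, hN.conj_mem (n : G) n.2 g⟩ = ϑ n ∧ ∀ ψ : G → ℂ, Cfsg.IsIrrCharacter G ψ → Cfsg.classInner (Cfsg.indFun N ϑ) ψ ≠ 0 → ψ = χ)) := by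
  classical
  have hcf := Cfsg.Agent.Lib.Lead.isClassFunction_irr (⟨χ, hχ⟩ : Cfsg.IrrCharacter G)
  obtain ⟨e0, he0⟩ := Cfsg.Agent.Lib.Lead.classInner_isCharacter_nat
    (Cfsg.Agent.Lib.Lead.isCharacter_res N (Cfsg.Agent.Lib.Lead.isCharacter_of_isIrrCharacter hχ))
    (Cfsg.Agent.Lib.Lead.isCharacter_of_isIrrCharacter hϑ)
  have hB : (∀ (g : G) (n : N), ϑ ⟨g * n * g⁻¹, hN.conj_mem (n : G) n.2 g⟩ = ϑ n) →
      (fun n : N => χ n) = (e0 : ℂ) • ϑ := by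
    intro hinv
    have := Cfsg.Agent.Lib.Lead.res_eq_smul_of_invariant N hχ hϑ hcon hinv
    rwa [he0] at this
  have hA : ∀ e : ℕ, (fun n : N => χ n) = (e : ℂ) • ϑ → e ^ 2 = N.index →
      ∀ (g : G) (n : N), ϑ ⟨g * n * g⁻¹, hN.conj_mem (n : G) n.2 g⟩ = ϑ n := by
    intro e hres he2 g n
    have he : (e : ℂ) ≠ 0 := by
      have : e ≠ 0 := by
        rintro rfl
        simp only [ne_eq, OfNat.ofNat_ne_zero, not_false_eq_true, zero_pow] at he2
        exact Subgroup.index_ne_zero_of_finite he2.symm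
      exact_mod_cast this
    exact Cfsg.Agent.Lib.Lead.invariant_of_res_eq_smul N hcf he hres g n
  refine ⟨⟨?_, ?_⟩, ⟨?_, ?_⟩⟩
  · rintro ⟨e, hres, he2⟩
    exact ⟨(Cfsg.Agent.Lib.Lead.sq_eq_index_iff_vanish N hχ hϑ hres).mp he2, hA e hres he2⟩
  · rintro ⟨hv, hinv⟩
    exact ⟨e0, hB hinv,
      (Cfsg.Agent.Lib.Lead.sq_eq_index_iff_vanish N hχ hϑ (hB hinv)).mpr hv⟩
  · rintro ⟨e, hres, he2⟩ g n
    exact ⟨hA e hres he2 g n,
      (Cfsg.Agent.Lib.Lead.sq_eq_index_iff_unique N hχ hϑ hres).mp he2⟩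
  · intro hc
    have hinv : ∀ (g : G) (n : N), ϑ ⟨g * n * g⁻¹, hN.conj_mem (n : G) n.2 g⟩ = ϑ n :=
      fun g n => (hc g n).1
    exact ⟨e0, hB hinv,
      (Cfsg.Agent.Lib.Lead.sq_eq_index_iff_unique N hχ hϑ (hB hinv)).mpr (hc 1 1).2⟩

end Cfsg.Agent.S0900
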