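import Mathlib
import Cfsg.Statements.S0903

set_option autoImplicit false
open Cfsg

namespace Cfsg.Agent.S0903

theorem pfix {G : Type*} [Group G] [Finite G] (p : ℕ) [Fact p.Prime] (P : Subgroup G)
    (hP : IsPGroup p P) (Q : G × G → Prop)
    (hQ : ∀ u ∈ P, ∀ x y, Q (x, y) → Q (u * x * u⁻¹, u * y * u⁻¹)) :
    Nat.card {xy : G × G // Q xy} ≡ Nat.card {xy : G × G // Q xy ∧
      (xy.1 ∈ Subgroup.centralizer (P : Set G) ∧ xy.2 ∈ Subgroup.centralizer (P : Set G))}
      [MOD p] := by
  classical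
  letI : MulAction P {xy : G × G // Q xy} :=
    { smul := fun u a => ⟨((u : G) * a.1.1 * (u : G)⁻¹, (u : G) * a.1.2 * (u : G)⁻¹),
        hQ u u.2 a.1.1 a.1.2 a.2⟩
      one_smul := by
        intro a
        apply Subtype.ext
        show (((1 : P) : G) * a.1.1 * ((1 : P) : G)⁻¹, ((1 : P) : G) * a.1.2 * ((1 : P) : G)⁻¹)
          = a.1
        simp
      mul_smul := by
        intro u v a
        apply Subtype.ext
        show (((u * v : P) : G) * a.1.1 * ((u * v : P) : G)⁻¹,
          ((u * v : P) : G) * a.1.2 * ((u * v : P) : G)⁻¹) =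
          ((u : G) * ((v : G) * a.1.1 * (v : G)⁻¹) * (u : G)⁻¹,
            (u : G) * ((v : G) * a.1.2 * (v : G)⁻¹) * (u : G)⁻¹)
        simp [mul_assoc] }
  have h1 := hP.card_modEq_card_fixedPoints {xy : G × G // Q xy}
  have hsm : ∀ (u : P) (a : {xy : G × G // Q xy}),
      ((u • a : {xy : G × G // Q xy}) : G × G) =
        ((u : G) * a.1.1 * (u : G)⁻¹, (u : G) * a.1.2 * (u : G)⁻¹) := fun u a => rfl
  have key : ∀ a : {xy : G × G // Q xy}, a ∈ MulAction.fixedPoints P {xy : G × G // Q xy} ↔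
      (a.1.1 ∈ Subgroup.centralizer (P : Set G) ∧ a.1.2 ∈ Subgroup.centralizer (P : Set G)) := by
    intro a
    rw [MulAction.mem_fixedPoints, Subgroup.mem_centralizer_iff, Subgroup.mem_centralizer_iff]
    constructor
    · intro h
      constructor
      · intro u hu
        have := congrArg (fun z : {xy : G × G // Q xy} => (z : G × G).1) (h ⟨u, hu⟩)
        simp only [hsm] at this
        calc u * a.1.1 = u * a.1.1 * u⁻¹ * u := by group
          _ = a.1.1 * u := by rw [this]
      · intro u hu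
        have := congrArg (fun z : {xy : G × G // Q xy} => (z : G × G).2) (h ⟨u, hu⟩)
        simp only [hsm] at this
        calc u * a.1.2 = u * a.1.2 * u⁻¹ * u := by group
          _ = a.1.2 * u := by rw [this]
    · rintro ⟨h1, h2⟩ u
      apply Subtype.ext
      rw [hsm]
      apply Prod.ext
      · show (u : G) * a.1.1 * (u : G)⁻¹ = a.1.1
        rw [h1 u u.2]; group
      · show (u : G) * a.1.2 * (u : G)⁻¹ = a.1.2
        rw [h2 u u.2]; group
  refine h1.trans ?_
  have e : ↥(MulAction.fixedPoints P {xy : G × G // Q xy}) ≃ {xy : G × G // Q xy ∧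
      (xy.1 ∈ Subgroup.centralizer (P : Set G) ∧ xy.2 ∈ Subgroup.centralizer (P : Set G))} :=
    (Equiv.subtypeEquivRight key).trans (Equiv.subtypeSubtypeEquivSubtypeInter Q
      (fun xy => xy.1 ∈ Subgroup.centralizer (P : Set G) ∧
        xy.2 ∈ Subgroup.centralizer (P : Set G)))
  rw [Nat.card_congr e]

/-- Let P be a p-subgroup of the finite group G, let c centralize P and let g, h ∈ G. The number of pairs (x, y) with x conjugate to g, y conjugate to h and x * y = c is congruent modulo p to the number of such pairs in which x and y both centralize P. (This is why the Brauer map on class sums is multiplicative.) -/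
theorem result {G : Type*} [Group G] [Finite G] (p : ℕ) [Fact p.Prime] (P : Subgroup G) (hP : IsPGroup p P) (c : G) (hc : c ∈ Subgroup.centralizer (P : Set G)) (g h : G) : Nat.card {xy : G × G // IsConj g xy.1 ∧ IsConj h xy.2 ∧ xy.1 * xy.2 = c} ≡ Nat.card {xy : G × G // IsConj g xy.1 ∧ IsConj h xy.2 ∧ xy.1 * xy.2 = c ∧ xy.1 ∈ Subgroup.centralizer (P : Set G) ∧ xy.2 ∈ Subgroup.centralizer (P : Set G)} [MOD p] := by
  have h1 := pfix p P hP (fun xy : G × G => IsConj g xy.1 ∧ IsConj h xy.2 ∧ xy.1 * xy.2 = c) (by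
    rintro u hu x y ⟨h1, h2, h3⟩
    refine ⟨h1.trans (isConj_iff.mpr ⟨u, rfl⟩), h2.trans (isConj_iff.mpr ⟨u, rfl⟩), ?_⟩
    show u * x * u⁻¹ * (u * y * u⁻¹) = c
    rw [Subgroup.mem_centralizer_iff] at hc
    calc u * x * u⁻¹ * (u * y * u⁻¹) = u * (x * y) * u⁻¹ := by group
      _ = u * c * u⁻¹ := by rw [h3]
      _ = c := by rw [hc u hu]; group)
  refine h1.trans ?_
  rw [Nat.card_congr (Equiv.subtypeEquivRight (fun xy : G × G => by
    show (IsConj g xy.1 ∧ IsConj h xy.2 ∧ xy.1 * xy.2 = c) ∧ (xy.1 ∈ Subgroup.centralizer (P : Set G) ∧ xy.2 ∈ Subgroup.centralizer (P : Set G)) ↔ (IsConj g xy.1 ∧ IsConj h xy.2 ∧ xy.1 * xy.2 = c ∧ xy.1 ∈ Subgroup.centralizer (P : Set G) ∧ xy.2 ∈ Subgroup.centralizer (P : Set G))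
    tauto))]

end Cfsg.Agent.S0903
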