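import Cfsg.Statements.S0910
import Cfsg.Agent.Lib.Helper6.BlockProj3
import Cfsg.Agent.Lib.Lead.CharBurnside

set_option autoImplicit false
open Cfsg

namespace Cfsg.Agent.S0910

/-- Let G be a non-abelian finite simple group and p a prime. If an irreducible character χ lies in the principal block (relative to a maximal ideal of the algebraic integers containing p) and χ 1 is a power of p, then χ is the principal character. -/
theorem result {G : Type*} [Group G] [Finite G] (p : ℕ) [Fact p.Prime] (M : Ideal Cfsg.AlgInt) (hM : Cfsg.IsPModular p M) [IsSimpleGroup G] (hna : ∃ a b : G, a * b ≠ b * a) (χ : Cfsg.IrrCharacter G) (hχ : χ ∈ Cfsg.principalBlock M G) (k : ℕ) (hdeg : (χ : G → ℂ) 1 = (p : ℂ) ^ k) : (χ : G → ℂ) = fun _ => 1 := by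
  classical
  haveI := Fintype.ofFinite G
  by_contra hne
  obtain ⟨n, ρ, hirr, hρ⟩ := χ.2
  haveI := hirr
  have hMp := hM.2.1.isPrime
  have hp := hM.1
  have hcomm : ¬ ∀ a b : G, a * b = b * a := by
    obtain ⟨a, b, hab⟩ := hna
    exact fun h => hab (h a b)
  have hfin : Module.finrank ℂ (Fin n → ℂ) = p ^ k := by
    have h1 : ρ.character 1 = (p : ℂ) ^ k := by
      rw [hρ]
      exact hdeg
    rw [Representation.char_one] at h1
    exact_mod_cast h1
  obtain ⟨P⟩ : Nonempty (Sylow p G) := inferInstance
  have hg : ∃ g : G, g ≠ 1 ∧ (P : Subgroup G) ≤ Subgroup.centralizer {g} := by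
    by_cases hPt : Nontrivial (P : Subgroup G)
    · haveI := hPt
      haveI hc := P.isPGroup'.center_nontrivial
      obtain ⟨z, hz⟩ := exists_ne (1 : Subgroup.center (P : Subgroup G))
      refine ⟨((z : (P : Subgroup G)) : G), ?_, ?_⟩
      · intro h
        apply hz
        apply Subtype.ext
        apply Subtype.ext
        exact h
      · intro x hx
        rw [Subgroup.mem_centralizer_iff]
        intro y hy
        rw [Set.mem_singleton_iff] at hy
        subst hy
        have h1 := Subgroup.mem_center_iff.1 z.2 ⟨x, hx⟩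
        have h2 := congrArg Subtype.val h1
        exact h2.symm
    · rw [not_nontrivial_iff_subsingleton] at hPt
      obtain ⟨g, hg⟩ := exists_ne (1 : G)
      refine ⟨g, hg, ?_⟩
      intro x hx
      have h1 : (⟨x, hx⟩ : (P : Subgroup G)) = 1 := Subsingleton.elim _ _
      have hx1 : x = 1 := congrArg Subtype.val h1
      rw [hx1]
      exact Subgroup.one_mem _
  obtain ⟨g, hg1, hPg⟩ := hg
  have hnd : ¬ p ∣ (Subgroup.centralizer ({g} : Set G)).index := by
    intro h
    exact P.not_dvd_index (dvd_trans h (Subgroup.index_dvd_of_le hPg))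
  have hcop : Nat.Coprime (Module.finrank ℂ (Fin n → ℂ))
      (Subgroup.centralizer ({g} : Set G)).index := by
    rw [hfin]
    exact Nat.Coprime.pow_left k ((Nat.Prime.coprime_iff_not_dvd hp).2 hnd)
  have hχg : ρ.character g = 0 := by
    rcases Cfsg.Agent.Lib.Lead.char_zero_or_norm_eq_of_coprime ρ g hcop with h | h
    · exact h
    · exact absurd h (Cfsg.Agent.Lib.Lead.norm_char_ne_of_simple ρ hcomm
        (by rw [hρ]; exact hne) g hg1)
  have hb := hχ g
  unfold Cfsg.centralChar at hb
  rw [← hρ, hχg] at hb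
  simp only [mul_one, div_one, mul_zero, zero_div, sub_zero] at hb
  exact hnd (Cfsg.Agent.Lib.Helper6.li_nat_dvd p M hM _ hb)

end Cfsg.Agent.S0910
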