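import Cfsg.Statements.S0926
import Cfsg.Agent.Lib.Helper6.BlockGreen
import Cfsg.Agent.Lib.Helper6.BlockPelt

set_option autoImplicit false
open Cfsg

namespace Cfsg.Agent.S0926

/-- Let B be a block of the finite group G with defect group D (relative to a maximal ideal M of the algebraic integers containing p), let χ ∈ B have height zero, and let x be a p-element. Then some conjugate of x lies in D if and only if χ does not vanish on the whole p-section of x (the elements whose p-part is conjugate to x). -/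
theorem result {G : Type*} [Group G] [Finite G] (p : ℕ) [Fact p.Prime] (M : Ideal Cfsg.AlgInt) (hM : Cfsg.IsPModular p M) (B : Set (Cfsg.IrrCharacter G)) (hB : Cfsg.IsPBlock M B) (D : Subgroup G) (hD : Cfsg.IsDefectGroup p M B D) (χ : Cfsg.IrrCharacter G) (hχ : χ ∈ B) (h0 : Cfsg.blockHeight p B (χ : G → ℂ) = 0) (x : G) (hx : ∃ k : ℕ, orderOf x = p ^ k) : (∃ g : G, g * x * g⁻¹ ∈ D) ↔ ∃ u : G, (∃ z : G, Cfsg.IsPPart p u z ∧ IsConj x z) ∧ (χ : G → ℂ) u ≠ 0 := by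
  have hz0 : Cfsg.MemLocalIdeal M 0 :=
    Cfsg.Agent.Lib.Helper6.li_zero M (Cfsg.Agent.Lib.Helper6.lr_one_notMem p M hM)
  constructor
  · rintro ⟨g, hg⟩
    obtain ⟨g₀, hg₀, P, rfl⟩ := hD
    obtain ⟨k, hk⟩ := hx
    obtain ⟨c, hc, hcx⟩ := hg
    have hcomm : Commute (g * x * g⁻¹) g₀ := by
      have h1 := c.2
      rw [Subgroup.mem_centralizer_iff] at h1
      have h2 := (h1 g₀ rfl).symm
      have h3 : (c : G) = g * x * g⁻¹ := hcx
      rw [h3] at h2
      exact h2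
    have hord : orderOf (g * x * g⁻¹) = p ^ k := by
      rw [← hk]
      exact (MulAut.conj g).orderOf_eq x
    have hunit := Cfsg.Agent.Lib.Helper6.defect_char_unit p M hM B hB g₀ hg₀ (g * x * g⁻¹)
      hcomm k hord χ hχ h0
    have hreg : ¬ p ∣ orderOf g₀ := by
      intro hdiv
      apply hg₀.2.1
      rw [Cfsg.Agent.Lib.Helper6.blockCoeff_psingular p M hM B
        (Cfsg.Agent.Lib.Helper6.block_closed M hM.2.1.isPrime B hB) g₀ hdiv]
      exact hz0
    refine ⟨g * x * g⁻¹ * g₀, ⟨g * x * g⁻¹, ⟨g₀, rfl, hcomm, ⟨k, hord⟩, hreg⟩,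
      isConj_iff.2 ⟨g, rfl⟩⟩, ?_⟩
    intro h0'
    apply hunit
    rw [h0']
    exact hz0
  · rintro ⟨u, ⟨z, hz, hxz⟩, hu⟩
    by_contra hno
    apply hu
    apply Cfsg.Agent.Lib.Helper6.char_vanish_off_defect p M hM B hB u z hz ?_ χ hχ
    intro D' hD' hzD'
    apply hno
    obtain ⟨g₀, hg₀, P, rfl⟩ := hD
    obtain ⟨g', hg', P', rfl⟩ := hD'
    obtain ⟨t, ht⟩ := Cfsg.Agent.Lib.Helper6.minmax_a p M hM B hB g₀ hg₀ P g' hg'.2.1 P'
    obtain ⟨d, hd, hdz⟩ := ht hzD'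
    obtain ⟨c, hc⟩ := isConj_iff.1 hxz
    refine ⟨t⁻¹ * c, ?_⟩
    have h1 : t * d * t⁻¹ = z := hdz
    have h2 : t⁻¹ * c * x * (t⁻¹ * c)⁻¹ = d := by
      calc t⁻¹ * c * x * (t⁻¹ * c)⁻¹ = t⁻¹ * (c * x * c⁻¹) * t := by group
        _ = t⁻¹ * (t * d * t⁻¹) * t := by rw [hc, h1]
        _ = d := by group
    rw [h2]
    exact hd

end Cfsg.Agent.S0926
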