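import Cfsg.Statements.S0933
import Cfsg.Agent.Lib.Helper6.BlockCover3
import Cfsg.Agent.Lib.Lead.CharCentral

set_option autoImplicit false
open Cfsg

namespace Cfsg.Agent.S0933

/-- Let H be a subgroup of the finite group G and ξ an irreducible character of H such that the induced function ξ^G is an irreducible character of G. Then, relative to any maximal ideal M of the algebraic integers containing the prime p, the block of ξ induces the block of ξ^G. -/
theorem result {G : Type*} [Group G] [Fintype G] (p : ℕ) [Fact p.Prime] (M : Ideal Cfsg.AlgInt) (hM : Cfsg.IsPModular p M) (H : Subgroup G) (ξ : Cfsg.IrrCharacter H) (hind : Cfsg.IsIrrCharacter G (Cfsg.indFun H (ξ : H → ℂ))) : Cfsg.IsInducedBlock M H (Cfsg.blockOf M (ξ : H → ℂ)) (Cfsg.blockOf M (Cfsg.indFun H (ξ : H → ℂ))) := by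
  classical
  haveI : Fintype H := Fintype.ofFinite H
  have hMp := hM.2.1.isPrime
  refine ⟨⟨ξ, rfl⟩, ⟨⟨_, hind⟩, rfl⟩, fun ξ' hξ' χ hχ g => ?_⟩
  have h1 := Cfsg.Agent.Lib.Helper6.icc_sb p M hM H ξ' ξ
    (Cfsg.Agent.Lib.Helper6.sb_symm hMp hξ') g
  rw [Cfsg.Agent.Lib.Lead.inducedCentralChar_eq H (ξ : H → ℂ) g] at h1
  have h2 := hχ g
  have h3 := Cfsg.Agent.Lib.Helper6.li_add hMp h1 h2
  rwa [sub_add_sub_cancel] at h3

end Cfsg.Agent.S0933
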