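import Cfsg.Statements.S0939
import Cfsg.Agent.Lib.Helper6.BlockQuot

set_option autoImplicit false
open Cfsg

namespace Cfsg.Agent.S0939

/-- Let G be a finite group with a normal p-complement (the largest normal subgroup O_p'(G) of order prime to p has p-power index). Then, relative to any maximal ideal M of the algebraic integers containing p, the principal block of G is the set of irreducible characters χ with χ n = χ 1 for every n ∈ O_p'(G). -/
theorem result {G : Type*} [Group G] [Finite G] (p : ℕ) [Fact p.Prime] (M : Ideal Cfsg.AlgInt) (hM : Cfsg.IsPModular p M) (hnc : ∃ k : ℕ, (Cfsg.pPrimeCore p G).index = p ^ k) : Cfsg.principalBlock M G = {χ : Cfsg.IrrCharacter G | ∀ n ∈ Cfsg.pPrimeCore p G, (χ : G → ℂ) n = (χ : G → ℂ) 1} := by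
  classical
  haveI := Fintype.ofFinite G
  haveI := Cfsg.Agent.Lib.Helper7.pPrimeCore_normal p G
  haveI : Fintype (Cfsg.pPrimeCore p G) := Fintype.ofFinite _
  have hcop := Cfsg.Agent.Lib.Helper7.pPrimeCore_coprime p G
  have hN : ¬ p ∣ Nat.card (Cfsg.pPrimeCore p G) := by
    intro hd
    have := Nat.Coprime.eq_one_of_dvd hcop.symm hd
    exact (Fact.out : p.Prime).one_lt.ne' this
  obtain ⟨k, hk⟩ := hnc
  have hPg : IsPGroup p (G ⧸ Cfsg.pPrimeCore p G) :=
    IsPGroup.of_card (n := k) (by rw [← hk, Subgroup.index_eq_card])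
  ext χ
  constructor
  · intro hχ n hn
    have h1 := Cfsg.Agent.Lib.Helper6.bcf_constituent p M hM (Cfsg.pPrimeCore p G) hN
      ⟨fun _ => 1, Cfsg.Agent.Lib.Lead.isIrrCharacter_one G⟩ χ hχ (fun _ => 1)
      (Cfsg.Agent.Lib.Lead.isIrrCharacter_one _)
    refine Cfsg.Agent.Lib.Helper6.bq_triv_const _ χ (h1.1 ?_) n hn
    rw [Cfsg.Agent.Lib.Lead.irr_orthonormal (Cfsg.Agent.Lib.Lead.isIrrCharacter_one _)
      (Cfsg.Agent.Lib.Lead.isIrrCharacter_one _), if_pos rfl]
    exact one_ne_zero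
  · intro hχ
    obtain ⟨β, hβ⟩ := Cfsg.Agent.Lib.Helper6.bq_descend (Cfsg.pPrimeCore p G) χ hχ
    show Cfsg.SameBlock M (fun _ => 1) (χ : G → ℂ)
    rw [hβ]
    exact Cfsg.Agent.Lib.Helper6.bq_pquot p M hM _ hPg β

end Cfsg.Agent.S0939
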