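import Cfsg.Statements.S0941
import Cfsg.Agent.Lib.Helper6.BlockInfl

set_option autoImplicit false
open Cfsg

namespace Cfsg.Agent.S0941

/-- Let P be a normal p-subgroup of the finite group G such that the index of C_G(P) is a power of p, and fix a maximal ideal M of the algebraic integers containing p. Then (i) two irreducible characters of G ⧸ P lie in the same block if and only if their inflations to G do, and (ii) every block of G contains the inflation of some irreducible character of G ⧸ P; so inflation induces a bijection between the blocks of G ⧸ P and the blocks of G. -/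
theorem result {G : Type*} [Group G] [Finite G] (p : ℕ) [Fact p.Prime] (M : Ideal Cfsg.AlgInt) (hM : Cfsg.IsPModular p M) (P : Subgroup G) [P.Normal] (hP : IsPGroup p P) (hC : ∃ k : ℕ, (Subgroup.centralizer (P : Set G)).index = p ^ k) : (∀ χ ψ : Cfsg.IrrCharacter (G ⧸ P), Cfsg.SameBlock M (χ : G ⧸ P → ℂ) (ψ : G ⧸ P → ℂ) ↔ Cfsg.SameBlock M ((χ : G ⧸ P → ℂ) ∘ QuotientGroup.mk) ((ψ : G ⧸ P → ℂ) ∘ QuotientGroup.mk)) ∧ ∀ B : Set (Cfsg.IrrCharacter G), Cfsg.IsPBlock M B → ∃ χ : Cfsg.IrrCharacter (G ⧸ P), ∃ θ ∈ B, (θ : G → ℂ) = (χ : G ⧸ P → ℂ) ∘ QuotientGroup.mk := by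
  classical
  haveI := Fintype.ofFinite G
  haveI : Finite (Cfsg.IrrCharacter G) := Cfsg.Agent.Lib.Lead.irr_finite'
  haveI := Fintype.ofFinite (Cfsg.IrrCharacter G)
  haveI := Fintype.ofFinite P
  have hMp := hM.2.1.isPrime
  have hpp : p.Prime := hM.1
  constructor
  · intro χ ψ
    constructor
    · intro h
      exact Cfsg.Agent.Lib.Helper6.sameBlock_inflate p M hM P _ _ h
    · intro h
      apply Cfsg.Agent.Lib.Helper6.sameBlock_of_reg p M hM χ ψ
      intro q hq
      obtain ⟨x, rfl, hx⟩ := Cfsg.Agent.Lib.Helper6.exists_preg_lift p P hP q hq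
      have hxC := Cfsg.Agent.Lib.Helper6.preg_centralizes p P hC x hx
      have hcent := Cfsg.Agent.Lib.Helper6.centralizer_quot_preg p P hP x hx hxC
      have hidx : (Subgroup.centralizer ({(QuotientGroup.mk x : G ⧸ P)} : Set (G ⧸ P))).index
          = (Subgroup.centralizer ({x} : Set G)).index := by
        rw [← hcent, Subgroup.index_comap_of_surjective _ (QuotientGroup.mk'_surjective P)]
      have h1 := h x
      have e : ∀ φ : G ⧸ P → ℂ, Cfsg.centralChar φ (QuotientGroup.mk x)
          = Cfsg.centralChar (φ ∘ QuotientGroup.mk) x := by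
        intro φ
        unfold Cfsg.centralChar
        rw [hidx]
        simp only [Function.comp_apply, QuotientGroup.mk_one]
      rw [e, e]
      exact h1
  · intro B hB
    by_contra hno
    push Not at hno
    have hcl := Cfsg.Agent.Lib.Helper6.block_closed M hMp B hB
    obtain ⟨h, hdef⟩ := Cfsg.Agent.Lib.Helper6.defect_class_exists p M hM B hB
    have hne : Cfsg.blockCoeff B h ≠ 0 := by
      intro h0
      apply hdef.2.1
      rw [h0]
      exact Cfsg.Agent.Lib.Helper6.li_zero M (Cfsg.Agent.Lib.Helper6.lr_one_notMem p M hM)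
    have hreg : ¬ p ∣ orderOf h := fun hd =>
      hne (Cfsg.Agent.Lib.Helper6.blockCoeff_psingular p M hM B hcl h hd)
    have hhC := Cfsg.Agent.Lib.Helper6.preg_centralizes p P hC h hreg
    have hsum1 : ∑ z : P, Cfsg.blockCoeff B (h * z) = Cfsg.blockCoeff B h := by
      rw [Finset.sum_eq_single (1 : P)]
      · simp
      · intro z _ hz
        apply Cfsg.Agent.Lib.Helper6.blockCoeff_psingular p M hM B hcl
        have hcomm : Commute h (z : G) := ((Subgroup.mem_centralizer_iff.1 hhC) z z.2).symm
        obtain ⟨j, hj⟩ := (IsPGroup.iff_orderOf.1 hP) z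
        have hj' : orderOf (z : G) = p ^ j := by rw [Subgroup.orderOf_coe, hj]
        have hj0 : j ≠ 0 := by
          rintro rfl
          rw [pow_zero, orderOf_eq_one_iff] at hj
          exact hz hj
        have hco : (orderOf h).Coprime (orderOf (z : G)) := by
          rw [hj']
          exact Nat.Coprime.pow_right j ((Nat.Prime.coprime_iff_not_dvd hpp).2 hreg).symm
        rw [hcomm.orderOf_mul_eq_mul_orderOf_of_coprime hco, hj']
        exact dvd_mul_of_dvd_right (dvd_pow_self p hj0) _
      · intro hh
        exact absurd (Finset.mem_univ _) hh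
    have hsum2 : ∑ z : P, Cfsg.blockCoeff B (h * z) = 0 := by
      simp_rw [Cfsg.Agent.Lib.Helper6.bb_coeff_sum B]
      rw [← Finset.mul_sum, Finset.sum_comm]
      have hz0 : ∀ θ : Cfsg.IrrCharacter G, ∑ z : P, (if θ ∈ B then (θ : G → ℂ) 1 *
          (starRingEnd ℂ) ((θ : G → ℂ) (h * z)) else 0) = 0 := by
        intro θ
        split_ifs with hθ
        · rw [← Finset.mul_sum, ← map_sum,
            Cfsg.Agent.Lib.Helper6.irr_sum_normal_zero P θ _ h, map_zero, mul_zero]
          intro hker
          obtain ⟨β, hβ⟩ := Cfsg.Agent.Lib.Helper6.bq_descend P θ hker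
          exact hno β θ hθ hβ
        · simp
      rw [Finset.sum_congr rfl (fun θ _ => hz0 θ), Finset.sum_const_zero, mul_zero]
    rw [hsum2] at hsum1
    exact hne hsum1.symm

end Cfsg.Agent.S0941
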