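import Cfsg.Statements.S0943
import Cfsg.Agent.Lib.Lead.CharClassMul

set_option autoImplicit false
open Cfsg

namespace Cfsg.Agent.S0943

/-- Let χ be an irreducible character of the finite group G and u, v ∈ G. If χ (x * y) = χ (u * v) whenever x is conjugate to u and y is conjugate to v, then χ u * χ v = χ 1 * χ (u * v). (Multiply the class sums of u and v and apply the central character of χ.) -/
theorem result {G : Type*} [Group G] [Finite G] (χ : Cfsg.IrrCharacter G) (u v : G) (hc : ∀ x y : G, IsConj u x → IsConj v y → (χ : G → ℂ) (x * y) = (χ : G → ℂ) (u * v)) : (χ : G → ℂ) u * (χ : G → ℂ) v = (χ : G → ℂ) 1 * (χ : G → ℂ) (u * v) := by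
  classical
  letI := Fintype.ofFinite G
  obtain ⟨χ, n, ρ, hirr, rfl⟩ := χ
  haveI := hirr
  have hne : (Module.finrank ℂ (Fin n → ℂ) : ℂ) ≠ 0 := by
    exact_mod_cast (Cfsg.Agent.Lib.Lead.finrank_pos_of_irreducible ρ).ne'
  have h := Cfsg.Agent.Lib.Lead.sum_class_class_char ρ u v
  have h2 : ∑ x ∈ Cfsg.Agent.Lib.Lead.classFinset u, ∑ y ∈ Cfsg.Agent.Lib.Lead.classFinset v,
      ρ.character (x * y) =
      ((Cfsg.Agent.Lib.Lead.classFinset u).card : ℂ) *
        ((Cfsg.Agent.Lib.Lead.classFinset v).card : ℂ) * ρ.character (u * v) := by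
    rw [Finset.sum_congr rfl (fun x hx => Finset.sum_congr rfl (fun y hy =>
      hc x y (Cfsg.Agent.Lib.Lead.mem_classFinset.mp hx)
        (Cfsg.Agent.Lib.Lead.mem_classFinset.mp hy)))]
    simp only [Finset.sum_const, nsmul_eq_mul]
    ring
  rw [h2] at h
  have hu : ((Cfsg.Agent.Lib.Lead.classFinset u).card : ℂ) ≠ 0 := by
    have : u ∈ Cfsg.Agent.Lib.Lead.classFinset u :=
      Cfsg.Agent.Lib.Lead.mem_classFinset.mpr (IsConj.refl u)
    exact_mod_cast (Finset.card_pos.mpr ⟨u, this⟩).ne'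
  have hv : ((Cfsg.Agent.Lib.Lead.classFinset v).card : ℂ) ≠ 0 := by
    have : v ∈ Cfsg.Agent.Lib.Lead.classFinset v :=
      Cfsg.Agent.Lib.Lead.mem_classFinset.mpr (IsConj.refl v)
    exact_mod_cast (Finset.card_pos.mpr ⟨v, this⟩).ne'
  show ρ.character u * ρ.character v = ρ.character 1 * ρ.character (u * v)
  rw [Representation.char_one]
  field_simp at h
  rw [← h]; ring

end Cfsg.Agent.S0943
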