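import Cfsg.Statements.S0944
import Cfsg.Agent.Lib.Lead.CharDeg

set_option autoImplicit false
open Cfsg

namespace Cfsg.Agent.S0944

/-- Let χ be an irreducible character of the finite group G and u an involution. Then χ u is a rational integer n with n ≡ χ 1 (mod 2). -/
theorem result {G : Type*} [Group G] [Finite G] (χ : Cfsg.IrrCharacter G) (u : G) (hu : orderOf u = 2) : ∃ n : ℤ, (χ : G → ℂ) u = (n : ℂ) ∧ (2 : ℤ) ∣ (Cfsg.charDegree (χ : G → ℂ) : ℤ) - n := by
  classical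
  obtain ⟨χ, n, ρ, hirr, rfl⟩ := χ
  obtain ⟨ι, _, b, μ, h1, h2⟩ := Cfsg.Agent.Lib.Lead.exists_eigen_data ρ u
  rw [hu] at h2
  have e1 : ρ.character u = ∑ i, μ i :=
    Cfsg.Agent.Lib.Lead.trace_eq_sum_of_eigenbasis b (ρ u) μ h1
  have hμ : ∀ i, μ i = 1 ∨ μ i = -1 := fun i => sq_eq_one_iff.mp (h2 i)
  refine ⟨(Fintype.card ι : ℤ) - 2 * ((Finset.univ.filter (fun i => μ i = -1)).card : ℤ), ?_, ?_⟩
  · show ρ.character u = _
    rw [e1]
    have h3 : ∀ i, μ i = 1 - 2 * (if μ i = -1 then (1:ℂ) else 0) := by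
      intro i
      rcases hμ i with h | h
      · rw [h]; norm_num
      · rw [h]; norm_num
    rw [Finset.sum_congr rfl (fun i _ => h3 i)]
    rw [Finset.sum_sub_distrib, ← Finset.mul_sum, Finset.sum_boole]
    simp
  · show (2:ℤ) ∣ (Cfsg.charDegree ρ.character : ℤ) - _
    rw [Cfsg.Agent.Lib.Lead.charDegree_character, Module.finrank_eq_card_basis b]
    exact ⟨((Finset.univ.filter (fun i => μ i = -1)).card : ℤ), by ring⟩

end Cfsg.Agent.S0944
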