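import Mathlib
import Cfsg.Statements.S0946
import Cfsg.Agent.Lib.Helper8.Basic

set_option autoImplicit false
open Cfsg

namespace Cfsg.Agent.S0946

theorem zm (m : ℕ) (hm : 1 ≤ m) :
    ∃ h : ZMod (2 ^ m), h ≠ 0 ∧ h + h = 0 ∧ ∀ a : ZMod (2 ^ m), a + a = 0 → a = 0 ∨ a = h := by
  obtain ⟨j, rfl⟩ : ∃ j, m = j + 1 := ⟨m - 1, by omega⟩
  haveI : NeZero (2 ^ (j + 1)) := ⟨by positivity⟩
  have hpos : 0 < 2 ^ j := by positivity
  have hsucc : 2 ^ (j + 1) = 2 ^ j + 2 ^ j := by rw [pow_succ]; omega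
  refine ⟨((2 ^ j : ℕ) : ZMod (2 ^ (j + 1))), ?_, ?_, ?_⟩
  · intro h0
    rw [ZMod.natCast_eq_zero_iff] at h0
    have := Nat.le_of_dvd hpos h0
    omega
  · rw [← Nat.cast_add, ZMod.natCast_eq_zero_iff, hsucc]
  · intro a ha
    have hv : ((a.val : ℕ) : ZMod (2 ^ (j + 1))) = a := ZMod.natCast_zmod_val a
    have hlt : a.val < 2 ^ (j + 1) := ZMod.val_lt a
    have h2 : (((a.val + a.val : ℕ)) : ZMod (2 ^ (j + 1))) = 0 := by
      rw [Nat.cast_add, hv]; exact ha
    rw [ZMod.natCast_eq_zero_iff] at h2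
    obtain ⟨c, hc⟩ := h2
    have hc2 : c < 2 := by
      by_contra hcon
      push_neg at hcon
      have : 2 ^ (j + 1) * 2 ≤ 2 ^ (j + 1) * c := Nat.mul_le_mul_left _ hcon
      omega
    interval_cases c
    · left
      have : a.val = 0 := by omega
      rw [← hv, this]; simp
    · right
      have : a.val = 2 ^ j := by omega
      rw [← hv, this]

theorem einv (m : ℕ) (hm : 1 ≤ m) :
    ∃ a b c : Multiplicative (ZMod (2 ^ m) × ZMod (2 ^ m)), a ≠ b ∧ a ≠ c ∧ b ≠ c ∧
      orderOf a = 2 ∧ orderOf b = 2 ∧ orderOf c = 2 ∧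
      ∀ x : Multiplicative (ZMod (2 ^ m) × ZMod (2 ^ m)), orderOf x = 2 →
        x = a ∨ x = b ∨ x = c := by
  obtain ⟨h, h0, hh, hall⟩ := zm m hm
  have ho : ∀ p q : ZMod (2 ^ m), p + p = 0 → q + q = 0 → (p ≠ 0 ∨ q ≠ 0) →
      orderOf (Multiplicative.ofAdd ((p, q) : ZMod (2 ^ m) × ZMod (2 ^ m))) = 2 := by
    intro p q hp hq hne
    refine orderOf_eq_prime ?_ ?_
    · rw [sq, ← ofAdd_add, Prod.mk_add_mk, hp, hq]; rfl
    · intro h1
      have : ((p, q) : ZMod (2 ^ m) × ZMod (2 ^ m)) = 0 := Multiplicative.ofAdd.injective h1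
      rw [Prod.mk_eq_zero] at this
      tauto
  refine ⟨Multiplicative.ofAdd (h, 0), Multiplicative.ofAdd (0, h), Multiplicative.ofAdd (h, h),
    ?_, ?_, ?_, ho _ _ hh (by simp) (Or.inl h0), ho _ _ (by simp) hh (Or.inr h0),
    ho _ _ hh hh (Or.inl h0), ?_⟩
  · intro hab
    have := Multiplicative.ofAdd.injective hab
    rw [Prod.mk.injEq] at this
    exact h0 this.1
  · intro hab
    have := Multiplicative.ofAdd.injective hab
    rw [Prod.mk.injEq] at this
    exact h0 this.2.symm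
  · intro hab
    have := Multiplicative.ofAdd.injective hab
    rw [Prod.mk.injEq] at this
    exact h0 this.1.symm
  · intro x hx
    have hx2 : x ^ 2 = 1 := by have := pow_orderOf_eq_one x; rwa [hx] at this
    have hx1 : x ≠ 1 := by intro h1; rw [h1, orderOf_one] at hx; omega
    obtain ⟨⟨p, q⟩, rfl⟩ : ∃ y, x = Multiplicative.ofAdd y := ⟨Multiplicative.toAdd x, rfl⟩
    have h3 : ((p, q) : ZMod (2 ^ m) × ZMod (2 ^ m)) + (p, q) = 0 := by
      have := hx2; rw [sq] at this; exact Multiplicative.ofAdd.injective this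
    rw [Prod.mk_add_mk, Prod.mk_eq_zero] at h3
    rcases hall p h3.1 with rfl | rfl <;> rcases hall q h3.2 with rfl | rfl
    · exact absurd rfl hx1
    · right; left; rfl
    · left; rfl
    · right; right; rfl

theorem perm3a {α : Type*} (σ : α → α) (a b c : α) (hab : a ≠ b) (hac : a ≠ c) (hbc : b ≠ c)
    (hinj : Function.Injective σ)
    (hmap : ∀ x, (x = a ∨ x = b ∨ x = c) → (σ x = a ∨ σ x = b ∨ σ x = c))
    (hfix : σ a = a ∨ σ b = b ∨ σ c = c) :
    ∀ x, (x = a ∨ x = b ∨ x = c) → σ (σ x) = x := by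
  have ha := hmap a (Or.inl rfl)
  have hb := hmap b (Or.inr (Or.inl rfl))
  have hc := hmap c (Or.inr (Or.inr rfl))
  have n1 : σ a ≠ σ b := fun h => hab (hinj h)
  have n2 : σ a ≠ σ c := fun h => hac (hinj h)
  have n3 : σ b ≠ σ c := fun h => hbc (hinj h)
  intro x hx
  rcases ha with ha | ha | ha <;> rcases hb with hb | hb | hb <;> rcases hc with hc | hc | hc <;>
    rcases hx with rfl | rfl | rfl <;> simp_all

theorem perm3b {α : Type*} (σ : α → α) (a b c : α) (hab : a ≠ b) (hac : a ≠ c) (hbc : b ≠ c)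
    (hinj : Function.Injective σ)
    (hmap : ∀ x, (x = a ∨ x = b ∨ x = c) → (σ x = a ∨ σ x = b ∨ σ x = c))
    (hfix : σ a ≠ a ∧ σ b ≠ b ∧ σ c ≠ c) :
    (σ a = b ∧ σ b = c) ∨ (σ a = c ∧ σ c = b) := by
  have ha := hmap a (Or.inl rfl)
  have hb := hmap b (Or.inr (Or.inl rfl))
  have hc := hmap c (Or.inr (Or.inr rfl))
  have n1 : σ a ≠ σ b := fun h => hab (hinj h)
  have n2 : σ a ≠ σ c := fun h => hac (hinj h)
  have n3 : σ b ≠ σ c := fun h => hbc (hinj h)
  rcases ha with ha | ha | ha <;> rcases hb with hb | hb | hb <;> rcases hc with hc | hc | hc <;>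
    simp_all

/-- Let P be a Sylow 2-subgroup of the finite group G isomorphic to Z/2^m × Z/2^m with m ≥ 1. Then either P has a normal complement in G, or all involutions of G are conjugate. -/
theorem result {G : Type*} [Group G] [Finite G] (P : Sylow 2 G) (m : ℕ) (hm : 1 ≤ m) (e : (P : Subgroup G) ≃* Multiplicative (ZMod (2 ^ m) × ZMod (2 ^ m))) : (∃ N : Subgroup G, N.Normal ∧ Subgroup.IsComplement' N (P : Subgroup G)) ∨ ∀ s t : G, orderOf s = 2 → orderOf t = 2 → IsConj s t := by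
  classical
  obtain ⟨a, b, c, hab, hac, hbc, hoa, hob, hoc, hall⟩ := einv m hm
  have hcomm : ∀ x ∈ (P : Subgroup G), ∀ y ∈ (P : Subgroup G), x * y = y * x := by
    intro x hx y hy
    have h1 : e (⟨x, hx⟩ * ⟨y, hy⟩) = e (⟨y, hy⟩ * ⟨x, hx⟩) := by
      rw [map_mul, map_mul, mul_comm]
    exact congrArg Subtype.val (e.injective h1)
  have ho : ∀ z : Multiplicative (ZMod (2 ^ m) × ZMod (2 ^ m)),
      orderOf ((e.symm z : (P : Subgroup G)) : G) = orderOf z := by
    intro z
    rw [Subgroup.orderOf_coe, MulEquiv.orderOf_eq]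
  obtain ⟨A, hA⟩ : ∃ A : G, A = ((e.symm a : (P : Subgroup G)) : G) := ⟨_, rfl⟩
  obtain ⟨B, hB⟩ : ∃ B : G, B = ((e.symm b : (P : Subgroup G)) : G) := ⟨_, rfl⟩
  obtain ⟨C, hC⟩ : ∃ C : G, C = ((e.symm c : (P : Subgroup G)) : G) := ⟨_, rfl⟩
  have hAP : A ∈ (P : Subgroup G) := by rw [hA]; exact (e.symm a).2
  have hBP : B ∈ (P : Subgroup G) := by rw [hB]; exact (e.symm b).2
  have hCP : C ∈ (P : Subgroup G) := by rw [hC]; exact (e.symm c).2
  have hAo : orderOf A = 2 := by rw [hA, ho, hoa]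
  have hBo : orderOf B = 2 := by rw [hB, ho, hob]
  have hCo : orderOf C = 2 := by rw [hC, ho, hoc]
  have hAB : A ≠ B := by
    rw [hA, hB]; intro h
    exact hab (e.symm.injective (Subtype.ext h))
  have hAC : A ≠ C := by
    rw [hA, hC]; intro h
    exact hac (e.symm.injective (Subtype.ext h))
  have hBC : B ≠ C := by
    rw [hB, hC]; intro h
    exact hbc (e.symm.injective (Subtype.ext h))
  have hinv : ∀ u ∈ (P : Subgroup G), orderOf u = 2 → u = A ∨ u = B ∨ u = C := by
    intro u hu hou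
    have h1 : orderOf (e ⟨u, hu⟩) = 2 := by
      rw [MulEquiv.orderOf_eq]
      exact (Subgroup.orderOf_coe (⟨u, hu⟩ : (P : Subgroup G))).symm.trans hou
    rcases hall _ h1 with h | h | h
    · left; rw [hA, ← h]; simp
    · right; left; rw [hB, ← h]; simp
    · right; right; rw [hC, ← h]; simp
  have hinv' : ∀ u, (u = A ∨ u = B ∨ u = C) → u ∈ (P : Subgroup G) ∧ orderOf u = 2 := by
    rintro u (rfl | rfl | rfl)
    · exact ⟨hAP, hAo⟩
    · exact ⟨hBP, hBo⟩
    · exact ⟨hCP, hCo⟩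
  -- conjugation by normalizer elements
  have hmap : ∀ g ∈ Subgroup.normalizer ((P : Subgroup G) : Set G), ∀ x,
      (x = A ∨ x = B ∨ x = C) → (g * x * g⁻¹ = A ∨ g * x * g⁻¹ = B ∨ g * x * g⁻¹ = C) := by
    intro g hg x hx
    obtain ⟨hxP, hxo⟩ := hinv' x hx
    refine hinv _ ((Subgroup.mem_normalizer_iff.mp hg x).mp hxP) ?_
    rw [Cfsg.Agent.Lib.Helper8.h8_orderOf_conj, hxo]
  have hinj : ∀ g : G, Function.Injective (fun x : G => g * x * g⁻¹) := by
    intro g x y hxy
    simpa using hxy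
  -- odd power in P
  have hodd : ∀ g ∈ Subgroup.normalizer ((P : Subgroup G) : Set G),
      ∃ j : ℕ, g ^ (2 * j + 1) ∈ (P : Subgroup G) := by
    intro g hg
    obtain ⟨r, k, hk, hord⟩ := Nat.exists_eq_two_pow_mul_odd (orderOf_pos g).ne'
    obtain ⟨j, rfl⟩ := hk
    refine ⟨j, ?_⟩
    have h1 : (g ^ (2 * j + 1)) ^ (2 ^ r) = 1 := by
      rw [← pow_mul, mul_comm, ← hord]; exact pow_orderOf_eq_one g
    obtain ⟨r', -, hr'⟩ := (Nat.dvd_prime_pow Nat.prime_two).1 (orderOf_dvd_of_pow_eq_one h1)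
    have hp : IsPGroup 2 (Subgroup.zpowers (g ^ (2 * j + 1))) :=
      IsPGroup.of_card (n := r') (by rw [Nat.card_zpowers]; exact hr')
    exact Cfsg.Agent.Lib.Helper8.h8_mem_sylow_of_mem_normalizer P (pow_mem hg _) hp
  -- (K)
  have hK : ∀ g ∈ Subgroup.normalizer ((P : Subgroup G) : Set G),
      (g * A * g⁻¹ = A ∨ g * B * g⁻¹ = B ∨ g * C * g⁻¹ = C) →
      ∀ u, (u = A ∨ u = B ∨ u = C) → g * u * g⁻¹ = u := by
    intro g hg hfix u hu
    have h2 := perm3a (fun x : G => g * x * g⁻¹) A B C hAB hAC hBC (hinj g) (hmap g hg) hfix u hu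
    obtain ⟨j, hj⟩ := hodd g hg
    have huP := (hinv' u hu).1
    have c1 : Commute (g ^ 2) u := by
      have h3 : g * (g * u * g⁻¹) * g⁻¹ = u := h2
      show g ^ 2 * u = u * g ^ 2
      rw [sq]
      calc g * g * u = g * (g * u * g⁻¹) * g⁻¹ * (g * g) := by group
        _ = u * (g * g) := by rw [h3]
    have c2 : Commute (g ^ (2 * j)) u := by rw [pow_mul]; exact c1.pow_left j
    have c3 : Commute (g ^ (2 * j + 1)) u := hcomm _ hj _ huP
    have c4 : Commute ((g ^ (2 * j))⁻¹ * g ^ (2 * j + 1)) u := c2.inv_left.mul_left c3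
    have e1 : (g ^ (2 * j))⁻¹ * g ^ (2 * j + 1) = g := by rw [pow_succ]; group
    rw [e1] at c4
    have : g * u = u * g := c4
    rw [this]; group
  by_cases hcase : ∀ g ∈ Subgroup.normalizer ((P : Subgroup G) : Set G),
      ∀ u, (u = A ∨ u = B ∨ u = C) → g * u * g⁻¹ = u
  · left
    have hNC : Subgroup.normalizer ((P : Subgroup G) : Set G) ≤
        Subgroup.centralizer ((P : Subgroup G) : Set G) := by
      intro g hg
      obtain ⟨jk, hjk⟩ := hodd g hg
      have key : ∀ j : ℕ, ∀ x ∈ (P : Subgroup G), x ^ (2 ^ j) = 1 → g * x * g⁻¹ = x := by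
        intro j
        induction j with
        | zero =>
          intro x _ hx1
          rw [pow_zero, pow_one] at hx1
          rw [hx1]; group
        | succ j ih =>
          intro x hx hx1
          have hx' : g * x * g⁻¹ ∈ (P : Subgroup G) := (Subgroup.mem_normalizer_iff.mp hg x).mp hx
          have h2 : g * x ^ 2 * g⁻¹ = x ^ 2 :=
            ih (x ^ 2) (pow_mem hx 2) (by rw [← pow_mul, ← pow_succ']; exact hx1)
          obtain ⟨y, hy⟩ : ∃ y : G, y = g * x * g⁻¹ * x⁻¹ := ⟨_, rfl⟩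
          have hyP : y ∈ (P : Subgroup G) := by rw [hy]; exact mul_mem hx' (inv_mem hx)
          have hy2 : y ^ 2 = 1 := by
            have hc : Commute (g * x * g⁻¹) x⁻¹ := hcomm _ hx' _ (inv_mem hx)
            rw [hy, hc.mul_pow, conj_pow, h2, inv_pow, mul_inv_cancel]
          have hxy : g * x * g⁻¹ = y * x := by rw [hy]; group
          have hy1 : y = 1 := by
            by_contra hy1
            have hyo : orderOf y = 2 := orderOf_eq_prime hy2 hy1
            have hgy : g * y * g⁻¹ = y := hcase g hg y (hinv y hyP hyo)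
            have hpow : ∀ i : ℕ, g ^ i * x * (g ^ i)⁻¹ = y ^ i * x := by
              intro i
              induction i with
              | zero => simp
              | succ i ihi =>
                calc g ^ (i + 1) * x * (g ^ (i + 1))⁻¹
                    = g * (g ^ i * x * (g ^ i)⁻¹) * g⁻¹ := by rw [pow_succ']; group
                  _ = g * (y ^ i * x) * g⁻¹ := by rw [ihi]
                  _ = (g * y * g⁻¹) ^ i * (g * x * g⁻¹) := by rw [conj_pow]; group
                  _ = y ^ (i + 1) * x := by rw [hgy, hxy, pow_succ]; group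
            have h5 := hpow (2 * jk + 1)
            have h6 : g ^ (2 * jk + 1) * x * (g ^ (2 * jk + 1))⁻¹ = x := by
              rw [hcomm _ hjk _ hx]; group
            rw [h6] at h5
            have h7 : y ^ (2 * jk + 1) = 1 := by
              have : y ^ (2 * jk + 1) * x = 1 * x := by rw [one_mul]; exact h5.symm
              exact mul_right_cancel this
            rw [pow_succ, pow_mul, hy2, one_pow, one_mul] at h7
            exact hy1 h7
          rw [hxy, hy1, one_mul]
      rw [Subgroup.mem_centralizer_iff]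
      intro x hx
      obtain ⟨j, hj⟩ := P.isPGroup' ⟨x, hx⟩
      have hj' : x ^ (2 ^ j) = 1 := by
        have := congrArg Subtype.val hj
        simpa using this
      have := key j x hx hj'
      calc x * g = g * x * g⁻¹ * g := by rw [this]
        _ = g * x := by group
    exact ⟨(MonoidHom.transferSylow P hNC).ker, MonoidHom.normal_ker _,
      MonoidHom.ker_transferSylow_isComplement' P hNC⟩
  · right
    push_neg at hcase
    obtain ⟨g, hg, u, hu, hne⟩ := hcase
    have hnofix : g * A * g⁻¹ ≠ A ∧ g * B * g⁻¹ ≠ B ∧ g * C * g⁻¹ ≠ C := by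
      refine ⟨fun h => hne (hK g hg (Or.inl h) u hu), fun h => hne (hK g hg (Or.inr (Or.inl h)) u hu),
        fun h => hne (hK g hg (Or.inr (Or.inr h)) u hu)⟩
    have h3 := perm3b (fun x : G => g * x * g⁻¹) A B C hAB hAC hBC (hinj g) (hmap g hg) hnofix
    have hAB' : IsConj A B ∧ IsConj A C := by
      rcases h3 with ⟨h1, h2⟩ | ⟨h1, h2⟩
      · have c1 : IsConj A B := isConj_iff.mpr ⟨g, h1⟩
        have c2 : IsConj B C := isConj_iff.mpr ⟨g, h2⟩
        exact ⟨c1, c1.trans c2⟩
      · have c1 : IsConj A C := isConj_iff.mpr ⟨g, h1⟩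
        have c2 : IsConj C B := isConj_iff.mpr ⟨g, h2⟩
        exact ⟨c1.trans c2, c1⟩
    have hAall : ∀ x, (x = A ∨ x = B ∨ x = C) → IsConj A x := by
      rintro x (rfl | rfl | rfl)
      · exact IsConj.refl _
      · exact hAB'.1
      · exact hAB'.2
    have hto : ∀ s : G, orderOf s = 2 → IsConj A s := by
      intro s hs
      have hp : IsPGroup 2 (Subgroup.zpowers s) :=
        IsPGroup.of_card (n := 1) (by rw [Nat.card_zpowers, hs]; rfl)
      obtain ⟨h, hh⟩ := Cfsg.Agent.Lib.Helper8.h8_exists_conj_sylow_ge P hp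
      have h1 := hh s (Subgroup.mem_zpowers s)
      have h2 : orderOf (h⁻¹ * s * h) = 2 := by
        have := Cfsg.Agent.Lib.Helper8.h8_orderOf_conj h⁻¹ s
        rw [inv_inv] at this
        rw [this, hs]
      have h3 := hAall _ (hinv _ h1 h2)
      refine h3.trans (IsConj.symm (isConj_iff.mpr ⟨h⁻¹, ?_⟩))
      rw [inv_inv]
    intro s t hs ht
    exact (hto s hs).symm.trans (hto t ht)

end Cfsg.Agent.S0946
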