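import Mathlib
import Cfsg.Statements.S0945
import Cfsg.Agent.S0946
import Cfsg.Agent.Lib.Helper8.Basic

set_option autoImplicit false
open Cfsg

namespace Cfsg.Agent.S0945

theorem perm3c {α : Type*} (σ : α → α) (a b c : α) (hab : a ≠ b) (hac : a ≠ c) (hbc : b ≠ c)
    (hinj : Function.Injective σ)
    (hmap : ∀ x, (x = a ∨ x = b ∨ x = c) → (σ x = a ∨ σ x = b ∨ σ x = c))
    (hfix : σ a ≠ a ∧ σ b ≠ b ∧ σ c ≠ c) :
    (σ a = b ∧ σ b = c ∧ σ c = a) ∨ (σ a = c ∧ σ b = a ∧ σ c = b) := by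
  have ha := hmap a (Or.inl rfl)
  have hb := hmap b (Or.inr (Or.inl rfl))
  have hc := hmap c (Or.inr (Or.inr rfl))
  have n1 : σ a ≠ σ b := fun h => hab (hinj h)
  have n2 : σ a ≠ σ c := fun h => hac (hinj h)
  have n3 : σ b ≠ σ c := fun h => hbc (hinj h)
  rcases ha with ha | ha | ha <;> rcases hb with hb | hb | hb <;> rcases hc with hc | hc | hc <;>
    simp_all

theorem homlem {N : Type*} [Group N] {X : Type*} (act : N → X → X) (A B C : X)
    (hAB : A ≠ B) (hAC : A ≠ C) (hBC : B ≠ C)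
    (hmul : ∀ n n' x, act (n * n') x = act n (act n' x))
    (h3 : ∀ n, (act n A = A ∧ act n B = B ∧ act n C = C) ∨
      (act n A = B ∧ act n B = C ∧ act n C = A) ∨ (act n A = C ∧ act n B = A ∧ act n C = B)) :
    ∃ f : N →* Multiplicative (ZMod 3), ∀ n, f n = 1 ↔ act n A = A := by
  classical
  obtain ⟨s, hsdef⟩ : ∃ s : N → ZMod 3, s = fun n =>
    if act n A = A then 0 else if act n A = B then 1 else 2 := ⟨_, rfl⟩
  have d1 : (1 : ZMod 3) ≠ 0 := by decide
  have d2 : (2 : ZMod 3) ≠ 0 := by decide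
  have hs : ∀ n n', s (n * n') = s n + s n' := by
    intro n n'
    rcases h3 n with ⟨a1, a2, a3⟩ | ⟨a1, a2, a3⟩ | ⟨a1, a2, a3⟩ <;>
    rcases h3 n' with ⟨b1, b2, b3⟩ | ⟨b1, b2, b3⟩ | ⟨b1, b2, b3⟩ <;>
    simp [hsdef, hmul, a1, a2, a3, b1, hAB.symm, hAC.symm, hBC.symm] <;>
    decide
  refine ⟨MonoidHom.mk' (fun n => Multiplicative.ofAdd (s n)) (fun a b => by rw [hs]; rfl), ?_⟩
  intro n
  show Multiplicative.ofAdd (s n) = 1 ↔ _
  rw [ofAdd_eq_one]
  rcases h3 n with ⟨a1, a2, a3⟩ | ⟨a1, a2, a3⟩ | ⟨a1, a2, a3⟩ <;>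
    simp [hsdef, a1, hAB.symm, hAC.symm, hBC.symm, d1, d2]

theorem core {G : Type*} [Group G] [Finite G] (P : Sylow 2 G) (m : ℕ) (hm : 1 ≤ m)
    (e : (P : Subgroup G) ≃* Multiplicative (ZMod (2 ^ m) × ZMod (2 ^ m))) :
    ∃ A B C : G, A ≠ B ∧ A ≠ C ∧ B ≠ C ∧ A ∈ (P : Subgroup G) ∧
      (∀ u ∈ (P : Subgroup G), orderOf u = 2 → u = A ∨ u = B ∨ u = C) ∧
      (∀ x ∈ (P : Subgroup G), ∀ y ∈ (P : Subgroup G), x * y = y * x) ∧
      (∀ g ∈ Subgroup.normalizer ((P : Subgroup G) : Set G),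
        (g * A * g⁻¹ = A ∨ g * B * g⁻¹ = B ∨ g * C * g⁻¹ = C) →
          g ∈ Subgroup.centralizer ((P : Subgroup G) : Set G)) ∧
      (∀ g ∈ Subgroup.normalizer ((P : Subgroup G) : Set G),
        (g * A * g⁻¹ = A ∧ g * B * g⁻¹ = B ∧ g * C * g⁻¹ = C) ∨
        (g * A * g⁻¹ = B ∧ g * B * g⁻¹ = C ∧ g * C * g⁻¹ = A) ∨
        (g * A * g⁻¹ = C ∧ g * B * g⁻¹ = A ∧ g * C * g⁻¹ = B)) := by
  classical
  obtain ⟨a, b, c, hab, hac, hbc, hoa, hob, hoc, hall⟩ := S0946.einv m hm
  have hcomm : ∀ x ∈ (P : Subgroup G), ∀ y ∈ (P : Subgroup G), x * y = y * x := by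
    intro x hx y hy
    have h1 : e (⟨x, hx⟩ * ⟨y, hy⟩) = e (⟨y, hy⟩ * ⟨x, hx⟩) := by
      rw [map_mul, map_mul, mul_comm]
    exact congrArg Subtype.val (e.injective h1)
  have ho : ∀ z : Multiplicative (ZMod (2 ^ m) × ZMod (2 ^ m)),
      orderOf ((e.symm z : (P : Subgroup G)) : G) = orderOf z := by
    intro z
    rw [Subgroup.orderOf_coe, MulEquiv.orderOf_eq]
  obtain ⟨A, hA⟩ : ∃ A : G, A = ((e.symm a : (P : Subgroup G)) : G) := ⟨_, rfl⟩
  obtain ⟨B, hB⟩ : ∃ B : G, B = ((e.symm b : (P : Subgroup G)) : G) := ⟨_, rfl⟩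
  obtain ⟨C, hC⟩ : ∃ C : G, C = ((e.symm c : (P : Subgroup G)) : G) := ⟨_, rfl⟩
  have hAP : A ∈ (P : Subgroup G) := by rw [hA]; exact (e.symm a).2
  have hBP : B ∈ (P : Subgroup G) := by rw [hB]; exact (e.symm b).2
  have hCP : C ∈ (P : Subgroup G) := by rw [hC]; exact (e.symm c).2
  have hAo : orderOf A = 2 := by rw [hA, ho, hoa]
  have hBo : orderOf B = 2 := by rw [hB, ho, hob]
  have hCo : orderOf C = 2 := by rw [hC, ho, hoc]
  have hAB : A ≠ B := by
    rw [hA, hB]; intro h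
    exact hab (e.symm.injective (Subtype.ext h))
  have hAC : A ≠ C := by
    rw [hA, hC]; intro h
    exact hac (e.symm.injective (Subtype.ext h))
  have hBC : B ≠ C := by
    rw [hB, hC]; intro h
    exact hbc (e.symm.injective (Subtype.ext h))
  have hinv : ∀ u ∈ (P : Subgroup G), orderOf u = 2 → u = A ∨ u = B ∨ u = C := by
    intro u hu hou
    have h1 : orderOf (e ⟨u, hu⟩) = 2 := by
      rw [MulEquiv.orderOf_eq]
      exact (Subgroup.orderOf_coe (⟨u, hu⟩ : (P : Subgroup G))).symm.trans hou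
    rcases hall _ h1 with h | h | h
    · left; rw [hA, ← h]; simp
    · right; left; rw [hB, ← h]; simp
    · right; right; rw [hC, ← h]; simp
  have hinv' : ∀ u, (u = A ∨ u = B ∨ u = C) → u ∈ (P : Subgroup G) ∧ orderOf u = 2 := by
    rintro u (rfl | rfl | rfl)
    · exact ⟨hAP, hAo⟩
    · exact ⟨hBP, hBo⟩
    · exact ⟨hCP, hCo⟩
  have hmap : ∀ g ∈ Subgroup.normalizer ((P : Subgroup G) : Set G), ∀ x,
      (x = A ∨ x = B ∨ x = C) → (g * x * g⁻¹ = A ∨ g * x * g⁻¹ = B ∨ g * x * g⁻¹ = C) := by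
    intro g hg x hx
    obtain ⟨hxP, hxo⟩ := hinv' x hx
    refine hinv _ ((Subgroup.mem_normalizer_iff.mp hg x).mp hxP) ?_
    rw [Cfsg.Agent.Lib.Helper8.h8_orderOf_conj, hxo]
  have hinj : ∀ g : G, Function.Injective (fun x : G => g * x * g⁻¹) := by
    intro g x y hxy
    simpa using hxy
  have hodd : ∀ g ∈ Subgroup.normalizer ((P : Subgroup G) : Set G),
      ∃ j : ℕ, g ^ (2 * j + 1) ∈ (P : Subgroup G) := by
    intro g hg
    obtain ⟨r, k, hk, hord⟩ := Nat.exists_eq_two_pow_mul_odd (orderOf_pos g).ne'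
    obtain ⟨j, rfl⟩ := hk
    refine ⟨j, ?_⟩
    have h1 : (g ^ (2 * j + 1)) ^ (2 ^ r) = 1 := by
      rw [← pow_mul, mul_comm, ← hord]; exact pow_orderOf_eq_one g
    obtain ⟨r', -, hr'⟩ := (Nat.dvd_prime_pow Nat.prime_two).1 (orderOf_dvd_of_pow_eq_one h1)
    have hp : IsPGroup 2 (Subgroup.zpowers (g ^ (2 * j + 1))) :=
      IsPGroup.of_card (n := r') (by rw [Nat.card_zpowers]; exact hr')
    exact Cfsg.Agent.Lib.Helper8.h8_mem_sylow_of_mem_normalizer P (pow_mem hg _) hp
  have hK : ∀ g ∈ Subgroup.normalizer ((P : Subgroup G) : Set G),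
      (g * A * g⁻¹ = A ∨ g * B * g⁻¹ = B ∨ g * C * g⁻¹ = C) →
      ∀ u, (u = A ∨ u = B ∨ u = C) → g * u * g⁻¹ = u := by
    intro g hg hfix u hu
    have h2 := S0946.perm3a (fun x : G => g * x * g⁻¹) A B C hAB hAC hBC (hinj g) (hmap g hg)
      hfix u hu
    obtain ⟨j, hj⟩ := hodd g hg
    have huP := (hinv' u hu).1
    have c1 : Commute (g ^ 2) u := by
      have h3 : g * (g * u * g⁻¹) * g⁻¹ = u := h2
      show g ^ 2 * u = u * g ^ 2
      rw [sq]
      calc g * g * u = g * (g * u * g⁻¹) * g⁻¹ * (g * g) := by group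
        _ = u * (g * g) := by rw [h3]
    have c2 : Commute (g ^ (2 * j)) u := by rw [pow_mul]; exact c1.pow_left j
    have c3 : Commute (g ^ (2 * j + 1)) u := hcomm _ hj _ huP
    have c4 : Commute ((g ^ (2 * j))⁻¹ * g ^ (2 * j + 1)) u := c2.inv_left.mul_left c3
    have e1 : (g ^ (2 * j))⁻¹ * g ^ (2 * j + 1) = g := by rw [pow_succ]; group
    rw [e1] at c4
    have : g * u = u * g := c4
    rw [this]; group
  have hT : ∀ g ∈ Subgroup.normalizer ((P : Subgroup G) : Set G),
      (g * A * g⁻¹ = A ∨ g * B * g⁻¹ = B ∨ g * C * g⁻¹ = C) →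
        g ∈ Subgroup.centralizer ((P : Subgroup G) : Set G) := by
    intro g hg hfix
    have hcase := hK g hg hfix
    obtain ⟨jk, hjk⟩ := hodd g hg
    have key : ∀ j : ℕ, ∀ x ∈ (P : Subgroup G), x ^ (2 ^ j) = 1 → g * x * g⁻¹ = x := by
      intro j
      induction j with
      | zero =>
        intro x _ hx1
        rw [pow_zero, pow_one] at hx1
        rw [hx1]; group
      | succ j ih =>
        intro x hx hx1
        have hx' : g * x * g⁻¹ ∈ (P : Subgroup G) := (Subgroup.mem_normalizer_iff.mp hg x).mp hx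
        have h2 : g * x ^ 2 * g⁻¹ = x ^ 2 :=
          ih (x ^ 2) (pow_mem hx 2) (by rw [← pow_mul, ← pow_succ']; exact hx1)
        obtain ⟨y, hy⟩ : ∃ y : G, y = g * x * g⁻¹ * x⁻¹ := ⟨_, rfl⟩
        have hyP : y ∈ (P : Subgroup G) := by rw [hy]; exact mul_mem hx' (inv_mem hx)
        have hy2 : y ^ 2 = 1 := by
          have hc : Commute (g * x * g⁻¹) x⁻¹ := hcomm _ hx' _ (inv_mem hx)
          rw [hy, hc.mul_pow, conj_pow, h2, inv_pow, mul_inv_cancel]
        have hxy : g * x * g⁻¹ = y * x := by rw [hy]; group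
        have hy1 : y = 1 := by
          by_contra hy1
          have hyo : orderOf y = 2 := orderOf_eq_prime hy2 hy1
          have hgy : g * y * g⁻¹ = y := hcase y (hinv y hyP hyo)
          have hpow : ∀ i : ℕ, g ^ i * x * (g ^ i)⁻¹ = y ^ i * x := by
            intro i
            induction i with
            | zero => simp
            | succ i ihi =>
              calc g ^ (i + 1) * x * (g ^ (i + 1))⁻¹
                  = g * (g ^ i * x * (g ^ i)⁻¹) * g⁻¹ := by rw [pow_succ']; group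
                _ = g * (y ^ i * x) * g⁻¹ := by rw [ihi]
                _ = (g * y * g⁻¹) ^ i * (g * x * g⁻¹) := by rw [conj_pow]; group
                _ = y ^ (i + 1) * x := by rw [hgy, hxy, pow_succ]; group
          have h5 := hpow (2 * jk + 1)
          have h6 : g ^ (2 * jk + 1) * x * (g ^ (2 * jk + 1))⁻¹ = x := by
            rw [hcomm _ hjk _ hx]; group
          rw [h6] at h5
          have h7 : y ^ (2 * jk + 1) = 1 := by
            have : y ^ (2 * jk + 1) * x = 1 * x := by rw [one_mul]; exact h5.symm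
            exact mul_right_cancel this
          rw [pow_succ, pow_mul, hy2, one_pow, one_mul] at h7
          exact hy1 h7
        rw [hxy, hy1, one_mul]
    rw [Subgroup.mem_centralizer_iff]
    intro x hx
    obtain ⟨j, hj⟩ := P.isPGroup' ⟨x, hx⟩
    have hj' : x ^ (2 ^ j) = 1 := by
      have := congrArg Subtype.val hj
      simpa using this
    have := key j x hx hj'
    calc x * g = g * x * g⁻¹ * g := by rw [this]
      _ = g * x := by group
  refine ⟨A, B, C, hAB, hAC, hBC, hAP, hinv, hcomm, hT, ?_⟩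
  intro g hg
  by_cases hfix : g * A * g⁻¹ = A ∨ g * B * g⁻¹ = B ∨ g * C * g⁻¹ = C
  · left
    exact ⟨hK g hg hfix A (Or.inl rfl), hK g hg hfix B (Or.inr (Or.inl rfl)),
      hK g hg hfix C (Or.inr (Or.inr rfl))⟩
  · right
    push_neg at hfix
    exact perm3c (fun x : G => g * x * g⁻¹) A B C hAB hAC hBC (hinj g) (hmap g hg) hfix

/-- Let P be a Sylow 2-subgroup of the finite group G isomorphic to Z/2^m × Z/2^m with m ≥ 1. Then (i) the index of C_G(P) in N_G(P) is 1 or 3, and (ii) if it is not 1, then for every z ≠ 1 in P, C_G(z) ∩ N_G(P) = C_G(P). -/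
theorem result {G : Type*} [Group G] [Finite G] (P : Sylow 2 G) (m : ℕ) (hm : 1 ≤ m) (e : (P : Subgroup G) ≃* Multiplicative (ZMod (2 ^ m) × ZMod (2 ^ m))) : ((Subgroup.centralizer (P : Set G)).relIndex (Subgroup.normalizer (P : Set G)) = 1 ∨ (Subgroup.centralizer (P : Set G)).relIndex (Subgroup.normalizer (P : Set G)) = 3) ∧ ((Subgroup.centralizer (P : Set G)).relIndex (Subgroup.normalizer (P : Set G)) ≠ 1 → ∀ z ∈ (P : Subgroup G), z ≠ 1 → Subgroup.centralizer ({z} : Set G) ⊓ Subgroup.normalizer (P : Set G) = Subgroup.centralizer (P : Set G)) := by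
  classical
  obtain ⟨A, B, C, hAB, hAC, hBC, hAP, hinv, hcomm, hT, h3⟩ := core P m hm e
  constructor
  · obtain ⟨f, hf⟩ := homlem
      (fun (n : Subgroup.normalizer ((P : Subgroup G) : Set G)) (x : G) => (n : G) * x * (n : G)⁻¹)
      A B C hAB hAC hBC (fun n n' x => by simp only [Subgroup.coe_mul]; group)
      (fun n => h3 n n.2)
    have hker : f.ker = (Subgroup.centralizer ((P : Subgroup G) : Set G)).subgroupOf
        (Subgroup.normalizer ((P : Subgroup G) : Set G)) := by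
      ext n
      rw [MonoidHom.mem_ker, Subgroup.mem_subgroupOf, hf]
      constructor
      · intro h
        exact hT n n.2 (Or.inl h)
      · intro h
        rw [Subgroup.mem_centralizer_iff] at h
        have := h A hAP
        rw [← this]; group
    have h1 : (Subgroup.centralizer ((P : Subgroup G) : Set G)).relIndex
        (Subgroup.normalizer ((P : Subgroup G) : Set G)) = Nat.card f.range := by
      rw [Subgroup.relIndex, ← hker, Subgroup.index_ker]
    have h2 : Nat.card f.range ∣ 3 := by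
      have := Subgroup.card_subgroup_dvd_card f.range
      have h3 : Nat.card (Multiplicative (ZMod 3)) = 3 := Nat.card_zmod 3
      rwa [h3] at this
    have h4 := (Nat.dvd_prime Nat.prime_three).mp h2
    change (Subgroup.centralizer ((P : Subgroup G) : Set G)).relIndex
        (Subgroup.normalizer ((P : Subgroup G) : Set G)) = 1 ∨ (Subgroup.centralizer ((P : Subgroup G) : Set G)).relIndex
        (Subgroup.normalizer ((P : Subgroup G) : Set G)) = 3
    rw [h1]; exact h4
  · intro _ z hz hz1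
    change Subgroup.centralizer ({z} : Set G) ⊓ Subgroup.normalizer ((P : Subgroup G) : Set G) =
      Subgroup.centralizer ((P : Subgroup G) : Set G)
    apply le_antisymm
    · rintro g ⟨hgz, hgN⟩
      obtain ⟨k, hk⟩ := P.isPGroup' ⟨z, hz⟩
      have hk' : z ^ (2 ^ k) = 1 := by
        have := congrArg Subtype.val hk
        simpa using this
      obtain ⟨j, -, hj⟩ := (Nat.dvd_prime_pow Nat.prime_two).1 (orderOf_dvd_of_pow_eq_one hk')
      have hj0 : j ≠ 0 := by
        rintro rfl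
        rw [pow_zero, orderOf_eq_one_iff] at hj
        exact hz1 hj
      obtain ⟨i, rfl⟩ : ∃ i, j = i + 1 := ⟨j - 1, by omega⟩
      have hu2 : (z ^ (2 ^ i)) ^ 2 = 1 := by
        rw [← pow_mul, ← pow_succ, ← hj]; exact pow_orderOf_eq_one z
      have hu1 : z ^ (2 ^ i) ≠ 1 := by
        apply pow_ne_one_of_lt_orderOf (by positivity)
        rw [hj, pow_succ]
        have : 0 < 2 ^ i := by positivity
        omega
      have huo : orderOf (z ^ (2 ^ i)) = 2 := orderOf_eq_prime hu2 hu1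
      have huP : z ^ (2 ^ i) ∈ (P : Subgroup G) := pow_mem hz _
      have hgz' : z * g = g * z := by
        have hgz2 : g ∈ Subgroup.centralizer ({z} : Set G) := hgz
        rw [Subgroup.mem_centralizer_iff] at hgz2
        exact hgz2 z rfl
      have hgu : g * z ^ (2 ^ i) * g⁻¹ = z ^ (2 ^ i) := by
        have c : Commute g z := hgz'.symm
        have c2 : Commute g (z ^ (2 ^ i)) := c.pow_right _
        rw [c2.eq]; group
      apply hT g hgN
      rcases hinv _ huP huo with h | h | h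
      · left; rw [← h]; exact hgu
      · right; left; rw [← h]; exact hgu
      · right; right; rw [← h]; exact hgu
    · intro g hg
      refine ⟨?_, Subgroup.centralizer_le_normalizer _ hg⟩
      show g ∈ Subgroup.centralizer ({z} : Set G)
      rw [Subgroup.mem_centralizer_iff]
      intro y hy
      rw [Set.mem_singleton_iff] at hy
      rw [hy]
      rw [Subgroup.mem_centralizer_iff] at hg
      exact hg z hz

end Cfsg.Agent.S0945
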