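import Mathlib
import Cfsg.Statements.S0950
import Cfsg.Agent.Lib.Helper2.Frobenius
import Cfsg.Agent.Lib.Helper2.Burnside

set_option autoImplicit false
open Cfsg

namespace Cfsg.Agent.S0950

theorem q1 : ∀ x : QuaternionGroup 2, x ^ 4 = 1 := by decide

theorem q2 : ∀ x : QuaternionGroup 2, x ^ 2 = 1 → x = 1 ∨ x = QuaternionGroup.a 2 := by decide

theorem q3' : ∀ x y w v : QuaternionGroup 2, (x ^ 2 ≠ 1 ∧ y ^ 2 ≠ 1 ∧ y ≠ x ∧
    y ≠ x⁻¹ ∧ w ^ 2 ≠ 1 ∧ w ≠ x ∧ w ≠ x⁻¹ ∧ w ≠ y ∧ w ≠ y⁻¹ ∧ v ^ 2 ≠ 1) →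
      (v = x ∨ v = x⁻¹ ∨ v = y ∨ v = y⁻¹ ∨ v = w ∨ v = w⁻¹) := by decide

theorem q3 : ∀ x : QuaternionGroup 2, x ^ 2 ≠ 1 → ∀ y : QuaternionGroup 2, y ^ 2 ≠ 1 → y ≠ x →
    y ≠ x⁻¹ → ∀ w : QuaternionGroup 2, w ^ 2 ≠ 1 → w ≠ x → w ≠ x⁻¹ → w ≠ y → w ≠ y⁻¹ →
    ∀ v : QuaternionGroup 2, v ^ 2 ≠ 1 →
      v = x ∨ v = x⁻¹ ∨ v = y ∨ v = y⁻¹ ∨ v = w ∨ v = w⁻¹ :=
  fun x h1 y h2 h3 h4 w h5 h6 h7 h8 h9 v h10 =>
    q3' x y w v ⟨h1, h2, h3, h4, h5, h6, h7, h8, h9, h10⟩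

theorem qfacts {H : Type*} [Group H] (e : H ≃* QuaternionGroup 2) :
    (∀ x : H, x ^ 4 = 1) ∧ (∃ z : H, ∀ x : H, x ^ 2 = 1 → x = 1 ∨ x = z) ∧
    (∀ x y w : H, x ^ 2 ≠ 1 → y ^ 2 ≠ 1 → w ^ 2 ≠ 1 → y ≠ x → y ≠ x⁻¹ → w ≠ x → w ≠ x⁻¹ →
      w ≠ y → w ≠ y⁻¹ → ∀ v : H, v ^ 2 ≠ 1 →
      v = x ∨ v = x⁻¹ ∨ v = y ∨ v = y⁻¹ ∨ v = w ∨ v = w⁻¹) := by
  have hp : ∀ (x : H) (n : ℕ), x ^ n = 1 ↔ (e x) ^ n = 1 := by
    intro x n
    rw [← map_pow]
    exact (MulEquiv.map_eq_one_iff e).symm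
  have hi : ∀ x y : H, x = y⁻¹ ↔ e x = (e y)⁻¹ := by
    intro x y
    rw [← map_inv]
    exact e.injective.eq_iff.symm
  have he : ∀ x y : H, x = y ↔ e x = e y := fun x y => e.injective.eq_iff.symm
  refine ⟨fun x => (hp x 4).mpr (q1 _), ⟨e.symm (QuaternionGroup.a 2), fun x hx => ?_⟩, ?_⟩
  · rcases q2 (e x) ((hp x 2).mp hx) with h | h
    · left; exact (MulEquiv.map_eq_one_iff e).mp h
    · right; rw [← h]; simp
  · intro x y w hx hy hw h1 h2 h3 h4 h5 h6 v hv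
    have := q3 (e x) (fun h => hx ((hp x 2).mpr h)) (e y) (fun h => hy ((hp y 2).mpr h))
      (fun h => h1 ((he _ _).mpr h)) (fun h => h2 ((hi _ _).mpr h)) (e w)
      (fun h => hw ((hp w 2).mpr h)) (fun h => h3 ((he _ _).mpr h)) (fun h => h4 ((hi _ _).mpr h))
      (fun h => h5 ((he _ _).mpr h)) (fun h => h6 ((hi _ _).mpr h)) (e v)
      (fun h => hv ((hp v 2).mpr h))
    rcases this with h | h | h | h | h | h
    · exact Or.inl ((he _ _).mpr h)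
    · exact Or.inr (Or.inl ((hi _ _).mpr h))
    · exact Or.inr (Or.inr (Or.inl ((he _ _).mpr h)))
    · exact Or.inr (Or.inr (Or.inr (Or.inl ((hi _ _).mpr h))))
    · exact Or.inr (Or.inr (Or.inr (Or.inr (Or.inl ((he _ _).mpr h)))))
    · exact Or.inr (Or.inr (Or.inr (Or.inr (Or.inr ((hi _ _).mpr h)))))

theorem oddc2 {G : Type*} [Group G] (h t : G) (j : ℕ) (hj : h ^ (2 * j + 1) = 1)
    (hc : h ^ 2 * t * (h ^ 2)⁻¹ = t) : h * t * h⁻¹ = t := by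
  have c1 : Commute (h ^ 2) t := by
    show h ^ 2 * t = t * h ^ 2
    calc h ^ 2 * t = h ^ 2 * t * (h ^ 2)⁻¹ * h ^ 2 := by group
      _ = t * h ^ 2 := by rw [hc]
  have c2 : Commute (h ^ (2 * j)) t := by rw [pow_mul]; exact c1.pow_left j
  have e1 : h = (h ^ (2 * j))⁻¹ := by
    rw [pow_succ] at hj
    exact eq_inv_of_mul_eq_one_right hj
  have c3 : Commute h t := by rw [e1]; exact c2.inv_left
  rw [c3.eq]; group

theorem oddc {G : Type*} [Group G] (h t : G) (j : ℕ) (hj : h ^ (2 * j + 1) = 1)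
    (hc : h * t * h⁻¹ = t ∨ h * t * h⁻¹ = t⁻¹) : h * t * h⁻¹ = t := by
  rcases hc with hc | hc
  · exact hc
  · apply oddc2 h t j hj
    calc h ^ 2 * t * (h ^ 2)⁻¹ = h * (h * t * h⁻¹) * h⁻¹ := by rw [sq]; group
      _ = h * t⁻¹ * h⁻¹ := by rw [hc]
      _ = (h * t * h⁻¹)⁻¹ := by group
      _ = t := by rw [hc, inv_inv]

/-- Let S be a Sylow 2-subgroup of the finite group G that is isomorphic to the quaternion group of order 8, and suppose S has no normal complement in G. Then any two subgroups of order 4 of S are conjugate by an element of the normalizer of S. -/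
theorem result {G : Type*} [Group G] [Finite G] (S : Sylow 2 G) (e : (S : Subgroup G) ≃* QuaternionGroup 2) (hnc : ∀ N : Subgroup G, N.Normal → ¬ Subgroup.IsComplement' N (S : Subgroup G)) (A B : Subgroup G) (hA : A ≤ S) (hB : B ≤ S) (hA4 : Nat.card A = 4) (hB4 : Nat.card B = 4) : ∃ n ∈ Subgroup.normalizer ((S : Subgroup G) : Set G), B = A.map (MulAut.conj n).toMonoidHom := by
  classical
  obtain ⟨f1, ⟨z0, f2⟩, f3⟩ := qfacts e
  have G1 : ∀ x ∈ (S : Subgroup G), x ^ 4 = 1 := by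
    intro x hx
    have := congrArg Subtype.val (f1 ⟨x, hx⟩)
    simpa using this
  obtain ⟨z, hz⟩ : ∃ z : G, z = (z0 : G) := ⟨_, rfl⟩
  have G2 : ∀ x ∈ (S : Subgroup G), x ^ 2 = 1 → x = 1 ∨ x = z := by
    intro x hx hx2
    have h1 : (⟨x, hx⟩ : (S : Subgroup G)) ^ 2 = 1 := Subtype.ext (by simpa using hx2)
    rcases f2 _ h1 with h | h
    · left; simpa using congrArg Subtype.val h
    · right; rw [hz, ← h]
  have G3 : ∀ x ∈ (S : Subgroup G), ∀ y ∈ (S : Subgroup G), ∀ w ∈ (S : Subgroup G),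
      x ^ 2 ≠ 1 → y ^ 2 ≠ 1 → w ^ 2 ≠ 1 → y ≠ x → y ≠ x⁻¹ → w ≠ x → w ≠ x⁻¹ →
      w ≠ y → w ≠ y⁻¹ → ∀ v ∈ (S : Subgroup G), v ^ 2 ≠ 1 →
      v = x ∨ v = x⁻¹ ∨ v = y ∨ v = y⁻¹ ∨ v = w ∨ v = w⁻¹ := by
    intro x hx y hy w hw hx2 hy2 hw2 h1 h2 h3 h4 h5 h6 v hv hv2
    have hsq : ∀ (t : G) (ht : t ∈ (S : Subgroup G)), t ^ 2 ≠ 1 →
        (⟨t, ht⟩ : (S : Subgroup G)) ^ 2 ≠ 1 := by
      intro t ht h hcon
      apply h
      have := congrArg Subtype.val hcon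
      simpa using this
    have := f3 ⟨x, hx⟩ ⟨y, hy⟩ ⟨w, hw⟩ (hsq x hx hx2) (hsq y hy hy2) (hsq w hw hw2)
      (fun h => h1 (congrArg Subtype.val h)) (fun h => h2 (by simpa using congrArg Subtype.val h))
      (fun h => h3 (congrArg Subtype.val h)) (fun h => h4 (by simpa using congrArg Subtype.val h))
      (fun h => h5 (congrArg Subtype.val h)) (fun h => h6 (by simpa using congrArg Subtype.val h))
      ⟨v, hv⟩ (hsq v hv hv2)
    rcases this with h | h | h | h | h | h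
    · exact Or.inl (congrArg Subtype.val h)
    · exact Or.inr (Or.inl (by simpa using congrArg Subtype.val h))
    · exact Or.inr (Or.inr (Or.inl (congrArg Subtype.val h)))
    · exact Or.inr (Or.inr (Or.inr (Or.inl (by simpa using congrArg Subtype.val h))))
    · exact Or.inr (Or.inr (Or.inr (Or.inr (Or.inl (congrArg Subtype.val h)))))
    · exact Or.inr (Or.inr (Or.inr (Or.inr (Or.inr (by simpa using congrArg Subtype.val h)))))
  -- Frobenius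
  have hnF : ¬ Cfsg.Agent.Lib.Helper2.FrobCond 2 G := by
    intro hF
    obtain ⟨N, hN, hNS⟩ := Cfsg.Agent.Lib.Helper2.exists_isComplement'_of_hasNormalPComplement
      (Cfsg.Agent.Lib.Helper2.frobenius hF) S
    exact hnc N hN hNS
  have hex : ∃ Q : Subgroup G, Q ≤ (S : Subgroup G) ∧ ∃ g ∈ Subgroup.normalizer (Q : Set G),
      (orderOf g).Coprime 2 ∧ g ∉ Subgroup.centralizer (Q : Set G) := by
    by_contra hcon
    apply hnF
    apply Cfsg.Agent.Lib.Helper2.frobCond_of_sylow S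
    intro Q hQ g hg hgo
    by_contra hgc
    exact hcon ⟨Q, hQ, g, hg, hgo, hgc⟩
  obtain ⟨Q, hQS, g, hgQ, hgo, hgc⟩ := hex
  obtain ⟨j, hj⟩ : ∃ j : ℕ, g ^ (2 * j + 1) = 1 := by
    rw [Nat.coprime_two_right] at hgo
    obtain ⟨j, hj⟩ := hgo
    exact ⟨j, by rw [← hj]; exact pow_orderOf_eq_one g⟩
  have hj2 : (g ^ 2) ^ (2 * j + 1) = 1 := by rw [← pow_mul, mul_comm, pow_mul, hj, one_pow]
  -- an element moved by g
  obtain ⟨s, hsQ, hs⟩ : ∃ s ∈ Q, g * s * g⁻¹ ≠ s := by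
    by_contra hcon
    push_neg at hcon
    apply hgc
    rw [Subgroup.mem_centralizer_iff]
    intro x hx
    have := hcon x hx
    calc x * g = g * x * g⁻¹ * g := by rw [this]
      _ = g * x := by group
  have hconjQ : ∀ x ∈ Q, g * x * g⁻¹ ∈ Q := fun x hx => (Subgroup.mem_normalizer_iff.mp hgQ x).mp hx
  have hsS : s ∈ (S : Subgroup G) := hQS hsQ
  have hs2 : s ^ 2 ≠ 1 := by
    intro h2
    rcases G2 s hsS h2 with h | h
    · apply hs; rw [h]; group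
    · have h3 : (g * s * g⁻¹) ^ 2 = 1 := by rw [conj_pow, h2]; group
      rcases G2 _ (hQS (hconjQ s hsQ)) h3 with h4 | h4
      · apply hs
        have : s = 1 := by
          have h5 : g⁻¹ * (g * s * g⁻¹) * g = s := by group
          rw [← h5, h4]; group
        rw [this]; group
      · apply hs; rw [h4, h]
  obtain ⟨t1, ht1⟩ : ∃ t1 : G, t1 = g * s * g⁻¹ := ⟨_, rfl⟩
  obtain ⟨t2, ht2⟩ : ∃ t2 : G, t2 = g ^ 2 * s * (g ^ 2)⁻¹ := ⟨_, rfl⟩
  have ht21 : t2 = g * t1 * g⁻¹ := by rw [ht2, ht1, sq]; group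
  have ht1Q : t1 ∈ Q := by rw [ht1]; exact hconjQ s hsQ
  have ht2Q : t2 ∈ Q := by rw [ht21]; exact hconjQ t1 ht1Q
  have ht1sq : t1 ^ 2 ≠ 1 := by
    rw [ht1, conj_pow]
    intro h
    apply hs2
    have h5 : g⁻¹ * (g * s ^ 2 * g⁻¹) * g = s ^ 2 := by group
    rw [← h5, h]; group
  have ht2sq : t2 ^ 2 ≠ 1 := by
    rw [ht2, conj_pow]
    intro h
    apply hs2
    have h5 : (g ^ 2)⁻¹ * (g ^ 2 * s ^ 2 * (g ^ 2)⁻¹) * g ^ 2 = s ^ 2 := by group
    rw [← h5, h]; group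
  have n1 : t1 ≠ s := by rw [ht1]; exact hs
  have n2 : t1 ≠ s⁻¹ := by
    rw [ht1]; intro h
    exact hs (oddc g s j hj (Or.inr h))
  have n3 : t2 ≠ s := by
    rw [ht2]; intro h
    exact hs (oddc2 g s j hj h)
  have n4 : t2 ≠ s⁻¹ := by
    rw [ht2]; intro h
    exact hs (oddc2 g s j hj (oddc (g ^ 2) s j hj2 (Or.inr h)))
  have n56 : ¬ (g * t1 * g⁻¹ = t1 ∨ g * t1 * g⁻¹ = t1⁻¹) := by
    intro h
    have h1 := oddc g t1 j hj h
    apply hs
    rw [ht1] at h1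
    have h5 : g⁻¹ * (g * (g * s * g⁻¹) * g⁻¹) * g = g * s * g⁻¹ := by group
    rw [h1] at h5
    rw [← h5]; group
  have n5 : t2 ≠ t1 := by rw [ht21]; exact fun h => n56 (Or.inl h)
  have n6 : t2 ≠ t1⁻¹ := by rw [ht21]; exact fun h => n56 (Or.inr h)
  have hcls := G3 s hsS t1 (hQS ht1Q) t2 (hQS ht2Q) hs2 ht1sq ht2sq n1 n2 n3 n4 n5 n6
  -- Q = S
  have hSQ : (S : Subgroup G) ≤ Q := by
    intro v hv
    by_cases hv2 : v ^ 2 = 1
    · rcases G2 v hv hv2 with h | h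
      · rw [h]; exact one_mem _
      · have h4 : (s ^ 2) ^ 2 = 1 := by rw [← pow_mul]; exact G1 s hsS
        rcases G2 (s ^ 2) (pow_mem hsS 2) h4 with h5 | h5
        · exact absurd h5 hs2
        · rw [h, ← h5]; exact pow_mem hsQ 2
    · rcases hcls v hv hv2 with h | h | h | h | h | h
      · rw [h]; exact hsQ
      · rw [h]; exact inv_mem hsQ
      · rw [h]; exact ht1Q
      · rw [h]; exact inv_mem ht1Q
      · rw [h]; exact ht2Q
      · rw [h]; exact inv_mem ht2Q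
  have hQeq : Q = (S : Subgroup G) := le_antisymm hQS hSQ
  rw [hQeq] at hgQ
  -- class lemma
  have hcl : ∀ v ∈ (S : Subgroup G), v ^ 2 ≠ 1 →
      ∃ i : ℕ, Subgroup.zpowers v = Subgroup.zpowers (g ^ i * s * (g ^ i)⁻¹) := by
    intro v hv hv2
    rcases hcls v hv hv2 with h | h | h | h | h | h
    · exact ⟨0, by rw [h]; simp⟩
    · exact ⟨0, by rw [h, Subgroup.zpowers_inv]; simp⟩
    · exact ⟨1, by rw [h, ht1, pow_one]⟩
    · exact ⟨1, by rw [h, Subgroup.zpowers_inv, ht1, pow_one]⟩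
    · exact ⟨2, by rw [h, ht2]⟩
    · exact ⟨2, by rw [h, Subgroup.zpowers_inv, ht2]⟩
  -- generators
  have hgen : ∀ A : Subgroup G, A ≤ (S : Subgroup G) → Nat.card A = 4 →
      ∃ u ∈ (S : Subgroup G), u ^ 2 ≠ 1 ∧ A = Subgroup.zpowers u := by
    intro A hA hA4
    have hex : ∃ u ∈ A, u ^ 2 ≠ 1 := by
      by_contra hcon
      push_neg at hcon
      have hsub : (A : Set G) ⊆ {1, z} := by
        intro u hu
        rcases G2 u (hA hu) (hcon u hu) with h | h <;> simp [h]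
      have h1 : (A : Set G).ncard ≤ 2 := by
        refine (Set.ncard_le_ncard hsub (Set.toFinite _)).trans ?_
        refine (Set.ncard_insert_le _ _).trans ?_
        rw [Set.ncard_singleton]
      have h2 : Nat.card A = (A : Set G).ncard := Nat.card_coe_set_eq _
      omega
    obtain ⟨u, hu, hu2⟩ := hex
    refine ⟨u, hA hu, hu2, ?_⟩
    have ho : orderOf u = 2 ^ (1 + 1) := by
      apply orderOf_eq_prime_pow
      · rw [pow_one]; exact hu2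
      · exact G1 u (hA hu)
    symm
    apply Subgroup.eq_of_le_of_card_ge (Subgroup.zpowers_le.mpr hu)
    rw [Nat.card_zpowers, ho, hA4]
    norm_num
  obtain ⟨u, huS, hu2, hAu⟩ := hgen A hA hA4
  obtain ⟨v, hvS, hv2, hBv⟩ := hgen B hB hB4
  obtain ⟨i, hi⟩ := hcl u huS hu2
  obtain ⟨k, hk⟩ := hcl v hvS hv2
  refine ⟨g ^ k * (g ^ i)⁻¹, mul_mem (pow_mem hgQ k) (inv_mem (pow_mem hgQ i)), ?_⟩
  rw [hBv, hAu, hi, hk, MonoidHom.map_zpowers]
  congr 1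
  simp only [MulEquiv.coe_toMonoidHom, MulAut.conj_apply]
  group

end Cfsg.Agent.S0950
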