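import Cfsg.Statements.S0954
import Cfsg.Agent.Lib.Helper6.BlockCover2

set_option autoImplicit false
open Cfsg

namespace Cfsg.Agent.S0954

/-- Let N be a normal subgroup of the finite group G of order prime to p and of p-power index (a normal p-complement), and fix a maximal ideal M of the algebraic integers containing p. Then two irreducible characters χ, ψ of G lie in the same block if and only if some irreducible character of N has nonzero inner product with both the restriction of χ and the restriction of ψ. -/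
theorem result {G : Type*} [Group G] [Fintype G] (p : ℕ) [Fact p.Prime] (M : Ideal Cfsg.AlgInt) (hM : Cfsg.IsPModular p M) (N : Subgroup G) [N.Normal] [Fintype N] (hN : ¬ p ∣ Nat.card N) (hidx : ∃ k : ℕ, N.index = p ^ k) (χ ψ : Cfsg.IrrCharacter G) : Cfsg.SameBlock M (χ : G → ℂ) (ψ : G → ℂ) ↔ ∃ θ : Cfsg.IrrCharacter N, Cfsg.classInner (fun n : N => (χ : G → ℂ) n) (θ : N → ℂ) ≠ 0 ∧ Cfsg.classInner (fun n : N => (ψ : G → ℂ) n) (θ : N → ℂ) ≠ 0 := by
  classical
  constructor
  · intro h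
    have hres : Cfsg.IsCharacter N (fun n : N => (χ : G → ℂ) n) :=
      Cfsg.Agent.Lib.Lead.isCharacter_res N
        (Cfsg.Agent.Lib.Lead.isCharacter_of_isIrrCharacter χ.2)
    have h1 : (fun n : N => (χ : G → ℂ) n) 1 ≠ 0 := Cfsg.Agent.Lib.Helper2.irr_one_ne_zero χ.2
    obtain ⟨θ, hθ⟩ := Cfsg.Agent.Lib.Lead.exists_irr_constituent hres h1
    exact ⟨θ, hθ, (Cfsg.Agent.Lib.Helper6.bcf_constituent p M hM N hN χ ψ h θ θ.2).1 hθ⟩
  · rintro ⟨θ, h1, h2⟩
    obtain ⟨k, hk⟩ := hidx
    have hQ : IsPGroup p (G ⧸ N) :=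
      IsPGroup.of_card (n := k) (by rw [← hk, Subgroup.index_eq_card])
    apply Cfsg.Agent.Lib.Helper6.pquot_sameBlock p M hM N hQ χ ψ
    intro n hn
    rw [Cfsg.Agent.Lib.Helper6.cover_cc N χ θ θ.2 h1 n hn,
      Cfsg.Agent.Lib.Helper6.cover_cc N ψ θ θ.2 h2 n hn, sub_self]
    exact Cfsg.Agent.Lib.Helper6.li_zero M (Cfsg.Agent.Lib.Helper6.lr_one_notMem p M hM)

end Cfsg.Agent.S0954
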