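import Mathlib
import Cfsg.Statements.S0957
import Cfsg.Agent.Lib.Helper8.Basic

set_option autoImplicit false
open Cfsg

namespace Cfsg.Agent.S0957

theorem dvd_card_of_dvd_index {H : Type*} [Group H] [Finite H] {X : Type*} [MulAction H X]
    [Finite X] (m : ℕ) (hm : ∀ x : X, m ∣ (MulAction.stabilizer H x).index) : m ∣ Nat.card X := by
  classical
  letI : Fintype (Quotient (MulAction.orbitRel H X)) := Fintype.ofFinite _
  rw [Nat.card_congr (MulAction.selfEquivSigmaOrbitsQuotientStabilizer H X), Nat.card_sigma]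
  apply Finset.dvd_sum
  intro ω _
  exact hm _

theorem cent_card {G : Type*} [Group G] [Finite G] (g c : G) :
    Nat.card (Subgroup.centralizer ({c * g * c⁻¹} : Set G)) =
      Nat.card (Subgroup.centralizer ({g} : Set G)) := by
  have h : Subgroup.centralizer ({c * g * c⁻¹} : Set G) =
      (Subgroup.centralizer ({g} : Set G)).map (MulAut.conj c).toMonoidHom := by
    ext x
    rw [Cfsg.Agent.Lib.Helper8.h8_mem_map_conj, Subgroup.mem_centralizer_singleton_iff,
      Subgroup.mem_centralizer_singleton_iff]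
    constructor
    · intro h1
      symm
      calc g * (c⁻¹ * x * c) = c⁻¹ * (c * g * c⁻¹ * x) * c := by group
        _ = c⁻¹ * (x * (c * g * c⁻¹)) * c := by rw [h1]
        _ = c⁻¹ * x * c * g := by group
    · intro h1
      symm
      calc c * g * c⁻¹ * x = c * (g * (c⁻¹ * x * c)) * c⁻¹ := by group
        _ = c * (c⁻¹ * x * c * g) * c⁻¹ := by rw [h1]
        _ = x * (c * g * c⁻¹) := by group
  rw [h, Subgroup.card_map_of_injective (MulAut.conj c).injective]

/-- Let P be a Sylow p-subgroup of the finite group G, let g, h ∈ G and let p ^ d be the order of a Sylow p-subgroup of the centralizer of g. Then the number of pairs (y, z) with y conjugate to g, z conjugate to h and z * y⁻¹ ∈ P is divisible by the order of P divided by p ^ d. -/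
theorem result {G : Type*} [Group G] [Finite G] (p : ℕ) [Fact p.Prime] (P : Sylow p G) (g h : G) (S : Sylow p (Subgroup.centralizer ({g} : Set G))) : Nat.card P / Nat.card S ∣ Nat.card {yz : G × G // IsConj g yz.1 ∧ IsConj h yz.2 ∧ yz.2 * yz.1⁻¹ ∈ (P : Subgroup G)} := by
  classical
  have hp : p.Prime := Fact.out
  letI : MulAction (P : Subgroup G)
      {yz : G × G // IsConj g yz.1 ∧ IsConj h yz.2 ∧ yz.2 * yz.1⁻¹ ∈ (P : Subgroup G)} :=
    { smul := fun u a => ⟨((u : G) * a.1.1 * (u : G)⁻¹, (u : G) * a.1.2 * (u : G)⁻¹),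
        a.2.1.trans (isConj_iff.mpr ⟨u, rfl⟩), a.2.2.1.trans (isConj_iff.mpr ⟨u, rfl⟩), by
          have h1 : (u : G) * a.1.2 * (u : G)⁻¹ * ((u : G) * a.1.1 * (u : G)⁻¹)⁻¹ =
              (u : G) * (a.1.2 * a.1.1⁻¹) * (u : G)⁻¹ := by group
          show (u : G) * a.1.2 * (u : G)⁻¹ * ((u : G) * a.1.1 * (u : G)⁻¹)⁻¹ ∈ (P : Subgroup G)
          rw [h1]
          exact mul_mem (mul_mem u.2 a.2.2.2) (inv_mem u.2)⟩
      one_smul := by
        intro a
        apply Subtype.ext
        show (((1 : (P : Subgroup G)) : G) * a.1.1 * ((1 : (P : Subgroup G)) : G)⁻¹,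
          ((1 : (P : Subgroup G)) : G) * a.1.2 * ((1 : (P : Subgroup G)) : G)⁻¹) = a.1
        simp
      mul_smul := by
        intro u v a
        apply Subtype.ext
        show (((u * v : (P : Subgroup G)) : G) * a.1.1 * ((u * v : (P : Subgroup G)) : G)⁻¹,
          ((u * v : (P : Subgroup G)) : G) * a.1.2 * ((u * v : (P : Subgroup G)) : G)⁻¹) =
          ((u : G) * ((v : G) * a.1.1 * (v : G)⁻¹) * (u : G)⁻¹,
            (u : G) * ((v : G) * a.1.2 * (v : G)⁻¹) * (u : G)⁻¹)
        simp [mul_assoc] }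
  have hsm : ∀ (u : (P : Subgroup G))
      (a : {yz : G × G // IsConj g yz.1 ∧ IsConj h yz.2 ∧ yz.2 * yz.1⁻¹ ∈ (P : Subgroup G)}),
      ((u • a :
        {yz : G × G // IsConj g yz.1 ∧ IsConj h yz.2 ∧ yz.2 * yz.1⁻¹ ∈ (P : Subgroup G)}) :
          G × G) =
        ((u : G) * a.1.1 * (u : G)⁻¹, (u : G) * a.1.2 * (u : G)⁻¹) := fun u a => rfl
  have hScard : Nat.card S = p ^ (Nat.card (Subgroup.centralizer ({g} : Set G))).factorization p :=
    S.card_eq_multiplicity
  have hSP : Nat.card S ∣ Nat.card P := by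
    rw [hScard]
    apply P.pow_dvd_card_of_pow_dvd_card
    rw [← hScard]
    exact ((S : Subgroup (Subgroup.centralizer ({g} : Set G))).card_subgroup_dvd_card).trans
      (Subgroup.card_subgroup_dvd_card _)
  obtain ⟨q, hq⟩ := hSP
  have hSpos : 0 < Nat.card S := Nat.card_pos
  have hdiv : Nat.card P / Nat.card S = q := by
    rw [hq]; exact Nat.mul_div_cancel_left q hSpos
  rw [hdiv]
  apply dvd_card_of_dvd_index (H := (P : Subgroup G))
  intro x
  obtain ⟨T, hTdef⟩ : ∃ T : Subgroup (P : Subgroup G), T = MulAction.stabilizer (P : Subgroup G) x :=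
    ⟨_, rfl⟩
  rw [← hTdef]
  have hTS : Nat.card T ∣ Nat.card S := by
    have hTp : IsPGroup p T := P.isPGroup'.to_subgroup T
    obtain ⟨e, he⟩ := IsPGroup.iff_card.mp hTp
    obtain ⟨c, hc⟩ := isConj_iff.mp x.2.1
    have hle : T.map (P : Subgroup G).subtype ≤ Subgroup.centralizer ({x.1.1} : Set G) := by
      rintro _ ⟨u, hu, rfl⟩
      have hu' : u ∈ MulAction.stabilizer (P : Subgroup G) x := by rw [← hTdef]; exact hu
      rw [MulAction.mem_stabilizer_iff] at hu'
      have h1 := congrArg (fun z : {yz : G × G // IsConj g yz.1 ∧ IsConj h yz.2 ∧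
        yz.2 * yz.1⁻¹ ∈ (P : Subgroup G)} => (z : G × G).1) hu'
      simp only [hsm] at h1
      rw [Subgroup.mem_centralizer_singleton_iff]
      show (u : G) * x.1.1 = x.1.1 * (u : G)
      symm
      calc x.1.1 * (u : G) = (u : G) * x.1.1 * (u : G)⁻¹ * (u : G) := by rw [h1]
        _ = (u : G) * x.1.1 := by group
    have h2 : Nat.card T ∣ Nat.card (Subgroup.centralizer ({x.1.1} : Set G)) := by
      have := Subgroup.card_dvd_of_le hle
      rwa [Subgroup.card_map_of_injective (Subgroup.subtype_injective _)] at this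
    rw [← hc, cent_card] at h2
    rw [he] at h2 ⊢
    exact S.pow_dvd_card_of_pow_dvd_card h2
  obtain ⟨k, hk⟩ := hTS
  have h3 : Nat.card T * T.index = Nat.card (P : Subgroup G) := T.card_mul_index
  have hTpos : 0 < Nat.card T := Nat.card_pos
  have h4 : Nat.card (P : Subgroup G) = Nat.card T * (k * q) := by
    have : Nat.card (P : Subgroup G) = Nat.card S * q := hq
    rw [this, hk, mul_assoc]
  rw [h4] at h3
  have h5 : T.index = k * q := Nat.eq_of_mul_eq_mul_left hTpos h3
  rw [h5]
  exact Dvd.intro_left k rfl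

end Cfsg.Agent.S0957
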