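import Cfsg.Statements.S0959
import Cfsg.Agent.Lib.Helper6.BlockMM

set_option autoImplicit false
open Cfsg

namespace Cfsg.Agent.S0959

/-- Let B be a block of the finite group G with defect group D (relative to a maximal ideal M of the algebraic integers containing the prime p), and let P be a p-subgroup. Then there is an element g whose idempotent coefficient for B is a local integer outside the local ideal at M and which has a conjugate centralizing P, if and only if some conjugate of P is contained in D. -/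
theorem result {G : Type*} [Group G] [Finite G] (p : ℕ) [Fact p.Prime] (M : Ideal Cfsg.AlgInt) (hM : Cfsg.IsPModular p M) (B : Set (Cfsg.IrrCharacter G)) (hB : Cfsg.IsPBlock M B) (D : Subgroup G) (hD : Cfsg.IsDefectGroup p M B D) (P : Subgroup G) (hP : IsPGroup p P) : (∃ g : G, Cfsg.MemLocalRing M (Cfsg.blockCoeff B g) ∧ ¬ Cfsg.MemLocalIdeal M (Cfsg.blockCoeff B g) ∧ ∃ c : G, IsConj g c ∧ c ∈ Subgroup.centralizer (P : Set G)) ↔ ∃ x : G, P.map (MulAut.conj x).toMonoidHom ≤ D := by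
  classical
  obtain ⟨g₀, hg₀, P₀, rfl⟩ := hD
  constructor
  · rintro ⟨g, _, hg, c, hgc, hc⟩
    obtain ⟨t, ht⟩ := isConj_iff.1 hgc
    have hcc : ¬ Cfsg.MemLocalIdeal M (Cfsg.blockCoeff B c) := by
      rw [← ht, Cfsg.Agent.Lib.Helper6.bb_coeff_class]
      exact hg
    have hPc : P ≤ Subgroup.centralizer ({c} : Set G) := by
      intro q hq
      rw [Subgroup.mem_centralizer_iff]
      intro y hy
      rw [Set.mem_singleton_iff] at hy
      subst hy
      exact ((Subgroup.mem_centralizer_iff.1 hc) q hq).symm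
    obtain ⟨Q, hQ⟩ := Cfsg.Agent.Lib.Helper6.pgroup_le_sylow_map p _ P hP hPc
    obtain ⟨x, hx⟩ := Cfsg.Agent.Lib.Helper6.minmax_a p M hM B hB g₀ hg₀ P₀ c hcc Q
    refine ⟨x⁻¹, ?_⟩
    rintro _ ⟨q, hq, rfl⟩
    obtain ⟨d, hd, hdq⟩ := hx (hQ hq)
    simp only [MulEquiv.toMonoidHom_eq_coe, MonoidHom.coe_coe, MulAut.conj_apply, inv_inv] at hdq ⊢
    rw [← hdq]
    have e : x⁻¹ * (x * d * x⁻¹) * x = d := by group
    rw [e]
    exact hd
  · rintro ⟨x, hx⟩
    refine ⟨g₀, hg₀.1, hg₀.2.1, x⁻¹ * g₀ * x, ?_, ?_⟩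
    · exact isConj_iff.2 ⟨x⁻¹, by simp⟩
    · rw [Subgroup.mem_centralizer_iff]
      intro q hq
      obtain ⟨d, hd, hdq⟩ := hx ⟨q, hq, rfl⟩
      have h2 := d.2
      rw [Subgroup.mem_centralizer_iff] at h2
      have h3 := h2 g₀ rfl
      simp only [MulEquiv.toMonoidHom_eq_coe, MonoidHom.coe_coe, MulAut.conj_apply,
        Subgroup.coe_subtype] at hdq
      rw [hdq] at h3
      calc q * (x⁻¹ * g₀ * x) = x⁻¹ * (x * q * x⁻¹ * g₀) * x := by group
        _ = x⁻¹ * (g₀ * (x * q * x⁻¹)) * x := by rw [h3]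
        _ = x⁻¹ * g₀ * x * q := by group

end Cfsg.Agent.S0959
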