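import Cfsg.Statements.S0961
import Cfsg.Agent.Lib.Lead.CharPReg

set_option autoImplicit false

namespace Cfsg.Agent.S0961

open Cfsg Cfsg.Agent.Lib.Lead Cfsg.Agent.Lib.Helper2

theorem result {G : Type*} [Group G] [Finite G] (p : ℕ) [Fact p.Prime] (χ : Cfsg.IrrCharacter G) : Cfsg.IsGeneralizedCharacter G (fun x : G => if p ∣ orderOf x then 0 else ((p ^ (Nat.card G).factorization p : ℕ) : ℂ) * (χ : G → ℂ) x) := by
  letI := Fintype.ofFinite G
  exact preg_gc p (isCharacter_of_isIrrCharacter χ.2)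

end Cfsg.Agent.S0961
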