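import Cfsg.Statements.S0963
import Cfsg.Agent.Lib.Lead.CharCentral

set_option autoImplicit false
open Cfsg

namespace Cfsg.Agent.S0963
open Cfsg.Agent.Lib.Lead
open Cfsg.Agent.Lib.Helper2 (frobenius_reciprocity indFun_isClassFunction)
open scoped ComplexConjugate

theorem result {G : Type*} [Group G] [Fintype G] (N : Subgroup G) [N.Normal] [Fintype N] (χ : Cfsg.IrrCharacter G) (θ : Cfsg.IrrCharacter N) : Cfsg.classInner (fun n : N => (χ : G → ℂ) n) (θ : N → ℂ) ≠ 0 ↔ ∀ n : N, Cfsg.centralChar (χ : G → ℂ) (n : G) = Cfsg.inducedCentralChar N (θ : N → ℂ) (n : G) := by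
  classical
  obtain ⟨χ, hχ⟩ := χ
  obtain ⟨θ, hθ⟩ := θ
  have hG := card_ne_zero_complex (G := G)
  have hN0 : (Nat.card N : ℂ) ≠ 0 := by exact_mod_cast (Nat.card_pos (α := N)).ne'
  have hθ1 := isIrrCharacter_one_ne_zero hθ
  have hχ1 := isIrrCharacter_one_ne_zero hχ
  have hidxN : (N.index : ℂ) ≠ 0 := by exact_mod_cast Subgroup.index_ne_zero_of_finite
  have hI1 : indFun N θ 1 ≠ 0 := by rw [indFun_one]; exact mul_ne_zero hidxN hθ1
  constructor
  · intro hcon n
    rw [inducedCentralChar_eq]
    unfold Cfsg.centralChar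
    have h1 := congrFun (clifford N hχ hθ hcon) n
    have h2 := clifford_degree N hχ hθ hcon
    have h3 := congrFun (indFun_res_eq N θ) n
    have h4 := indFun_one N θ
    have h5 := card_conjFinset_mul N θ hθ1
    have h6 := N.index_mul_card
    simp only [Pi.smul_apply, Finset.sum_apply, smul_eq_mul] at h1 h3
    have h5' : (Nat.card {y : G // twist N y θ = θ} : ℂ) * ((conjFinset N θ).card : ℂ) =
        (Nat.card G : ℂ) := by exact_mod_cast h5
    have h6' : (N.index : ℂ) * (Nat.card N : ℂ) = (Nat.card G : ℂ) := by exact_mod_cast h6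
    have hO : ((conjFinset N θ).card : ℂ) ≠ 0 := by
      intro h0; rw [h0, mul_zero] at h5'; exact hG h5'.symm
    show _ * χ n / χ 1 = _ * indFun N θ n / indFun N θ 1
    rw [h1, h2, h3, h4]
    field_simp
    rw [← h5'] at h6'
    linear_combination (((Subgroup.centralizer ({(n : G)} : Set G)).index : ℂ) *
      (∑ ψ ∈ conjFinset N θ, ψ n)) * h6'
  · intro hall
    have hrel : ∀ n : N, χ n = (χ 1 / indFun N θ 1) * indFun N θ n := by
      intro n
      have h := hall n
      rw [inducedCentralChar_eq] at h
      unfold Cfsg.centralChar at h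
      have hc : ((Subgroup.centralizer ({(n : G)} : Set G)).index : ℂ) ≠ 0 := by
        exact_mod_cast Subgroup.index_ne_zero_of_finite
      have h' : ((Subgroup.centralizer ({(n : G)} : Set G)).index : ℂ) * χ n / χ 1 =
        ((Subgroup.centralizer ({(n : G)} : Set G)).index : ℂ) * indFun N θ n / indFun N θ 1 := h
      field_simp at h' ⊢
      linear_combination h'
    have hsm : classInner (fun n : N => χ n) θ =
        (χ 1 / indFun N θ 1) * classInner (fun n : N => indFun N θ n) θ := by
      rw [show (fun n : N => χ n) = (χ 1 / indFun N θ 1) • (fun n : N => indFun N θ n) from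
        funext hrel, classInner_smul_left]
    show classInner (fun n : N => χ n) θ ≠ 0
    rw [hsm]
    apply mul_ne_zero (div_ne_zero hχ1 hI1)
    rw [classInner_conj_symm, ← frobenius_reciprocity N θ _ (indFun_isClassFunction N θ)]
    have hnorm := card_mul_norm_ind_eq N θ hθ
    intro h0
    have h00 : classInner (indFun N θ) (indFun N θ) = 0 := by
      have := congrArg conj h0
      simpa using this
    rw [h00, mul_zero] at hnorm
    have hz := Nat.cast_eq_zero.mp hnorm.symm
    rcases Nat.card_eq_zero.mp hz with he | hi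
    · exact he.false ⟨1, fun h => by congr 1; apply Subtype.ext; simp⟩
    · exact hi.false

end Cfsg.Agent.S0963
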