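import Cfsg.Statements.S0966
import Cfsg.Agent.Lib.Helper6.BlockCover2

set_option autoImplicit false
open Cfsg

namespace Cfsg.Agent.S0966

/-- Let N be a normal subgroup of p-power index in the finite group G and b a block of N relative to a maximal ideal M of the algebraic integers containing p. Then there is exactly one block B of G containing a character whose restriction to N has a constituent in b. -/
theorem result {G : Type*} [Group G] [Fintype G] (p : ℕ) [Fact p.Prime] (M : Ideal Cfsg.AlgInt) (hM : Cfsg.IsPModular p M) (N : Subgroup G) [N.Normal] [Fintype N] (hidx : ∃ k : ℕ, N.index = p ^ k) (b : Set (Cfsg.IrrCharacter N)) (hb : Cfsg.IsPBlock M b) : ∃! B : Set (Cfsg.IrrCharacter G), Cfsg.IsPBlock M B ∧ ∃ χ ∈ B, ∃ θ ∈ b, Cfsg.classInner (fun n : N => (χ : G → ℂ) n) (θ : N → ℂ) ≠ 0 := by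
  classical
  have hMp := hM.2.1.isPrime
  obtain ⟨k, hk⟩ := hidx
  have hQ : IsPGroup p (G ⧸ N) :=
    IsPGroup.of_card (n := k) (by rw [← hk, Subgroup.index_eq_card])
  obtain ⟨θ₀, hb0⟩ := hb
  have hθ₀ : θ₀ ∈ b := by
    rw [hb0]
    exact Cfsg.Agent.Lib.Helper6.sb_refl hMp _
  obtain ⟨χ, hχ, -⟩ := Cfsg.Agent.Lib.Lead.exists_irr_over N θ₀
  refine ⟨Cfsg.blockOf M (χ : G → ℂ), ⟨⟨χ, rfl⟩, χ, Cfsg.Agent.Lib.Helper6.sb_refl hMp _,
    θ₀, hθ₀, hχ⟩, ?_⟩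
  rintro B' ⟨⟨χ₁, rfl⟩, χ', hχ', θ', hθ', hcon⟩
  have hsb : Cfsg.SameBlock M (χ : G → ℂ) (χ' : G → ℂ) := by
    apply Cfsg.Agent.Lib.Helper6.pquot_sameBlock p M hM N hQ χ χ'
    intro n hn
    rw [Cfsg.Agent.Lib.Helper6.cover_cc N χ θ₀ θ₀.2 hχ n hn,
      Cfsg.Agent.Lib.Helper6.cover_cc N χ' θ' θ'.2 hcon n hn]
    apply Cfsg.Agent.Lib.Helper6.icc_sb p M hM N θ₀ θ'
    rw [hb0] at hθ'
    exact hθ'
  ext φ
  constructor
  · intro hφ
    exact Cfsg.Agent.Lib.Helper6.sb_trans hMp hsb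
      (Cfsg.Agent.Lib.Helper6.sb_trans hMp (Cfsg.Agent.Lib.Helper6.sb_symm hMp hχ') hφ)
  · intro hφ
    exact Cfsg.Agent.Lib.Helper6.sb_trans hMp hχ'
      (Cfsg.Agent.Lib.Helper6.sb_trans hMp (Cfsg.Agent.Lib.Helper6.sb_symm hMp hsb) hφ)

end Cfsg.Agent.S0966
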