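import Cfsg.Statements.S0967
import Cfsg.Agent.Lib.Helper6.BlockQuot

set_option autoImplicit false
open Cfsg

namespace Cfsg.Agent.S0967

/-- Let N be a normal subgroup of the finite group G of order prime to p and fix a maximal ideal M of the algebraic integers containing p. If χ is an irreducible character of G ⧸ N and ψ lies in the block of its inflation χ ∘ (quotient map), then ψ is itself inflated from an irreducible character ψ' of G ⧸ N lying in the block of χ. (Over a normal p'-subgroup, blocks of the quotient are whole blocks of G.) -/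
theorem result {G : Type*} [Group G] [Finite G] (p : ℕ) [Fact p.Prime] (M : Ideal Cfsg.AlgInt) (hM : Cfsg.IsPModular p M) (N : Subgroup G) [N.Normal] (hN : ¬ p ∣ Nat.card N) (χ : Cfsg.IrrCharacter (G ⧸ N)) (ψ : Cfsg.IrrCharacter G) (hψ : ψ ∈ Cfsg.blockOf M ((χ : G ⧸ N → ℂ) ∘ QuotientGroup.mk)) : ∃ ψ' : Cfsg.IrrCharacter (G ⧸ N), (ψ : G → ℂ) = (ψ' : G ⧸ N → ℂ) ∘ QuotientGroup.mk ∧ Cfsg.SameBlock M (χ : G ⧸ N → ℂ) (ψ' : G ⧸ N → ℂ) := by
  classical
  haveI := Fintype.ofFinite G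
  haveI : Fintype N := Fintype.ofFinite _
  have hχG := Cfsg.Agent.Lib.Helper6.bq_inflate N χ
  have h1 := Cfsg.Agent.Lib.Helper6.bcf_constituent p M hM N hN ⟨_, hχG⟩ ψ hψ (fun _ => 1)
    (Cfsg.Agent.Lib.Lead.isIrrCharacter_one _)
  have hχ1 : (χ : G ⧸ N → ℂ) 1 ≠ 0 := Cfsg.Agent.Lib.Helper2.irr_one_ne_zero χ.2
  have h2 : Cfsg.classInner (fun n : N => ((χ : G ⧸ N → ℂ) ∘ QuotientGroup.mk) (n : G))
      (fun _ => 1) ≠ 0 := by
    have h3 : (fun n : N => ((χ : G ⧸ N → ℂ) ∘ QuotientGroup.mk) (n : G))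
        = fun _ => (χ : G ⧸ N → ℂ) 1 := by
      funext n
      show (χ : G ⧸ N → ℂ) (QuotientGroup.mk (n : G)) = _
      rw [(QuotientGroup.eq_one_iff (n : G)).2 n.2]
    rw [h3]
    unfold Cfsg.classInner
    have hNc : (Nat.card N : ℂ) ≠ 0 := by
      exact_mod_cast Nat.card_pos.ne'
    simp only [map_one, mul_one, Finset.sum_const, Finset.card_univ, nsmul_eq_mul]
    rw [← Nat.card_eq_fintype_card]
    exact mul_ne_zero (inv_ne_zero hNc) (mul_ne_zero hNc hχ1)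
  have h4 := Cfsg.Agent.Lib.Helper6.bq_triv_const N ψ (h1.1 h2)
  obtain ⟨ψ', hψ'⟩ := Cfsg.Agent.Lib.Helper6.bq_descend N ψ h4
  refine ⟨ψ', hψ', ?_⟩
  apply Cfsg.Agent.Lib.Helper6.bq_quot_block p M hM N hN χ ψ'
  rw [← hψ']
  exact hψ

end Cfsg.Agent.S0967
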