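import Cfsg.Statements.S1014
import Cfsg.Agent.Lib.Helper6.SimpleTools

set_option autoImplicit false
open Cfsg

namespace Cfsg.Agent.S1014

/-- No finite simple group has order 1104 = 2^4 * 3 * 23. -/
theorem result {G : Type*} [Group G] [Finite G] [IsSimpleGroup G] : Nat.card G ≠ 1104 := by
  intro hG
  haveI : Fact (Nat.Prime 23) := ⟨by norm_num⟩
  have hnc : ¬ IsMulCommutative G := Cfsg.Agent.Lib.Helper6.st_not_comm (by rw [hG]; norm_num)
  obtain ⟨j, hj0, hn, hdvd, hfact, hP⟩ := Cfsg.Agent.Lib.Helper6.st_sylow_data (G := G) 23 1 48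
    (hG.trans (by norm_num)) (by norm_num) (by norm_num) (by norm_num)
  have hj : j ≤ 2 := by
    have := Nat.le_of_dvd (by norm_num) hdvd
    omega
  obtain ⟨P⟩ : Nonempty (Sylow 23 G) := inferInstance
  obtain ⟨hPc, hN⟩ := hP P
  norm_num only at hPc
  interval_cases j
  all_goals try omega
  norm_num only at hN hn
  have hb := Cfsg.Agent.Lib.Helper6.st_normalizer_alt_bound hnc (by norm_num) P hPc 24 hn
    (by norm_num) (by norm_num)
  have hN' : Nat.card (Subgroup.normalizer ((P : Subgroup G) : Set G)) = 46 := by omega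
  rw [hN'] at hb
  revert hb
  decide

end Cfsg.Agent.S1014
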