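import Cfsg.Statements.S1015
import Cfsg.Agent.Lib.Helper6.SimpleTools2

set_option autoImplicit false
open Cfsg

namespace Cfsg.Agent.S1015

/-- No finite simple group has order 1200 = 2^4 * 3 * 5^2. -/
theorem result {G : Type*} [Group G] [Finite G] [IsSimpleGroup G] : Nat.card G ≠ 1200 := by
  intro hG
  haveI : Fact (Nat.Prime 5) := ⟨by norm_num⟩
  have hnc : ¬ IsMulCommutative G := Cfsg.Agent.Lib.Helper6.st_not_comm (by rw [hG]; norm_num)
  obtain ⟨j, hj0, hn, hdvd, hfact, hP⟩ := Cfsg.Agent.Lib.Helper6.st_sylow_data (G := G) 5 2 48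
    (hG.trans (by norm_num)) (by norm_num) (by norm_num) (by norm_num)
  have hj : j ≤ 9 := by
    have := Nat.le_of_dvd (by norm_num) hdvd
    omega
  interval_cases j
  all_goals try omega
  · revert hfact
    decide
  · have h16 : ¬ Nat.card (Sylow 5 G) ≡ 1 [MOD 5 ^ 2] := by
      rw [hn]
      decide
    obtain ⟨P, R, hPR, hidx⟩ := Cfsg.Agent.Lib.Helper6.sy_exists_small_index 5 2 h16
    have hPc := (hP P).1
    have hRc := (hP R).1
    have h1 := ((R : Subgroup G).subgroupOf (P : Subgroup G)).index_mul_card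
    rw [Cfsg.Agent.Lib.Helper6.sy_card_subgroupOf, hPc] at h1
    have hidx1 : ((R : Subgroup G).subgroupOf (P : Subgroup G)).index ≠ 1 := by
      intro h
      apply hPR
      have h2 : (P : Subgroup G) ≤ R := Subgroup.subgroupOf_eq_top.mp (Subgroup.index_eq_one.mp h)
      exact Sylow.ext (P.3 R.2 h2).symm
    have hDc : Nat.card ((P : Subgroup G) ⊓ (R : Subgroup G) : Subgroup G) = 5 := by
      rw [inf_comm]
      norm_num only at hidx h1
      generalize ((R : Subgroup G).subgroupOf (P : Subgroup G)).index = i at *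
      interval_cases i <;> omega
    have hPab := IsPGroup.isMulCommutative_of_card_eq_prime_sq hPc
    have hRab := IsPGroup.isMulCommutative_of_card_eq_prime_sq hRc
    have hPM : (P : Subgroup G) ≤ Subgroup.normalizer
        (((P : Subgroup G) ⊓ (R : Subgroup G) : Subgroup G) : Set G) :=
      Cfsg.Agent.Lib.Helper6.gl_le_normalizer_of_comm
        (fun x hx y hy => congrArg Subtype.val (hPab.is_comm.comm ⟨x, hx⟩ ⟨y, hy⟩)) inf_le_left
    have hRM : (R : Subgroup G) ≤ Subgroup.normalizer
        (((P : Subgroup G) ⊓ (R : Subgroup G) : Subgroup G) : Set G) :=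
      Cfsg.Agent.Lib.Helper6.gl_le_normalizer_of_comm
        (fun x hx y hy => congrArg Subtype.val (hRab.is_comm.comm ⟨x, hx⟩ ⟨y, hy⟩)) inf_le_right
    have hM := Cfsg.Agent.Lib.Helper6.st_normalizer_ne_top
      ((P : Subgroup G) ⊓ (R : Subgroup G) : Subgroup G)
      (by intro h; rw [h, Subgroup.card_bot] at hDc; omega)
      (by intro h; rw [h, Subgroup.card_top, hG] at hDc; omega)
    obtain ⟨i, hi, hi2⟩ := Cfsg.Agent.Lib.Helper6.st_two_sylows 2 48 (hG.trans (by norm_num))
      (by norm_num) P R hPR _ hPM hRM hM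
    have h8 : Nat.card G ∣ Nat.factorial 8 := hi2.trans (Nat.factorial_dvd_factorial (by omega))
    rw [hG] at h8
    revert h8
    decide

end Cfsg.Agent.S1015
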