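import Cfsg.Statements.S1118
import Cfsg.Agent.Lib.Helper2.RankOne
-- import your own Cfsg.Agent.* helpers here

set_option autoImplicit false
open Cfsg

namespace Cfsg.Agent.S1118

open Cfsg.Agent.Lib.Helper2.RankOne MulAction

/-- In the rank-one set-up (`G` finite and doubly transitive on `Ω`, `t` an involution moving `a`, `Q` normal in `G_a` with `G_a = Q D`, `Q ⊓ D = 1` for the two-point stabiliser `D = G_a ⊓ G_{t • a}`, `|Q|` even, `|D|` odd), the normaliser of a subset of `Q` containing a non-identity element lies in `G_a`; consequently `N_G(Q) = N_G(G_a) = G_a`. -/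
theorem result {G Ω : Type*} [Group G] [Finite G] [MulAction G Ω] {a : Ω} {t : G} {Q : Subgroup G}
    (hS : Cfsg.IsRankOneSetup G Ω a t Q) :
    (∀ X : Set G, X ⊆ (Q : Set G) → (∃ x ∈ X, x ≠ 1) → Subgroup.normalizer X ≤ MulAction.stabilizer G a) ∧
      Subgroup.normalizer (Q : Set G) = MulAction.stabilizer G a ∧
      Subgroup.normalizer (MulAction.stabilizer G a : Set G) = MulAction.stabilizer G a := by
  have hQne : ∃ x ∈ Q, x ≠ 1 := by
    by_contra hcon
    push_neg at hcon
    have : Q = ⊥ := (Subgroup.eq_bot_iff_forall Q).mpr hcon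
    have h1 : Nat.card Q = 1 := by rw [this]; exact Subgroup.card_bot
    have := hS.even_card
    rw [h1] at this
    exact absurd this (by decide)
  obtain ⟨x0, hx0, hx01⟩ := hQne
  have key : ∀ X : Set G, X ⊆ (Q : Set G) → (∃ x ∈ X, x ≠ 1) →
      Subgroup.normalizer X ≤ MulAction.stabilizer G a := by
    rintro X hX ⟨x, hxX, hx1⟩ g hg
    rw [Subgroup.mem_set_normalizer_iff] at hg
    have h1 : g * x * g⁻¹ ∈ Q := hX ((hg x).mp hxX)
    have h2 : g * x * g⁻¹ ≠ 1 := by
      intro h; apply hx1; simpa using h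
    have h3 : (g * x * g⁻¹) • (g • a) = g • a := by
      rw [mul_smul, mul_smul, inv_smul_smul, smul_a_of_mem hS (hX hxX)]
    exact mem_stabilizer_iff.mpr (eq_a_of_smul_eq hS h1 h2 h3)
  refine ⟨key, ?_, ?_⟩
  · refine le_antisymm (key Q subset_rfl ⟨x0, hx0, hx01⟩) ?_
    intro g hg
    rw [Subgroup.mem_normalizer_iff]
    intro h
    refine ⟨fun hh => hS.conj_mem g hg h hh, fun hh => ?_⟩
    have := hS.conj_mem g⁻¹ (inv_mem hg) _ hh
    have e : g⁻¹ * (g * h * g⁻¹) * g⁻¹⁻¹ = h := by group
    rw [e] at this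
    exact this
  · refine le_antisymm ?_ Subgroup.le_normalizer
    intro g hg
    rw [Subgroup.mem_normalizer_iff] at hg
    have h1 : g * x0 * g⁻¹ ∈ stabilizer G a := (hg x0).mp (hS.le hx0)
    rw [mem_stabilizer_iff, mul_smul, mul_smul] at h1
    have h2 : x0 • (g⁻¹ • a) = g⁻¹ • a := by
      have := congrArg (fun z => g⁻¹ • z) h1
      simp only [inv_smul_smul] at this
      exact this
    have h3 := eq_a_of_smul_eq hS hx0 hx01 h2
    rw [mem_stabilizer_iff]
    rw [inv_smul_eq_iff] at h3
    exact h3.symm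

end Cfsg.Agent.S1118
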