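import Cfsg.Statements.S1120
import Cfsg.Agent.Lib.Helper2.RankOne
import Cfsg.Agent.Lib.Helper2.InvOdd
import Cfsg.Agent.Lib.Helper7.PCore
-- import your own Cfsg.Agent.* helpers here

set_option autoImplicit false
open Cfsg

namespace Cfsg.Agent.S1120

open Cfsg.Agent.Lib.Helper2.RankOne Cfsg.Agent.Lib.Helper2.InvOdd MulAction

/-- In the rank-one set-up (`G` finite and doubly transitive on `Ω`, `t` an involution moving `a`, `Q` normal in `G_a` with `G_a = Q D`, `Q ⊓ D = 1` for the two-point stabiliser `D = G_a ⊓ G_{t • a}`, `|Q|` even, `|D|` odd), if `G` has 2-rank at least 2 then `O_{2'}(G)` equals the normal core of `G_a`. -/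
theorem result {G Ω : Type*} [Group G] [Finite G] [MulAction G Ω] {a : Ω} {t : G} {Q : Subgroup G}
    (hS : Cfsg.IsRankOneSetup G Ω a t Q)
    (h2 : ∃ x y : G, x ≠ 1 ∧ y ≠ 1 ∧ x ≠ y ∧ x * x = 1 ∧ y * y = 1 ∧ x * y = y * x) :
    Cfsg.pPrimeCore 2 G = (MulAction.stabilizer G a).normalCore := by
  obtain ⟨x, y, hx1, hy1, hxy, hx2, hy2, hc⟩ := h2
  haveI := pretrans hS
  have hNn : (Cfsg.pPrimeCore 2 G).Normal := Cfsg.Agent.Lib.Helper7.pPrimeCore_normal 2 G
  have hNodd : Odd (Nat.card (Cfsg.pPrimeCore 2 G)) :=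
    Nat.coprime_two_right.mp (Cfsg.Agent.Lib.Helper7.pPrimeCore_coprime 2 G)
  apply le_antisymm
  · rw [Subgroup.normal_le_normalCore]
    obtain ⟨c, hcx⟩ := exists_fix hS hx2
    have hyc : y • c = c := by
      have h1 : x • (y • c) = y • c := by
        rw [smul_smul, hc, mul_smul, hcx]
      exact fix_unique hS hx1 hx2 h1 hcx
    have hxy1 : x * y ≠ 1 := by
      intro h
      apply hxy
      have hyi : y⁻¹ = y := inv_eq_of_mul_eq_one_left hy2
      rw [← hyi]
      exact eq_inv_of_mul_eq_one_left h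
    have hxy2 : (x * y) * (x * y) = 1 := by
      calc (x * y) * (x * y) = x * (y * x) * y := by group
        _ = x * (x * y) * y := by rw [hc]
        _ = (x * x) * (y * y) := by group
        _ = 1 := by rw [hx2, hy2, one_mul]
    have hxyc : (x * y) • c = c := by rw [mul_smul, hyc, hcx]
    have key : ∀ u : G, u ≠ 1 → u * u = 1 → u • c = c →
        Cfsg.pPrimeCore 2 G ⊓ Subgroup.centralizer ({u} : Set G) ≤ stabilizer G c := by
      intro u hu1 hu2 huc n hn
      have hnu := mem_cent_iff.mp (Subgroup.mem_inf.mp hn).2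
      rw [mem_stabilizer_iff]
      have h1 : u • (n • c) = n • c := by
        rw [smul_smul, hnu, mul_smul, huc]
      exact fix_unique hS hu1 hu2 h1 huc
    have hNc : Cfsg.pPrimeCore 2 G ≤ stabilizer G c :=
      klein_gen hx2 hy2 hc hNodd (fun n hn => hNn.conj_mem n hn x) (fun n hn => hNn.conj_mem n hn y)
        (key x hx1 hx2 hcx) (key y hy1 hy2 hyc) (key (x * y) hxy1 hxy2 hxyc)
    intro n hn
    obtain ⟨g, hg⟩ := exists_smul_eq G c a
    have h1 := hNc (hNn.conj_mem n hn g⁻¹)
    rw [mem_stabilizer_iff, inv_inv, mul_smul, mul_smul, hg, inv_smul_eq_iff, hg] at h1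
    exact mem_stabilizer_iff.mpr h1
  · apply Cfsg.Agent.Lib.Helper7.le_pPrimeCore (Subgroup.normalCore_normal _)
    rw [Nat.coprime_two_right]
    by_contra hcon
    rw [Nat.not_odd_iff_even, even_iff_two_dvd] at hcon
    obtain ⟨u, hu⟩ := exists_prime_orderOf_dvd_card' (G := (stabilizer G a).normalCore) 2 hcon
    have hu2 : (u : G) * (u : G) = 1 := by
      have := pow_orderOf_eq_one u
      rw [hu, pow_two] at this
      exact congrArg Subtype.val this
    have hu1 : (u : G) ≠ 1 := by
      intro h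
      have : u = 1 := Subtype.ext h
      rw [this, orderOf_one] at hu
      omega
    have hua : (u : G) • a = a := Subgroup.normalCore_le _ u.2
    have hub : (u : G) • (t • a) = t • a := by
      have h1 : t⁻¹ * (u : G) * t⁻¹⁻¹ ∈ (stabilizer G a).normalCore :=
        (Subgroup.normalCore_normal _).conj_mem _ u.2 t⁻¹
      have h2 := Subgroup.normalCore_le _ h1
      rw [mem_stabilizer_iff, inv_inv, mul_smul, mul_smul, inv_smul_eq_iff] at h2
      exact h2
    exact b_ne hS (fix_unique hS hu1 hu2 hub hua)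

end Cfsg.Agent.S1120
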