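import Cfsg.Statements.S1121
import Cfsg.Agent.Lib.Helper2.RankOne
-- import your own Cfsg.Agent.* helpers here

set_option autoImplicit false
open Cfsg

namespace Cfsg.Agent.S1121

open Cfsg.Agent.Lib.Helper2.RankOne MulAction

/-- In the rank-one set-up (`G` finite and doubly transitive on `Ω`, `t` an involution moving `a`, `Q` normal in `G_a` with `G_a = Q D`, `Q ⊓ D = 1` for the two-point stabiliser `D = G_a ⊓ G_{t • a}`, `|Q|` even, `|D|` odd): if `s` is an involution of `G_a` and `u` an involution outside `G_a`, then `s u` has odd order; and any two involutions of `G` are conjugate. -/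
theorem result {G Ω : Type*} [Group G] [Finite G] [MulAction G Ω] {a : Ω} {t : G} {Q : Subgroup G}
    (hS : Cfsg.IsRankOneSetup G Ω a t Q) :
    (∀ s u : G, s ∈ MulAction.stabilizer G a → s ≠ 1 → s * s = 1 → u ∉ MulAction.stabilizer G a → u ≠ 1 → u * u = 1 → Odd (orderOf (s * u))) ∧
      ∀ u v : G, u ≠ 1 → u * u = 1 → v ≠ 1 → v * v = 1 → ∃ g : G, g * u * g⁻¹ = v := by
  have hodd : ∀ s u : G, s ∈ MulAction.stabilizer G a → s ≠ 1 → s * s = 1 →
      u ∉ MulAction.stabilizer G a → u ≠ 1 → u * u = 1 → Odd (orderOf (s * u)) := by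
    intro s u hs hs1 hs2 hu hu1 hu2
    by_contra hcon
    rw [Nat.not_odd_iff_even] at hcon
    obtain ⟨k, hk⟩ := hcon
    have hpos : 0 < orderOf (s * u) := orderOf_pos _
    have hk0 : 0 < k := by omega
    have hsi : s⁻¹ = s := inv_eq_of_mul_eq_one_left hs2
    have hui : u⁻¹ = u := inv_eq_of_mul_eq_one_left hu2
    have hz2 : (s * u) ^ k * (s * u) ^ k = 1 := by
      rw [← pow_add, ← hk]; exact pow_orderOf_eq_one _
    have hz1 : (s * u) ^ k ≠ 1 := by
      intro h
      have := orderOf_dvd_of_pow_eq_one h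
      have := Nat.le_of_dvd hk0 this
      omega
    have hzi : ((s * u) ^ k)⁻¹ = (s * u) ^ k := inv_eq_of_mul_eq_one_left hz2
    have hcs : s * (s * u) ^ k * s⁻¹ = (s * u) ^ k := by
      rw [← conj_pow]
      have : s * (s * u) * s⁻¹ = (s * u)⁻¹ := by
        rw [mul_inv_rev, hsi, hui, ← mul_assoc, hs2, one_mul]
      rw [this, inv_pow, hzi]
    have hcu : u * (s * u) ^ k * u⁻¹ = (s * u) ^ k := by
      rw [← conj_pow]
      have : u * (s * u) * u⁻¹ = (s * u)⁻¹ := by
        rw [mul_inv_rev, hsi, hui, mul_assoc, mul_assoc, hu2, mul_one]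
      rw [this, inv_pow, hzi]
    generalize (s * u) ^ k = z at hz2 hz1 hcs hcu
    rw [mem_stabilizer_iff] at hs
    have hsz : s * z = z * s := by
      calc s * z = (s * z * s⁻¹) * s := by group
        _ = z * s := by rw [hcs]
    have huz : u * z = z * u := by
      calc u * z = (u * z * u⁻¹) * u := by group
        _ = z * u := by rw [hcu]
    have hza : z • a = a := by
      have h1 : s • (z • a) = z • a := by
        rw [smul_smul, hsz, mul_smul, hs]
      exact fix_unique hS hs1 hs2 h1 hs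
    have hua : u • a = a := by
      have h1 : z • (u • a) = u • a := by
        rw [smul_smul, ← huz, mul_smul, hza]
      exact fix_unique hS hz1 hz2 h1 hza
    exact hu (mem_stabilizer_iff.mpr hua)
  refine ⟨hodd, ?_⟩
  have hconjt : ∀ u : G, u ≠ 1 → u * u = 1 → ∃ g : G, g * u * g⁻¹ = t := by
    intro u hu1 hu2
    obtain ⟨c, hc⟩ := exists_fix hS hu2
    haveI := pretrans hS
    obtain ⟨g, hg⟩ := exists_smul_eq G c a
    have hs : g * u * g⁻¹ ∈ stabilizer G a := by
      rw [mem_stabilizer_iff, mul_smul, mul_smul, ← hg, inv_smul_smul, hc]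
    have hs2 : (g * u * g⁻¹) * (g * u * g⁻¹) = 1 := by
      have : (g * u * g⁻¹) * (g * u * g⁻¹) = g * (u * u) * g⁻¹ := by group
      rw [this, hu2]; group
    have hs1 : g * u * g⁻¹ ≠ 1 := by
      intro h; apply hu1; simpa using h
    obtain ⟨h, hh⟩ := conj_of_odd_order hs2 hS.mul_self
      (hodd _ _ hs hs1 hs2 hS.not_mem hS.ne_one hS.mul_self)
    refine ⟨h * g, ?_⟩
    rw [← hh]; group
  intro u v hu1 hu2 hv1 hv2
  obtain ⟨g, hg⟩ := hconjt u hu1 hu2
  obtain ⟨h, hh⟩ := hconjt v hv1 hv2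
  refine ⟨h⁻¹ * g, ?_⟩
  have : h⁻¹ * g * u * (h⁻¹ * g)⁻¹ = h⁻¹ * (g * u * g⁻¹) * h := by group
  rw [this, hg, ← hh]; group

end Cfsg.Agent.S1121
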