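import Cfsg.Statements.S1123
import Cfsg.Agent.Lib.Helper2.RankOne
-- import your own Cfsg.Agent.* helpers here

set_option autoImplicit false
open Cfsg

namespace Cfsg.Agent.S1123

open Cfsg.Agent.Lib.Helper2.RankOne MulAction

/-- In the rank-one set-up (`G` finite and doubly transitive on `Ω`, `t` an involution moving `a`, `Q` normal in `G_a` with `G_a = Q D`, `Q ⊓ D = 1` for the two-point stabiliser `D = G_a ⊓ G_{t • a}`, `|Q|` even, `|D|` odd), there is a unique pair `(s, r)` with `s` an involution of `G_a`, `r ∈ Q` and `t s t = r⁻¹ t r`. -/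
theorem result {G Ω : Type*} [Group G] [Finite G] [MulAction G Ω] {a : Ω} {t : G} {Q : Subgroup G}
    (hS : Cfsg.IsRankOneSetup G Ω a t Q) :
    ∃! p : G × G, p.1 ∈ Cfsg.involutionsIn (MulAction.stabilizer G a : Set G) ∧ p.2 ∈ Q ∧
      t * p.1 * t = p.2⁻¹ * t * p.2 := by
  have ht := t_inv hS
  have htt := hS.mul_self
  obtain ⟨c, hc⟩ := exists_fix hS hS.mul_self
  have hca : c ≠ a := by
    rintro rfl; exact b_ne hS hc
  obtain ⟨q, hq, hqc⟩ := exists_smul_b hS hca
  have hqc' : q⁻¹ • c = t • a := inv_smul_eq_iff.mpr hqc.symm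
  refine ⟨(t * q⁻¹ * t * q * t, q), ⟨⟨?_, ?_, ?_⟩, hq, ?_⟩, ?_⟩
  · show t * q⁻¹ * t * q * t ∈ stabilizer G a
    rw [mem_stabilizer_iff]
    simp only [mul_smul]
    rw [hqc, hc, hqc', t_smul_b hS]
  · intro h
    have h : t * q⁻¹ * t * q * t = 1 := h
    apply hS.ne_one
    have e : t = (t * q⁻¹)⁻¹ * (t * q⁻¹ * t * q * t) * (t * q⁻¹) := by
      simp [mul_assoc, tt_left hS, ht, htt]
    rw [e, h]; group
  · show (t * q⁻¹ * t * q * t) * (t * q⁻¹ * t * q * t) = 1
    simp [mul_assoc, tt_left hS, htt]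
  · show t * (t * q⁻¹ * t * q * t) * t = q⁻¹ * t * q
    simp [mul_assoc, tt_left hS, htt]
  · rintro ⟨s', q'⟩ ⟨⟨hs'mem, hs'1, hs'2⟩, hq', e⟩
    have hs'a : s' • a = a := hs'mem
    have e' : t * s' * t = q'⁻¹ * t * q' := e
    have h0 : (t * s' * t) • (t • a) = t • a := by
      simp only [mul_smul]
      rw [t_smul_b hS, hs'a]
    rw [e'] at h0
    have h1 : t • (q' • (t • a)) = q' • (t • a) := by
      simp only [mul_smul] at h0
      rw [inv_smul_eq_iff] at h0
      exact h0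
    have h2 : q' • (t • a) = c := fix_unique hS hS.ne_one hS.mul_self h1 hc
    have h3 : q' = q := by
      obtain ⟨x, hx, hxe, hu⟩ := exists_unique_smul hS (b_ne hS) hca
      rw [hu q' hq' h2, hu q hq hqc]
    subst h3
    have h4 : s' = t * (t * s' * t) * t := by
      simp [mul_assoc, tt_left hS, htt]
    rw [e'] at h4
    rw [Prod.mk.injEq]
    refine ⟨?_, rfl⟩
    rw [h4]; simp [mul_assoc]

end Cfsg.Agent.S1123
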