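import Cfsg.Statements.S1124
import Cfsg.Agent.Lib.Helper2.InvOdd
-- import your own Cfsg.Agent.* helpers here

set_option autoImplicit false
open scoped Pointwise
open Cfsg

namespace Cfsg.Agent.S1124

open Cfsg.Agent.Lib.Helper2.InvOdd

/-- Let `t` be an element of order 2 of a finite group normalising a subgroup `X` of odd order, `Y = C_X(t)` and `Z` the set of elements of `X` inverted by `t`. Then `(y, z) ↦ y z` is a bijection `Y × Z → X`, so `|X| = |Y| |Z|`, and the subgroup generated by `Z` is normal in `X`. -/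
theorem result {M : Type*} [Group M] [Finite M]
    (t : M) (ht : orderOf t = 2) (X : Subgroup M) (hodd : Odd (Nat.card X))
    (hnorm : ∀ x ∈ X, t * x * t⁻¹ ∈ X) :
    (∀ x ∈ X, ∃! p : M × M, p.1 ∈ X ⊓ Subgroup.centralizer {t} ∧ p.2 ∈ Cfsg.invertedBy X t ∧ x = p.1 * p.2) ∧
      Nat.card X = Nat.card ↥(X ⊓ Subgroup.centralizer {t}) * Nat.card (Cfsg.invertedBy X t) ∧
      ∀ x ∈ X, MulAut.conj x • Subgroup.closure (Cfsg.invertedBy X t) = Subgroup.closure (Cfsg.invertedBy X t) := by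
  have ht2 : t * t = 1 := by
    have := pow_orderOf_eq_one t
    rw [ht, pow_two] at this
    exact this
  refine ⟨?_, card_eq ht2 hodd hnorm, ?_⟩
  · intro x hx
    obtain ⟨c, hc, i, hi, rfl⟩ := exists_decomp ht2 hodd hnorm hx
    refine ⟨(c, i), ⟨hc, hi, rfl⟩, ?_⟩
    rintro ⟨c', i'⟩ ⟨hc', hi', e⟩
    obtain ⟨h1, h2⟩ := decomp_unique hodd hc hc' hi hi' e
    rw [Prod.mk.injEq]; exact ⟨h1.symm, h2.symm⟩
  · intro x hx
    have h := mem_normalizer_closure ht2 hodd hnorm hx
    rw [Subgroup.mem_normalizer_iff_map_conj_eq] at h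
    rw [Subgroup.pointwise_smul_def]
    exact h

end Cfsg.Agent.S1124
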