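import Cfsg.Statements.S1125
import Cfsg.Agent.Lib.Helper2.RankOne2
-- import your own Cfsg.Agent.* helpers here

set_option autoImplicit false
open Cfsg

namespace Cfsg.Agent.S1125

open Cfsg.Agent.Lib.Helper2.RankOne Cfsg.Agent.Lib.Helper2.InvOdd MulAction

/-- In the rank-one set-up (`G` finite and doubly transitive on `Ω`, `t` an involution moving `a`, `Q` normal in `G_a` with `G_a = Q D`, `Q ⊓ D = 1` for the two-point stabiliser `D = G_a ⊓ G_{t • a}`, `|Q|` even, `|D|` odd), let `X ⊆ D` fix at least three points of `Ω`. Then `C_G(X)` is doubly transitive on the fixed-point set of `X`, `|C_Q(X)|` is even, and `C_{G_a}(X) = C_Q(X) C_D(X)`. -/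
theorem result {G Ω : Type*} [Group G] [Finite G] [MulAction G Ω] {a : Ω} {t : G} {Q : Subgroup G}
    (hS : Cfsg.IsRankOneSetup G Ω a t Q)
    (X : Set G) (hX : X ⊆ ((MulAction.stabilizer G a ⊓ MulAction.stabilizer G (t • a)) : Set G))
    (h3 : ∃ b c d : Ω, b ≠ c ∧ b ≠ d ∧ c ≠ d ∧ ∀ x ∈ X, x • b = b ∧ x • c = c ∧ x • d = d) :
    (∀ b₁ b₂ c₁ c₂ : Ω, (∀ x ∈ X, x • b₁ = b₁ ∧ x • b₂ = b₂ ∧ x • c₁ = c₁ ∧ x • c₂ = c₂) →
        b₁ ≠ b₂ → c₁ ≠ c₂ → ∃ g ∈ Subgroup.centralizer X, g • b₁ = c₁ ∧ g • b₂ = c₂) ∧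
      Even (Nat.card ↥(Subgroup.centralizer X ⊓ Q)) ∧
      (Subgroup.centralizer X ⊓ Q) ⊔ (Subgroup.centralizer X ⊓ (MulAction.stabilizer G a ⊓ MulAction.stabilizer G (t • a))) = Subgroup.centralizer X ⊓ MulAction.stabilizer G a := by
  have hXa : ∀ x ∈ X, x • a = a := fun x hx => mem_D_smul_a (hX hx)
  have hXb : ∀ x ∈ X, x • (t • a) = t • a := fun x hx => mem_D_smul_b (hX hx)
  refine ⟨?_, ?_, ?_⟩
  · intro b₁ b₂ c₁ c₂ hfix hb hc
    exact cent_two_trans hS X h3 (fun x hx => (hfix x hx).1) (fun x hx => (hfix x hx).2.1)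
      (fun x hx => (hfix x hx).2.2.1) (fun x hx => (hfix x hx).2.2.2) hb hc
  · obtain ⟨u, hu, hu1, hu2⟩ := exists_involution_cent hS X hX h3
    obtain ⟨c0, hc0⟩ := exists_fix hS hu2
    have hc0fix : ∀ x ∈ X, x • c0 = c0 := by
      intro x hx
      have h1 : u • (x • c0) = x • c0 := by
        rw [smul_smul, ← (Subgroup.mem_centralizer_iff.mp hu) x hx, mul_smul, hc0]
      exact fix_unique hS hu1 hu2 h1 hc0
    obtain ⟨g, hg, hge⟩ := cent_trans hS X h3 hc0fix hXa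
    have hu' : g * u * g⁻¹ ∈ Subgroup.centralizer X :=
      Subgroup.mul_mem _ (Subgroup.mul_mem _ hg hu) (Subgroup.inv_mem _ hg)
    have hu'a : g * u * g⁻¹ ∈ stabilizer G a := by
      rw [mem_stabilizer_iff, mul_smul, mul_smul, ← hge, inv_smul_smul, hc0]
    have hu'2 : (g * u * g⁻¹) * (g * u * g⁻¹) = 1 := by
      calc (g * u * g⁻¹) * (g * u * g⁻¹) = g * (u * u) * g⁻¹ := by group
        _ = 1 := by rw [hu2]; group
    have hu'1 : g * u * g⁻¹ ≠ 1 := by
      intro h; apply hu1; simpa using h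
    have hu'Q := mem_Q_of_sq hS hu'a hu'2
    have hord : orderOf (⟨g * u * g⁻¹, Subgroup.mem_inf.mpr ⟨hu', hu'Q⟩⟩ :
        ↥(Subgroup.centralizer X ⊓ Q)) = 2 := by
      apply orderOf_eq_prime
      · apply Subtype.ext
        rw [pow_two]
        exact hu'2
      · intro h; exact hu'1 (congrArg Subtype.val h)
    have hdvd := orderOf_dvd_natCard (⟨g * u * g⁻¹, Subgroup.mem_inf.mpr ⟨hu', hu'Q⟩⟩ :
        ↥(Subgroup.centralizer X ⊓ Q))
    rw [hord] at hdvd
    exact even_iff_two_dvd.mpr hdvd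
  · apply le_antisymm
    · exact sup_le (inf_le_inf_left _ hS.le) (inf_le_inf_left _ inf_le_left)
    · intro g hg
      obtain ⟨hgc, hga⟩ := Subgroup.mem_inf.mp hg
      obtain ⟨q, hq, d, hd, rfl⟩ := exists_mul_of_mem_stab hS hga
      have hqb : (q * d) • (t • a) = q • (t • a) := by rw [mul_smul, mem_D_smul_b hd]
      have hfix := cent_smul_fix hgc hXb
      have hne : (q * d) • (t • a) ≠ a := by rw [hqb]; exact smul_ne_a hS hq (b_ne hS)
      obtain ⟨q', hq', h1, h2, h3'⟩ := cent_core hS X (h := 1) (one_smul _ a) hXa hXb hfix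
        (b_ne hS) hne
      simp only [one_mul, inv_one, mul_one] at h1 h3'
      have hqq : q' = q := eq_of_smul_b_eq hS hq' hq (h3'.trans hqb)
      subst hqq
      have hdc : d ∈ Subgroup.centralizer X := by
        have := Subgroup.mul_mem _ (Subgroup.inv_mem _ h1) hgc
        rwa [inv_mul_cancel_left] at this
      exact Subgroup.mul_mem_sup (Subgroup.mem_inf.mpr ⟨h1, hq'⟩) (Subgroup.mem_inf.mpr ⟨hdc, hd⟩)

end Cfsg.Agent.S1125
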