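import Cfsg.Statements.S1126
import Cfsg.Agent.Lib.Helper2.RankOne2
-- import your own Cfsg.Agent.* helpers here

set_option autoImplicit false
open Cfsg

namespace Cfsg.Agent.S1126

open Cfsg.Agent.Lib.Helper2.RankOne Cfsg.Agent.Lib.Helper2.InvOdd MulAction

/-- In the rank-one set-up (`G` finite and doubly transitive on `Ω`, `t` an involution moving `a`, `Q` normal in `G_a` with `G_a = Q D`, `Q ⊓ D = 1` for the two-point stabiliser `D = G_a ⊓ G_{t • a}`, `|Q|` even, `|D|` odd), a subset `X ⊆ D` fixing at least three points of `Ω` is conjugate by an element of `D` into `V = C_D(t)`. -/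
theorem result {G Ω : Type*} [Group G] [Finite G] [MulAction G Ω] {a : Ω} {t : G} {Q : Subgroup G}
    (hS : Cfsg.IsRankOneSetup G Ω a t Q)
    (X : Set G) (hX : X ⊆ ((MulAction.stabilizer G a ⊓ MulAction.stabilizer G (t • a)) : Set G))
    (h3 : ∃ b c d : Ω, b ≠ c ∧ b ≠ d ∧ c ≠ d ∧ ∀ x ∈ X, x • b = b ∧ x • c = c ∧ x • d = d) :
    ∃ k ∈ (MulAction.stabilizer G a ⊓ MulAction.stabilizer G (t • a)), ∀ x ∈ X, (k * x * k⁻¹) * t = t * (k * x * k⁻¹) := by
  have hXa : ∀ x ∈ X, x • a = a := fun x hx => mem_D_smul_a (hX hx)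
  have hXb : ∀ x ∈ X, x • (t • a) = t • a := fun x hx => mem_D_smul_b (hX hx)
  obtain ⟨u, hu, hu1, hu2⟩ := exists_involution_cent hS X hX h3
  obtain ⟨c0, hc0⟩ := exists_fix hS hu2
  obtain ⟨p, hp, hpc⟩ : ∃ p, (∀ x ∈ X, x • p = p) ∧ p ≠ c0 := by
    by_cases h : a = c0
    · exact ⟨t • a, hXb, fun h' => b_ne hS (h'.trans h.symm)⟩
    · exact ⟨a, hXa, h⟩
  have hup : u • p ≠ p := fun h => hpc (fix_unique hS hu1 hu2 h hc0)
  have hupfix := cent_smul_fix hu hp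
  obtain ⟨h, hh, hh1, hh2⟩ := cent_two_trans hS X h3 hp hupfix hXa hXb hup.symm (b_ne hS).symm
  have hu'2 : (h * u * h⁻¹) * (h * u * h⁻¹) = 1 := by
    calc (h * u * h⁻¹) * (h * u * h⁻¹) = h * (u * u) * h⁻¹ := by group
      _ = 1 := by rw [hu2]; group
  have hu'a : (h * u * h⁻¹) • a = t • a := by
    have hinv : h⁻¹ • a = p := by rw [inv_smul_eq_iff, hh1]
    rw [mul_smul, mul_smul, hinv, hh2]
  have hu'c : h * u * h⁻¹ ∈ Subgroup.centralizer X :=
    Subgroup.mul_mem _ (Subgroup.mul_mem _ hh hu) (Subgroup.inv_mem _ hh)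
  obtain ⟨d, hd, hde⟩ := exists_D_conj_eq_t hS hu'2 hu'a
  refine ⟨d, hd, ?_⟩
  intro x hx
  have hxu := (Subgroup.mem_centralizer_iff.mp hu'c) x hx
  rw [← hde]
  calc d * x * d⁻¹ * (d * (h * u * h⁻¹) * d⁻¹) = d * (x * (h * u * h⁻¹)) * d⁻¹ := by group
    _ = d * ((h * u * h⁻¹) * x) * d⁻¹ := by rw [hxu]
    _ = d * (h * u * h⁻¹) * d⁻¹ * (d * x * d⁻¹) := by group

end Cfsg.Agent.S1126
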