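import Cfsg.Statements.S1127
import Cfsg.Agent.Lib.Helper2.RankOne2
-- import your own Cfsg.Agent.* helpers here

set_option autoImplicit false
open Cfsg

namespace Cfsg.Agent.S1127

open Cfsg.Agent.Lib.Helper2.RankOne Cfsg.Agent.Lib.Helper2.InvOdd MulAction

/-- In the rank-one set-up (`G` finite and doubly transitive on `Ω`, `t` an involution moving `a`, `Q` normal in `G_a` with `G_a = Q D`, `Q ⊓ D = 1` for the two-point stabiliser `D = G_a ⊓ G_{t • a}`, `|Q|` even, `|D|` odd): if `s` is an involution of `G_a` and `r ∈ Q` satisfy `t s t = r⁻¹ t r`, then `C_D(t) = C_D(s)`; moreover `C_D(t) ⊓ C_D(K) = C_D(I ∩ G_a)`, where `K` is the set of elements of `D` inverted by `t` and `I ∩ G_a` the set of involutions of `G_a`. -/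
theorem result {G Ω : Type*} [Group G] [Finite G] [MulAction G Ω] {a : Ω} {t : G} {Q : Subgroup G}
    (hS : Cfsg.IsRankOneSetup G Ω a t Q) :
    (∀ s r : G, s ∈ Cfsg.involutionsIn (MulAction.stabilizer G a : Set G) → r ∈ Q → t * s * t = r⁻¹ * t * r →
        (MulAction.stabilizer G a ⊓ MulAction.stabilizer G (t • a)) ⊓ Subgroup.centralizer {t} = (MulAction.stabilizer G a ⊓ MulAction.stabilizer G (t • a)) ⊓ Subgroup.centralizer {s}) ∧
      (MulAction.stabilizer G a ⊓ MulAction.stabilizer G (t • a)) ⊓ Subgroup.centralizer {t} ⊓ Subgroup.centralizer (Cfsg.invertedBy (MulAction.stabilizer G a ⊓ MulAction.stabilizer G (t • a)) t) =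
        (MulAction.stabilizer G a ⊓ MulAction.stabilizer G (t • a)) ⊓ Subgroup.centralizer (Cfsg.involutionsIn (MulAction.stabilizer G a : Set G)) := by
  have ht := t_inv hS
  have htt := hS.mul_self
  have part1 : ∀ s r : G, s ∈ Cfsg.involutionsIn (MulAction.stabilizer G a : Set G) → r ∈ Q →
      t * s * t = r⁻¹ * t * r →
      (MulAction.stabilizer G a ⊓ MulAction.stabilizer G (t • a)) ⊓ Subgroup.centralizer {t} =
        (MulAction.stabilizer G a ⊓ MulAction.stabilizer G (t • a)) ⊓ Subgroup.centralizer {s} := by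
    intro s r hs hr e
    have hA : Assoc Q a t s := ⟨hs, r, hr, e⟩
    ext d
    constructor
    · intro hd0
      obtain ⟨hd, hdt⟩ := Subgroup.mem_inf.mp hd0
      rw [mem_cent_iff] at hdt
      refine Subgroup.mem_inf.mpr ⟨hd, mem_cent_iff.mpr ?_⟩
      have h1 := assoc_conj hS hd hA
      have h2 : d * t * d⁻¹ = t := by
        calc d * t * d⁻¹ = (t * d) * d⁻¹ := by rw [hdt]
          _ = t := by group
      rw [h2] at h1
      have h3 := assoc_unique' hS htt rfl hA h1
      calc s * d = (d * s * d⁻¹) * d := by rw [← h3]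
        _ = d * s := by group
    · intro hd0
      obtain ⟨hd, hds⟩ := Subgroup.mem_inf.mp hd0
      rw [mem_cent_iff] at hds
      refine Subgroup.mem_inf.mpr ⟨hd, mem_cent_iff.mpr ?_⟩
      have h1 := assoc_conj hS hd hA
      have h2 : d * s * d⁻¹ = s := by
        calc d * s * d⁻¹ = (s * d) * d⁻¹ := by rw [hds]
          _ = s := by group
      rw [h2] at h1
      obtain ⟨h3, h4⟩ := swap_conj hd htt (rfl : t • a = t • a)
      have h5 := assoc_inj hS htt rfl h3 h4 hA h1
      calc t * d = (d * t * d⁻¹) * d := by rw [← h5]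
        _ = d * t := by group
  refine ⟨part1, ?_⟩
  obtain ⟨s0, hs0, r0, hr0, e0⟩ := assoc_exists hS
  have hp := part1 s0 r0 hs0 hr0 e0
  ext d
  constructor
  · intro hd
    obtain ⟨hd1, hd2⟩ := Subgroup.mem_inf.mp hd
    have hd3 : d ∈ (MulAction.stabilizer G a ⊓ MulAction.stabilizer G (t • a)) ⊓ Subgroup.centralizer {s0} := by
      rw [← hp]; exact hd1
    have hds0 := mem_cent_iff.mp (Subgroup.mem_inf.mp hd3).2
    refine Subgroup.mem_inf.mpr ⟨(Subgroup.mem_inf.mp hd1).1, ?_⟩
    rw [Subgroup.mem_centralizer_iff]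
    intro s' hs'
    obtain ⟨k, hk, hke⟩ := exists_invertedBy_conj hS hs0 hs'
    have hdk : k * d = d * k := (Subgroup.mem_centralizer_iff.mp hd2) k hk
    have hdk' : k⁻¹ * d = d * k⁻¹ := by
      calc k⁻¹ * d = k⁻¹ * (d * k) * k⁻¹ := by group
        _ = k⁻¹ * (k * d) * k⁻¹ := by rw [hdk]
        _ = d * k⁻¹ := by group
    rw [← hke]
    calc k⁻¹ * s0 * k * d = k⁻¹ * s0 * (k * d) := by group
      _ = k⁻¹ * (s0 * d) * k := by rw [hdk]; group
      _ = (k⁻¹ * d) * s0 * k := by rw [hds0]; group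
      _ = d * (k⁻¹ * s0 * k) := by rw [hdk']; group
  · intro hd
    obtain ⟨hd1, hd2⟩ := Subgroup.mem_inf.mp hd
    have hcen := Subgroup.mem_centralizer_iff.mp hd2
    have hd3 : d ∈ (MulAction.stabilizer G a ⊓ MulAction.stabilizer G (t • a)) ⊓ Subgroup.centralizer {t} := by
      rw [hp]; exact Subgroup.mem_inf.mpr ⟨hd1, mem_cent_iff.mpr (hcen s0 hs0)⟩
    have hdt := mem_cent_iff.mp (Subgroup.mem_inf.mp hd3).2
    refine Subgroup.mem_inf.mpr ⟨hd3, ?_⟩
    rw [Subgroup.mem_centralizer_iff]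
    intro k hk
    have hw2 := tk_sq hS hk
    have hwa : (t * k) • a = t • a := by rw [mul_smul, mem_D_smul_a hk.1]
    obtain ⟨sw, hsw⟩ := assoc_exists' hS hw2 hwa
    have h1 := assoc_conj hS hd1 hsw
    have h2 : d * sw * d⁻¹ = sw := by
      calc d * sw * d⁻¹ = (sw * d) * d⁻¹ := by rw [hcen sw hsw.1]
        _ = sw := by group
    rw [h2] at h1
    obtain ⟨h3, h4⟩ := swap_conj hd1 hw2 hwa
    have h5 := assoc_inj hS hw2 hwa h3 h4 hsw h1
    -- t k = d t k d⁻¹ = t d k d⁻¹
    have h6 : t * k = t * (d * k * d⁻¹) := by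
      calc t * k = d * (t * k) * d⁻¹ := h5
        _ = (d * t) * k * d⁻¹ := by group
        _ = t * (d * k * d⁻¹) := by rw [← hdt]; group
    have h7 : k = d * k * d⁻¹ := mul_left_cancel h6
    calc k * d = (d * k * d⁻¹) * d := by rw [← h7]
      _ = d * k := by group

end Cfsg.Agent.S1127
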