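import Cfsg.Statements.S1166
import Cfsg.Agent.Lib.Helper2.RankOne
-- import your own Cfsg.Agent.* helpers here

set_option autoImplicit false
open Cfsg

namespace Cfsg.Agent.S1166

open Cfsg.Agent.Lib.Helper2.RankOne MulAction

/-- In the rank-one set-up (`G` finite and doubly transitive on `Ω`, `t` an involution moving `a`, `Q` normal in `G_a` with `G_a = Q D`, `Q ⊓ D = 1` for the two-point stabiliser `D = G_a ⊓ G_{t • a}`, `|Q|` even, `|D|` odd), with `t x t = g_x h_x t f_x` and `t y t = g_y h_y t f_y` (`g, f ∈ Q`, `h ∈ D`) for `x, y ∈ Q ∖ 1` with `x y ≠ 1`: then `z = f_x g_y ≠ 1`, and if `t z t = g_z h_z t f_z` and `t (x y) t = g' h' t f'` then `f' = (t h_y t)⁻¹ f_z (t h_y t) f_y` and `h' = h_x h_z h_y` (H6). -/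
theorem result {G Ω : Type*} [Group G] [Finite G] [MulAction G Ω] {a : Ω} {t : G} {Q : Subgroup G}
    (hS : Cfsg.IsRankOneSetup G Ω a t Q)
    (x y gx hx fx gy hy fy : G) (hxQ : x ∈ Q) (hx1 : x ≠ 1) (hyQ : y ∈ Q) (hy1 : y ≠ 1) (hxy : x * y ≠ 1)
    (hgx : gx ∈ Q) (hhx : hx ∈ (MulAction.stabilizer G a ⊓ MulAction.stabilizer G (t • a))) (hfx : fx ∈ Q) (ex : t * x * t = gx * hx * t * fx)
    (hgy : gy ∈ Q) (hhy : hy ∈ (MulAction.stabilizer G a ⊓ MulAction.stabilizer G (t • a))) (hfy : fy ∈ Q) (ey : t * y * t = gy * hy * t * fy) :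
    fx * gy ≠ 1 ∧
      ∀ gz hz fz g' h' f' : G, gz ∈ Q → hz ∈ (MulAction.stabilizer G a ⊓ MulAction.stabilizer G (t • a)) → fz ∈ Q → t * (fx * gy) * t = gz * hz * t * fz →
        g' ∈ Q → h' ∈ (MulAction.stabilizer G a ⊓ MulAction.stabilizer G (t • a)) → f' ∈ Q → t * (x * y) * t = g' * h' * t * f' →
          f' = (t * hy * t)⁻¹ * fz * (t * hy * t) * fy ∧ h' = hx * hz * hy := by
  have ht := t_inv hS
  have htt := hS.mul_self
  have hDle : (MulAction.stabilizer G a ⊓ MulAction.stabilizer G (t • a)) ≤ MulAction.stabilizer G a :=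
    inf_le_left
  have e1 : t * (x * y) * t = (gx * hx * t * fx) * (gy * hy * t * fy) := by
    rw [← ex, ← ey]
    simp [mul_assoc, tt_left hS]
  refine ⟨?_, ?_⟩
  · intro hcon
    have e2 : (gx * hx * t * fx) * (gy * hy * t * fy) = gx * hx * (t * hy * t) * fy := by
      have : (gx * hx * t * fx) * (gy * hy * t * fy) = gx * hx * t * (fx * gy) * hy * t * fy := by group
      rw [this, hcon]
      simp [mul_assoc]
    rw [e2] at e1
    have hmem : gx * hx * (t * hy * t) * fy ∈ MulAction.stabilizer G a :=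
      Subgroup.mul_mem _ (Subgroup.mul_mem _ (Subgroup.mul_mem _ (hS.le hgx) (hDle hhx))
        (hDle (tDt hS hhy))) (hS.le hfy)
    rw [← e1, mem_stabilizer_iff, mul_smul, mul_smul] at hmem
    have h2 : (x * y) • (t • a) = t • a := by
      have := congrArg (fun z => t • z) hmem
      simp only [smul_smul, ← mul_assoc, htt, one_mul] at this
      rw [← smul_smul] at this
      exact this
    exact hxy (eq_one_of_smul_eq hS (Q.mul_mem hxQ hyQ) (b_ne hS) h2)
  · intro gz hz fz g' h' f' hgz hhz hfz ez hg' hh' hf' e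
    have e3 : t * (fx * gy) = gz * hz * t * fz * t := by
      rw [← ez]
      simp [mul_assoc, htt]
    have e4 : (gx * hx * t * fx) * (gy * hy * t * fy) =
        (gx * (hx⁻¹⁻¹ * gz * hx⁻¹)) * (hx * hz * hy) * t * ((t * hy * t)⁻¹ * fz * (t * hy * t) * fy) := by
      have : (gx * hx * t * fx) * (gy * hy * t * fy) = gx * hx * (t * (fx * gy)) * hy * t * fy := by group
      rw [this, e3]
      simp [mul_assoc, ht, tt_left hS, htt]
    rw [e1, e4] at e
    have hq1 : gx * (hx⁻¹⁻¹ * gz * hx⁻¹) ∈ Q :=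
      Q.mul_mem hgx (conj_mem' hS (Subgroup.inv_mem _ (hDle hhx)) hgz)
    have hq2 : (t * hy * t)⁻¹ * fz * (t * hy * t) * fy ∈ Q :=
      Q.mul_mem (conj_mem' hS (hDle (tDt hS hhy)) hfz) hfy
    have hd : hx * hz * hy ∈ MulAction.stabilizer G a ⊓ MulAction.stabilizer G (t • a) :=
      Subgroup.mul_mem _ (Subgroup.mul_mem _ hhx hhz) hhy
    obtain ⟨h1, h2, h3⟩ := QDtQ_unique hS hg' hq1 hh' hd hf' hq2 e.symm
    exact ⟨h3, h2⟩

end Cfsg.Agent.S1166
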