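import Cfsg.Statements.S1176
import Cfsg.Agent.Lib.Helper8.Isolated

set_option autoImplicit false
open Cfsg
open Cfsg.Agent.Lib.Helper8
open scoped commutatorElement

namespace Cfsg.Agent.S1176

/-- Let x₀ be an involution of the finite group G and D its conjugacy class. Assume (a) for each x ∈ D the subgroup W(x) generated by the members of D commuting with x is a 2-group of nilpotency class at most 2, and (b) the product of two distinct commuting members of D again lies in D. Then for all x, y ∈ D, if xy has even order greater than 2, its order is 4. -/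
theorem result {G : Type*} [Group G] [Finite G] (x₀ : G) (hx₀ : orderOf x₀ = 2) (ha : ∀ x : G, IsConj x₀ x → IsPGroup 2 ↥(Subgroup.closure {y : G | IsConj x₀ y ∧ Commute y x}) ∧ ⁅⁅Subgroup.closure {y : G | IsConj x₀ y ∧ Commute y x}, Subgroup.closure {y : G | IsConj x₀ y ∧ Commute y x}⁆, Subgroup.closure {y : G | IsConj x₀ y ∧ Commute y x}⁆ = ⊥) (hb : ∀ x y : G, IsConj x₀ x → IsConj x₀ y → x ≠ y → Commute x y → IsConj x₀ (x * y)) (x y : G) (hx : IsConj x₀ x) (hy : IsConj x₀ y) (heven : Even (orderOf (x * y))) (hgt : 2 < orderOf (x * y)) : orderOf (x * y) = 4 := by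
  have hx₀x₀ : x₀ * x₀ = 1 := h8_sq_of_orderOf_two hx₀
  have sq : ∀ u : G, IsConj x₀ u → u * u = 1 := by
    intro u hu
    obtain ⟨c, rfl⟩ := isConj_iff.1 hu
    calc c * x₀ * c⁻¹ * (c * x₀ * c⁻¹) = c * (x₀ * x₀) * c⁻¹ := by group
      _ = 1 := by rw [hx₀x₀]; group
  have hxx := sq x hx
  have hyy := sq y hy
  have hxi : x⁻¹ = x := inv_eq_of_mul_eq_one_left hxx
  have hyi : y⁻¹ = y := inv_eq_of_mul_eq_one_left hyy
  obtain ⟨m, hm⟩ := heven
  have hm' : orderOf (x * y) = 2 * m := by omega
  have hm0 : 0 < m := by omega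
  obtain ⟨hw1, hww, hxw, hyw, hconj⟩ := h8_dihedral_even hxx hyy hm' hm0
  set r := x * y with hr
  set w := r ^ m with hw
  -- w * x is a conjugate of x₀
  have hwx : IsConj x₀ (w * x) := by
    rcases hconj with ⟨c, hc⟩ | ⟨c, hc⟩
    · rw [← hc]
      exact hx.trans (isConj_iff.2 ⟨c, rfl⟩)
    · rw [← hc]
      exact hy.trans (isConj_iff.2 ⟨c, rfl⟩)
  have hne : x ≠ w * x := by
    intro h
    apply hw1
    have : 1 * x = w * x := by rw [one_mul]; exact h
    exact (mul_right_cancel this).symm
  have hcomm : Commute x (w * x) := by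
    show x * (w * x) = w * x * x
    calc x * (w * x) = x * w * x := by group
      _ = w := hxw
      _ = w * (x * x) := by rw [hxx, mul_one]
      _ = w * x * x := by group
  have hwD : IsConj x₀ w := by
    have := hb x (w * x) hx hwx hne hcomm
    have e : x * (w * x) = w := by rw [← mul_assoc]; exact hxw
    rwa [e] at this
  have hxW : x ∈ Subgroup.closure {y : G | IsConj x₀ y ∧ Commute y w} := by
    apply Subgroup.subset_closure
    refine ⟨hx, ?_⟩
    show x * w = w * x
    calc x * w = x * w * (x * x) := by rw [hxx, mul_one]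
      _ = (x * w * x) * x := by group
      _ = w * x := by rw [hxw]
  have hyW : y ∈ Subgroup.closure {y : G | IsConj x₀ y ∧ Commute y w} := by
    apply Subgroup.subset_closure
    refine ⟨hy, ?_⟩
    show y * w = w * y
    calc y * w = y * w * (y * y) := by rw [hyy, mul_one]
      _ = (y * w * y) * y := by group
      _ = w * y := by rw [hyw]
  have hcl := (ha w hwD).2
  have h1 : ⁅⁅x, y⁆, y⁆ ∈ ⁅⁅Subgroup.closure {y : G | IsConj x₀ y ∧ Commute y w}, Subgroup.closure {y : G | IsConj x₀ y ∧ Commute y w}⁆, Subgroup.closure {y : G | IsConj x₀ y ∧ Commute y w}⁆ :=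
    Subgroup.commutator_mem_commutator (Subgroup.commutator_mem_commutator hxW hyW) hyW
  rw [hcl, Subgroup.mem_bot] at h1
  -- ⁅⁅x, y⁆, y⁆ = r ^ 4
  have hri : r⁻¹ = y * x := by
    rw [hr, mul_inv_rev, hxi, hyi]
  have c1 : ⁅x, y⁆ = r * r := by
    rw [commutatorElement_def, hxi, hyi, hr]; group
  have c2 : ⁅r * r, y⁆ = r ^ 4 := by
    rw [commutatorElement_def, hyi]
    calc r * r * y * (r * r)⁻¹ * y = r * r * y * (y * x * (y * x)) * y := by rw [mul_inv_rev, hri]
      _ = r * r * ((y * y) * x * y * x * y) := by group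
      _ = r * r * (x * y * (x * y)) := by rw [hyy]; group
      _ = r ^ 4 := by rw [← hr]; simp [pow_succ, mul_assoc]
  have h2 : ⁅⁅x, y⁆, y⁆ = r ^ 4 := by rw [c1, c2]
  rw [h2] at h1
  have hdvd : orderOf r ∣ 4 := orderOf_dvd_of_pow_eq_one h1
  have hle : orderOf r ≤ 4 := Nat.le_of_dvd (by norm_num) hdvd
  have : orderOf r ≠ 3 := by
    intro h3
    rw [h3] at hdvd
    omega
  omega

end Cfsg.Agent.S1176
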