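import Cfsg.Statements.S1177
import Cfsg.Agent.Lib.Helper8.Basic

set_option autoImplicit false
open Cfsg
open Cfsg.Agent.Lib.Helper8

namespace Cfsg.Agent.S1177

/-- Let A be a nontrivial elementary abelian 2-subgroup of a finite group G which is a T.I. set (each conjugate of A meets A trivially or equals A) and which does not commute elementwise with any conjugate of A other than A itself. Then for every a ∈ A, a ≠ 1, every conjugate of A contained in C_G(a) is equal to A (A is weakly closed in C_G(a)). -/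
theorem result {G : Type*} [Group G] [Finite G] (A : Subgroup G) (hA : Cfsg.IsElementaryAbelian 2 A) (hA1 : A ≠ ⊥) (hTI : ∀ g : G, A.map (MulAut.conj g).toMonoidHom ⊓ A = ⊥ ∨ A.map (MulAut.conj g).toMonoidHom = A) (hb : ∀ g : G, (∀ a ∈ A, ∀ b ∈ A.map (MulAut.conj g).toMonoidHom, a * b = b * a) → A.map (MulAut.conj g).toMonoidHom = A) (a : G) (ha : a ∈ A) (ha1 : a ≠ 1) (g : G) (hg : A.map (MulAut.conj g).toMonoidHom ≤ Subgroup.centralizer ({a} : Set G)) : A.map (MulAut.conj g).toMonoidHom = A := by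
  obtain ⟨hAcomm, hAexp⟩ := hA
  set B := A.map (MulAut.conj g).toMonoidHom with hB
  have hAp : IsPGroup 2 A := fun x => ⟨1, Subtype.ext (by simpa using hAexp x x.2)⟩
  have hBp : IsPGroup 2 B := h8_isPGroup_map_conj g hAp
  have hAc : ∀ x ∈ A, ∀ y ∈ A, x * y = y * x := by
    intro x hx y hy
    have := mul_comm' (⟨x, hx⟩ : A) ⟨y, hy⟩
    exact congrArg Subtype.val this
  have hBc : ∀ x ∈ B, ∀ y ∈ B, x * y = y * x := by
    intro x hx y hy
    rw [hB, h8_mem_map_conj] at hx hy
    have := hAc _ hx _ hy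
    have e1 : x * y = g * ((g⁻¹ * x * g) * (g⁻¹ * y * g)) * g⁻¹ := by group
    have e2 : y * x = g * ((g⁻¹ * y * g) * (g⁻¹ * x * g)) * g⁻¹ := by group
    rw [e1, e2, this]
  -- B normalizes A
  have hBN : B ≤ Subgroup.normalizer (A : Set G) := by
    intro b hb
    have hba : b * a = a * b := Subgroup.mem_centralizer_singleton_iff.1 (hg hb)
    rcases hTI b with h | h
    · exfalso
      apply ha1
      have hmem : a ∈ A.map (MulAut.conj b).toMonoidHom ⊓ A := by
        refine Subgroup.mem_inf.2 ⟨?_, ha⟩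
        rw [h8_mem_map_conj]
        have e : b⁻¹ * a * b = a := by
          rw [mul_assoc, ← hba]; group
        rw [e]; exact ha
      rw [h] at hmem
      exact Subgroup.mem_bot.1 hmem
    · exact h8_mem_normalizer_of_map_conj_eq h
  by_contra hne
  have hAB : B ⊓ A = ⊥ := by
    rcases hTI g with h | h
    · exact h
    · exact absurd h hne
  set P := A ⊔ B with hP
  have hPp : IsPGroup 2 P := IsPGroup.to_sup_of_normal_left' hAp hBp hBN
  have hkey : ∀ a' ∈ A, a' ∈ Subgroup.normalizer (B : Set G) → ∀ b ∈ B, a' * b = b * a' := by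
    intro a' ha' hn b hb
    have h1 : a' * b * a'⁻¹ * b⁻¹ ∈ B :=
      B.mul_mem ((Subgroup.mem_normalizer_iff.1 hn b).1 hb) (B.inv_mem hb)
    have h2 : a' * b * a'⁻¹ * b⁻¹ ∈ A := by
      have : b * a'⁻¹ * b⁻¹ ∈ A := (Subgroup.mem_normalizer_iff.1 (hBN hb) a'⁻¹).1 (A.inv_mem ha')
      have e : a' * b * a'⁻¹ * b⁻¹ = a' * (b * a'⁻¹ * b⁻¹) := by group
      rw [e]; exact A.mul_mem ha' this
    have h3 : a' * b * a'⁻¹ * b⁻¹ ∈ B ⊓ A := Subgroup.mem_inf.2 ⟨h1, h2⟩
    rw [hAB, Subgroup.mem_bot] at h3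
    have : a' * b = (a' * b * a'⁻¹ * b⁻¹) * (b * a') := by group
    rw [this, h3, one_mul]
  -- elements of P normalizing B centralize B
  have hNC : ∀ n ∈ P, n ∈ Subgroup.normalizer (B : Set G) → n ∈ Subgroup.centralizer (B : Set G) := by
    intro n hnP hnN
    obtain ⟨a', ha', b, hb, rfl⟩ := h8_mem_sup_of_le_normalizer hBN hnP
    have ha'N : a' ∈ Subgroup.normalizer (B : Set G) := by
      have hbN : b ∈ Subgroup.normalizer (B : Set G) := Subgroup.le_normalizer hb
      have := Subgroup.mul_mem _ hnN (Subgroup.inv_mem _ hbN)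
      simpa using this
    rw [Subgroup.mem_centralizer_iff]
    intro c hc
    have h1 := hkey a' ha' ha'N c hc
    have h2 := hBc c hc b hb
    calc c * (a' * b) = (c * a') * b := by group
      _ = (a' * c) * b := by rw [h1]
      _ = a' * (c * b) := by group
      _ = a' * (b * c) := by rw [h2]
      _ = a' * b * c := by group
  set M := P ⊓ Subgroup.centralizer (B : Set G) with hM
  have hBM : B ≤ M := by
    intro b hb
    refine Subgroup.mem_inf.2 ⟨(le_sup_right : B ≤ P) hb, ?_⟩
    rw [Subgroup.mem_centralizer_iff]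
    intro c hc
    exact hBc c hc b hb
  have hMP : M ≠ P := by
    intro h
    apply hne
    apply hb g
    intro x hx y hy
    have hxM : x ∈ M := by rw [h]; exact (le_sup_left : A ≤ P) hx
    have := Subgroup.mem_centralizer_iff.1 (Subgroup.mem_inf.1 hxM).2 y hy
    exact this.symm
  obtain ⟨n, hnP, hnN, hnM⟩ := h8_normalizer_growth hPp (inf_le_left : M ≤ P) hMP
  apply hnM
  refine Subgroup.mem_inf.2 ⟨hnP, ?_⟩
  apply hNC n hnP
  -- B^n = B
  have hBn : ∀ y ∈ B.map (MulAut.conj n).toMonoidHom, ∀ b ∈ B, b * y = y * b := by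
    intro y hy b hb
    rw [h8_mem_map_conj] at hy
    have h1 : n * (n⁻¹ * y * n) * n⁻¹ ∈ M := (Subgroup.mem_normalizer_iff.1 hnN _).1 (hBM hy)
    have e : n * (n⁻¹ * y * n) * n⁻¹ = y := by group
    rw [e] at h1
    exact Subgroup.mem_centralizer_iff.1 (Subgroup.mem_inf.1 h1).2 b hb
  have h1 : A.map (MulAut.conj (g⁻¹ * n * g)).toMonoidHom = A := by
    apply hb
    intro x hx y hy
    rw [h8_mem_map_conj] at hy
    have hxB : g * x * g⁻¹ ∈ B := h8_conj_mem_map_conj g A hx
    have hyB : g * y * g⁻¹ ∈ B.map (MulAut.conj n).toMonoidHom := by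
      rw [h8_mem_map_conj, hB, h8_mem_map_conj]
      have e : g⁻¹ * (n⁻¹ * (g * y * g⁻¹) * n) * g = (g⁻¹ * n * g)⁻¹ * y * (g⁻¹ * n * g) := by group
      rw [e]; exact hy
    have := hBn _ hyB _ hxB
    have e1 : x * y = g⁻¹ * ((g * x * g⁻¹) * (g * y * g⁻¹)) * g := by group
    have e2 : y * x = g⁻¹ * ((g * y * g⁻¹) * (g * x * g⁻¹)) * g := by group
    rw [e1, e2, this]
  have h2 : B.map (MulAut.conj n).toMonoidHom = B := by
    have := congrArg (fun X : Subgroup G => X.map (MulAut.conj g).toMonoidHom) h1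
    rw [← h8_map_conj_mul] at this
    have e : g * (g⁻¹ * n * g) = n * g := by group
    rw [e, h8_map_conj_mul] at this
    exact this
  exact h8_mem_normalizer_of_map_conj_eq h2

end Cfsg.Agent.S1177
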