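import Cfsg.Statements.S1178
import Cfsg.Agent.Lib.Helper8.Basic

set_option autoImplicit false
open Cfsg
open Cfsg.Agent.Lib.Helper8

namespace Cfsg.Agent.S1178

/-- Let A be a subgroup of a Sylow 2-subgroup S of the finite group G which is weakly closed in S. If a conjugate g A g⁻¹ commutes elementwise with A, then g A g⁻¹ = A. -/
theorem result {G : Type*} [Group G] [Finite G] (S : Sylow 2 G) (A : Subgroup G) (hW : Cfsg.IsWeaklyClosed A (S : Subgroup G)) (g : G) (hc : ∀ a ∈ A, ∀ b ∈ A.map (MulAut.conj g).toMonoidHom, a * b = b * a) : A.map (MulAut.conj g).toMonoidHom = A := by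
  obtain ⟨hAS, hwc⟩ := hW
  have hAp : IsPGroup 2 A := S.isPGroup'.to_le hAS
  have hBp : IsPGroup 2 (A.map (MulAut.conj g).toMonoidHom) := h8_isPGroup_map_conj g hAp
  have hle : A ≤ Subgroup.normalizer ((A.map (MulAut.conj g).toMonoidHom : Subgroup G) : Set G) := by
    intro a ha
    rw [Subgroup.mem_normalizer_iff]
    intro b
    constructor
    · intro hb
      have := hc a ha b hb
      have e : a * b * a⁻¹ = b := by rw [this]; group
      rw [e]; exact hb
    · intro hb
      have h := hc a ha _ hb
      have e : a * b * a⁻¹ = b := by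
        have h' : a * (a * b * a⁻¹) = a * b := by rw [h]; group
        exact mul_left_cancel h'
      exact e ▸ hb
  have hsup := IsPGroup.to_sup_of_normal_right' hAp hBp hle
  obtain ⟨h, hh⟩ := h8_exists_conj_sylow_ge S hsup
  have h1 : A.map (MulAut.conj h⁻¹).toMonoidHom = A := by
    apply hwc
    intro y hy
    rw [h8_mem_map_conj] at hy
    have := hh _ (Subgroup.mem_sup_left hy)
    simpa [mul_assoc] using this
  have h2 : A.map (MulAut.conj (h⁻¹ * g)).toMonoidHom = A := by
    apply hwc
    intro y hy
    rw [h8_map_conj_mul, h8_mem_map_conj] at hy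
    have := hh _ (Subgroup.mem_sup_right hy)
    simpa [mul_assoc] using this
  rw [h8_map_conj_mul] at h2
  exact h8_map_conj_injective h⁻¹ (h2.trans h1.symm)

end Cfsg.Agent.S1178
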