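import Cfsg.Statements.S1181
import Cfsg.Agent.Lib.Helper8.Isolated

set_option autoImplicit false
open Cfsg
open Cfsg.Agent.Lib.Helper8

namespace Cfsg.Agent.S1181

/-- Let z be an isolated involution of the finite group G and N a normal subgroup with z ∉ N. Then the centralizer of zN in G/N is the image of C_G(z), and zN is an isolated involution of G/N. -/
theorem result {G : Type*} [Group G] [Finite G] (z : G) (hz : Cfsg.IsIsolatedInvolution z) (N : Subgroup G) [N.Normal] (hzN : z ∉ N) : Subgroup.centralizer ({(QuotientGroup.mk z : G ⧸ N)} : Set (G ⧸ N)) = (Subgroup.centralizer ({z} : Set G)).map (QuotientGroup.mk' N) ∧ Cfsg.IsIsolatedInvolution (QuotientGroup.mk z : G ⧸ N) := by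
  have hzz : z * z = 1 := h8_sq_of_orderOf_two hz.1
  have hzi : z⁻¹ = z := inv_eq_of_mul_eq_one_left hzz
  have hmk : ∀ x : G, (QuotientGroup.mk x : G ⧸ N) = QuotientGroup.mk' N x := fun _ => rfl
  have hmkzz : (QuotientGroup.mk z : G ⧸ N) * QuotientGroup.mk z = 1 := by
    rw [← QuotientGroup.mk_mul, hzz]; rfl
  have hmkz1 : (QuotientGroup.mk z : G ⧸ N) ≠ 1 := by
    intro h
    exact hzN ((QuotientGroup.eq_one_iff z).1 h)
  refine ⟨?_, ?_, ?_⟩
  · ext q
    obtain ⟨g, rfl⟩ := QuotientGroup.mk_surjective q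
    rw [Subgroup.mem_centralizer_singleton_iff, Subgroup.mem_map]
    constructor
    · intro hq
      -- g z g⁻¹ z⁻¹ ∈ N
      have h1 : z * (g * z * g⁻¹) ∈ N := by
        have e : ((z * (g * z * g⁻¹) : G) : G ⧸ N) = 1 := by
          have : ((z * (g * z * g⁻¹) : G) : G ⧸ N) = (QuotientGroup.mk z : G ⧸ N) * ((QuotientGroup.mk g : G ⧸ N) * QuotientGroup.mk z) * (QuotientGroup.mk g : G ⧸ N)⁻¹ := by
            simp [mul_assoc]
          rw [this, hq]
          calc (QuotientGroup.mk z : G ⧸ N) * ((QuotientGroup.mk z : G ⧸ N) * QuotientGroup.mk g) * (QuotientGroup.mk g : G ⧸ N)⁻¹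
              = ((QuotientGroup.mk z : G ⧸ N) * QuotientGroup.mk z) := by group
            _ = 1 := hmkzz
        exact (QuotientGroup.eq_one_iff _).1 e
      obtain ⟨h, -, -, hconj, hmem⟩ := h8_isolated_key hz g
      have hhN : h ∈ N := by
        have : Subgroup.zpowers (z * (g * z * g⁻¹)) ≤ N := by
          rw [Subgroup.zpowers_le]; exact h1
        exact this hmem
      refine ⟨h⁻¹ * g, ?_, ?_⟩
      · rw [Subgroup.mem_centralizer_singleton_iff]
        have e : g * z = h * z * h⁻¹ * g := by rw [hconj]; group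
        calc h⁻¹ * g * z = h⁻¹ * (g * z) := by group
          _ = h⁻¹ * (h * z * h⁻¹ * g) := by rw [e]
          _ = z * (h⁻¹ * g) := by group
      · show (QuotientGroup.mk (h⁻¹ * g) : G ⧸ N) = QuotientGroup.mk g
        rw [QuotientGroup.mk_mul]
        have : (QuotientGroup.mk h⁻¹ : G ⧸ N) = 1 := (QuotientGroup.eq_one_iff _).2 (N.inv_mem hhN)
        rw [this, one_mul]
    · rintro ⟨c, hc, hcq⟩
      rw [Subgroup.mem_centralizer_singleton_iff] at hc
      have hcq' : (QuotientGroup.mk c : G ⧸ N) = QuotientGroup.mk g := hcq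
      rw [← hcq', ← QuotientGroup.mk_mul, ← QuotientGroup.mk_mul, hc]
  · exact orderOf_eq_prime (by rw [pow_two]; exact hmkzz) hmkz1
  · intro q hq
    obtain ⟨g, rfl⟩ := QuotientGroup.mk_surjective q
    set a := g * z * g⁻¹ with ha
    have haq : (QuotientGroup.mk g : G ⧸ N) * QuotientGroup.mk z * (QuotientGroup.mk g : G ⧸ N)⁻¹ = QuotientGroup.mk a := by
      rw [ha]; simp
    rw [haq] at hq ⊢
    have haa : a * a = 1 := h8_sq_of_orderOf_two (h8_isolated_conj hz g).1
    have hmkaa : (QuotientGroup.mk a : G ⧸ N) * QuotientGroup.mk a = 1 := by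
      rw [← QuotientGroup.mk_mul, haa]; rfl
    have hodd := h8_isolated_odd hz g
    rw [← ha] at hodd
    set r : G ⧸ N := QuotientGroup.mk (z * a) with hr
    have hrr : r * r = 1 := by
      rw [hr, QuotientGroup.mk_mul]
      have hq' : (QuotientGroup.mk z : G ⧸ N) * QuotientGroup.mk a = QuotientGroup.mk a * QuotientGroup.mk z := hq
      calc (QuotientGroup.mk z : G ⧸ N) * QuotientGroup.mk a * (QuotientGroup.mk z * QuotientGroup.mk a)
          = (QuotientGroup.mk z : G ⧸ N) * (QuotientGroup.mk a * QuotientGroup.mk z) * QuotientGroup.mk a := by group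
        _ = (QuotientGroup.mk z : G ⧸ N) * (QuotientGroup.mk z * QuotientGroup.mk a) * QuotientGroup.mk a := by rw [hq']
        _ = ((QuotientGroup.mk z : G ⧸ N) * QuotientGroup.mk z) * (QuotientGroup.mk a * QuotientGroup.mk a) := by group
        _ = 1 := by rw [hmkzz, hmkaa, one_mul]
    have hrn : r ^ orderOf (z * a) = 1 := by
      rw [hr, ← QuotientGroup.mk_pow, pow_orderOf_eq_one]; rfl
    have hr1 : r = 1 := h8_eq_one_of_sq_of_odd hrr hodd hrn
    rw [hr, QuotientGroup.mk_mul] at hr1
    have : (QuotientGroup.mk a : G ⧸ N) = (QuotientGroup.mk z : G ⧸ N)⁻¹ := eq_inv_of_mul_eq_one_right hr1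
    rw [this]
    exact inv_eq_of_mul_eq_one_left hmkzz

end Cfsg.Agent.S1181
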