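import Cfsg.Statements.S1182
import Cfsg.Agent.Lib.Helper8.Isolated

set_option autoImplicit false
open Cfsg
open Cfsg.Agent.Lib.Helper8

namespace Cfsg.Agent.S1182

/-- Let z be an isolated involution of the finite group G and H a subgroup normalized by z. If x, y ∈ H both commute with z and y = h x h⁻¹ for some h ∈ H, then y = c x c⁻¹ for some c ∈ H commuting with z. -/
theorem result {G : Type*} [Group G] [Finite G] (z : G) (hz : Cfsg.IsIsolatedInvolution z) (H : Subgroup G) (hzH : z ∈ Subgroup.normalizer (H : Set G)) (x y : G) (hx : x ∈ H) (hy : y ∈ H) (hxz : Commute x z) (hyz : Commute y z) (h : G) (hh : h ∈ H) (hconj : h * x * h⁻¹ = y) : ∃ c ∈ H, Commute c z ∧ c * x * c⁻¹ = y := by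
  obtain ⟨k, -, -, hkconj, hkmem⟩ := h8_isolated_key hz h
  have hzz : z * z = 1 := h8_sq_of_orderOf_two hz.1
  have hzi : z⁻¹ = z := inv_eq_of_mul_eq_one_left hzz
  -- z * (h z h⁻¹) ∈ H
  have hzaH : z * (h * z * h⁻¹) ∈ H := by
    have h1 : z * h * z⁻¹ ∈ H := (Subgroup.mem_normalizer_iff.1 hzH h).1 hh
    rw [hzi] at h1
    have : z * (h * z * h⁻¹) = (z * h * z) * h⁻¹ := by group
    rw [this]
    exact H.mul_mem h1 (H.inv_mem hh)
  have hkH : k ∈ H := by
    have : Subgroup.zpowers (z * (h * z * h⁻¹)) ≤ H := by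
      rw [Subgroup.zpowers_le]; exact hzaH
    exact this hkmem
  -- y commutes with z * (h z h⁻¹)
  have hya : y * (h * z * h⁻¹) = (h * z * h⁻¹) * y := by
    rw [← hconj]
    have hxz' : x * z = z * x := hxz
    calc h * x * h⁻¹ * (h * z * h⁻¹) = h * (x * z) * h⁻¹ := by group
      _ = h * (z * x) * h⁻¹ := by rw [hxz']
      _ = h * z * h⁻¹ * (h * x * h⁻¹) := by group
  have hyr : Commute y (z * (h * z * h⁻¹)) := by
    show y * (z * (h * z * h⁻¹)) = z * (h * z * h⁻¹) * y
    have hyz' : y * z = z * y := hyz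
    calc y * (z * (h * z * h⁻¹)) = (y * z) * (h * z * h⁻¹) := by group
      _ = z * (y * (h * z * h⁻¹)) := by rw [hyz']; group
      _ = z * (h * z * h⁻¹) * y := by rw [hya]; group
  have hyk : Commute y k := by
    obtain ⟨n, rfl⟩ := Subgroup.mem_zpowers_iff.1 hkmem
    exact hyr.zpow_right n
  refine ⟨k⁻¹ * h, H.mul_mem (H.inv_mem hkH) hh, ?_, ?_⟩
  · show k⁻¹ * h * z = z * (k⁻¹ * h)
    have e : h * z = k * z * k⁻¹ * h := by
      rw [hkconj]; group
    calc k⁻¹ * h * z = k⁻¹ * (h * z) := by group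
      _ = k⁻¹ * (k * z * k⁻¹ * h) := by rw [e]
      _ = z * (k⁻¹ * h) := by group
  · have hyk' : y * k = k * y := hyk
    calc k⁻¹ * h * x * (k⁻¹ * h)⁻¹ = k⁻¹ * (h * x * h⁻¹) * k := by group
      _ = k⁻¹ * (y * k) := by rw [hconj]; group
      _ = y := by rw [hyk']; group

end Cfsg.Agent.S1182
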