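import Cfsg.Statements.S1184
import Cfsg.Agent.Lib.Helper8.Isolated

set_option autoImplicit false
open Cfsg
open Cfsg.Agent.Lib.Helper8

namespace Cfsg.Agent.S1184

/-- Let z be an isolated involution of the finite group G. If s and t are distinct conjugates of z, then st does not commute with z. -/
theorem result {G : Type*} [Group G] [Finite G] (z : G) (hz : Cfsg.IsIsolatedInvolution z) (g h : G) (hne : g * z * g⁻¹ ≠ h * z * h⁻¹) : ¬ Commute (g * z * g⁻¹ * (h * z * h⁻¹)) z := by
  intro hcomm
  set s := g * z * g⁻¹ with hs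
  set t := h * z * h⁻¹ with ht
  have hsiso : Cfsg.IsIsolatedInvolution s := h8_isolated_conj hz g
  have hzz : z * z = 1 := h8_sq_of_orderOf_two hz.1
  have hss : s * s = 1 := h8_sq_of_orderOf_two hsiso.1
  have htt : t * t = 1 := h8_sq_of_orderOf_two (h8_isolated_conj hz h).1
  have hsi : s⁻¹ = s := inv_eq_of_mul_eq_one_left hss
  have hti : t⁻¹ = t := inv_eq_of_mul_eq_one_left htt
  have hzi : z⁻¹ = z := inv_eq_of_mul_eq_one_left hzz
  -- s * t has odd order
  have hodd1 : Odd (orderOf (s * t)) := by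
    have := h8_isolated_odd hsiso (h * g⁻¹)
    have e : h * g⁻¹ * s * (h * g⁻¹)⁻¹ = t := by rw [hs, ht]; group
    rwa [e] at this
  -- z * s has odd order
  have hodd2 : Odd (orderOf (z * s)) := h8_isolated_odd hz g
  set r := s * t with hr
  set q := z * s with hq
  have hsr : s * r * s = r⁻¹ := by
    rw [hr, mul_inv_rev, hsi, hti]
    calc s * (s * t) * s = (s * s) * t * s := by group
      _ = t * s := by rw [hss, one_mul]
  have hzr : z * r = r * z := hcomm.symm
  -- q r q⁻¹ = r⁻¹
  have hqr : q * r * q⁻¹ = r⁻¹ := by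
    rw [hq, mul_inv_rev, hsi, hzi]
    calc z * s * r * (s * z) = z * (s * r * s) * z := by group
      _ = z * r⁻¹ * z := by rw [hsr]
      _ = r⁻¹ := by
        have : z * r⁻¹ = r⁻¹ * z := by
          have h1 : r⁻¹ * (z * r) * r⁻¹ = r⁻¹ * (r * z) * r⁻¹ := by rw [hzr]
          have h2 : r⁻¹ * (z * r) * r⁻¹ = r⁻¹ * z := by group
          have h3 : r⁻¹ * (r * z) * r⁻¹ = z * r⁻¹ := by group
          rw [h2, h3] at h1; exact h1.symm
        rw [this]
        calc r⁻¹ * z * z = r⁻¹ * (z * z) := by group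
          _ = r⁻¹ := by rw [hzz, mul_one]
  -- q^2 commutes with r
  have hq2 : Commute (q ^ 2) r := by
    show q ^ 2 * r = r * q ^ 2
    have h1 : q * r = r⁻¹ * q := by
      calc q * r = (q * r * q⁻¹) * q := by group
        _ = r⁻¹ * q := by rw [hqr]
    have h2 : q * r⁻¹ = r * q := by
      have : q * r⁻¹ * q⁻¹ = r := by
        have := congrArg (fun x => x⁻¹) hqr
        simp only [mul_inv_rev, inv_inv] at this
        rw [← mul_assoc] at this
        exact this
      calc q * r⁻¹ = (q * r⁻¹ * q⁻¹) * q := by group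
        _ = r * q := by rw [this]
    calc q ^ 2 * r = q * (q * r) := by rw [pow_two]; group
      _ = q * (r⁻¹ * q) := by rw [h1]
      _ = (q * r⁻¹) * q := by group
      _ = r * q * q := by rw [h2]
      _ = r * q ^ 2 := by rw [pow_two]; group
  obtain ⟨k, hk⟩ := hodd2
  have hqk : Commute (q ^ (2 * k)) r := by
    rw [pow_mul]; exact hq2.pow_left k
  have hq1 : q ^ (2 * k) * q = 1 := by
    rw [← pow_succ, ← hk]; exact pow_orderOf_eq_one q
  have hqinv : q ^ (2 * k) = q⁻¹ := eq_inv_of_mul_eq_one_left hq1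
  rw [hqinv] at hqk
  have hqc : Commute q r := by
    have := hqk.inv_left
    simpa using this
  have hrr : r = r⁻¹ := by
    have h1 : q * r * q⁻¹ = r := by
      have : q * r = r * q := hqc
      rw [this]; group
    rw [h1] at hqr; exact hqr
  have hr2 : r * r = 1 := by
    nth_rewrite 2 [hrr]
    exact mul_inv_cancel r
  have hr1 : r = 1 := by
    obtain ⟨m, hm⟩ := hodd1
    exact h8_eq_one_of_sq_of_odd hr2 ⟨m, hm⟩ (pow_orderOf_eq_one r)
  apply hne
  have : s = t⁻¹ := eq_inv_of_mul_eq_one_left hr1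
  rw [this, hti]

end Cfsg.Agent.S1184
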