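import Cfsg.Statements.S1231
import Cfsg.Agent.Lib.Helper8.Rank

set_option autoImplicit false
open Cfsg
open Cfsg.Agent.Lib.Helper8

namespace Cfsg.Agent.S1231

/-- Let H be a subgroup of the finite group G, p a prime, k ≥ 1, and P a Sylow p-subgroup of H whose p-rank is at least k. Then N_G(X) ≤ H for every subgroup X of P of p-rank at least k if and only if H ∩ gHg⁻¹ has p-rank less than k for every g ∉ H. -/
theorem result {G : Type*} [Group G] [Finite G] {p : ℕ} [Fact p.Prime] (k : ℕ) (hk : 1 ≤ k) (H : Subgroup G) (P : Sylow p ↥H) (hP : ¬ Cfsg.PRankLE p (k - 1) ↥(P : Subgroup ↥H)) : (∀ X : Subgroup G, X ≤ (P : Subgroup ↥H).map H.subtype → ¬ Cfsg.PRankLE p (k - 1) ↥X → Subgroup.normalizer (X : Set G) ≤ H) ↔ (∀ g : G, g ∉ H → Cfsg.PRankLE p (k - 1) ↥(H ⊓ H.map (MulAut.conj g).toMonoidHom)) := by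
  set P₀ : Subgroup G := (P : Subgroup ↥H).map H.subtype with hP₀
  have hP₀H : P₀ ≤ H := Subgroup.map_subtype_le _
  have hP₀p : IsPGroup p P₀ := P.isPGroup'.map _
  have hP₀rank : ¬ Cfsg.PRankLE p (k - 1) ↥P₀ := by
    intro h
    apply hP
    exact h8_pRankLE_of_injective
      ((P : Subgroup ↥H).equivMapOfInjective H.subtype H.subtype_injective).toMonoidHom
      ((P : Subgroup ↥H).equivMapOfInjective H.subtype H.subtype_injective).injective h
  -- every p-subgroup of H is conjugate in H into P₀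
  have hsyl : ∀ B : Subgroup G, B ≤ H → IsPGroup p B →
      ∃ h ∈ H, ∀ x ∈ B, h⁻¹ * x * h ∈ P₀ := by
    intro B hBH hBp
    have hB' : IsPGroup p (B.subgroupOf H) := hBp.comap_subtype
    obtain ⟨h, hh⟩ := h8_exists_conj_sylow_ge P hB'
    refine ⟨h, h.2, ?_⟩
    intro x hx
    have := hh ⟨x, hBH hx⟩ (by rw [Subgroup.mem_subgroupOf]; exact hx)
    exact ⟨_, this, by simp⟩
  constructor
  · intro hyp
    -- (★)
    have star : ∀ B : Subgroup G, B ≤ H → IsPGroup p B → ¬ Cfsg.PRankLE p (k - 1) ↥B →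
        Subgroup.normalizer (B : Set G) ≤ H := by
      intro B hBH hBp hBr
      obtain ⟨h, hhH, hh⟩ := hsyl B hBH hBp
      set X := B.map (MulAut.conj h⁻¹).toMonoidHom with hX
      have hXP : X ≤ P₀ := by
        intro y hy
        rw [hX, h8_mem_map_conj] at hy
        have := hh _ hy
        simpa [mul_assoc] using this
      have hXr : ¬ Cfsg.PRankLE p (k - 1) ↥X := h8_not_pRankLE_map_conj h⁻¹ hBr
      have hNX := hyp X hXP hXr
      intro n hn
      have hn' : h⁻¹ * n * h ∈ Subgroup.normalizer (X : Set G) := by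
        apply h8_mem_normalizer_of_map_conj_eq
        rw [hX, ← h8_map_conj_mul]
        have e : h⁻¹ * n * h * h⁻¹ = h⁻¹ * n := by group
        rw [e, h8_map_conj_mul, h8_map_conj_eq_of_mem_normalizer hn]
      have h1 := hNX hn'
      have h2 : h * (h⁻¹ * n * h) * h⁻¹ ∈ H := H.mul_mem (H.mul_mem hhH h1) (H.inv_mem hhH)
      have e : h * (h⁻¹ * n * h) * h⁻¹ = n := by group
      rwa [e] at h2
    intro g hg
    by_contra hrank
    obtain ⟨A, hAle, hAcomm, hAexp, hAcard⟩ := (h8_not_pRankLE_iff _ _ _).1 hrank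
    have hAH : A ≤ H := hAle.trans inf_le_left
    have hAHg : A ≤ H.map (MulAut.conj g).toMonoidHom := hAle.trans inf_le_right
    have hAp : IsPGroup p A := h8_isPGroup_of_exp hAexp
    have hAr : ¬ Cfsg.PRankLE p (k - 1) ↥A :=
      (h8_not_pRankLE_iff _ _ _).2 ⟨A, le_rfl, hAcomm, hAexp, hAcard⟩
    set A₀ := A.map (MulAut.conj g⁻¹).toMonoidHom with hA₀
    have hA₀H : A₀ ≤ H := by
      intro y hy
      rw [hA₀, h8_mem_map_conj] at hy
      have := hAHg hy
      rw [h8_mem_map_conj] at this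
      simpa [mul_assoc] using this
    have hA₀p : IsPGroup p A₀ := h8_isPGroup_map_conj g⁻¹ hAp
    have hA₀r : ¬ Cfsg.PRankLE p (k - 1) ↥A₀ := h8_not_pRankLE_map_conj g⁻¹ hAr
    obtain ⟨h, hhH, hh⟩ := hsyl A₀ hA₀H hA₀p
    set P₁ := P₀.map (MulAut.conj h).toMonoidHom with hP₁
    have hA₀P₁ : A₀ ≤ P₁ := by
      intro y hy
      rw [hP₁, h8_mem_map_conj]
      exact hh y hy
    have hP₁H : P₁ ≤ H := by
      intro y hy
      rw [hP₁, h8_mem_map_conj] at hy
      have h2 : h * (h⁻¹ * y * h) * h⁻¹ ∈ H := H.mul_mem (H.mul_mem hhH (hP₀H hy)) (H.inv_mem hhH)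
      have e : h * (h⁻¹ * y * h) * h⁻¹ = y := by group
      rwa [e] at h2
    have hP₁p : IsPGroup p P₁ := h8_isPGroup_map_conj h hP₀p
    set P' := P₁.map (MulAut.conj g).toMonoidHom with hP'
    have hAP' : A ≤ P' := by
      intro y hy
      rw [hP', h8_mem_map_conj]
      apply hA₀P₁
      rw [hA₀, h8_mem_map_conj]
      simpa [mul_assoc] using hy
    have hP'p : IsPGroup p P' := h8_isPGroup_map_conj g hP₁p
    set B := P' ⊓ H with hB
    have hAB : A ≤ B := le_inf hAP' hAH
    have hBp : IsPGroup p B := hP'p.to_le inf_le_left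
    have hBr : ¬ Cfsg.PRankLE p (k - 1) ↥B := fun h' => hAr (h8_pRankLE_mono hAB h')
    have hNB := star B inf_le_right hBp hBr
    have hBP' : B = P' := by
      by_contra hne
      obtain ⟨n, hnP', hnN, hnB⟩ := h8_normalizer_growth hP'p (inf_le_left : B ≤ P') hne
      exact hnB (Subgroup.mem_inf.2 ⟨hnP', hNB hnN⟩)
    have hP'H : P' ≤ H := by rw [← hBP']; exact inf_le_right
    -- P' is conjugate in H into P₀, with equality by cardinality
    obtain ⟨h₂, hh₂H, hh₂⟩ := hsyl P' hP'H hP'p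
    have hcard : Nat.card P' = Nat.card P₀ := by
      rw [hP', h8_card_map_conj, hP₁, h8_card_map_conj]
    have hle : P'.map (MulAut.conj h₂⁻¹).toMonoidHom ≤ P₀ := by
      intro y hy
      rw [h8_mem_map_conj] at hy
      have := hh₂ _ hy
      simpa [mul_assoc] using this
    have heq : P'.map (MulAut.conj h₂⁻¹).toMonoidHom = P₀ := by
      apply Subgroup.eq_of_le_of_card_ge hle
      rw [h8_card_map_conj, hcard]
    -- so h₂⁻¹ g h normalizes P₀
    have hnorm : h₂⁻¹ * g * h ∈ Subgroup.normalizer (P₀ : Set G) := by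
      apply h8_mem_normalizer_of_map_conj_eq
      have e : h₂⁻¹ * g * h = h₂⁻¹ * (g * h) := by group
      rw [e, h8_map_conj_mul, h8_map_conj_mul, ← hP₁, ← hP']
      exact heq
    have h3 := hyp P₀ le_rfl hP₀rank hnorm
    apply hg
    have h4 : h₂ * (h₂⁻¹ * g * h) * h⁻¹ ∈ H := H.mul_mem (H.mul_mem hh₂H h3) (H.inv_mem hhH)
    have e : h₂ * (h₂⁻¹ * g * h) * h⁻¹ = g := by group
    rwa [e] at h4
  · intro hyp X hXP hXr n hn
    by_contra hnH
    have hXH : X ≤ H := hXP.trans hP₀H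
    have hle : X ≤ H ⊓ H.map (MulAut.conj n).toMonoidHom := by
      apply le_inf hXH
      intro x hx
      rw [h8_mem_map_conj]
      apply hXH
      have hn' := Subgroup.inv_mem _ hn
      have := (Subgroup.mem_normalizer_iff.1 hn' x).1 hx
      simpa using this
    exact hXr (h8_pRankLE_mono hle (hyp n hnH))

end Cfsg.Agent.S1231
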