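import Cfsg.Statements.S1241
import Cfsg.Agent.Lib.Helper8.Transfer

set_option autoImplicit false
open Cfsg
open Cfsg.Agent.Lib.Helper8

namespace Cfsg.Agent.S1241

/-- Let G be a finite group, p a prime, H a subgroup of index prime to p, K a subgroup of H normal in H with H/K commutative, and g ∈ H ∖ K an element of p-power order such that for all integers m and all a ∈ G with a g^m a⁻¹ ∈ H one has a g^m a⁻¹ ∈ g^m K. Then g ∉ G'. -/
theorem result {G : Type*} [Group G] [Finite G] {p : ℕ} [Fact p.Prime] (H K : Subgroup G) (hHK : K ≤ H) (hKn : (K.subgroupOf H).Normal) (hab : ∀ x ∈ H, ∀ y ∈ H, x * y * x⁻¹ * y⁻¹ ∈ K) (hidx : Nat.Coprime p H.index) (g : G) (hgH : g ∈ H) (hgK : g ∉ K) (hgp : ∃ k : ℕ, orderOf g = p ^ k) (hctrl : ∀ (m : ℤ) (a : G), a * g ^ m * a⁻¹ ∈ H → (a * g ^ m * a⁻¹) * (g ^ m)⁻¹ ∈ K) : g ∉ commutator G := by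
  classical
  haveI := hKn
  letI inst : CommGroup (↥H ⧸ K.subgroupOf H) :=
    { (inferInstance : Group (↥H ⧸ K.subgroupOf H)) with
      mul_comm := by
        intro a b
        induction a using QuotientGroup.induction_on with
        | H x =>
          induction b using QuotientGroup.induction_on with
          | H y =>
            rw [← QuotientGroup.mk_mul, ← QuotientGroup.mk_mul, QuotientGroup.eq,
              Subgroup.mem_subgroupOf]
            have := hab (y : G)⁻¹ (H.inv_mem y.2) (x : G)⁻¹ (H.inv_mem x.2)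
            simpa [mul_assoc] using this }
  let ϕ : ↥H →* (↥H ⧸ K.subgroupOf H) := QuotientGroup.mk' (K.subgroupOf H)
  intro hgc
  have hker : MonoidHom.transfer ϕ g = 1 :=
    (Abelianization.commutator_subset_ker (MonoidHom.transfer ϕ)) hgc
  have hpow : MonoidHom.transfer ϕ g = ϕ ⟨g, hgH⟩ ^ H.index := by
    apply h8_transfer_eq_pow_of_congr
    intro k g₀ hk
    have h1 := hctrl (k : ℤ) g₀⁻¹ (by simpa using hk)
    simp only [inv_inv, zpow_natCast] at h1
    have h2 : ϕ (⟨g₀⁻¹ * g ^ k * g₀, hk⟩ * (⟨g, hgH⟩ ^ k)⁻¹) = 1 := by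
      show (QuotientGroup.mk' (K.subgroupOf H)) _ = 1
      rw [QuotientGroup.mk'_apply, QuotientGroup.eq_one_iff, Subgroup.mem_subgroupOf]
      simpa using h1
    rw [map_mul, map_inv, mul_inv_eq_one, map_pow] at h2
    exact h2
  rw [hpow] at hker
  obtain ⟨k, hk⟩ := hgp
  have hpk : ϕ ⟨g, hgH⟩ ^ (p ^ k) = 1 := by
    rw [← map_pow]
    have : (⟨g, hgH⟩ : ↥H) ^ (p ^ k) = 1 := by
      apply Subtype.ext
      simp only [Subgroup.coe_pow, Subgroup.coe_one]
      rw [← hk]; exact pow_orderOf_eq_one g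
    rw [this, map_one]
  have hd1 : orderOf (ϕ ⟨g, hgH⟩) ∣ H.index := orderOf_dvd_of_pow_eq_one hker
  have hd2 : orderOf (ϕ ⟨g, hgH⟩) ∣ p ^ k := orderOf_dvd_of_pow_eq_one hpk
  have hcop : Nat.Coprime (p ^ k) H.index := Nat.Coprime.pow_left k hidx
  have h1 : orderOf (ϕ ⟨g, hgH⟩) = 1 := Nat.eq_one_of_dvd_coprimes hcop hd2 hd1
  rw [orderOf_eq_one_iff] at h1
  apply hgK
  have : (⟨g, hgH⟩ : ↥H) ∈ K.subgroupOf H := (QuotientGroup.eq_one_iff _).1 h1
  rw [Subgroup.mem_subgroupOf] at this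
  exact this

end Cfsg.Agent.S1241
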