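import Cfsg.Statements.S1243
import Cfsg.Agent.Lib.Helper8.Basic

set_option autoImplicit false
open Cfsg
open Cfsg.Agent.Lib.Helper8

namespace Cfsg.Agent.S1243

/-- Let T be a Sylow p-subgroup of the finite group G and W ≤ T a subgroup weakly closed in T. If d and g d g⁻¹ both centralize W, then g d g⁻¹ = h d h⁻¹ for some h ∈ N_G(W). -/
theorem result {G : Type*} [Group G] [Finite G] {p : ℕ} [Fact p.Prime] (T : Sylow p G) (W : Subgroup G) (hW : Cfsg.IsWeaklyClosed W (T : Subgroup G)) (d g : G) (hd : d ∈ Subgroup.centralizer (W : Set G)) (hgd : g * d * g⁻¹ ∈ Subgroup.centralizer (W : Set G)) : ∃ h ∈ Subgroup.normalizer (W : Set G), h * d * h⁻¹ = g * d * g⁻¹ := by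
  obtain ⟨hWT, hwc⟩ := hW
  have hWp : IsPGroup p W := T.isPGroup'.to_le hWT
  -- W and g⁻¹ W g both lie in C(d)
  set C := Subgroup.centralizer ({d} : Set G) with hCdef
  have hWC : W ≤ C := by
    intro w hw
    rw [hCdef, Subgroup.mem_centralizer_singleton_iff]
    exact Subgroup.mem_centralizer_iff.1 hd w hw
  have hWgC : W.map (MulAut.conj g⁻¹).toMonoidHom ≤ C := by
    intro y hy
    rw [h8_mem_map_conj] at hy
    rw [hCdef, Subgroup.mem_centralizer_singleton_iff]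
    have := Subgroup.mem_centralizer_iff.1 hgd _ hy
    simp only [inv_inv] at this
    have e1 : y * d = g⁻¹ * ((g * y * g⁻¹) * (g * d * g⁻¹)) * g := by group
    have e2 : d * y = g⁻¹ * ((g * d * g⁻¹) * (g * y * g⁻¹)) * g := by group
    rw [e1, e2, this]
  -- Sylow subgroups of C
  have hW1 : IsPGroup p (W.subgroupOf C) := hWp.comap_subtype
  have hW2 : IsPGroup p ((W.map (MulAut.conj g⁻¹).toMonoidHom).subgroupOf C) :=
    (h8_isPGroup_map_conj g⁻¹ hWp).comap_subtype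
  obtain ⟨P1, hP1⟩ := hW1.exists_le_sylow
  obtain ⟨P2, hP2⟩ := hW2.exists_le_sylow
  obtain ⟨c, rfl⟩ := MulAction.exists_smul_eq C P1 P2
  -- the p-subgroup P1 of G (image) lies in a conjugate of T
  have hP1p : IsPGroup p ((P1 : Subgroup C).map C.subtype) := P1.isPGroup'.map _
  obtain ⟨t, ht⟩ := h8_exists_conj_sylow_ge T hP1p
  have hc : (c : G) ∈ C := c.2
  have hcd : (c : G) * d = d * (c : G) := Subgroup.mem_centralizer_singleton_iff.1 hc
  -- t⁻¹ W t ≤ T
  have h1 : W.map (MulAut.conj t⁻¹).toMonoidHom = W := by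
    apply hwc
    intro y hy
    rw [h8_mem_map_conj] at hy
    simp only [inv_inv] at hy
    have hyC : t * y * t⁻¹ ∈ C := hWC hy
    have : (⟨t * y * t⁻¹, hyC⟩ : C) ∈ (P1 : Subgroup C) := hP1 (by
      rw [Subgroup.mem_subgroupOf]; exact hy)
    have := ht (t * y * t⁻¹) ⟨⟨t * y * t⁻¹, hyC⟩, this, rfl⟩
    simpa [mul_assoc] using this
  have h2 : W.map (MulAut.conj (t⁻¹ * (c : G)⁻¹ * g⁻¹)).toMonoidHom = W := by
    apply hwc
    intro y hy
    rw [h8_mem_map_conj] at hy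
    -- y' = c⁻¹ g⁻¹ (g c t y t⁻¹ c⁻¹ g⁻¹) g c = t y t⁻¹ ... in P1
    set w := (t⁻¹ * (c : G)⁻¹ * g⁻¹)⁻¹ * y * (t⁻¹ * (c : G)⁻¹ * g⁻¹) with hwdef
    have hwg : g⁻¹ * w * g ∈ W.map (MulAut.conj g⁻¹).toMonoidHom := by
      have := h8_conj_mem_map_conj g⁻¹ W hy
      simpa using this
    have hwgC : g⁻¹ * w * g ∈ C := hWgC hwg
    have hmem : (⟨g⁻¹ * w * g, hwgC⟩ : C) ∈ ((c • P1 : Sylow p C) : Subgroup C) := hP2 (by
      rw [Subgroup.mem_subgroupOf]; exact hwg)
    rw [h8_mem_smul_sylow] at hmem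
    have := ht _ ⟨_, hmem, rfl⟩
    have e : t⁻¹ * (C.subtype (c⁻¹ * ⟨g⁻¹ * w * g, hwgC⟩ * c)) * t = y := by
      simp only [Subgroup.coe_subtype, Subgroup.coe_mul, Subgroup.coe_inv, hwdef]
      group
    rw [e] at this
    exact this
  -- so g c t and t normalize W
  have hN1 : t ∈ Subgroup.normalizer (W : Set G) := by
    have := Subgroup.inv_mem _ (h8_mem_normalizer_of_map_conj_eq h1)
    simpa using this
  have hN2 : g * (c : G) * t ∈ Subgroup.normalizer (W : Set G) := by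
    have := Subgroup.inv_mem _ (h8_mem_normalizer_of_map_conj_eq h2)
    simpa [mul_assoc] using this
  refine ⟨g * (c : G), ?_, ?_⟩
  · have := Subgroup.mul_mem _ hN2 (Subgroup.inv_mem _ hN1)
    simpa [mul_assoc] using this
  · have e : g * (c : G) * d * (g * (c : G))⁻¹ = g * ((c : G) * d * (c : G)⁻¹) * g⁻¹ := by group
    rw [e, hcd]
    group

end Cfsg.Agent.S1243
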