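import Cfsg.Statements.S1244
import Cfsg.Agent.Lib.Helper8.Rank
import Cfsg.Agent.Lib.Helper8.Transfer
import Cfsg.Agent.Lib.Helper8.Isolated

set_option autoImplicit false
open Cfsg
open Cfsg.Agent.Lib.Helper8
open scoped IsMulCommutative

namespace Cfsg.Agent.S1244

/-- Let G be a finite group with no subgroup of index 2 whose Sylow 2-subgroup S is commutative, and let R ≤ S be a subgroup whose 2-rank is exactly one less than the 2-rank r of S. Then every involution of S is conjugate, by an element of N_G(S), to an element of R. -/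
theorem result {G : Type*} [Group G] [Finite G] (hG : ∀ H : Subgroup G, H.index ≠ 2) (S : Sylow 2 G) (hS : IsMulCommutative (S : Subgroup G)) (r : ℕ) (hr1 : 1 ≤ r) (hSr : Cfsg.PRankLE 2 r (S : Subgroup G) ∧ ¬ Cfsg.PRankLE 2 (r - 1) (S : Subgroup G)) (R : Subgroup G) (hRS : R ≤ S) (hRr : Cfsg.PRankLE 2 (r - 1) R ∧ (r = 1 ∨ ¬ Cfsg.PRankLE 2 (r - 2) R)) (t : G) (ht : orderOf t = 2) (htS : t ∈ S) : ∃ n ∈ Subgroup.normalizer ((S : Subgroup G) : Set G), n * t * n⁻¹ ∈ R := by
  classical
  have hSc : ∀ a ∈ (S : Subgroup G), ∀ b ∈ (S : Subgroup G), a * b = b * a := by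
    intro a ha b hb
    exact congrArg Subtype.val (mul_comm' (⟨a, ha⟩ : (S : Subgroup G)) ⟨b, hb⟩)
  let E : Subgroup G :=
    { carrier := {x | x ∈ (S : Subgroup G) ∧ x ^ 2 = 1}
      mul_mem' := by
        rintro a b ⟨ha, ha2⟩ ⟨hb, hb2⟩
        refine ⟨(S : Subgroup G).mul_mem ha hb, ?_⟩
        have hc : Commute a b := hSc a ha b hb
        rw [hc.mul_pow, ha2, hb2, one_mul]
      one_mem' := ⟨(S : Subgroup G).one_mem, one_pow 2⟩
      inv_mem' := by
        rintro a ⟨ha, ha2⟩
        exact ⟨(S : Subgroup G).inv_mem ha, by rw [inv_pow, ha2, inv_one]⟩ }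
  have hEmem : ∀ x, x ∈ E ↔ x ∈ (S : Subgroup G) ∧ x ^ 2 = 1 := fun x => Iff.rfl
  have hES : E ≤ S := fun x hx => ((hEmem x).1 hx).1
  have hEcomm : IsMulCommutative E := by
    rw [isMulCommutative_iff]
    intro a b
    exact Subtype.ext (hSc a (hES a.2) b (hES b.2))
  have hEexp : ∀ a ∈ E, a ^ 2 = 1 := fun a ha => ((hEmem a).1 ha).2
  have hEcard : Nat.card E ≤ 2 ^ r :=
    (h8_pRankLE_iff 2 r (S : Subgroup G)).1 hSr.1 E hES hEcomm hEexp
  have hEp : IsPGroup 2 E := h8_isPGroup_of_exp hEexp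
  have hERcard : 2 ^ (r - 1) ≤ Nat.card (E ⊓ R : Subgroup G) := by
    rcases hRr.2 with h1 | h2
    · subst h1
      show 2 ^ (1 - 1) ≤ _
      simp only [Nat.sub_self, pow_zero]
      exact Nat.card_pos
    · obtain ⟨A, hAR, hAc, hAe, hAcard⟩ := (h8_not_pRankLE_iff 2 (r - 2) R).1 h2
      have hAER : A ≤ E ⊓ R := le_inf (fun a ha => (hEmem a).2 ⟨hRS (hAR ha), hAe a ha⟩) hAR
      have h3 : Nat.card A ≤ Nat.card (E ⊓ R : Subgroup G) := Subgroup.card_le_of_le hAER
      obtain ⟨n, hn⟩ := IsPGroup.iff_card.1 (hEp.to_le (inf_le_left : E ⊓ R ≤ E))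
      rw [hn] at h3 ⊢
      have h4 : 2 ^ (r - 2) < 2 ^ n := lt_of_lt_of_le hAcard h3
      have h5 : r - 2 < n := (Nat.pow_lt_pow_iff_right (by norm_num)).1 h4
      exact Nat.pow_le_pow_right (by norm_num) (by omega)
  set E' : Subgroup E := (E ⊓ R).subgroupOf E with hE'
  have hE'card : Nat.card E' = Nat.card (E ⊓ R : Subgroup G) :=
    Nat.card_congr (Subgroup.subgroupOfEquivOfLe (inf_le_left : E ⊓ R ≤ E)).toEquiv
  have hidx : E'.index = 1 ∨ E'.index = 2 := by
    have h1 := E'.card_mul_index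
    rw [hE'card] at h1
    have h0 : E'.index ≠ 0 := Subgroup.index_ne_zero_of_finite
    have h2 : 2 ^ (r - 1) * E'.index ≤ 2 ^ r := by
      calc 2 ^ (r - 1) * E'.index ≤ Nat.card (E ⊓ R : Subgroup G) * E'.index :=
            Nat.mul_le_mul_right _ hERcard
        _ = Nat.card E := h1
        _ ≤ 2 ^ r := hEcard
    have e : 2 ^ r = 2 ^ (r - 1) * 2 := by
      rw [← pow_succ]; congr 1; omega
    rw [e] at h2
    have h3 : E'.index ≤ 2 := Nat.le_of_mul_le_mul_left h2 (by positivity)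
    omega
  have hP : ∀ x₁ ∈ E, ∀ x₂ ∈ E, x₁ ∉ R → x₂ ∉ R → x₁ * x₂ ∈ R := by
    intro x₁ h₁ x₂ h₂ hn₁ hn₂
    have m1 : (⟨x₁, h₁⟩ : E) ∉ E' := by
      rw [hE', Subgroup.mem_subgroupOf]
      exact fun h => hn₁ (Subgroup.mem_inf.1 h).2
    have m2 : (⟨x₂, h₂⟩ : E) ∉ E' := by
      rw [hE', Subgroup.mem_subgroupOf]
      exact fun h => hn₂ (Subgroup.mem_inf.1 h).2
    rcases hidx with h | h
    · rw [Subgroup.index_eq_one] at h
      exact absurd (h ▸ Subgroup.mem_top _) m1
    · have := (Subgroup.mul_mem_iff_of_index_two h (a := ⟨x₁, h₁⟩) (b := ⟨x₂, h₂⟩)).2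
        (by simp [m1, m2])
      rw [hE', Subgroup.mem_subgroupOf] at this
      exact (Subgroup.mem_inf.1 this).2
  by_contra hcon
  push Not at hcon
  set N := Subgroup.normalizer ((S : Subgroup G) : Set G) with hN
  have htE : t ∈ E := (hEmem t).2 ⟨htS, by rw [← ht]; exact pow_orderOf_eq_one t⟩
  have hconjE : ∀ n ∈ N, n * t * n⁻¹ ∈ E := by
    intro n hn
    refine (hEmem _).2 ⟨(Subgroup.mem_normalizer_iff.1 hn t).1 htS, ?_⟩
    rw [conj_pow, hEexp t htE]; group
  have := hS
  set S' : Subgroup N := (S : Subgroup G).subgroupOf N with hS'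
  let _ : Fintype (N ⧸ S') := Fintype.ofFinite _
  let F : N ⧸ S' → (S : Subgroup G) := fun q =>
    ⟨(q.out : G) * t * (q.out : G)⁻¹, hES (hconjE _ q.out.2)⟩
  have hFE : ∀ q, ((F q : (S : Subgroup G)) : G) ∈ E := fun q => hconjE _ q.out.2
  have hFR : ∀ q, ((F q : (S : Subgroup G)) : G) ∉ R := fun q => hcon _ q.out.2
  have hpar : ∀ T : Finset (N ⧸ S'), ((∏ q ∈ T, F q : (S : Subgroup G)) : G) ∈ E ∧
      (((∏ q ∈ T, F q : (S : Subgroup G)) : G) ∈ R ↔ Even T.card) := by
    intro T
    induction T using Finset.induction_on with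
    | empty => simp [E.one_mem, R.one_mem]
    | insert a T ha ih =>
      rw [Finset.prod_insert ha, Finset.card_insert_of_notMem ha]
      obtain ⟨ih1, ih2⟩ := ih
      rw [Subgroup.coe_mul]
      refine ⟨E.mul_mem (hFE a) ih1, ?_⟩
      by_cases hT : Even T.card
      · have hR := ih2.2 hT
        constructor
        · intro h
          exfalso
          apply hFR a
          have := R.mul_mem h (R.inv_mem hR)
          simpa using this
        · intro h
          exfalso
          rw [Nat.even_add_one] at h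
          exact h hT
      · have hR : ((∏ q ∈ T, F q : (S : Subgroup G)) : G) ∉ R := fun h => hT (ih2.1 h)
        constructor
        · intro _
          rw [Nat.even_add_one]; exact hT
        · intro _
          exact hP _ (hFE a) _ ih1 (hFR a) hR
  have hodd : ¬ Even (Finset.univ : Finset (N ⧸ S')).card := by
    rw [Finset.card_univ, ← Nat.card_eq_fintype_card, ← Subgroup.index_eq_card]
    intro he
    have h1 : S'.index ∣ (S : Subgroup G).index :=
      Subgroup.relIndex_dvd_index_of_le Subgroup.le_normalizer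
    exact S.not_dvd_index (dvd_trans (even_iff_two_dvd.1 he) h1)
  set y : (S : Subgroup G) := ∏ q : N ⧸ S', F q with hy
  have hyE : (y : G) ∈ E := (hpar Finset.univ).1
  have hyR : (y : G) ∉ R := fun h => hodd ((hpar Finset.univ).2.1 h)
  have hyinv : ∀ m ∈ N, m * (y : G) * m⁻¹ = y := by
    intro m hm
    let c : (S : Subgroup G) →* (S : Subgroup G) :=
      { toFun := fun x => ⟨m * x * m⁻¹, (Subgroup.mem_normalizer_iff.1 hm x).1 x.2⟩
        map_one' := by apply Subtype.ext; simp
        map_mul' := by intro a b; apply Subtype.ext; simp [mul_assoc] }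
    have hc : c y = y := by
      rw [hy, map_prod]
      let m' : N := ⟨m, hm⟩
      rw [← Equiv.prod_comp (MulAction.toPerm m' : Equiv.Perm (N ⧸ S')) F]
      apply Finset.prod_congr rfl
      intro q _
      apply Subtype.ext
      show m * ((q.out : G) * t * (q.out : G)⁻¹) * m⁻¹ =
        (((m' • q).out : N) : G) * t * (((m' • q).out : N) : G)⁻¹
      have hab : (m' * q.out)⁻¹ * (m' • q).out ∈ S' := by
        rw [← QuotientGroup.eq, QuotientGroup.out_eq']
        have : ((m' * q.out : N) : N ⧸ S') = m' • ((q.out : N) : N ⧸ S') := rfl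
        rw [this, QuotientGroup.out_eq']
      have hab2 : (((m' * q.out)⁻¹ * (m' • q).out : N) : G) ∈ (S : Subgroup G) :=
        Subgroup.mem_subgroupOf.1 hab
      have hst := hSc _ hab2 t htS
      set s : G := (((m' * q.out)⁻¹ * (m' • q).out : N) : G) with hs
      have hb : (((m' • q).out : N) : G) = m * (q.out : G) * s := by
        rw [hs]
        simp only [Subgroup.coe_mul, Subgroup.coe_inv]
        show _ = m * (q.out : G) * ((m * (q.out : G))⁻¹ * _)
        group
      rw [hb]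
      calc m * ((q.out : G) * t * (q.out : G)⁻¹) * m⁻¹
          = m * (q.out : G) * (t * s) * s⁻¹ * (q.out : G)⁻¹ * m⁻¹ := by group
        _ = m * (q.out : G) * (s * t) * s⁻¹ * (q.out : G)⁻¹ * m⁻¹ := by rw [hst]
        _ = m * (q.out : G) * s * t * (m * (q.out : G) * s)⁻¹ := by group
    exact congrArg Subtype.val hc
  have hV : ∀ g : G, MonoidHom.transfer (MonoidHom.id (S : Subgroup G)) g = 1 :=
    fun g => h8_hom_to_two_group_trivial hG S.isPGroup' _ g
  have hkey : ∀ (k : ℕ) (g₀ : G), g₀⁻¹ * (y : G) ^ k * g₀ ∈ (S : Subgroup G) →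
      g₀⁻¹ * (y : G) ^ k * g₀ = (y : G) ^ k := by
    intro k g₀ h
    obtain ⟨n, hn, hn'⟩ := S.conj_eq_normalizer_conj_of_mem ((y : G) ^ k) g₀
      ((S : Subgroup G).pow_mem y.2 k) h
    rw [hn']
    have h1 := hyinv n⁻¹ (Subgroup.inv_mem _ hn)
    simp only [inv_inv] at h1
    have h2 : n⁻¹ * (y : G) ^ k * n = (n⁻¹ * (y : G) * n) ^ k := by
      have := conj_pow (a := n⁻¹) (b := (y : G)) (i := k)
      simp only [inv_inv] at this
      exact this.symm
    rw [h2, h1]
  have htr := MonoidHom.transfer_eq_pow (MonoidHom.id (S : Subgroup G)) (y : G) hkey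
  rw [hV] at htr
  have hyidx : (y : G) ^ (S : Subgroup G).index = 1 := by
    have := congrArg Subtype.val htr
    simpa using this.symm
  have hy2 : (y : G) * (y : G) = 1 := by
    have := hEexp _ hyE
    rwa [pow_two] at this
  have hoddidx : Odd (S : Subgroup G).index :=
    Nat.not_even_iff_odd.1 (fun h => S.not_dvd_index (even_iff_two_dvd.1 h))
  have hy1 : (y : G) = 1 := h8_eq_one_of_sq_of_odd hy2 hoddidx hyidx
  exact hyR (hy1 ▸ R.one_mem)

end Cfsg.Agent.S1244
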