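import Cfsg.Statements.S1266
import Cfsg.Agent.Lib.Helper1.PxQ2

set_option autoImplicit false
open Cfsg

open Cfsg.Agent.Lib.Helper1 Cfsg.Agent.Lib.Helper7

namespace Cfsg.Agent.S1266

/-- Let P be a p-subgroup of the finite group G and N = N_G(P). Then the preimage in N of E(N / O_{p'}(N)) centralizes O_p(G). -/
theorem result {G : Type*} [Group G] [Finite G] (p : ℕ) [Fact p.Prime] (P : Subgroup G) (hP : IsPGroup p ↥P) : (((Cfsg.layer (↥(Subgroup.normalizer ((P : Subgroup G) : Set G)) ⧸ Cfsg.pPrimeCore p ↥(Subgroup.normalizer ((P : Subgroup G) : Set G)))).comap (QuotientGroup.mk' (Cfsg.pPrimeCore p ↥(Subgroup.normalizer ((P : Subgroup G) : Set G))))).map (Subgroup.normalizer ((P : Subgroup G) : Set G)).subtype) ≤ Subgroup.centralizer (Cfsg.pCore p G : Set G) := by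
  set N := Subgroup.normalizer (P : Set G) with hN
  set W := Cfsg.pPrimeCore p ↥N with hW
  set K := (Cfsg.layer (↥N ⧸ W)).comap (QuotientGroup.mk' W) with hK
  have hQp := pCore_isPGroup p G
  have hQn : (Cfsg.pCore p G).Normal := pCore_normal p G
  have hPN : P ≤ N := Subgroup.le_normalizer
  have hCN : Subgroup.centralizer (P : Set G) ≤ N := Subgroup.centralizer_le_normalizer _
  have hP'n : (P.subgroupOf N).Normal := Subgroup.normal_in_normalizer
  have hP'p : IsPGroup p ↥(P.subgroupOf N) := hP.comap_subtype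
  have hD'n : ((Cfsg.pCore p G).subgroupOf N).Normal := hQn.subgroupOf N
  have hD'p : IsPGroup p ↥((Cfsg.pCore p G).subgroupOf N) := hQp.comap_subtype
  have hKP : ⁅K, P.subgroupOf N⁆ = ⊥ := comap_layer_commutator_eq_bot p _ hP'p
  have hKD : ⁅K, (Cfsg.pCore p G).subgroupOf N⁆ = ⊥ := comap_layer_commutator_eq_bot p _ hD'p
  have hKP' : K.map N.subtype ≤ Subgroup.centralizer (P : Set G) := by
    rw [← Subgroup.commutator_eq_bot_iff_le_centralizer]
    have := congrArg (Subgroup.map N.subtype) hKP
    rw [Subgroup.map_commutator, Subgroup.map_subgroupOf_eq_of_le hPN, Subgroup.map_bot] at this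
    exact this
  have hKD' : K.map N.subtype
      ≤ Subgroup.centralizer ((Cfsg.pCore p G ⊓ N : Subgroup G) : Set G) := by
    rw [← Subgroup.commutator_eq_bot_iff_le_centralizer]
    have := congrArg (Subgroup.map N.subtype) hKD
    rw [Subgroup.map_commutator, Subgroup.subgroupOf_map_subtype, Subgroup.map_bot] at this
    exact this
  have hCn : (Subgroup.centralizer (Cfsg.pCore p G : Set G)).Normal := Subgroup.normal_centralizer
  apply le_of_pprime_mem_of_le_commutator_sup p (W := W.map N.subtype)
  · rw [Subgroup.normalizer_eq_top_iff.mpr hCn]; exact le_top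
  · intro x hx hcop
    have hxz : Subgroup.zpowers x ≤ K.map N.subtype := by
      rw [Subgroup.zpowers_le]; exact hx
    have := pxq_lemma p P (Subgroup.zpowers x) (Cfsg.pCore p G) hP
      (by rw [Nat.card_zpowers]; exact hcop) hQp
      (Subgroup.le_centralizer_iff.mp (hxz.trans hKP'))
      (by rw [Subgroup.normalizer_eq_top_iff.mpr hQn]; exact le_top)
      (by rw [Subgroup.normalizer_eq_top_iff.mpr hQn]; exact le_top)
      ((inf_le_inf_left _ hCN).trans (Subgroup.le_centralizer_iff.mp (hxz.trans hKD')))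
    exact this (Subgroup.mem_zpowers x)
  · rw [Subgroup.card_map_of_injective N.subtype_injective]; exact pPrimeCore_coprime p ↥N
  · exact Subgroup.map_mono (pPrimeCore_le_comap_layer p ↥N)
  · rw [← Subgroup.map_commutator, ← Subgroup.map_sup]
    exact Subgroup.map_mono (comap_layer_le_commutator_sup p ↥N)

end Cfsg.Agent.S1266
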