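import Cfsg.Statements.S1267
import Cfsg.Agent.Lib.Helper1.PxQ

set_option autoImplicit false
open Cfsg

open Cfsg.Agent.Lib.Helper1 Cfsg.Agent.Lib.Helper7

namespace Cfsg.Agent.S1267

/-- Let G be finite and P ≤ O_p(G). Then E(N_G(P)) = E(G). -/
theorem result {G : Type*} [Group G] [Finite G] (p : ℕ) [Fact p.Prime] (P : Subgroup G) (hP : P ≤ Cfsg.pCore p G) : (Cfsg.layer ↥(Subgroup.normalizer ((P : Subgroup G) : Set G))).map (Subgroup.normalizer ((P : Subgroup G) : Set G)).subtype = Cfsg.layer G := by
  set N := Subgroup.normalizer (P : Set G) with hN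
  have hQp := pCore_isPGroup p G
  have hPp : IsPGroup p P := hQp.to_le hP
  have hPN : P ≤ N := Subgroup.le_normalizer
  have hCN : Subgroup.centralizer (P : Set G) ≤ N := Subgroup.centralizer_le_normalizer _
  have hQn : (Cfsg.pCore p G).Normal := pCore_normal p G
  have hNQ : ∀ K : Subgroup G, K ≤ Subgroup.normalizer (Cfsg.pCore p G : Set G) := fun K => by
    rw [Subgroup.normalizer_eq_top_iff.mpr hQn]; exact le_top
  have hCQN : Subgroup.centralizer (Cfsg.pCore p G : Set G) ≤ N :=
    (Subgroup.centralizer_le (SetLike.coe_subset_coe.mpr hP)).trans hCN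
  have hCQn : (Subgroup.centralizer (Cfsg.pCore p G : Set G)).Normal := Subgroup.normal_centralizer
  apply le_antisymm
  · rw [Subgroup.map_le_iff_le_comap]
    unfold Cfsg.layer
    apply sSup_le
    intro L' hL'
    rw [← Subgroup.map_le_iff_le_comap]
    apply le_sSup
    have hLC := IsComponent.map_subtype_le_centralizer_of_pxq p hPp le_rfl hCN hPN hL' hQp
      (hNQ _) (hNQ _)
    exact ⟨isSubnormal_map_subtype_of_le hCQN hCQn.isSubnormal hL'.1 hLC,
      (isQuasisimple_map_of_injective N.subtype N.subtype_injective L').mp hL'.2⟩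
  · unfold Cfsg.layer
    apply sSup_le
    intro L hL
    have h1 : ⁅L, Cfsg.pCore p G⁆ = ⊥ :=
      IsComponent.commutator_eq_bot_of_solvable hL hQn.isSubnormal (isSolvable_of_isPGroup hQp)
    have hLN : L ≤ N := (Subgroup.commutator_eq_bot_iff_le_centralizer.mp h1).trans hCQN
    have h2 : Cfsg.IsComponent (L.subgroupOf N) := IsComponent.subgroupOf hL hLN
    have h3 : L = (L.subgroupOf N).map N.subtype := (Subgroup.map_subgroupOf_eq_of_le hLN).symm
    rw [h3]
    exact Subgroup.map_mono (le_sSup h2)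

end Cfsg.Agent.S1267
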