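import Cfsg.Statements.S1274
import Cfsg.Agent.Lib.Helper1.PComp2

set_option autoImplicit false
open Cfsg

open Cfsg.Agent.Lib.Helper1

namespace Cfsg.Agent.S1274

/-- A p-component K of the finite group X is a normal subgroup of L_{p'}(X). -/
theorem result {X : Type*} [Group X] [Finite X] (p : ℕ) [Fact p.Prime] (K : Subgroup X) (hK : Cfsg.IsPComponent p K) : (K.subgroupOf (Cfsg.pLayer p X)).Normal := by
  have hKL : K ≤ Cfsg.pLayer p X := le_sSup hK
  rw [Subgroup.normal_subgroupOf_iff_le_normalizer hKL]
  unfold Cfsg.pLayer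
  apply sSup_le
  intro L hL
  by_cases h : K = L
  · rw [← h]; exact Subgroup.le_normalizer
  · exact IsPComponent.le_normalizer_of_ne hK hL h

end Cfsg.Agent.S1274
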