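import Cfsg.Statements.S1278
import Cfsg.Agent.Lib.Helper1.PComp2

set_option autoImplicit false
open Cfsg

open Cfsg.Agent.Lib.Helper1 Cfsg.Agent.Lib.Helper7

namespace Cfsg.Agent.S1278

/-- Let K ≠ L be 2-components of the finite group X. Then ⁅K, L⁆ ≤ O(K) ⊓ O(L), and if K is quasisimple then ⁅K, L⁆ = 1. -/
theorem result {X : Type*} [Group X] [Finite X] (K L : Subgroup X) (hK : Cfsg.IsPComponent 2 K) (hL : Cfsg.IsPComponent 2 L) (hne : K ≠ L) : ⁅K, L⁆ ≤ ((Cfsg.oddCore ↥K).map K.subtype) ⊓ ((Cfsg.oddCore ↥L).map L.subtype) ∧ (Cfsg.IsQuasisimple ↥K → ⁅K, L⁆ = ⊥) := by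
  have : Fact (Nat.Prime 2) := ⟨Nat.prime_two⟩
  have hO := IsPComponent.commutator_le_pPrimeCore hK hL hne
  have hKn : ⁅K, L⁆ ≤ K :=
    Subgroup.le_normalizer_iff_commutator_le_left.mp (IsPComponent.le_normalizer_of_ne hK hL hne)
  have hLn : ⁅K, L⁆ ≤ L :=
    Subgroup.le_normalizer_iff_commutator_le_right.mp
      (IsPComponent.le_normalizer_of_ne hL hK hne.symm)
  refine ⟨le_inf ?_ ?_, fun hq => ?_⟩
  · rw [pPrimeCore_map_subtype_eq_of_subnormal 2 hK.1]; exact le_inf hO hKn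
  · rw [pPrimeCore_map_subtype_eq_of_subnormal 2 hL.1]; exact le_inf hO hLn
  · have hKc : Cfsg.IsComponent K := ⟨hK.1, hq⟩
    rcases IsComponent.le_or_commutator_eq_bot hKc hL.1 with h | h
    · exfalso
      have hne1 : K.map (QuotientGroup.mk' (Cfsg.pPrimeCore 2 X)) ≠
          L.map (QuotientGroup.mk' (Cfsg.pPrimeCore 2 X)) :=
        fun h => hne (IsPComponent.eq_of_map_eq hK hL h)
      have h1 := IsComponent.commutator_eq_bot_of_ne hK.2.1 hL.2.1 hne1
      have h2 : ⁅K.map (QuotientGroup.mk' (Cfsg.pPrimeCore 2 X)),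
          K.map (QuotientGroup.mk' (Cfsg.pPrimeCore 2 X))⁆ = ⊥ := by
        rw [eq_bot_iff, ← h1]
        exact Subgroup.commutator_mono le_rfl (Subgroup.map_mono h)
      rw [IsComponent.perfect hK.2.1] at h2
      exact IsComponent.ne_bot hK.2.1 h2
    · exact h

end Cfsg.Agent.S1278
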