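import Cfsg.Statements.S1279
import Cfsg.Agent.Lib.Helper1.SolvBal

set_option autoImplicit false
open Cfsg

open Cfsg.Agent.Lib.Helper1 Cfsg.Agent.Lib.Helper7

namespace Cfsg.Agent.S1279

/-- Let A be a noncyclic elementary abelian p-subgroup of the finite group G such that C_G(a) is solvable for every non-identity a ∈ A. Then a ↦ O_{p'}(C_G(a)) is a solvable A-signalizer functor on G. -/
theorem result {G : Type*} [Group G] [Finite G] (p : ℕ) [Fact p.Prime] (A : Subgroup G) (hA : Cfsg.IsElementaryAbelian p A) (hA2 : p ^ 2 ≤ Nat.card ↥A) (hsolv : ∀ a ∈ A, a ≠ 1 → Group.IsSolvable ↥(Subgroup.centralizer ({a} : Set G))) : Cfsg.IsSolvableSignalizerFunctor p A (fun a => Cfsg.centralizerPPrimeCore p a) := by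
  have hcomm : ∀ a ∈ A, ∀ b ∈ A, a * b = b * a := by
    intro a ha b hb
    have h := hA.1.is_comm.comm (⟨a, ha⟩ : ↥A) ⟨b, hb⟩
    exact congrArg Subtype.val h
  have hpz : ∀ a ∈ A, IsPGroup p ↥(Subgroup.zpowers a) := by
    intro a ha g
    refine ⟨1, ?_⟩
    obtain ⟨g, hg⟩ := g
    obtain ⟨n, rfl⟩ := Subgroup.mem_zpowers_iff.mp hg
    apply Subtype.ext
    simp only [pow_one, Subgroup.coe_pow, Subgroup.coe_one]
    rw [← zpow_natCast, ← zpow_mul, mul_comm, zpow_mul, zpow_natCast, hA.2 a ha, one_zpow]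
  refine ⟨⟨?_, ?_, ?_, ?_⟩, ?_⟩
  · intro a ha ha1
    exact Subgroup.map_subtype_le _
  · intro a ha ha1
    show ¬ p ∣ Nat.card ↥(Cfsg.centralizerPPrimeCore p a)
    unfold Cfsg.centralizerPPrimeCore
    rw [Subgroup.card_map_of_injective (Subgroup.subtype_injective _)]
    exact (Nat.Prime.coprime_iff_not_dvd Fact.out).mp (pPrimeCore_coprime p _).symm
  · intro a ha ha1 b hb x hx
    have hb' : b ∈ Subgroup.centralizer ({a} : Set G) := by
      rw [Subgroup.mem_centralizer_iff]
      intro y hy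
      rw [Set.mem_singleton_iff] at hy
      rw [hy]; exact hcomm a ha b hb
    exact conj_mem_of_mem_normalizer (le_normalizer_map_subtype_of_normal _ hb') hx
  · intro a ha ha1 b hb hb1
    exact centralizerPPrimeCore_inf_le_of_solvable p (hcomm a ha b hb) (hpz a ha)
      (hsolv b hb hb1)
  · intro a ha ha1
    show Group.IsSolvable ↥(Cfsg.centralizerPPrimeCore p a)
    haveI := hsolv a ha ha1
    unfold Cfsg.centralizerPPrimeCore
    exact isSolvable_map_subtype _

end Cfsg.Agent.S1279
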