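import Cfsg.Statements.S1280
import Cfsg.Agent.Lib.Helper1.SupNorm

set_option autoImplicit false
open Cfsg

open Cfsg.Agent.Lib.Helper1 Cfsg.Agent.Lib.Helper7

namespace Cfsg.Agent.S1280

/-- Let θ be a solvable A-signalizer functor (A a noncyclic elementary abelian p-subgroup of the finite group G), and X, Y members of its family with Y ≤ N_G(X). Then X ⊔ Y (= XY) is again in the family. -/
theorem result {G : Type*} [Group G] [Finite G] (p : ℕ) [Fact p.Prime] (A : Subgroup G) (hA : Cfsg.IsElementaryAbelian p A) (hA2 : p ^ 2 ≤ Nat.card ↥A) (θ : G → Subgroup G) (hθ : Cfsg.IsSolvableSignalizerFunctor p A θ) (X Y : Subgroup G) (hX : X ∈ Cfsg.signalizerFamily p A θ) (hY : Y ∈ Cfsg.signalizerFamily p A θ) (hn : Y ≤ Subgroup.normalizer (X : Set G)) : X ⊔ Y ∈ Cfsg.signalizerFamily p A θ := by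
  obtain ⟨hXs, hXp, hXA, hXθ⟩ := hX
  obtain ⟨hYs, hYp, hYA, hYθ⟩ := hY
  refine ⟨isSolvable_sup_of_le_normalizer hn, ?_, ?_, ?_⟩
  · intro hdiv
    have h1 := hdiv.trans (card_sup_dvd_of_le_normalizer hn)
    rcases (Nat.Prime.dvd_mul (Fact.out)).mp h1 with h | h
    · exact hXp h
    · exact hYp h
  · intro b hb u hu
    obtain ⟨x, hx, y, hy, rfl⟩ := exists_mul_of_mem_sup hn hu
    have : b * (x * y) * b⁻¹ = (b * x * b⁻¹) * (b * y * b⁻¹) := by group
    rw [this]
    exact Subgroup.mul_mem_sup (hXA b hb x hx) (hYA b hb y hy)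
  · intro a ha ha1 k hk
    obtain ⟨hkXY, hkC⟩ := hk
    obtain ⟨x, hx, y, hy, hkxy⟩ := exists_mul_of_mem_sup hn hkXY
    have hZX : Subgroup.zpowers a ≤ Subgroup.normalizer (X : Set G) :=
      ((Subgroup.zpowers_le).mpr ha).trans (le_normalizer_of_conj_mem hXA)
    have hZY : Subgroup.zpowers a ≤ Subgroup.normalizer (Y : Set G) :=
      ((Subgroup.zpowers_le).mpr ha).trans (le_normalizer_of_conj_mem hYA)
    obtain ⟨x', hx', y', hy', hk'⟩ := coprime_centralizer_mul (Subgroup.zpowers a) X hZX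
      (card_zpowers_coprime hA ha ha1 hXp) (Or.inl (isSolvable_zpowers a)) X Y le_rfl hZX hZY k
      (mem_centralizer_zpowers hkC) x y hx hy hkxy
    rw [hk']
    exact (θ a).mul_mem
      (hXθ a ha ha1 ⟨hx'.1, mem_centralizer_singleton_of_zpowers hx'.2⟩)
      (hYθ a ha ha1 ⟨hy'.1, mem_centralizer_singleton_of_zpowers hy'.2⟩)

end Cfsg.Agent.S1280
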