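import Cfsg.Statements.S1281
import Cfsg.Agent.Lib.Helper1.SupNorm

set_option autoImplicit false
open Cfsg

open Cfsg.Agent.Lib.Helper1 Cfsg.Agent.Lib.Helper7

namespace Cfsg.Agent.S1281

/-- Let θ be a solvable A-signalizer functor on the finite group G (A a noncyclic elementary abelian p-subgroup) and N a normal subgroup of order prime to p. Then for all non-identity a, b ∈ A, the image of θ a in G / N meets the centralizer of the image of b inside the image of θ b. -/
theorem result {G : Type*} [Group G] [Finite G] (p : ℕ) [Fact p.Prime] (A : Subgroup G) (hA : Cfsg.IsElementaryAbelian p A) (hA2 : p ^ 2 ≤ Nat.card ↥A) (θ : G → Subgroup G) (hθ : Cfsg.IsSolvableSignalizerFunctor p A θ) (N : Subgroup G) [N.Normal] (hN : ¬ p ∣ Nat.card ↥N) (a b : G) (ha : a ∈ A) (ha1 : a ≠ 1) (hb : b ∈ A) (hb1 : b ≠ 1) : (θ a).map (QuotientGroup.mk' N) ⊓ Subgroup.centralizer {QuotientGroup.mk' N b} ≤ (θ b).map (QuotientGroup.mk' N) := by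
  obtain ⟨⟨hθC, hθp, hθA, hθbal⟩, hθs⟩ := hθ
  rintro _ ⟨⟨x, hx, rfl⟩, hxc⟩
  set π := QuotientGroup.mk' N with hπ
  have hZ : Subgroup.zpowers b ≤ Subgroup.normalizer ((θ a : Subgroup G) : Set G) :=
    ((Subgroup.zpowers_le).mpr hb).trans (le_normalizer_of_conj_mem (hθA a ha ha1))
  have hnorm : ∀ g ∈ Subgroup.normalizer ((θ a : Subgroup G) : Set G),
      g ∈ Subgroup.normalizer ((θ a ⊓ N : Subgroup G) : Set G) := by
    intro g hg
    rw [Subgroup.mem_normalizer_iff] at hg ⊢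
    intro u
    constructor
    · rintro ⟨hu1, hu2⟩
      exact ⟨(hg u).mp hu1, Subgroup.Normal.conj_mem inferInstance u hu2 g⟩
    · rintro ⟨hu1, hu2⟩
      refine ⟨(hg u).mpr hu1, ?_⟩
      have := Subgroup.Normal.conj_mem (inferInstance : N.Normal) _ hu2 g⁻¹
      simpa [mul_assoc] using this
  have hcomm : ∀ b' ∈ Subgroup.zpowers b, π b' * π x = π x * π b' := by
    intro b' hb'
    obtain ⟨n, rfl⟩ := Subgroup.mem_zpowers_iff.mp hb'
    have hc : Commute (π b) (π x) := (Subgroup.mem_centralizer_iff.mp hxc) (π b) rfl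
    rw [map_zpow]
    exact (hc.zpow_left n).eq
  obtain ⟨c, hc, hxc'⟩ := coprime_fixed_lift (Subgroup.zpowers b) (θ a) hZ
    (card_zpowers_coprime hA hb hb1 (hθp a ha ha1)) (Or.inl (isSolvable_zpowers b)) (θ a ⊓ N)
    inf_le_left (fun g hg => hnorm g (Subgroup.le_normalizer hg)) (fun g hg => hnorm g (hZ hg))
    x hx (fun b' hb' => by
      refine ⟨?_, ?_⟩
      · exact (θ a).mul_mem (conj_mem_of_mem_normalizer (hZ hb') hx) ((θ a).inv_mem hx)
      · have h1 : π (b' * x * b'⁻¹ * x⁻¹) = 1 := by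
          rw [map_mul, map_mul, map_mul, map_inv, map_inv, hcomm b' hb']
          group
        rw [hπ, QuotientGroup.mk'_apply, QuotientGroup.eq_one_iff] at h1
        exact h1)
  have hcb : c ∈ θ b :=
    hθbal a ha ha1 b hb hb1 ⟨hc.1, mem_centralizer_singleton_of_zpowers hc.2⟩
  refine ⟨c, hcb, ?_⟩
  have h2 : π (x⁻¹ * c) = 1 := by
    rw [hπ, QuotientGroup.mk'_apply, QuotientGroup.eq_one_iff]
    exact hxc'.2
  rw [map_mul, map_inv, inv_mul_eq_one] at h2
  exact h2.symm

end Cfsg.Agent.S1281
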