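import Cfsg.Statements.S1286
import Mathlib

set_option autoImplicit false
open Cfsg

namespace Cfsg.Agent.S1286

abbrev Xg := Equiv.Perm (Fin 5)
def sE : Xg := Equiv.swap 0 1
def tE : Xg := Equiv.swap 2 3
def c1 : Xg := Equiv.swap 2 3 * Equiv.swap 3 4
def c2 : Xg := Equiv.swap 0 1 * Equiv.swap 1 4

def Asub : Subgroup Xg where
  carrier := {x | x = 1 ∨ x = sE ∨ x = tE ∨ x = sE * tE}
  mul_mem' := by
    rintro a b (rfl | rfl | rfl | rfl) (rfl | rfl | rfl | rfl) <;> decide
  one_mem' := Or.inl rfl
  inv_mem' := by
    rintro a (rfl | rfl | rfl | rfl) <;> decide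

theorem mem_zpowers_three {c : Xg} (hc : c * c * c = 1) {x : Xg}
    (hx : x ∈ Subgroup.zpowers c) : x = 1 ∨ x = c ∨ x = c * c := by
  obtain ⟨n, rfl⟩ := Subgroup.mem_zpowers_iff.mp hx
  have h3 : c ^ (3 : ℤ) = 1 := by
    rw [zpow_ofNat, pow_succ, pow_two, hc]
  have hn : n = 3 * (n / 3) + n % 3 := by omega
  have hr : n % 3 = 0 ∨ n % 3 = 1 ∨ n % 3 = 2 := by omega
  rw [hn, zpow_add, zpow_mul, h3, one_zpow, one_mul]
  rcases hr with h | h | h <;> rw [h]
  · left; simp
  · right; left; simp
  · right; right; rw [zpow_ofNat, pow_two]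

theorem mem_zpowers_of {c x : Xg} (h : x = 1 ∨ x = c ∨ x = c * c) : x ∈ Subgroup.zpowers c := by
  rcases h with rfl | rfl | rfl
  · exact Subgroup.one_mem _
  · exact Subgroup.mem_zpowers _
  · exact Subgroup.mul_mem _ (Subgroup.mem_zpowers _) (Subgroup.mem_zpowers _)

theorem c1_cube : c1 * c1 * c1 = 1 := by decide
theorem c2_cube : c2 * c2 * c2 = 1 := by decide

theorem orderOf_c1 : orderOf c1 = 3 := orderOf_eq_prime (by decide) (by decide)
theorem orderOf_c2 : orderOf c2 = 3 := orderOf_eq_prime (by decide) (by decide)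

def θf : Xg → Subgroup Xg := fun g =>
  if g = sE then Subgroup.zpowers c1 else if g = tE then Subgroup.zpowers c2 else ⊥

theorem θ_s : θf sE = Subgroup.zpowers c1 := if_pos rfl
theorem θ_t : θf tE = Subgroup.zpowers c2 := by
  unfold θf
  rw [if_neg (by decide), if_pos rfl]
theorem θ_st : θf (sE * tE) = ⊥ := by
  unfold θf
  rw [if_neg (by decide), if_neg (by decide)]

theorem solv_zpowers (a : Xg) : Group.IsSolvable ↥(Subgroup.zpowers a) := by
  apply Group.isSolvable_of_comm
  rintro ⟨x, hx⟩ ⟨y, hy⟩
  apply Subtype.ext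
  obtain ⟨m, rfl⟩ := Subgroup.mem_zpowers_iff.mp hx
  obtain ⟨n, rfl⟩ := Subgroup.mem_zpowers_iff.mp hy
  exact zpow_mul_comm a m n


/-- There exist a finite group X, an elementary abelian subgroup A of order 4 and a solvable A-signalizer functor θ on X for the prime 2 which is not complete. -/
theorem result : ∃ (X : Type) (_ : Group X) (_ : Finite X) (A : Subgroup X) (θ : X → Subgroup X), Cfsg.IsElementaryAbelian 2 A ∧ Nat.card ↥A = 4 ∧ Cfsg.IsSolvableSignalizerFunctor 2 A θ ∧ ¬ Cfsg.IsCompleteSignalizerFunctor 2 A θ := by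
  refine ⟨Xg, inferInstance, inferInstance, Asub, θf, ?_, ?_, ?_, ?_⟩
  · refine ⟨?_, ?_⟩
    · rw [isMulCommutative_iff]
      rintro ⟨a, ha⟩ ⟨b, hb⟩
      apply Subtype.ext
      show a * b = b * a
      rcases ha with rfl | rfl | rfl | rfl <;> rcases hb with rfl | rfl | rfl | rfl <;> decide
    · rintro a (rfl | rfl | rfl | rfl) <;> decide
  · have hset : (Asub : Set Xg) = {1, sE, tE, sE * tE} := by
      ext x
      simp only [Set.mem_insert_iff, Set.mem_singleton_iff]
      rfl
    change Nat.card ↥(Asub : Set Xg) = 4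
    rw [Nat.card_coe_set_eq, hset,
      Set.ncard_insert_of_notMem (by
        simp only [Set.mem_insert_iff, Set.mem_singleton_iff]; decide),
      Set.ncard_insert_of_notMem (by
        simp only [Set.mem_insert_iff, Set.mem_singleton_iff]; decide),
      Set.ncard_pair (by decide)]
  · refine ⟨⟨?_, ?_, ?_, ?_⟩, ?_⟩
    · rintro a (rfl | rfl | rfl | rfl) ha1
      · exact absurd rfl ha1
      · rw [θ_s, Subgroup.zpowers_le, Subgroup.mem_centralizer_iff]
        intro h hh
        rw [Set.mem_singleton_iff] at hh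
        subst hh
        decide
      · rw [θ_t, Subgroup.zpowers_le, Subgroup.mem_centralizer_iff]
        intro h hh
        rw [Set.mem_singleton_iff] at hh
        subst hh
        decide
      · rw [θ_st]; exact bot_le
    · rintro a (rfl | rfl | rfl | rfl) ha1
      · exact absurd rfl ha1
      · rw [θ_s, Nat.card_zpowers, orderOf_c1]; decide
      · rw [θ_t, Nat.card_zpowers, orderOf_c2]; decide
      · rw [θ_st, Subgroup.card_bot]; decide
    · rintro a (rfl | rfl | rfl | rfl) ha1 b hb x hx
      · exact absurd rfl ha1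
      · rw [θ_s] at hx ⊢
        rcases mem_zpowers_three c1_cube hx with rfl | rfl | rfl <;>
          rcases hb with rfl | rfl | rfl | rfl <;> (apply mem_zpowers_of; decide)
      · rw [θ_t] at hx ⊢
        rcases mem_zpowers_three c2_cube hx with rfl | rfl | rfl <;>
          rcases hb with rfl | rfl | rfl | rfl <;> (apply mem_zpowers_of; decide)
      · rw [θ_st] at hx ⊢
        rw [Subgroup.mem_bot] at hx ⊢
        subst hx
        simp
    · rintro a (rfl | rfl | rfl | rfl) ha1 b hb hb1 x ⟨hx, hxc⟩
      · exact absurd rfl ha1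
      · have hx' : x ∈ Subgroup.zpowers c1 := by rw [← θ_s]; exact hx
        rcases hb with rfl | rfl | rfl | rfl
        · exact absurd rfl hb1
        · exact hx
        · have hcomm := (Subgroup.mem_centralizer_iff.mp hxc) tE rfl
          rcases mem_zpowers_three c1_cube hx' with rfl | rfl | rfl
          · exact Subgroup.one_mem _
          · exact absurd hcomm (by decide)
          · exact absurd hcomm (by decide)
        · have hcomm := (Subgroup.mem_centralizer_iff.mp hxc) (sE * tE) rfl
          rcases mem_zpowers_three c1_cube hx' with rfl | rfl | rfl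
          · exact Subgroup.one_mem _
          · exact absurd hcomm (by decide)
          · exact absurd hcomm (by decide)
      · have hx' : x ∈ Subgroup.zpowers c2 := by rw [← θ_t]; exact hx
        rcases hb with rfl | rfl | rfl | rfl
        · exact absurd rfl hb1
        · have hcomm := (Subgroup.mem_centralizer_iff.mp hxc) sE rfl
          rcases mem_zpowers_three c2_cube hx' with rfl | rfl | rfl
          · exact Subgroup.one_mem _
          · exact absurd hcomm (by decide)
          · exact absurd hcomm (by decide)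
        · exact hx
        · have hcomm := (Subgroup.mem_centralizer_iff.mp hxc) (sE * tE) rfl
          rcases mem_zpowers_three c2_cube hx' with rfl | rfl | rfl
          · exact Subgroup.one_mem _
          · exact absurd hcomm (by decide)
          · exact absurd hcomm (by decide)
      · have hx' : x ∈ (⊥ : Subgroup Xg) := by rw [← θ_st]; exact hx
        rw [Subgroup.mem_bot] at hx'
        subst hx'
        exact Subgroup.one_mem _
    · rintro a (rfl | rfl | rfl | rfl) ha1
      · exact absurd rfl ha1
      · rw [θ_s]; exact solv_zpowers c1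
      · rw [θ_t]; exact solv_zpowers c2
      · rw [θ_st]; infer_instance
  · rintro ⟨-, X₀, hinv, hodd, hX⟩
    have h1 : c1 ∈ X₀ := by
      have h := hX sE (Or.inr (Or.inl rfl)) (by decide)
      have hc : c1 ∈ θf sE := by rw [θ_s]; exact Subgroup.mem_zpowers c1
      rw [← h] at hc
      exact hc.1
    have h2 : c2 ∈ X₀ := by
      have h := hX tE (Or.inr (Or.inr (Or.inl rfl))) (by decide)
      have hc : c2 ∈ θf tE := by rw [θ_t]; exact Subgroup.mem_zpowers c2
      rw [← h] at hc
      exact hc.1
    have hw : c1 * c2 * c1 * c2⁻¹ ∈ X₀ :=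
      X₀.mul_mem (X₀.mul_mem (X₀.mul_mem h1 h2) h1) (X₀.inv_mem h2)
    have ho : orderOf (c1 * c2 * c1 * c2⁻¹) = 2 := orderOf_eq_prime (by decide) (by decide)
    apply hodd
    rw [← ho]
    have := orderOf_dvd_natCard (⟨_, hw⟩ : ↥X₀)
    rwa [Subgroup.orderOf_mk] at this

end Cfsg.Agent.S1286
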