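import Cfsg.Statements.S1300
import Mathlib

set_option autoImplicit false
open Cfsg

namespace Cfsg.Agent.S1300

theorem core_le_centralizer {G : Type*} [Group G] (p : ℕ) (x : G) :
    Cfsg.centralizerPPrimeCore p x ≤ Subgroup.centralizer ({x} : Set G) :=
  Subgroup.map_subtype_le _


/-- For a finite group G, balance in the sense of commuting involutions is the same as 1-balance for the prime 2. -/
theorem result {G : Type*} [Group G] [Finite G] : Cfsg.IsBalanced G ↔ Cfsg.IsKBalanced 2 1 G := by
  constructor
  · intro hbal A hA hcard b hb hcomm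
    have hne : ∃ x ∈ A, x ≠ 1 := by
      by_contra hno
      push Not at hno
      have : A = ⊥ := (Subgroup.eq_bot_iff_forall A).mpr hno
      rw [this, Subgroup.card_bot] at hcard
      norm_num at hcard
    obtain ⟨x, hxA, hx1⟩ := hne
    have hx2 : orderOf x = 2 := orderOf_eq_prime (hA.2 x hxA) hx1
    have hΔ : Cfsg.signalizerDelta 2 A ≤ Cfsg.centralizerPPrimeCore 2 x :=
      iInf_le (fun a : {a : G // a ∈ A ∧ a ≠ 1} => Cfsg.centralizerPPrimeCore 2 (a : G))
        ⟨x, hxA, hx1⟩
    have h1 := hbal x b hx2 hb (hcomm x hxA)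
    calc Cfsg.signalizerDelta 2 A ⊓ Subgroup.centralizer {b}
        ≤ Cfsg.centralizerPPrimeCore 2 x ⊓ Subgroup.centralizer {b} := inf_le_inf hΔ le_rfl
      _ = Cfsg.centralizerPPrimeCore 2 b ⊓ Subgroup.centralizer {x} := h1
      _ ≤ Cfsg.centralizerPPrimeCore 2 b := inf_le_left
  · intro hk x y hx hy hxy
    have key : ∀ x y : G, orderOf x = 2 → orderOf y = 2 → x * y = y * x →
        Cfsg.centralizerPPrimeCore 2 x ⊓ Subgroup.centralizer {y} ≤
          Cfsg.centralizerPPrimeCore 2 y ⊓ Subgroup.centralizer {x} := by
      intro x y hx hy hxy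
      have hxx : x * x = 1 := by rw [← pow_two, ← hx, pow_orderOf_eq_one]
      have hmem : ∀ a ∈ Subgroup.zpowers x, a = 1 ∨ a = x := by
        intro a ha
        obtain ⟨n, rfl⟩ := Subgroup.mem_zpowers_iff.mp ha
        rcases Int.emod_two_eq_zero_or_one n with h | h
        · left
          have : n = 2 * (n / 2) := by omega
          rw [this, zpow_mul, zpow_ofNat, pow_two, hxx, one_zpow]
        · right
          have : n = 2 * (n / 2) + 1 := by omega
          rw [this, zpow_add, zpow_mul, zpow_ofNat, pow_two, hxx, one_zpow, one_mul, zpow_one]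
      have hA : Cfsg.IsElementaryAbelian 2 (Subgroup.zpowers x) := by
        refine ⟨?_, ?_⟩
        · rw [isMulCommutative_iff]
          rintro ⟨a, ha⟩ ⟨b, hb⟩
          apply Subtype.ext
          show a * b = b * a
          rcases hmem a ha with rfl | rfl <;> rcases hmem b hb with rfl | rfl <;> simp
        · intro a ha
          rcases hmem a ha with rfl | rfl
          · simp
          · rw [pow_two, hxx]
      have hcard : Nat.card ↥(Subgroup.zpowers x) = 2 ^ 1 := by
        rw [Nat.card_zpowers, hx]; norm_num
      have hcomm : ∀ a ∈ Subgroup.zpowers x, a * y = y * a := by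
        intro a ha
        rcases hmem a ha with rfl | rfl
        · simp
        · exact hxy
      have h1 := hk (Subgroup.zpowers x) hA hcard y hy hcomm
      have hΔ : Cfsg.centralizerPPrimeCore 2 x ≤ Cfsg.signalizerDelta 2 (Subgroup.zpowers x) := by
        refine le_iInf ?_
        rintro ⟨a, ha, ha1⟩
        rcases hmem a ha with rfl | rfl
        · exact absurd rfl ha1
        · exact le_rfl
      refine le_inf ((inf_le_inf hΔ le_rfl).trans h1) ?_
      exact inf_le_left.trans (core_le_centralizer 2 x)
    exact le_antisymm (key x y hx hy hxy) (key y x hy hx hxy.symm)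

end Cfsg.Agent.S1300
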