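import Cfsg.Statements.S1303
import Cfsg.Agent.Lib.Helper1.SL23Facts
import Cfsg.Agent.S0629

set_option autoImplicit false
open Cfsg

namespace Cfsg.Agent.S1303

/-- The group X = SL(2, 3): it is 2-constrained, O_{2'}(X) = 1, its centre A = Z(X) contains every involution of X = C_X(A), and X has a subgroup of order 3 (normalized by A) not contained in O_{2'}(X). -/
theorem result : Cfsg.IsPConstrained 2 (Matrix.SpecialLinearGroup (Fin 2) (ZMod 3)) ∧ Cfsg.pPrimeCore 2 (Matrix.SpecialLinearGroup (Fin 2) (ZMod 3)) = ⊥ ∧ (∀ t : Matrix.SpecialLinearGroup (Fin 2) (ZMod 3), orderOf t = 2 → t ∈ Subgroup.center (Matrix.SpecialLinearGroup (Fin 2) (ZMod 3))) ∧ ∃ Q : Subgroup (Matrix.SpecialLinearGroup (Fin 2) (ZMod 3)), Nat.card ↥Q = 3 ∧ ¬ (Q ≤ Cfsg.pPrimeCore 2 (Matrix.SpecialLinearGroup (Fin 2) (ZMod 3))) := by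
  haveI : Fact (Nat.Prime 2) := ⟨Nat.prime_two⟩
  haveI : Fact (Nat.Prime 3) := ⟨by norm_num⟩
  haveI := Cfsg.Agent.Lib.Helper1.sl23_solvable
  refine ⟨?_, Cfsg.Agent.Lib.Helper1.sl23_pPrimeCore, ?_, ?_⟩
  · have P : Sylow 2 ↥(Cfsg.pPrimePCore 2 (Matrix.SpecialLinearGroup (Fin 2) (ZMod 3))) := default
    exact Cfsg.Agent.S0629.result P
      (Cfsg.Agent.Lib.Helper8.h8_isPSolvable_of_isSolvable 2 inferInstance)
  · intro t ht
    have h2 : t ^ 2 = 1 := by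
      have h0 := pow_orderOf_eq_one t
      rw [ht] at h0
      exact h0
    rcases Cfsg.Agent.Lib.Helper1.sl23_d6 t h2 with h | h
    · rw [h, orderOf_one] at ht; omega
    · rw [h]; exact Cfsg.Agent.Lib.Helper1.sN_mem_center
  · refine ⟨Subgroup.zpowers Cfsg.Agent.Lib.Helper1.sA, ?_, ?_⟩
    · rw [Nat.card_zpowers]
      exact orderOf_eq_prime Cfsg.Agent.Lib.Helper1.sA_cube Cfsg.Agent.Lib.Helper1.sA_ne_one
    · intro h
      rw [Cfsg.Agent.Lib.Helper1.sl23_pPrimeCore] at h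
      have h1 := h (Subgroup.mem_zpowers Cfsg.Agent.Lib.Helper1.sA)
      rw [Subgroup.mem_bot] at h1
      exact Cfsg.Agent.Lib.Helper1.sA_ne_one h1

end Cfsg.Agent.S1303
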