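import Cfsg.Statements.S1304
-- import your own Cfsg.Agent.* helpers here

set_option autoImplicit false
open Cfsg

namespace Cfsg.Agent.S1304

open scoped commutatorElement in

/-- Let X be a perfect group and α an automorphism of X with α(x) x⁻¹ central for every x. Then α is the identity. -/
theorem result {X : Type*} [Group X] (hperf : commutator X = ⊤) (α : X ≃* X) (h : ∀ x : X, α x * x⁻¹ ∈ Subgroup.center X) : ∀ x : X, α x = x := by
  have key : ∀ x y : X, α ⁅x, y⁆ = ⁅x, y⁆ := by
    intro x y
    have hx := h x
    have hy := h y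
    rw [Subgroup.mem_center_iff] at hx hy
    have e1 : α x = (α x * x⁻¹) * x := by simp
    have e2 : α y = (α y * y⁻¹) * y := by simp
    generalize α x * x⁻¹ = z at hx e1
    generalize α y * y⁻¹ = w at hy e2
    rw [map_commutatorElement, e1, e2, commutatorElement_def, commutatorElement_def]
    have h1 : z * x * (w * y) * (z * x)⁻¹ = x * (w * y) * x⁻¹ := by
      rw [mul_inv_rev, ← hx x, mul_assoc x z, ← hx, mul_assoc, mul_assoc, mul_assoc, ← mul_assoc z, ← hx]
      simp [mul_assoc]
    rw [h1, mul_inv_rev, ← mul_assoc x w y, hy x]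
    have h2 : w * x * y * x⁻¹ * (y⁻¹ * w⁻¹) = w * (x * y * x⁻¹ * y⁻¹) * w⁻¹ := by
      simp [mul_assoc]
    rw [h2, ← hy]
    simp [mul_assoc]
  let S : Subgroup X :=
    { carrier := {x | α x = x}
      mul_mem' := by
        intro a b ha hb
        simp only [Set.mem_ofPred_eq] at ha hb ⊢
        rw [map_mul, ha, hb]
      one_mem' := by simp
      inv_mem' := by
        intro a ha
        simp only [Set.mem_ofPred_eq] at ha ⊢
        rw [map_inv, ha] }
  have hS : commutator X ≤ S := by
    rw [commutator_def, Subgroup.commutator_le]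
    intro a _ b _
    exact key a b
  intro x
  have hx : x ∈ S := hS (hperf ▸ Subgroup.mem_top x)
  exact hx

end Cfsg.Agent.S1304
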