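import Cfsg.Statements.S1314
import Mathlib

set_option autoImplicit false
open Cfsg

open scoped commutatorElement

namespace Cfsg.Agent.S1314

theorem comm_elt_mul_comm {G : Type*} [Group G] {a b z w : G} (hzb : z * b = b * z)
    (hzw : z * w = w * z) (hwa : w * a = a * w) : ⁅a * z, b * w⁆ = ⁅a, b⁆ := by
  rw [commutatorElement_def, commutatorElement_def]
  have e1 : a * z * (b * w) * (a * z)⁻¹ * (b * w)⁻¹ =
      a * (z * b) * (w * z⁻¹) * a⁻¹ * w⁻¹ * b⁻¹ := by group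
  rw [e1, hzb]
  have e2 : a * (b * z) * (w * z⁻¹) * a⁻¹ * w⁻¹ * b⁻¹ =
      a * b * (z * w) * z⁻¹ * a⁻¹ * w⁻¹ * b⁻¹ := by group
  rw [e2, hzw]
  have e3 : a * b * (w * z) * z⁻¹ * a⁻¹ * w⁻¹ * b⁻¹ = a * b * (w * a⁻¹) * w⁻¹ * b⁻¹ := by group
  have hwa' : w * a⁻¹ = a⁻¹ * w := by
    have : a⁻¹ * (w * a) * a⁻¹ = a⁻¹ * (a * w) * a⁻¹ := by rw [hwa]
    have h1 : a⁻¹ * (w * a) * a⁻¹ = a⁻¹ * w := by group
    have h2 : a⁻¹ * (a * w) * a⁻¹ = w * a⁻¹ := by group
    rw [h1, h2] at this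
    exact this.symm
  rw [e3, hwa']
  group


/-- Let x be an involution of a group G and L a perfect subgroup with ⁅L, x L x⁻¹⁆ = 1. Then l ↦ l (x l x⁻¹) is a group homomorphism π from L to G whose kernel is central in L and whose image lies in C_G(x); and the commutator subgroup of C_{L ⊔ xLx⁻¹}(x) equals the image of π. -/
theorem result {G : Type*} [Group G] [Finite G] (x : G) (hx : orderOf x = 2) (L : Subgroup G) (hperf : ⁅L, L⁆ = L) (hcomm : ⁅L, L.map (MulAut.conj x).toMonoidHom⁆ = ⊥) : ∃ π : ↥L →* G, (∀ l : ↥L, π l = (l : G) * (x * (l : G) * x⁻¹)) ∧ π.ker ≤ Subgroup.center ↥L ∧ π.range ≤ Subgroup.centralizer ({x} : Set G) ∧ ⁅(L ⊔ L.map (MulAut.conj x).toMonoidHom) ⊓ Subgroup.centralizer ({x} : Set G), (L ⊔ L.map (MulAut.conj x).toMonoidHom) ⊓ Subgroup.centralizer ({x} : Set G)⁆ = π.range := by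
  have hxx : x * x = 1 := by rw [← pow_two, ← hx, pow_orderOf_eq_one]
  set Lx := L.map (MulAut.conj x).toMonoidHom with hLx
  have hmemLx : ∀ l ∈ L, x * l * x⁻¹ ∈ Lx := fun l hl => ⟨l, hl, rfl⟩
  have hmemL : ∀ m ∈ Lx, x * m * x⁻¹ ∈ L := by
    rintro _ ⟨l, hl, rfl⟩
    have : x * ((MulAut.conj x).toMonoidHom l) * x⁻¹ = (x * x) * l * (x * x)⁻¹ := by
      show x * (x * l * x⁻¹) * x⁻¹ = _
      group
    rw [this, hxx]; simpa using hl
  have hLcent : L ≤ Subgroup.centralizer (Lx : Set G) :=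
    Subgroup.commutator_eq_bot_iff_le_centralizer.mp hcomm
  have hc : ∀ a ∈ L, ∀ m ∈ Lx, m * a = a * m := fun a ha m hm =>
    (Subgroup.mem_centralizer_iff.mp (hLcent ha)) m hm
  have hLxcent : Lx ≤ Subgroup.centralizer (L : Set G) := by
    intro m hm
    rw [Subgroup.mem_centralizer_iff]
    intro a ha
    exact (hc a ha m hm).symm
  let π : ↥L →* G := MonoidHom.mk' (fun l => (l : G) * (x * (l : G) * x⁻¹)) (by
    intro l₁ l₂
    have h1 := hc l₂ l₂.2 _ (hmemLx l₁ l₁.2)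
    have e1 : ((l₁ * l₂ : ↥L) : G) * (x * ((l₁ * l₂ : ↥L) : G) * x⁻¹) =
        (l₁ : G) * ((l₂ : G) * (x * l₁ * x⁻¹)) * (x * l₂ * x⁻¹) := by
      simp only [Subgroup.coe_mul]; group
    rw [e1, ← h1]
    group)
  have hπ : ∀ l : ↥L, π l = (l : G) * (x * (l : G) * x⁻¹) := fun l => rfl
  have hπcent : ∀ l : ↥L, π l ∈ Subgroup.centralizer ({x} : Set G) := by
    intro l
    rw [Subgroup.mem_centralizer_iff]
    intro y hy
    rw [Set.mem_singleton_iff] at hy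
    subst hy
    rw [hπ]
    have h1 := hc l l.2 _ (hmemLx l l.2)
    have e1 : y * ((l : G) * (y * l * y⁻¹)) = (y * l * y⁻¹) * ((y * y) * l * (y * y)⁻¹) * y := by
      group
    rw [e1, hxx, one_mul, inv_one, mul_one, h1]
  have hπM : ∀ l : ↥L, π l ∈ L ⊔ Lx := fun l =>
    Subgroup.mul_mem_sup l.2 (hmemLx l l.2)
  -- elements of L ⊓ Lx are central in L ⊔ Lx
  have hZ : ∀ u ∈ L ⊓ Lx, ∀ g ∈ L ⊔ Lx, u * g = g * u := by
    intro u hu g hg
    have hle : L ⊔ Lx ≤ Subgroup.centralizer ({u} : Set G) := by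
      refine sup_le ?_ ?_
      · intro a ha
        rw [Subgroup.mem_centralizer_iff]
        intro h hh
        rw [Set.mem_singleton_iff] at hh
        subst hh
        exact hc a ha h hu.2
      · intro m hm
        rw [Subgroup.mem_centralizer_iff]
        intro h hh
        rw [Set.mem_singleton_iff] at hh
        subst hh
        exact (hc h hu.1 m hm).symm
    exact (Subgroup.mem_centralizer_iff.mp (hle hg)) u rfl
  refine ⟨π, hπ, ?_, ?_, ?_⟩
  · intro l hl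
    rw [MonoidHom.mem_ker, hπ] at hl
    refine Subgroup.mem_center_iff.mpr fun g => Subtype.ext ?_
    have h1 : (l : G)⁻¹ = x * l * x⁻¹ := inv_eq_of_mul_eq_one_right hl
    have h2 := hc g g.2 _ (hmemLx l l.2)
    rw [← h1] at h2
    show (g : G) * l = l * g
    calc (g : G) * l = l * ((l : G)⁻¹ * g) * l := by group
      _ = l * (g * (l : G)⁻¹) * l := by rw [h2]
      _ = l * g := by group
  · rintro _ ⟨l, rfl⟩
    exact hπcent l
  · set D := (L ⊔ Lx) ⊓ Subgroup.centralizer ({x} : Set G) with hD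
    apply le_antisymm
    · rw [Subgroup.commutator_le]
      have key : ∀ d ∈ D, ∃ l : ↥L, ∃ u ∈ L ⊓ Lx, d = π l * u := by
        intro d hd
        obtain ⟨hdM, hdx⟩ := hd
        have hd' : d ∈ ((L ⊔ Lx : Subgroup G) : Set G) := hdM
        rw [Subgroup.coe_mul_of_right_le_normalizer_left L Lx
          (hLxcent.trans (Subgroup.centralizer_le_normalizer _)), Set.mem_mul] at hd'
        obtain ⟨l₁, hl₁, m, hm, rfl⟩ := hd'
        have hxd : x * (l₁ * m) * x⁻¹ = l₁ * m := by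
          have h1 := (Subgroup.mem_centralizer_iff.mp hdx) x rfl
          rw [h1]; group
        have hm'Lx : x * l₁ * x⁻¹ ∈ Lx := hmemLx l₁ hl₁
        have hl'L : x * m * x⁻¹ ∈ L := hmemL m hm
        have h2 : l₁ * m = (x * m * x⁻¹) * (x * l₁ * x⁻¹) := by
          have : x * (l₁ * m) * x⁻¹ = (x * l₁ * x⁻¹) * (x * m * x⁻¹) := by group
          rw [← hxd, this]
          exact hc _ hl'L _ hm'Lx
        have hu : (x * l₁ * x⁻¹) * m⁻¹ = (x * m * x⁻¹)⁻¹ * l₁ := by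
          have h3 : (x * m * x⁻¹)⁻¹ * (l₁ * m) * m⁻¹ =
              (x * m * x⁻¹)⁻¹ * ((x * m * x⁻¹) * (x * l₁ * x⁻¹)) * m⁻¹ := by rw [← h2]
          have e1 : (x * m * x⁻¹)⁻¹ * (l₁ * m) * m⁻¹ = (x * m * x⁻¹)⁻¹ * l₁ := by group
          have e2 : (x * m * x⁻¹)⁻¹ * ((x * m * x⁻¹) * (x * l₁ * x⁻¹)) * m⁻¹ =
              (x * l₁ * x⁻¹) * m⁻¹ := by group
          rw [e1, e2] at h3
          exact h3.symm
        have hui : ((x * l₁ * x⁻¹) * m⁻¹)⁻¹ ∈ L := by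
          rw [hu]; exact L.inv_mem (L.mul_mem (L.inv_mem hl'L) hl₁)
        refine ⟨⟨l₁, hl₁⟩, ((x * l₁ * x⁻¹) * m⁻¹)⁻¹, ⟨hui, ?_⟩, ?_⟩
        · exact Lx.inv_mem (Lx.mul_mem hm'Lx (Lx.inv_mem hm))
        · have h3 := hc _ hui _ hm'Lx
          rw [hπ]
          show l₁ * m = l₁ * (x * l₁ * x⁻¹) * ((x * l₁ * x⁻¹) * m⁻¹)⁻¹
          rw [mul_assoc, h3]
          group
      intro d₁ hd₁ d₂ hd₂
      obtain ⟨l₁, u₁, hu₁, rfl⟩ := key d₁ hd₁
      obtain ⟨l₂, u₂, hu₂, rfl⟩ := key d₂ hd₂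
      rw [comm_elt_mul_comm (hZ u₁ hu₁ _ (hπM l₂))
        (hZ u₁ hu₁ u₂ (le_sup_left (a := L) (b := Lx) hu₂.1)) (hZ u₂ hu₂ _ (hπM l₁)),
        ← map_commutatorElement]
      exact ⟨_, rfl⟩
    · have hrange_le : π.range ≤ D := by
        rintro _ ⟨l, rfl⟩
        exact ⟨hπM l, hπcent l⟩
      have hperf' : ⁅(⊤ : Subgroup ↥L), (⊤ : Subgroup ↥L)⁆ = (⊤ : Subgroup ↥L) := by
        have : Group.IsPerfect ↥L := Subgroup.isPerfect_iff.mpr hperf
        rw [← commutator_def]; exact this.commutator_eq_top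
      have h1 : π.range = ⁅π.range, π.range⁆ := by
        conv_lhs => rw [MonoidHom.range_eq_map, ← hperf', Subgroup.map_commutator,
          ← MonoidHom.range_eq_map]
      rw [h1]
      exact Subgroup.commutator_mono hrange_le hrange_le

end Cfsg.Agent.S1314
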