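import Cfsg.Statements.S1316
import Cfsg.Agent.Lib.Helper1.GenFit

set_option autoImplicit false
open Cfsg

open Cfsg.Agent.Lib.Helper1 Cfsg.Agent.Lib.Helper7

namespace Cfsg.Agent.S1316

/-- For a finite group X, E(X) equals the intersection of the derived series of F*(X) (its last term). -/
theorem result {X : Type*} [Group X] [Finite X] : (⨅ n : ℕ, (derivedSeries ↥(Cfsg.generalizedFittingSubgroup X) n).map (Cfsg.generalizedFittingSubgroup X).subtype) = Cfsg.layer X := by
  set F' := Cfsg.generalizedFittingSubgroup X with hF'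
  have hEF : Cfsg.layer X ≤ F' := layer_le_genFitting X
  apply le_antisymm
  · have hEn : (Cfsg.layer X).Normal := layer_normal X
    set E' : Subgroup ↥F' := (Cfsg.layer X).subgroupOf F' with hE'
    have hE'n : E'.Normal := hEn.subgroupOf F'
    have hFle : Cfsg.fittingSubgroup X ≤ F' := fitting_le_genFitting X
    let φ : ↥(Cfsg.fittingSubgroup X) →* ↥F' ⧸ E' :=
      (QuotientGroup.mk' E').comp (Subgroup.inclusion hFle)
    have hφ : Function.Surjective φ := by
      intro y
      obtain ⟨x, rfl⟩ := QuotientGroup.mk'_surjective E' y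
      have hx : (x : X) ∈ Cfsg.layer X ⊔ Cfsg.fittingSubgroup X := x.2
      obtain ⟨e, he, f, hf, hef⟩ := Subgroup.mem_sup_of_normal_left.mp hx
      refine ⟨⟨f, hf⟩, ?_⟩
      change (QuotientGroup.mk (Subgroup.inclusion hFle ⟨f, hf⟩) : ↥F' ⧸ E') = QuotientGroup.mk x
      rw [QuotientGroup.eq, hE', Subgroup.mem_subgroupOf]
      have : ((Subgroup.inclusion hFle ⟨f, hf⟩)⁻¹ * x : ↥F') = (f⁻¹ * e * f : X) := by
        simp [← hef, mul_assoc]
      rw [this]
      exact hEn.conj_mem' e he f
    have hsol : Group.IsSolvable (↥F' ⧸ E') := by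
      have := fitting_isNilpotent X
      exact Group.isSolvable_of_surjective hφ
    obtain ⟨n, hn⟩ := hsol
    refine iInf_le_of_le n ?_
    have h1 := map_derivedSeries_le_derivedSeries (QuotientGroup.mk' E') n
    rw [hn, le_bot_iff, Subgroup.map_eq_bot_iff, QuotientGroup.ker_mk'] at h1
    have := Subgroup.map_mono (f := F'.subtype) h1
    rwa [Subgroup.map_subgroupOf_eq_of_le hEF] at this
  · apply le_iInf
    intro n
    induction n with
    | zero =>
      rw [derivedSeries_zero, ← MonoidHom.range_eq_map, Subgroup.range_subtype]; exact hEF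
    | succ n ih =>
      rw [derivedSeries_succ, Subgroup.map_commutator]
      calc Cfsg.layer X = ⁅Cfsg.layer X, Cfsg.layer X⁆ := (layer_perfect X).symm
        _ ≤ _ := Subgroup.commutator_mono ih ih

end Cfsg.Agent.S1316
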