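import Cfsg.Statements.S1317
import Cfsg.Agent.Lib.Helper1.GenFit

set_option autoImplicit false
open Cfsg

open Cfsg.Agent.Lib.Helper1 Cfsg.Agent.Lib.Helper7

namespace Cfsg.Agent.S1317

open scoped IsMulCommutative in
theorem center_isNilpotent_aux (H : Type*) [Group H] : Group.IsNilpotent ↥(Subgroup.center H) :=
  inferInstance


/-- For a finite group X, the centre of the layer E(X) is F(X) ∩ E(X). -/
theorem result {X : Type*} [Group X] [Finite X] : (Subgroup.center ↥(Cfsg.layer X)).map (Cfsg.layer X).subtype = Cfsg.fittingSubgroup X ⊓ Cfsg.layer X := by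
  apply le_antisymm
  · refine le_inf ?_ (Subgroup.map_subtype_le _)
    refine le_fitting (normal_map_subtype_of_characteristic (layer_normal X) _) ?_
    have e := (Subgroup.center ↥(Cfsg.layer X)).equivMapOfInjective (Cfsg.layer X).subtype
      (Subgroup.subtype_injective _)
    exact (Group.isNilpotent_congr e).mp (center_isNilpotent_aux _)
  · rintro x ⟨hxF, hxE⟩
    refine ⟨⟨x, hxE⟩, ?_, rfl⟩
    refine Subgroup.mem_center_iff.mpr ?_
    intro g
    apply Subtype.ext
    have h1 := layer_commutator_fitting X
    rw [Subgroup.commutator_eq_bot_iff_le_centralizer] at h1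
    exact ((Subgroup.mem_centralizer_iff.mp (h1 g.2)) x hxF).symm

end Cfsg.Agent.S1317
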