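import Cfsg.Statements.S1319
import Cfsg.Agent.Lib.Helper1.GenFit

set_option autoImplicit false
open Cfsg

open Cfsg.Agent.Lib.Helper1 Cfsg.Agent.Lib.Helper7

namespace Cfsg.Agent.S1319

/-- Let A be a subnormal subgroup of the finite group X with E(A) = A. Then A ≤ E(X) and A is normal in E(X). -/
theorem result {X : Type*} [Group X] [Finite X] (A : Subgroup X) (hsn : A.IsSubnormal) (hA : Cfsg.layer ↥A = ⊤) : A ≤ Cfsg.layer X ∧ (A.subgroupOf (Cfsg.layer X)).Normal := by
  have hAle : A ≤ Cfsg.layer X := by
    have h1 : A = (Cfsg.layer ↥A).map A.subtype := by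
      rw [hA, ← MonoidHom.range_eq_map, Subgroup.range_subtype]
    refine h1.le.trans ?_
    unfold Cfsg.layer
    rw [(Subgroup.gc_map_comap A.subtype).l_sSup]
    exact iSup₂_le fun K hK => le_sSup (IsComponent.map_subtype hsn hK)
  refine ⟨hAle, ?_⟩
  rw [Subgroup.normal_subgroupOf_iff_le_normalizer hAle]
  apply sSup_le
  intro L hL
  rcases IsComponent.le_or_commutator_eq_bot hL hsn with h | h
  · exact h.trans Subgroup.le_normalizer
  · rw [Subgroup.commutator_eq_bot_iff_le_centralizer] at h
    exact h.trans (Subgroup.centralizer_le_normalizer _)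

end Cfsg.Agent.S1319
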