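import Cfsg.Statements.S1321
import Cfsg.Agent.Lib.Helper1.Layer

set_option autoImplicit false
open Cfsg

namespace Cfsg.Agent.S1321

/-- Let X be finite and U ≤ X. Then E(X) is generated by C_{E(X)}(U) together with ⁅E(X), U⁆ (indeed it is their product, ⁅E(X), U⁆ being normal in E(X)). -/
theorem result {X : Type*} [Group X] [Finite X] (U : Subgroup X) : Cfsg.layer X = (Cfsg.layer X ⊓ Subgroup.centralizer (U : Set X)) ⊔ ⁅Cfsg.layer X, U⁆ ∧ ⁅Cfsg.layer X, U⁆ ≤ Cfsg.layer X := by
  have hEn : (Cfsg.layer X).Normal := Cfsg.Agent.Lib.Helper1.layer_normal X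
  have hDE : ⁅Cfsg.layer X, U⁆ ≤ Cfsg.layer X := Subgroup.commutator_le_left _ _
  refine ⟨?_, hDE⟩
  have hDn : (⁅Cfsg.layer X, U⁆.subgroupOf (Cfsg.layer X)).Normal :=
    (Subgroup.normal_subgroupOf_iff_le_normalizer hDE).mpr (Subgroup.normalizer_commutator_ge_left _ _)
  have hD : (⁅Cfsg.layer X, U⁆).IsSubnormal :=
    Subgroup.IsSubnormal.step _ _ hDE hEn.isSubnormal hDn
  apply le_antisymm
  · apply sSup_le
    intro L hL
    have hLE : L ≤ Cfsg.layer X := le_sSup hL
    rcases Cfsg.Agent.Lib.Helper1.IsComponent.le_or_commutator_eq_bot hL hD with h | h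
    · exact h.trans le_sup_right
    · refine le_trans ?_ le_sup_left
      refine le_inf hLE ?_
      rw [← Subgroup.commutator_eq_bot_iff_le_centralizer]
      apply Cfsg.Agent.Lib.Helper1.commutator_eq_bot_of_perfect
        (Cfsg.Agent.Lib.Helper1.IsComponent.perfect hL)
      rw [eq_bot_iff, ← h, Subgroup.commutator_comm L]
      refine Subgroup.commutator_mono ?_ le_rfl
      rw [Subgroup.commutator_comm U L]
      exact Subgroup.commutator_mono hLE le_rfl
  · exact sup_le inf_le_left hDE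

end Cfsg.Agent.S1321
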