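import Cfsg.Statements.S1326
import Cfsg.Agent.Lib.Helper1.GenFit

set_option autoImplicit false
open Cfsg

open Cfsg.Agent.Lib.Helper1 Cfsg.Agent.Lib.Helper7

namespace Cfsg.Agent.S1326

/-- For a finite group X: the Fitting subgroup contains its centralizer if and only if the layer of X is trivial. -/
theorem result {X : Type*} [Group X] [Finite X] : Subgroup.centralizer (Cfsg.fittingSubgroup X : Set X) ≤ Cfsg.fittingSubgroup X ↔ Cfsg.layer X = ⊥ := by
  constructor
  · intro h
    have hnone : ∀ L : Subgroup X, ¬ Cfsg.IsComponent L := by
      intro L hL
      have hnil := fitting_isNilpotent X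
      have h1 : L ≤ Cfsg.fittingSubgroup X := by
        refine le_trans ?_ h
        rw [← Subgroup.commutator_eq_bot_iff_le_centralizer]
        exact IsComponent.commutator_eq_bot_of_solvable hL (fitting_normal X).isSubnormal
          inferInstance
      exact not_le_of_isSolvable hL inferInstance h1
    unfold Cfsg.layer
    have : {K : Subgroup X | Cfsg.IsComponent K} = ∅ := Set.eq_empty_of_forall_notMem hnone
    rw [this, sSup_empty]
  · intro h
    have h1 : Cfsg.generalizedFittingSubgroup X = Cfsg.fittingSubgroup X := by
      unfold Cfsg.generalizedFittingSubgroup; rw [h, bot_sup_eq]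
    have := centralizer_genFitting_le X
    rwa [h1] at this

end Cfsg.Agent.S1326
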