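import Cfsg.Statements.S1335
import Cfsg.Agent.Lib.Helper8.Rank

set_option autoImplicit false
open Cfsg

open Cfsg.Agent.Lib.Helper8

namespace Cfsg.Agent.S1335

/-- Let H be a subgroup of the finite group G, p a prime, k ≥ 1, P a Sylow p-subgroup of H of p-rank at least k, and suppose N_G(X) ≤ H for every subgroup X ≤ P of p-rank at least k. Then P is a Sylow p-subgroup of G. -/
theorem result {G : Type*} [Group G] [Finite G] {p : ℕ} [Fact p.Prime] (k : ℕ) (hk : 1 ≤ k) (H : Subgroup G) (P : Sylow p ↥H) (hP : ¬ Cfsg.PRankLE p (k - 1) ↥(P : Subgroup ↥H)) (hΓ : (∀ X : Subgroup G, X ≤ (P : Subgroup ↥H).map H.subtype → ¬ Cfsg.PRankLE p (k - 1) ↥X → Subgroup.normalizer (X : Set G) ≤ H)) : ∃ Q : Sylow p G, (Q : Subgroup G) = (P : Subgroup ↥H).map H.subtype := by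
  classical
  set P' := (P : Subgroup ↥H).map H.subtype with hP'
  have hP'p : IsPGroup p ↥P' := P.isPGroup'.map H.subtype
  have hrank : ¬ Cfsg.PRankLE p (k - 1) ↥P' := by
    intro h
    apply hP
    exact h8_pRankLE_of_injective
      ((P : Subgroup ↥H).equivMapOfInjective H.subtype H.subtype_injective).toMonoidHom
      (MulEquiv.injective _) h
  have hN : Subgroup.normalizer (P' : Set G) ≤ H := hΓ P' le_rfl hrank
  obtain ⟨Q, hQ⟩ := hP'p.exists_le_sylow
  refine ⟨Q, ?_⟩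
  by_contra hne
  obtain ⟨n, hnQ, hnN, hnP⟩ := h8_normalizer_growth Q.isPGroup' hQ (fun h => hne h.symm)
  have hnH : n ∈ H := hN hnN
  have hR : IsPGroup p ↥(((Q : Subgroup G) ⊓ H).subgroupOf H) :=
    (Q.isPGroup'.to_le inf_le_left).comap_subtype
  have hPle : (P : Subgroup ↥H) ≤ ((Q : Subgroup G) ⊓ H).subgroupOf H := by
    intro x hx
    rw [Subgroup.mem_subgroupOf]
    exact ⟨hQ ⟨x, hx, rfl⟩, x.2⟩
  have heq := P.is_maximal' hR hPle
  apply hnP
  have : (⟨n, hnH⟩ : ↥H) ∈ (P : Subgroup ↥H) := by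
    rw [← heq, Subgroup.mem_subgroupOf]; exact ⟨hnQ, hnH⟩
  exact ⟨⟨n, hnH⟩, this, rfl⟩

end Cfsg.Agent.S1335
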