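import Cfsg.Statements.S1341
import Mathlib
import Cfsg.Agent.Lib.Helper1.ExtLayer2
import Cfsg.Agent.Lib.Helper1.StronglyEmb3

set_option autoImplicit false
open Cfsg

namespace Cfsg.Agent.S1341

/-- Let X be finite and T a Sylow 2-subgroup of L_{2'}(X) O_{2',2}(X). Then L*_{2'}(X) = L_{2'}(X) ⊔ O(X) ⊔ O(C_X(T)). -/
theorem result {X : Type*} [Group X] [Finite X] (T : Sylow 2 ↥(Cfsg.pLayer 2 X ⊔ Cfsg.pPrimePCore 2 X)) : Cfsg.extendedTwoLayer X = Cfsg.pLayer 2 X ⊔ Cfsg.oddCore X ⊔ ((Cfsg.oddCore ↥(Subgroup.centralizer (((T : Subgroup ↥(Cfsg.pLayer 2 X ⊔ Cfsg.pPrimePCore 2 X)).map (Cfsg.pLayer 2 X ⊔ Cfsg.pPrimePCore 2 X).subtype : Subgroup X) : Set X))).map (Subgroup.centralizer (((T : Subgroup ↥(Cfsg.pLayer 2 X ⊔ Cfsg.pPrimePCore 2 X)).map (Cfsg.pLayer 2 X ⊔ Cfsg.pPrimePCore 2 X).subtype : Subgroup X) : Set X)).subtype) := by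
  open Cfsg.Agent.Lib.Helper1 in
  classical
  haveI : Fact (Nat.Prime 2) := ⟨Nat.prime_two⟩
  haveI hL : (Cfsg.pLayer 2 X).Normal := pLayer_normal' 2 X
  unfold Cfsg.extendedTwoLayer
  apply le_antisymm
  · refine sup_le le_sup_left (iSup_le fun T' => ?_)
    obtain ⟨n, hn⟩ := MulAction.exists_smul_eq ↥(Cfsg.pLayer 2 X ⊔ Cfsg.pPrimePCore 2 X) T T'
    have hT' : (T' : Subgroup ↥(Cfsg.pLayer 2 X ⊔ Cfsg.pPrimePCore 2 X)).map
        (Cfsg.pLayer 2 X ⊔ Cfsg.pPrimePCore 2 X).subtype =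
        ((T : Subgroup ↥(Cfsg.pLayer 2 X ⊔ Cfsg.pPrimePCore 2 X)).map
          (Cfsg.pLayer 2 X ⊔ Cfsg.pPrimePCore 2 X).subtype).map
          (MulAut.conj (n : X)).toMonoidHom := by
      rw [← hn, sylow_conj_coe, Subgroup.map_map, Subgroup.map_map]
      rfl
    rw [hT', ← coreCentralizer_map_conj 2 _ (n : X)]
    obtain ⟨r, hr, t, ht, hrt⟩ := exists_mul_of_mem_sup_pPrimePCore 2 (Cfsg.pLayer 2 X) T (n : X) n.2
    have ht' := coreCentralizer_map_conj 2 ((T : Subgroup ↥(Cfsg.pLayer 2 X ⊔ Cfsg.pPrimePCore 2 X)).map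
          (Cfsg.pLayer 2 X ⊔ Cfsg.pPrimePCore 2 X).subtype) t
    rw [map_conj_eq_self_of_mem _ ht] at ht'
    rintro _ ⟨x, hx, rfl⟩
    have h1 : t * x * t⁻¹ ∈ (Cfsg.oddCore ↥(Subgroup.centralizer
        (((T : Subgroup ↥(Cfsg.pLayer 2 X ⊔ Cfsg.pPrimePCore 2 X)).map
          (Cfsg.pLayer 2 X ⊔ Cfsg.pPrimePCore 2 X).subtype : Subgroup X) : Set X))).map
        (Subgroup.centralizer (((T : Subgroup ↥(Cfsg.pLayer 2 X ⊔ Cfsg.pPrimePCore 2 X)).map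
          (Cfsg.pLayer 2 X ⊔ Cfsg.pPrimePCore 2 X).subtype : Subgroup X) : Set X)).subtype := by
      rw [← ht']
      exact ⟨x, hx, rfl⟩
    have h2 : (MulAut.conj (n : X)).toMonoidHom x = r * (t * x * t⁻¹) * r⁻¹ := by
      show (n : X) * x * (n : X)⁻¹ = r * (t * x * t⁻¹) * r⁻¹
      rw [hrt]; group
    rw [h2]
    exact Subgroup.mul_mem _ (Subgroup.mul_mem _ (Subgroup.mem_sup_left hr)
      (Subgroup.mem_sup_right h1)) (Subgroup.inv_mem _ (Subgroup.mem_sup_left hr))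
  · exact sup_le_sup_left (le_iSup (fun T' : Sylow 2 ↥(Cfsg.pLayer 2 X ⊔ Cfsg.pPrimePCore 2 X) =>
      ((Cfsg.oddCore ↥(Subgroup.centralizer (((T' : Subgroup ↥(Cfsg.pLayer 2 X ⊔ Cfsg.pPrimePCore 2 X)).map
          (Cfsg.pLayer 2 X ⊔ Cfsg.pPrimePCore 2 X).subtype : Subgroup X) : Set X))).map
        (Subgroup.centralizer (((T' : Subgroup ↥(Cfsg.pLayer 2 X ⊔ Cfsg.pPrimePCore 2 X)).map
          (Cfsg.pLayer 2 X ⊔ Cfsg.pPrimePCore 2 X).subtype : Subgroup X) : Set X)).subtype)) T) _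

end Cfsg.Agent.S1341
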