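import Cfsg.Statements.S1342
import Mathlib
import Cfsg.Agent.Lib.Helper1.ExtLayer

set_option autoImplicit false
open Cfsg

namespace Cfsg.Agent.S1342

/-- For a finite group X, L*_{2'}(X) is normal in X. -/
theorem result {X : Type*} [Group X] [Finite X] : (Cfsg.extendedTwoLayer X).Normal := by
  open Cfsg.Agent.Lib.Helper1 in
  classical
  haveI : Fact (Nat.Prime 2) := ⟨Nat.prime_two⟩
  haveI hL : (Cfsg.pLayer 2 X).Normal := pLayer_normal' 2 X
  haveI hOP : (Cfsg.pPrimePCore 2 X).Normal := pPrimePCore_normal' 2 X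
  haveI hN : (Cfsg.pLayer 2 X ⊔ Cfsg.pPrimePCore 2 X).Normal := Subgroup.sup_normal _ _
  apply normal_of_map_conj_le
  intro g
  unfold Cfsg.extendedTwoLayer
  rw [Subgroup.map_sup, Subgroup.map_sup, Subgroup.map_iSup]
  refine sup_le (sup_le ?_ ?_) ?_
  · exact le_sup_of_le_left (le_sup_of_le_left (map_conj_le_of_normal _ g))
  · exact le_sup_of_le_left (le_sup_of_le_right (map_conj_le_of_normal (Cfsg.pPrimeCore 2 X) g))
  · apply iSup_le
    intro T
    obtain ⟨T', hT'⟩ := exists_sylow_conj_of_normal (Cfsg.pLayer 2 X ⊔ Cfsg.pPrimePCore 2 X) T g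
    refine le_sup_of_le_right (le_iSup_of_le T' ?_)
    rw [hT']
    exact (coreCentralizer_map_conj 2 _ g).le

end Cfsg.Agent.S1342
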