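import Mathlib
import Cfsg.Statements.S1386
import Cfsg.Agent.Lib.Helper8.SubgroupCount
import Cfsg.Agent.Lib.Helper8.Invol

set_option autoImplicit false
open Cfsg

namespace Cfsg.Agent.S1386

open Cfsg.Agent.Lib.Helper8

theorem commute_of_isCyclic {G : Type*} [Group G] (H : Subgroup G) (hH : IsCyclic H) {a b : G}
    (ha : a ∈ H) (hb : b ∈ H) : a * b = b * a := by
  obtain ⟨g, hg⟩ := hH.exists_generator
  obtain ⟨i, hi⟩ := Subgroup.mem_zpowers_iff.1 (hg ⟨a, ha⟩)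
  obtain ⟨j, hj⟩ := Subgroup.mem_zpowers_iff.1 (hg ⟨b, hb⟩)
  have ha' : a = ((g : G)) ^ i := by rw [← Subgroup.coe_zpow, hi]
  have hb' : b = ((g : G)) ^ j := by rw [← Subgroup.coe_zpow, hj]
  rw [ha', hb', ← zpow_add, ← zpow_add, add_comm]

theorem card_sup_of_commute {G : Type*} [Group G] [Finite G] (A B : Subgroup G) (hAB : A ⊓ B = ⊥)
    (hc : ∀ a ∈ A, ∀ b ∈ B, a * b = b * a) : Nat.card ↥(A ⊔ B) = Nat.card A * Nat.card B := by
  rw [← Nat.card_prod]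
  symm
  apply Nat.card_congr
  refine Equiv.ofBijective (fun p : A × B => ⟨(p.1 : G) * (p.2 : G),
    Subgroup.mul_mem _ (Subgroup.mem_sup_left p.1.2) (Subgroup.mem_sup_right p.2.2)⟩) ⟨?_, ?_⟩
  · rintro ⟨⟨a, ha⟩, ⟨b, hb⟩⟩ ⟨⟨a', ha'⟩, ⟨b', hb'⟩⟩ h
    have h' : a * b = a' * b' := congrArg Subtype.val h
    have h1 : a'⁻¹ * a = b' * b⁻¹ := by
      calc a'⁻¹ * a = a'⁻¹ * (a * b) * b⁻¹ := by group
        _ = a'⁻¹ * (a' * b') * b⁻¹ := by rw [h']
        _ = b' * b⁻¹ := by group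
    have h2 : a'⁻¹ * a ∈ A ⊓ B :=
      ⟨A.mul_mem (A.inv_mem ha') ha, h1 ▸ B.mul_mem hb' (B.inv_mem hb)⟩
    rw [hAB, Subgroup.mem_bot] at h2
    have h3 : a = a' := by rw [inv_mul_eq_one] at h2; exact h2.symm
    subst h3
    have h4 : b = b' := mul_left_cancel h'
    subst h4; rfl
  · rintro ⟨x, hx⟩
    have hN : B ≤ Subgroup.normalizer (A : Set G) := by
      intro b hb
      apply h8_mem_normalizer_of_conj_mem
      intro a ha
      have : b * a * b⁻¹ = a := by rw [← hc a ha b hb]; group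
      rw [this]; exact ha
    obtain ⟨a, ha, b, hb, hab⟩ := h8_mem_sup_of_le_normalizer hN hx
    exact ⟨(⟨a, ha⟩, ⟨b, hb⟩), Subtype.ext hab⟩

theorem exists_mem_ne_one {G : Type*} [Group G] (H : Subgroup G) (h : H ≠ ⊥) :
    ∃ x ∈ H, x ≠ 1 := by
  by_contra hcon
  apply h
  rw [Subgroup.eq_bot_iff_forall]
  intro x hx
  by_contra hx1
  exact hcon ⟨x, hx, hx1⟩

/-- Let G be a finite group, W₁, W₂ subgroups forming a self-normalizing cyclic pair, S a subgroup with W₂ ≤ S and W₁ a complement to S' in S, and (W₁, U, W₂') type-P data for S. Then W₂' = W₂ (that is, C_{S'}(W₁) = W₂). -/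
theorem result {G : Type*} [Group G] [Finite G] (W₁ W₂ S U W₂' : Subgroup G) (hW : Cfsg.IsSelfNormalizingCyclic W₁ W₂)
    (hSW : Cfsg.IsComplIn ⁅S, S⁆ W₁ S) (hW₂S : W₂ ≤ S) (hP : Cfsg.IsTypePWith S W₁ U W₂') :
    W₂' = W₂ := by
  obtain ⟨hW₁, hW₂, hdisj, hcomm, hcyc, hnorm⟩ := hW
  obtain ⟨-, hW₂', hdisj', hcomm', hcyc', -⟩ := hP.selfNormalizing
  obtain ⟨w₁, hw₁, hw₁1⟩ := exists_mem_ne_one W₁ hW₁
  obtain ⟨w₂, hw₂, hw₂1⟩ := exists_mem_ne_one W₂ hW₂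
  have hle : W₂ ≤ W₁ ⊔ W₂' := by
    intro b hb
    obtain ⟨a, ha, c, hc, hbac⟩ := hSW.2.2.2 b (hW₂S hb)
    have hcw : c * w₁ = w₁ * c := commute_of_isCyclic W₁ hP.W₁_cyclic hc hw₁
    have hbw : w₁ * b = b * w₁ := hcomm w₁ hw₁ b hb
    have haw : a ∈ Subgroup.centralizer ({w₁} : Set G) := by
      rw [Subgroup.mem_centralizer_iff]
      intro h hh
      rw [Set.mem_singleton_iff] at hh; subst hh
      have e : a = b * c⁻¹ := by rw [hbac]; group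
      rw [e]
      calc h * (b * c⁻¹) = (h * b) * c⁻¹ := by group
        _ = (b * h) * c⁻¹ := by rw [hbw]
        _ = b * c⁻¹ * (c * h) * c⁻¹ := by group
        _ = b * c⁻¹ * (h * c) * c⁻¹ := by rw [hcw]
        _ = b * c⁻¹ * h := by group
    have ha' : a ∈ W₂' := by
      rw [← hP.W₂_centralizer w₁ hw₁ hw₁1]
      exact ⟨ha, haw⟩
    rw [hbac]
    exact Subgroup.mul_mem _ (Subgroup.mem_sup_right ha') (Subgroup.mem_sup_left hc)
  have hxn : Subgroup.normalizer ({w₁ * w₂} : Set G) = W₁ ⊔ W₂ := by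
    refine hnorm ({w₁ * w₂} : Set G) ?_ (Set.singleton_nonempty _)
    rw [Set.singleton_subset_iff]
    refine ⟨Subgroup.mul_mem _ (Subgroup.mem_sup_left hw₁) (Subgroup.mem_sup_right hw₂), ?_⟩
    rintro (h | h)
    · have h2 : w₂ ∈ W₁ ⊓ W₂ := by
        refine ⟨?_, hw₂⟩
        have e : w₂ = w₁⁻¹ * (w₁ * w₂) := by group
        rw [e]; exact W₁.mul_mem (W₁.inv_mem hw₁) h
      rw [hdisj, Subgroup.mem_bot] at h2
      exact hw₂1 h2
    · have h2 : w₁ ∈ W₁ ⊓ W₂ := by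
        refine ⟨hw₁, ?_⟩
        have e : w₁ = (w₁ * w₂) * w₂⁻¹ := by group
        rw [e]; exact W₂.mul_mem h (W₂.inv_mem hw₂)
      rw [hdisj, Subgroup.mem_bot] at h2
      exact hw₁1 h2
  have hxmem : w₁ * w₂ ∈ W₁ ⊔ W₂' :=
    Subgroup.mul_mem _ (Subgroup.mem_sup_left hw₁) (hle hw₂)
  have hge : W₁ ⊔ W₂' ≤ W₁ ⊔ W₂ := by
    intro g hg
    rw [← hxn, Subgroup.mem_set_normalizer_iff]
    intro h
    have hgx : g * (w₁ * w₂) = (w₁ * w₂) * g := commute_of_isCyclic _ hcyc' hg hxmem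
    simp only [Set.mem_singleton_iff]
    constructor
    · intro hh
      rw [hh, hgx]; group
    · intro hh
      have e : h = g⁻¹ * (g * h * g⁻¹) * g := by group
      rw [e, hh, mul_assoc, ← hgx]; group
  have heq : W₁ ⊔ W₂ = W₁ ⊔ W₂' := le_antisymm (sup_le le_sup_left hle) hge
  have hc1 := card_sup_of_commute W₁ W₂ hdisj hcomm
  have hc2 := card_sup_of_commute W₁ W₂' hdisj' hcomm'
  have hcard : Nat.card W₂ = Nat.card W₂' := by
    have h3 : Nat.card W₁ * Nat.card W₂ = Nat.card W₁ * Nat.card W₂' := by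
      rw [← hc1, ← hc2, heq]
    exact Nat.eq_of_mul_eq_mul_left Nat.card_pos h3
  haveI := hcyc'
  have hle' : W₂' ≤ W₁ ⊔ W₂' := le_sup_right
  have h5 : W₂.subgroupOf (W₁ ⊔ W₂') = W₂'.subgroupOf (W₁ ⊔ W₂') := by
    apply h8_cyclic_subgroup_eq_of_card_eq
    rw [Nat.card_congr (Subgroup.subgroupOfEquivOfLe hle).toEquiv,
      Nat.card_congr (Subgroup.subgroupOfEquivOfLe hle').toEquiv, hcard]
  rw [Subgroup.subgroupOf_inj, inf_eq_left.2 hle, inf_eq_left.2 hle'] at h5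
  exact h5.symm

end Cfsg.Agent.S1386
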