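import Mathlib
import Cfsg.Statements.S1387
set_option autoImplicit false
set_option linter.unusedSectionVars false
set_option linter.style.haveILetI false
open Cfsg
namespace Cfsg.Agent.S1387

theorem sup_noP {M : Type*} [Group M] [Finite M] (p : ℕ) [Fact p.Prime] (K1 K2 : Subgroup M)
    [K2.Normal] (h1 : ¬ p ∣ Nat.card K1) (h2 : ¬ p ∣ Nat.card K2) :
    ¬ p ∣ Nat.card (K1 ⊔ K2 : Subgroup M) := by
  intro hdvd
  have e := QuotientGroup.quotientInfEquivProdNormalQuotient K1 K2
  have c1 : Nat.card (K1 ⊔ K2 : Subgroup M) =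
      Nat.card ((K1 ⊔ K2 : Subgroup M) ⧸ K2.subgroupOf (K1 ⊔ K2)) *
        Nat.card (K2.subgroupOf (K1 ⊔ K2)) :=
    Subgroup.card_eq_card_quotient_mul_card_subgroup _
  have c2 : Nat.card (K2.subgroupOf (K1 ⊔ K2)) = Nat.card K2 :=
    Nat.card_congr (Subgroup.subgroupOfEquivOfLe le_sup_right).toEquiv
  have c3 : Nat.card (K1 ⧸ K2.subgroupOf K1) ∣ Nat.card K1 := Subgroup.card_quotient_dvd_card _
  rw [c1, c2, ← Nat.card_congr e.toEquiv] at hdvd
  rcases (Nat.Prime.dvd_mul (Fact.out)).1 hdvd with h | h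
  · exact h1 (h.trans c3)
  · exact h2 h

theorem fin_noP {M : Type*} [Group M] [Finite M] (p : ℕ) [Fact p.Prime]
    (t : Finset (Subgroup M)) :
    (∀ N ∈ t, N.Normal ∧ ¬ p ∣ Nat.card N) →
      (sSup (↑t : Set (Subgroup M))).Normal ∧
        ¬ p ∣ Nat.card (sSup (↑t : Set (Subgroup M)) : Subgroup M) := by
  classical
  induction t using Finset.induction_on with
  | empty =>
    intro _
    simp only [Finset.coe_empty, sSup_empty]
    refine ⟨inferInstance, ?_⟩
    rw [Subgroup.card_bot]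
    intro h
    exact (Fact.out : p.Prime).one_lt.ne' (Nat.dvd_one.1 h)
  | insert a s ha ih =>
    intro h
    have h' := ih (fun N hN => h N (Finset.mem_insert_of_mem hN))
    have ha' := h a (Finset.mem_insert_self a s)
    rw [Finset.coe_insert, sSup_insert]
    haveI := h'.1
    haveI := ha'.1
    exact ⟨inferInstance, sup_noP p a _ ha'.2 h'.2⟩

theorem hall {M : Type*} [Group M] [Finite M] :
    (Nat.card (Cfsg.fittingHall M)).Coprime (Cfsg.fittingHall M).index := by
  by_contra hc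
  obtain ⟨p, hp, h1, h2⟩ := Nat.Prime.not_coprime_iff_dvd.1 hc
  haveI : Fact p.Prime := ⟨hp⟩
  by_cases hex : ∃ N ∈ {N : Subgroup M | N.Normal ∧ Group.IsNilpotent N ∧
      (Nat.card N).Coprime N.index}, p ∣ Nat.card N
  · obtain ⟨N, hN, hpN⟩ := hex
    have hle : N ≤ Cfsg.fittingHall M := le_sSup hN
    have hidx : (Cfsg.fittingHall M).index ∣ N.index := Subgroup.index_dvd_of_le hle
    have h3 : p ∣ N.index := h2.trans hidx
    have h4 := Nat.dvd_gcd hpN h3
    rw [Nat.Coprime.gcd_eq_one hN.2.2] at h4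
    exact hp.one_lt.ne' (Nat.dvd_one.1 h4)
  · push Not at hex
    have hfin : ({N : Subgroup M | N.Normal ∧ Group.IsNilpotent N ∧
      (Nat.card N).Coprime N.index}).Finite := Set.toFinite _
    have h5 := fin_noP p hfin.toFinset (fun N hN => by
      have hN' := hfin.mem_toFinset.1 hN
      exact ⟨hN'.1, hex N hN'⟩)
    rw [Set.Finite.coe_toFinset] at h5
    exact h5.2 h1

/-- Let M be a subgroup of a finite group G with type-P data (W₁, U, W₂) and H = M_F. Then the Fitting subgroup F(M) is generated by H and the centralizer of H in U. -/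
theorem result {G : Type*} [Group G] [Finite G] (M W₁ U W₂ : Subgroup G) (hP : Cfsg.IsTypePWith M W₁ U W₂) :
    Cfsg.fittingOf M = Cfsg.fittingHallOf M ⊔ (U ⊓ Subgroup.centralizer (Cfsg.fittingHallOf M : Set G)) := by
  obtain ⟨hHle, hUle, hHU, hprod⟩ := hP.U_compl
  have hM' : ⁅M, M⁆ ≤ M := Subgroup.commutator_le.2 (fun a ha b hb =>
    M.mul_mem (M.mul_mem (M.mul_mem ha hb) (M.inv_mem ha)) (M.inv_mem hb))
  have hcop : ∀ a ∈ Cfsg.fittingHallOf M, ∀ b ∈ U, (orderOf a).Coprime (orderOf b) := by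
    intro a ha b hb
    have hbM : b ∈ M := hM' (hUle hb)
    have h1 : orderOf a ∣ Nat.card (Cfsg.fittingHall M) := by
      have h0 : Nat.card (Cfsg.fittingHallOf M) = Nat.card (Cfsg.fittingHall M) :=
        Subgroup.card_map_of_injective M.subtype_injective
      rw [← h0]
      have h00 := orderOf_dvd_natCard (⟨a, ha⟩ : Cfsg.fittingHallOf M)
      rwa [Subgroup.orderOf_mk] at h00
    have h2 : orderOf b ∣ (Cfsg.fittingHall M).index := by
      have hn1 : orderOf ((⟨b, hbM⟩ : M) : M ⧸ Cfsg.fittingHall M) ∣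
          (Cfsg.fittingHall M).index := by
        rw [Subgroup.index_eq_card]; exact orderOf_dvd_natCard _
      refine Dvd.dvd.trans ?_ hn1
      apply orderOf_dvd_of_pow_eq_one
      have hpow : ((⟨b, hbM⟩ : M) ^ orderOf ((⟨b, hbM⟩ : M) : M ⧸ Cfsg.fittingHall M)) ∈
          Cfsg.fittingHall M := by
        rw [← QuotientGroup.eq_one_iff, QuotientGroup.mk_pow]; exact pow_orderOf_eq_one _
      have h6 : b ^ orderOf ((⟨b, hbM⟩ : M) : M ⧸ Cfsg.fittingHall M) ∈
          Cfsg.fittingHallOf M ⊓ U := ⟨⟨_, hpow, rfl⟩, U.pow_mem hb _⟩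
      rw [hHU] at h6
      exact Subgroup.mem_bot.1 h6
    exact Nat.Coprime.coprime_dvd_left h1 (Nat.Coprime.coprime_dvd_right h2 hall)
  apply le_antisymm
  · rw [← hP.fitting_eq]
    apply sup_le le_sup_left
    intro c hc
    have hcF : c ∈ Cfsg.fittingOf M := by
      rw [← hP.fitting_eq]; exact Subgroup.mem_sup_right hc
    obtain ⟨a, ha, b, hb, rfl⟩ := hprod c (hP.fitting_le hcF)
    have hcc : a * b ∈ Subgroup.centralizer (Cfsg.fittingHallOf M : Set G) := hc.2
    rw [Subgroup.mem_centralizer_iff] at hcc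
    have hab : a * b = b * a := by
      have h7 := hcc a ha
      have h3 : a * (a * b) = a * (b * a) := by rw [h7]; group
      exact mul_left_cancel h3
    have hbn : b ^ orderOf a ∈ Subgroup.centralizer (Cfsg.fittingHallOf M : Set G) := by
      have h8 : (a * b) ^ orderOf a = b ^ orderOf a := by
        rw [Commute.mul_pow hab, pow_orderOf_eq_one, one_mul]
      rw [← h8]; exact Subgroup.pow_mem _ (show a * b ∈ Subgroup.centralizer (Cfsg.fittingHallOf M : Set G) from hc.2) _
    have hbz : Subgroup.zpowers (b ^ orderOf a) = Subgroup.zpowers b := by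
      apply Subgroup.eq_of_le_of_card_ge
      · exact Subgroup.zpowers_le.2 (Subgroup.pow_mem _ (Subgroup.mem_zpowers b) _)
      · rw [Nat.card_zpowers, Nat.card_zpowers, (hcop a ha b hb).symm.orderOf_pow]
    have hbC : b ∈ Subgroup.centralizer (Cfsg.fittingHallOf M : Set G) :=
      (Subgroup.zpowers_le.2 hbn) (hbz ▸ Subgroup.mem_zpowers b)
    exact Subgroup.mul_mem _ (Subgroup.mem_sup_left ha) (Subgroup.mem_sup_right ⟨hb, hbC⟩)
  · rw [← hP.fitting_eq]
    exact sup_le_sup_left (inf_le_inf_right _ (hUle.trans hM')) _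

end Cfsg.Agent.S1387
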