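import Mathlib
import Cfsg.Statements.S1388
import Cfsg.Agent.S1387
import Cfsg.Agent.Lib.Helper7.PCore
set_option autoImplicit false
set_option linter.unusedSectionVars false
set_option linter.style.haveILetI false
open Cfsg
open scoped commutatorElement
namespace Cfsg.Agent.S1388

/-- Let M be a subgroup of a finite group G with type-P data (W₁, U, W₂) and H = M_F. Then the derived subgroup of U centralizes H, and if U ≠ 1 then U does not centralize H. -/
theorem result {G : Type*} [Group G] [Finite G] (M W₁ U W₂ : Subgroup G) (hP : Cfsg.IsTypePWith M W₁ U W₂) :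
    ⁅U, U⁆ ≤ Subgroup.centralizer (Cfsg.fittingHallOf M : Set G) ∧ (U ≠ ⊥ → ¬ U ≤ Subgroup.centralizer (Cfsg.fittingHallOf M : Set G)) := by
  obtain ⟨hHle, hUle, hHU, hprod⟩ := hP.U_compl
  obtain ⟨-, hW₁le, hMW, hprodW⟩ := hP.W₁_compl
  have hM' : ⁅M, M⁆ ≤ M := Subgroup.commutator_le.2 (fun a ha b hb =>
    M.mul_mem (M.mul_mem (M.mul_mem ha hb) (M.inv_mem ha)) (M.inv_mem hb))
  have hcop : ∀ a ∈ Cfsg.fittingHallOf M, ∀ b ∈ U, (orderOf a).Coprime (orderOf b) := by
    intro a ha b hb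
    have hbM : b ∈ M := hM' (hUle hb)
    have h1 : orderOf a ∣ Nat.card (Cfsg.fittingHall M) := by
      have h0 : Nat.card (Cfsg.fittingHallOf M) = Nat.card (Cfsg.fittingHall M) :=
        Subgroup.card_map_of_injective M.subtype_injective
      rw [← h0]
      have h00 := orderOf_dvd_natCard (⟨a, ha⟩ : Cfsg.fittingHallOf M)
      rwa [Subgroup.orderOf_mk] at h00
    have h2 : orderOf b ∣ (Cfsg.fittingHall M).index := by
      have hn1 : orderOf ((⟨b, hbM⟩ : M) : M ⧸ Cfsg.fittingHall M) ∣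
          (Cfsg.fittingHall M).index := by
        rw [Subgroup.index_eq_card]; exact orderOf_dvd_natCard _
      refine Dvd.dvd.trans ?_ hn1
      apply orderOf_dvd_of_pow_eq_one
      have hpow : ((⟨b, hbM⟩ : M) ^ orderOf ((⟨b, hbM⟩ : M) : M ⧸ Cfsg.fittingHall M)) ∈
          Cfsg.fittingHall M := by
        rw [← QuotientGroup.eq_one_iff, QuotientGroup.mk_pow]; exact pow_orderOf_eq_one _
      have h6 : b ^ orderOf ((⟨b, hbM⟩ : M) : M ⧸ Cfsg.fittingHall M) ∈
          Cfsg.fittingHallOf M ⊓ U := ⟨⟨_, hpow, rfl⟩, U.pow_mem hb _⟩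
      rw [hHU] at h6
      exact Subgroup.mem_bot.1 h6
    exact Nat.Coprime.coprime_dvd_left h1 (Nat.Coprime.coprime_dvd_right h2 Cfsg.Agent.S1387.hall)
  -- key: a ∈ H, b ∈ U, a * b ∈ C(H) ⟹ b ∈ C(H)
  have key : ∀ a ∈ Cfsg.fittingHallOf M, ∀ b ∈ U,
      a * b ∈ Subgroup.centralizer (Cfsg.fittingHallOf M : Set G) →
      b ∈ Subgroup.centralizer (Cfsg.fittingHallOf M : Set G) := by
    intro a ha b hb hc
    have hcc := hc
    rw [Subgroup.mem_centralizer_iff] at hcc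
    have hab : a * b = b * a := by
      have h7 := hcc a ha
      have h3 : a * (a * b) = a * (b * a) := by rw [h7]; group
      exact mul_left_cancel h3
    have hbn : b ^ orderOf a ∈ Subgroup.centralizer (Cfsg.fittingHallOf M : Set G) := by
      have h8 : (a * b) ^ orderOf a = b ^ orderOf a := by
        rw [Commute.mul_pow hab, pow_orderOf_eq_one, one_mul]
      rw [← h8]; exact Subgroup.pow_mem _ hc _
    have hbz : Subgroup.zpowers (b ^ orderOf a) = Subgroup.zpowers b := by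
      apply Subgroup.eq_of_le_of_card_ge
      · exact Subgroup.zpowers_le.2 (Subgroup.pow_mem _ (Subgroup.mem_zpowers b) _)
      · rw [Nat.card_zpowers, Nat.card_zpowers, (hcop a ha b hb).symm.orderOf_pow]
    exact (Subgroup.zpowers_le.2 hbn) (hbz ▸ Subgroup.mem_zpowers b)
  -- elements of H ⊔ (M ⊓ C(H)) are products
  have hdec : ∀ x ∈ Cfsg.fittingHallOf M ⊔
      (M ⊓ Subgroup.centralizer (Cfsg.fittingHallOf M : Set G)),
      ∃ h ∈ Cfsg.fittingHallOf M, ∃ k ∈ Subgroup.centralizer (Cfsg.fittingHallOf M : Set G),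
        x = h * k := by
    intro x hx
    rw [Subgroup.sup_eq_closure] at hx
    induction hx using Subgroup.closure_induction with
    | mem y hy =>
      rcases hy with hy | hy
      · exact ⟨y, hy, 1, Subgroup.one_mem _, (mul_one y).symm⟩
      · exact ⟨1, Subgroup.one_mem _, y, hy.2, (one_mul y).symm⟩
    | one => exact ⟨1, Subgroup.one_mem _, 1, Subgroup.one_mem _, (mul_one 1).symm⟩
    | mul y z _ _ ihy ihz =>
      obtain ⟨h1, hh1, k1, hk1, rfl⟩ := ihy
      obtain ⟨h2, hh2, k2, hk2, rfl⟩ := ihz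
      refine ⟨h1 * h2, Subgroup.mul_mem _ hh1 hh2, k1 * k2, Subgroup.mul_mem _ hk1 hk2, ?_⟩
      have hc1 : h2 * k1 = k1 * h2 := Subgroup.mem_centralizer_iff.1 hk1 h2 hh2
      calc h1 * k1 * (h2 * k2) = h1 * (k1 * h2) * k2 := by group
        _ = h1 * (h2 * k1) * k2 := by rw [hc1]
        _ = h1 * h2 * (k1 * k2) := by group
    | inv y _ ihy =>
      obtain ⟨h1, hh1, k1, hk1, rfl⟩ := ihy
      refine ⟨h1⁻¹, Subgroup.inv_mem _ hh1, k1⁻¹, Subgroup.inv_mem _ hk1, ?_⟩
      have hc1 : h1⁻¹ * k1⁻¹ = k1⁻¹ * h1⁻¹ :=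
        Subgroup.mem_centralizer_iff.1 (Subgroup.inv_mem _ hk1) h1⁻¹ (Subgroup.inv_mem _ hh1)
      rw [mul_inv_rev, hc1]
  refine ⟨?_, ?_⟩
  · intro u hu
    have hu1 : u ∈ ⁅⁅M, M⁆, ⁅M, M⁆⁆ := Subgroup.commutator_mono hUle hUle hu
    have huU : u ∈ U := (Subgroup.commutator_le.2 (fun a ha b hb =>
      U.mul_mem (U.mul_mem (U.mul_mem ha hb) (U.inv_mem ha)) (U.inv_mem hb))) hu
    obtain ⟨h, hh, k, hk, rfl⟩ := hdec u (hP.derived_two_le hu1)
    -- k = h⁻¹ * (h * k)
    have hk' : h⁻¹ * (h * k) ∈ Subgroup.centralizer (Cfsg.fittingHallOf M : Set G) := by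
      rw [inv_mul_cancel_left]; exact hk
    exact key h⁻¹ (Subgroup.inv_mem _ hh) (h * k) huU hk'
  · intro hU1 hUC
    apply hU1
    -- M' is nilpotent
    haveI hHnil : Group.IsNilpotent (Cfsg.fittingHallOf M) := by
      have hle0 : Cfsg.fittingHall M ≤ Cfsg.fittingSubgroup M :=
        sSup_le_sSup (fun N hN => ⟨hN.1, hN.2.1⟩)
      haveI := Cfsg.Agent.Lib.Helper7.fitting_isNilpotent M
      haveI h1 : Group.IsNilpotent
          ((Cfsg.fittingHall M).subgroupOf (Cfsg.fittingSubgroup M)) := inferInstance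
      haveI h2 : Group.IsNilpotent (Cfsg.fittingHall M) :=
        Group.nilpotent_of_mulEquiv (Subgroup.subgroupOfEquivOfLe hle0)
      exact Group.nilpotent_of_mulEquiv
        (Subgroup.equivMapOfInjective (Cfsg.fittingHall M) M.subtype M.subtype_injective)
    haveI hUnil : Group.IsNilpotent U := hP.U_nilpotent
    let φ : ↥(Cfsg.fittingHallOf M) × ↥U →* ↥⁅M, M⁆ := MonoidHom.mk'
      (fun x => ⟨(x.1 : G) * (x.2 : G), Subgroup.mul_mem _ (hHle x.1.2) (hUle x.2.2)⟩) (by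
        intro x y
        apply Subtype.ext
        have hcomm : (y.1 : G) * (x.2 : G) = (x.2 : G) * (y.1 : G) :=
          Subgroup.mem_centralizer_iff.1 (hUC x.2.2) y.1 y.1.2
        show ((x.1 : G) * (y.1 : G)) * ((x.2 : G) * (y.2 : G)) =
          (x.1 : G) * (x.2 : G) * ((y.1 : G) * (y.2 : G))
        calc ((x.1 : G) * (y.1 : G)) * ((x.2 : G) * (y.2 : G))
            = (x.1 : G) * ((y.1 : G) * (x.2 : G)) * (y.2 : G) := by group
          _ = (x.1 : G) * ((x.2 : G) * (y.1 : G)) * (y.2 : G) := by rw [hcomm]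
          _ = (x.1 : G) * (x.2 : G) * ((y.1 : G) * (y.2 : G)) := by group)
    have hφ : Function.Surjective φ := by
      rintro ⟨m, hm⟩
      obtain ⟨a, ha, b, hb, rfl⟩ := hprod m hm
      exact ⟨(⟨a, ha⟩, ⟨b, hb⟩), rfl⟩
    haveI hM'nil : Group.IsNilpotent ↥⁅M, M⁆ := Group.nilpotent_of_surjective φ hφ
    have hNnil : Group.IsNilpotent ↥(⁅M, M⁆.subgroupOf M) :=
      Group.nilpotent_of_mulEquiv (Subgroup.subgroupOfEquivOfLe hM').symm
    have hNnorm : (⁅M, M⁆.subgroupOf M).Normal := by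
      constructor
      intro n hn g
      rw [Subgroup.mem_subgroupOf] at hn ⊢
      have h1 : ((g * n * g⁻¹ : M) : G) = ⁅(g : G), (n : G)⁆ * (n : G) := by
        simp only [Subgroup.coe_mul, Subgroup.coe_inv, commutatorElement_def]; group
      rw [h1]
      exact Subgroup.mul_mem _ (Subgroup.commutator_mem_commutator g.2 n.2) hn
    have hcard : Nat.card M = Nat.card ↥⁅M, M⁆ * Nat.card W₁ := by
      rw [← Nat.card_prod]
      symm
      apply Nat.card_congr
      refine Equiv.ofBijective (fun x : ↥⁅M, M⁆ × ↥W₁ =>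
        (⟨(x.1 : G) * (x.2 : G), M.mul_mem (hM' x.1.2) (hW₁le x.2.2)⟩ : M)) ⟨?_, ?_⟩
      · rintro ⟨⟨a, ha⟩, ⟨b, hb⟩⟩ ⟨⟨a', ha'⟩, ⟨b', hb'⟩⟩ h
        have h1 : a * b = a' * b' := congrArg Subtype.val h
        have h2 : a'⁻¹ * a = b' * b⁻¹ := by
          calc a'⁻¹ * a = a'⁻¹ * (a * b) * b⁻¹ := by group
            _ = a'⁻¹ * (a' * b') * b⁻¹ := by rw [h1]
            _ = b' * b⁻¹ := by group
        have h3 : a'⁻¹ * a ∈ ⁅M, M⁆ ⊓ W₁ :=
          ⟨Subgroup.mul_mem _ (Subgroup.inv_mem _ ha') ha,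
            h2 ▸ Subgroup.mul_mem _ hb' (Subgroup.inv_mem _ hb)⟩
        rw [hMW] at h3
        have h4 : a'⁻¹ * a = 1 := Subgroup.mem_bot.1 h3
        have h5 : a = a' := by
          have h50 := congrArg (fun t => a' * t) h4
          simpa using h50
        subst h5
        have h6 : b = b' := mul_left_cancel h1
        subst h6
        rfl
      · rintro ⟨m, hm⟩
        obtain ⟨a, ha, b, hb, rfl⟩ := hprodW m hm
        exact ⟨(⟨a, ha⟩, ⟨b, hb⟩), rfl⟩
    have hcN : Nat.card ↥(⁅M, M⁆.subgroupOf M) = Nat.card ↥⁅M, M⁆ :=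
      Nat.card_congr (Subgroup.subgroupOfEquivOfLe hM').toEquiv
    have hcW : Nat.card ↥(W₁.subgroupOf M) = Nat.card W₁ :=
      Nat.card_congr (Subgroup.subgroupOfEquivOfLe hW₁le).toEquiv
    have hposN : 0 < Nat.card ↥⁅M, M⁆ := Nat.card_pos
    have hposW : 0 < Nat.card W₁ := Nat.card_pos
    have hidxN : (⁅M, M⁆.subgroupOf M).index = Nat.card W₁ := by
      have h1 := Subgroup.index_mul_card (⁅M, M⁆.subgroupOf M)
      rw [hcN, hcard] at h1
      exact Nat.eq_of_mul_eq_mul_right hposN (by rw [h1, mul_comm])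
    have hidxW : W₁.relIndex M = Nat.card ↥⁅M, M⁆ := by
      have h1 := Subgroup.index_mul_card (W₁.subgroupOf M)
      rw [hcW, hcard] at h1
      exact Nat.eq_of_mul_eq_mul_right hposW h1
    have hcopN : (Nat.card ↥(⁅M, M⁆.subgroupOf M)).Coprime (⁅M, M⁆.subgroupOf M).index := by
      rw [hcN, hidxN]
      have h1 := hP.W₁_hall
      rw [hidxW] at h1
      exact h1.symm
    have hle : ⁅M, M⁆.subgroupOf M ≤ Cfsg.fittingHall M := le_sSup ⟨hNnorm, hNnil, hcopN⟩
    rw [Subgroup.eq_bot_iff_forall]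
    intro u hu
    have huM' : u ∈ ⁅M, M⁆ := hUle hu
    have h1 : (⟨u, hM' huM'⟩ : M) ∈ Cfsg.fittingHall M := hle (Subgroup.mem_subgroupOf.2 huM')
    have h2 : u ∈ Cfsg.fittingHallOf M ⊓ U := ⟨⟨_, h1, rfl⟩, hu⟩
    rw [hHU] at h2
    exact Subgroup.mem_bot.1 h2

end Cfsg.Agent.S1388
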