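import Cfsg.Statements.S1441
-- import your own Cfsg.Agent.* helpers here

set_option autoImplicit false
open Cfsg

namespace Cfsg.Agent.S1441

open scoped commutatorElement

section
variable {G : Type*} [Group G]

theorem conj_pow_aux (a x w : G) (hax : a * x * a⁻¹ = w * x) (haw : a * w * a⁻¹ = w) (m : ℕ) :
    a ^ m * x * (a ^ m)⁻¹ = w ^ m * x := by
  induction m with
  | zero => simp
  | succ m ih =>
    have h1 : a ^ (m+1) * x * (a ^ (m+1))⁻¹ = a * (a ^ m * x * (a ^ m)⁻¹) * a⁻¹ := by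
      rw [pow_succ']; group
    rw [h1, ih]
    have hw' : a * w ^ m * a⁻¹ = w ^ m := by
      rw [← conj_pow, haw]
    calc a * (w ^ m * x) * a⁻¹ = (a * w ^ m * a⁻¹) * (a * x * a⁻¹) := by group
      _ = w ^ m * (w * x) := by rw [hw', hax]
      _ = w ^ (m + 1) * x := by rw [pow_succ]; group

end

/-- Let G be a finite group, H a solvable subgroup and A a subgroup normalizing H. Suppose there is a chain H = H₀ ≥ H₁ ≥ ⋯ ≥ H_n = 1 of subgroups normal in H and normalized by A such that A acts trivially on each factor H_{i-1}/H_i (that is, [H_{i-1}, A] ≤ H_i). Then every prime dividing the index of C_A(H) in A divides the order of H. -/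
theorem result {G : Type*} [Group G] [Finite G] (H A : Subgroup G) (hH : Group.IsSolvable H) (hA : (A ≤ Subgroup.normalizer (H : Set G)))
    (n : ℕ) (c : Fin (n + 1) → Subgroup G) (hc0 : c 0 = H) (hcn : c (Fin.last n) = ⊥) (hanti : Antitone c)
    (hcN : ∀ i, H ≤ Subgroup.normalizer ((c i : Subgroup G) : Set G)) (hcA : ∀ i, A ≤ Subgroup.normalizer ((c i : Subgroup G) : Set G))
    (htriv : ∀ i : Fin n, ⁅c i.castSucc, A⁆ ≤ c i.succ) :
    ∀ p : ℕ, p.Prime → p ∣ (A ⊓ Subgroup.centralizer (H : Set G)).relIndex A → p ∣ Nat.card H := by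
  intro p hp hdvd
  by_contra hpH
  haveI : Fact p.Prime := ⟨hp⟩
  have hcopr : ∀ k : ℕ, Nat.Coprime (p ^ k) (Nat.card H) :=
    fun k => Nat.Coprime.pow_left k ((Nat.Prime.coprime_iff_not_dvd hp).mpr hpH)
  have hcH : ∀ i, c i ≤ H := by
    intro i
    rw [← hc0]
    exact hanti (Fin.zero_le i)
  have key : ∀ a ∈ A, ∀ k : ℕ, a ^ (p ^ k) = 1 → ∀ i, ∀ x ∈ c i, a * x * a⁻¹ = x := by
    intro a ha k hak i
    induction i using Fin.reverseInduction with
    | last =>
      intro x hx
      rw [hcn, Subgroup.mem_bot] at hx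
      rw [hx]; group
    | cast i ih =>
      intro x hx
      have hw : a * x * a⁻¹ * x⁻¹ ∈ c i.succ := by
        have h1 : ⁅x, a⁆ ∈ ⁅c i.castSucc, A⁆ := Subgroup.commutator_mem_commutator hx ha
        have h2 := (c i.succ).inv_mem (htriv i h1)
        rw [commutatorElement_inv] at h2
        exact h2
      have hax : a * x * a⁻¹ = (a * x * a⁻¹ * x⁻¹) * x := by group
      have haw := ih _ hw
      have h3 := conj_pow_aux a x _ hax haw (p ^ k)
      rw [hak] at h3
      have h4 : (a * x * a⁻¹ * x⁻¹) ^ (p ^ k) = 1 := by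
        have h5 : (1 : G) * x * (1 : G)⁻¹ = x := by group
        rw [h5] at h3
        exact (mul_eq_right.mp h3.symm)
      have hwH : a * x * a⁻¹ * x⁻¹ ∈ H := hcH _ hw
      have h6 : orderOf (a * x * a⁻¹ * x⁻¹) ∣ p ^ k := orderOf_dvd_of_pow_eq_one h4
      have h7 : orderOf (a * x * a⁻¹ * x⁻¹) ∣ Nat.card H := by
        have h8 := orderOf_dvd_natCard (⟨_, hwH⟩ : H)
        rw [← Subgroup.orderOf_coe] at h8
        exact h8
      have h9 : orderOf (a * x * a⁻¹ * x⁻¹) = 1 :=
        Nat.eq_one_of_dvd_coprimes (hcopr k) h6 h7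
      rw [orderOf_eq_one_iff] at h9
      rw [hax, h9, one_mul]
  obtain ⟨P⟩ : Nonempty (Sylow p A) := inferInstance
  have hP : (P : Subgroup A) ≤ (A ⊓ Subgroup.centralizer (H : Set G)).subgroupOf A := by
    intro y hy
    rw [Subgroup.mem_subgroupOf]
    refine Subgroup.mem_inf.mpr ⟨y.2, ?_⟩
    obtain ⟨k, hk⟩ := P.isPGroup' ⟨y, hy⟩
    have hk' : (y : G) ^ (p ^ k) = 1 := by
      have h1 := congrArg (fun z : P => ((z : A) : G)) hk
      simpa using h1
    rw [Subgroup.mem_centralizer_iff]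
    intro x hx
    have h2 := key y y.2 k hk' 0 x (by rw [hc0]; exact hx)
    calc x * (y : G) = (y * x * (y : G)⁻¹) * y := by rw [h2]
      _ = y * x := by group
  have h1 := Subgroup.index_dvd_of_le hP
  exact P.not_dvd_index (hdvd.trans h1)

end Cfsg.Agent.S1441
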