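import Cfsg.Statements.S1442
-- import your own Cfsg.Agent.* helpers here

set_option autoImplicit false
open Cfsg

namespace Cfsg.Agent.S1442

open scoped commutatorElement

section
variable {G : Type*} [Group G]

theorem conj_pow_aux (a x w : G) (hax : a * x * a⁻¹ = w * x) (haw : a * w * a⁻¹ = w) (m : ℕ) :
    a ^ m * x * (a ^ m)⁻¹ = w ^ m * x := by
  induction m with
  | zero => simp
  | succ m ih =>
    have h1 : a ^ (m+1) * x * (a ^ (m+1))⁻¹ = a * (a ^ m * x * (a ^ m)⁻¹) * a⁻¹ := by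
      rw [pow_succ']; group
    rw [h1, ih]
    have hw' : a * w ^ m * a⁻¹ = w ^ m := by
      rw [← conj_pow, haw]
    calc a * (w ^ m * x) * a⁻¹ = (a * w ^ m * a⁻¹) * (a * x * a⁻¹) := by group
      _ = w ^ m * (w * x) := by rw [hw', hax]
      _ = w ^ (m + 1) * x := by rw [pow_succ]; group

end

/-- Let G be a finite group, H a nilpotent subgroup and A a subgroup normalizing H with the orders of A and H coprime. Put C = H ∩ C_G(A). If H ∩ C_G(C) ≤ C then A centralizes H. -/
theorem result {G : Type*} [Group G] [Finite G] (H A : Subgroup G) (hH : Group.IsNilpotent H) (hA : (A ≤ Subgroup.normalizer (H : Set G))) (hcop : (Nat.card A).Coprime (Nat.card H))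
    (hC : H ⊓ Subgroup.centralizer (((H ⊓ Subgroup.centralizer (A : Set G)) : Subgroup G) : Set G) ≤ (H ⊓ Subgroup.centralizer (A : Set G))) :
    A ≤ Subgroup.centralizer (H : Set G) := by
  classical
  obtain ⟨C, hCdef⟩ : ∃ C : Subgroup G, C = H ⊓ Subgroup.centralizer (A : Set G) := ⟨_, rfl⟩
  rw [← hCdef] at hC
  have hCmem : ∀ c : G, c ∈ C ↔ c ∈ H ∧ ∀ a ∈ A, a * c = c * a := by
    intro c
    rw [hCdef, Subgroup.mem_inf, Subgroup.mem_centralizer_iff]
    rfl
  have hnorm : ∀ a ∈ A, ∀ x ∈ H, a * x * a⁻¹ ∈ H := by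
    intro a ha x hx
    exact ((Subgroup.mem_normalizer_iff.mp (hA ha)) x).mp hx
  have key : ∀ x ∈ H, (∀ c ∈ C, x⁻¹ * c * x ∈ C) → x ∈ C := by
    intro x hx hxC
    rw [hCmem]
    refine ⟨hx, ?_⟩
    intro a ha
    obtain ⟨u, hu⟩ : ∃ u : G, u = a * x * a⁻¹ * x⁻¹ := ⟨_, rfl⟩
    have huH : u ∈ H := by
      rw [hu]; exact H.mul_mem (hnorm a ha x hx) (H.inv_mem hx)
    have huC : u ∈ Subgroup.centralizer (C : Set G) := by
      rw [Subgroup.mem_centralizer_iff]
      intro c hc
      have hc' := hxC c hc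
      have h1 := ((hCmem _).mp hc').2 a ha
      have h2 := ((hCmem _).mp hc).2 a ha
      have h3 : u * c * u⁻¹ = c := by
        calc u * c * u⁻¹ = a * x * (a⁻¹ * (x⁻¹ * c * x) * a) * x⁻¹ * a⁻¹ := by rw [hu]; group
          _ = a * x * (x⁻¹ * c * x) * x⁻¹ * a⁻¹ := by
              have h0 : a⁻¹ * (x⁻¹ * c * x) * a = x⁻¹ * c * x := by rw [mul_assoc, ← h1]; group
              rw [h0]
          _ = a * c * a⁻¹ := by group
          _ = c := by rw [h2]; group
      calc c * u = (u * c * u⁻¹) * u := by rw [h3]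
        _ = u * c := by group
    have huCC : u ∈ C := hC (Subgroup.mem_inf.mpr ⟨huH, huC⟩)
    have hau : a * u * a⁻¹ = u := by rw [((hCmem u).mp huCC).2 a ha]; group
    have hax : a * x * a⁻¹ = u * x := by rw [hu]; group
    have h3 := conj_pow_aux a x u hax hau (orderOf a)
    rw [pow_orderOf_eq_one] at h3
    have h4 : u ^ orderOf a = 1 := by
      have h5 : (1 : G) * x * (1 : G)⁻¹ = x := by group
      rw [h5] at h3
      exact mul_eq_right.mp h3.symm
    have h6 : orderOf u ∣ Nat.card A := (orderOf_dvd_of_pow_eq_one h4).trans (by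
      have h8 := orderOf_dvd_natCard (⟨a, ha⟩ : A)
      rw [← Subgroup.orderOf_coe] at h8
      exact h8)
    have h7 : orderOf u ∣ Nat.card H := by
      have h8 := orderOf_dvd_natCard (⟨u, huH⟩ : H)
      rw [← Subgroup.orderOf_coe] at h8
      exact h8
    have h9 : orderOf u = 1 := Nat.eq_one_of_dvd_coprimes hcop h6 h7
    rw [orderOf_eq_one_iff] at h9
    rw [h9, one_mul] at hax
    calc a * x = (a * x * a⁻¹) * a := by group
      _ = x * a := by rw [hax]
  have htop : C.subgroupOf H = ⊤ := by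
    by_contra hne
    have hlt := Group.normalizerCondition_of_isNilpotent (C.subgroupOf H)
      (lt_top_iff_ne_top.mpr hne)
    obtain ⟨x, hxN, hxK⟩ := SetLike.exists_of_lt hlt
    apply hxK
    rw [Subgroup.mem_subgroupOf]
    apply key x x.2
    intro c hc
    have hcH : c ∈ H := ((hCmem c).mp hc).1
    rw [Subgroup.mem_normalizer_iff] at hxN
    have h1 := (hxN (x⁻¹ * ⟨c, hcH⟩ * x)).mpr (by
      have h0 : x * (x⁻¹ * ⟨c, hcH⟩ * x) * x⁻¹ = ⟨c, hcH⟩ := by group
      rw [h0, Subgroup.mem_subgroupOf]; exact hc)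
    rw [Subgroup.mem_subgroupOf] at h1
    simpa using h1
  rw [Subgroup.subgroupOf_eq_top] at htop
  intro a ha
  rw [Subgroup.mem_centralizer_iff]
  intro h hh
  exact (((hCmem h).mp (htop hh)).2 a ha).symm

end Cfsg.Agent.S1442
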