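import Cfsg.Statements.S1466
import Cfsg.Agent.Lib.Helper2.MaxAb
-- import your own Cfsg.Agent.* helpers here

set_option autoImplicit false
open Cfsg

namespace Cfsg.Agent.S1466

/-- Let p be a prime and R a nontrivial finite p-group. Then for every i > 0, Z(R) ≤ C_R(L_i(R)) ≤ L_i(R); likewise Z(R) ≤ C_R(L_*(R)) ≤ L_*(R) and Z(R) ≤ C_R(L(R)) ≤ L(R); and L(R) ≠ 1, L_*(R) ≠ 1. -/
theorem result {R : Type*} [Group R] [Finite R] (p : ℕ) [Fact p.Prime] (hR : IsPGroup p R) [Nontrivial R] :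
    (∀ i : ℕ, 0 < i → Subgroup.center R ≤ Subgroup.centralizer ((Cfsg.puigSeq R i : Subgroup R) : Set R) ∧
        Subgroup.centralizer ((Cfsg.puigSeq R i : Subgroup R) : Set R) ≤ Cfsg.puigSeq R i) ∧
      (Subgroup.center R ≤ Subgroup.centralizer ((Cfsg.puigLower R : Subgroup R) : Set R) ∧ Subgroup.centralizer ((Cfsg.puigLower R : Subgroup R) : Set R) ≤ Cfsg.puigLower R) ∧
      (Subgroup.center R ≤ Subgroup.centralizer ((Cfsg.puigSubgroup R : Subgroup R) : Set R) ∧ Subgroup.centralizer ((Cfsg.puigSubgroup R : Subgroup R) : Set R) ≤ Cfsg.puigSubgroup R) ∧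
      Cfsg.puigSubgroup R ≠ ⊥ ∧ Cfsg.puigLower R ≠ ⊥ := by
  obtain ⟨A, hAn, hAc, hCA⟩ := Cfsg.Agent.Lib.Helper2.MaxAb.exists_max_normal_abelian hR
  haveI := hAn
  have hA1 : A ≠ ⊥ := by
    intro h
    rw [h] at hCA
    have h2 : (⊤ : Subgroup R) = ⊥ := by
      rw [← hCA]
      symm
      rw [eq_top_iff]
      intro x _
      rw [Subgroup.mem_centralizer_iff]
      intro y hy
      have hy1 : y = 1 := Subgroup.mem_bot.mp hy
      rw [hy1, one_mul, mul_one]
    exact top_ne_bot h2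
  have hstep : ∀ X : Subgroup R, A ≤ puigStep X := fun X =>
    le_sSup ⟨hAc, by rw [Subgroup.normalizer_eq_top]; exact le_top⟩
  have hseq : ∀ i, 0 < i → A ≤ puigSeq R i := by
    intro i hi
    obtain ⟨j, rfl⟩ := Nat.exists_eq_succ_of_ne_zero hi.ne'
    exact hstep _
  have hlow : A ≤ puigLower R :=
    le_trans (hseq 2 (by norm_num)) (le_iSup (fun n => puigSeq R (2 * n)) 1)
  have hsub : A ≤ puigSubgroup R := le_iInf (fun n => hseq _ (by omega))
  refine ⟨fun i hi => Cfsg.Agent.Lib.Helper2.MaxAb.key hCA _ (hseq i hi),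
    Cfsg.Agent.Lib.Helper2.MaxAb.key hCA _ hlow, Cfsg.Agent.Lib.Helper2.MaxAb.key hCA _ hsub, ?_, ?_⟩
  · intro h; apply hA1; rw [eq_bot_iff, ← h]; exact hsub
  · intro h; apply hA1; rw [eq_bot_iff, ← h]; exact hlow

end Cfsg.Agent.S1466
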