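import Cfsg.Statements.S1487
import Cfsg.Agent.Lib.Helper2.CharAux
import Cfsg.Agent.Lib.Helper2.Ind
-- import your own Cfsg.Agent.* helpers here

set_option autoImplicit false
open Cfsg

namespace Cfsg.Agent.S1487

open Cfsg.Agent.Lib.Helper2 Cfsg.Agent.Lib.Lead
open scoped ComplexConjugate

/-- Let A ≤ H be normal subgroups of the finite group G and θ an irreducible character of H. Then θ takes the value θ 1 on all of A if and only if the function induced from θ to G takes its value at 1 on all of A. -/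
theorem result {G : Type*} [Group G] [Fintype G] (A H : Subgroup G) [A.Normal] [H.Normal] (hAH : A ≤ H) (θ : H → ℂ) (hθ : Cfsg.IsIrrCharacter H θ) : (∀ a : H, (a : G) ∈ A → θ a = θ 1) ↔ (∀ a : G, a ∈ A → Cfsg.indFun H θ a = Cfsg.indFun H θ 1) := by
  classical
  obtain ⟨n, ρ, hρ, rfl⟩ := hθ
  have hbound : ∀ h : H, ‖ρ.character h‖ ≤ (n : ℝ) := by
    intro h
    have h1 := norm_char_le ρ h
    simpa using h1
  have hone : ρ.character 1 = (n : ℂ) := by rw [Representation.char_one]; simp
  have hconjA : ∀ (a : G), a ∈ A → ∀ x : G, x⁻¹ * a * x ∈ A := by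
    intro a ha x
    have h1 := ‹A.Normal›.conj_mem a ha x⁻¹
    rwa [inv_inv] at h1
  have hmemH : ∀ (a : G), a ∈ A → ∀ x : G, x⁻¹ * a * x ∈ H := fun a ha x => hAH (hconjA a ha x)
  have hH0 : (Nat.card H : ℂ) ≠ 0 := Nat.cast_ne_zero.mpr Nat.card_pos.ne'
  have hind1 : ∀ x : G, Cfsg.extendByZero H ρ.character (x⁻¹ * 1 * x) = ρ.character 1 := by
    intro x
    have e : x⁻¹ * 1 * x = (1 : G) := by group
    rw [e, extendByZero_mem H _ H.one_mem]
    rfl
  constructor
  · intro h a ha
    unfold Cfsg.indFun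
    congr 1
    apply Finset.sum_congr rfl
    intro x _
    rw [hind1 x, extendByZero_mem H _ (hmemH a ha x)]
    exact h ⟨x⁻¹ * a * x, hmemH a ha x⟩ (hconjA a ha x)
  · intro h a ha
    have h1 := h a ha
    unfold Cfsg.indFun at h1
    have h2 : ∑ x : G, Cfsg.extendByZero H ρ.character (x⁻¹ * (a : G) * x) =
        ∑ x : G, ρ.character 1 := by
      have h3 := mul_left_cancel₀ (inv_ne_zero hH0) h1
      rw [h3]
      exact Finset.sum_congr rfl (fun x _ => hind1 x)
    have h3 : ∑ x : G, (Cfsg.extendByZero H ρ.character (x⁻¹ * (a : G) * x)).re =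
        ∑ x : G, (n : ℝ) := by
      have h4 := congrArg Complex.re h2
      rw [Complex.re_sum, Complex.re_sum] at h4
      rw [h4]
      apply Finset.sum_congr rfl
      intro x _
      rw [hone]; simp
    have hle : ∀ x : G, (Cfsg.extendByZero H ρ.character (x⁻¹ * (a : G) * x)).re ≤ (n : ℝ) := by
      intro x
      rw [extendByZero_mem H _ (hmemH a ha x)]
      exact le_trans (Complex.re_le_norm _) (hbound _)
    have hre : (ρ.character a).re = (n : ℝ) := by
      by_contra hne
      have hlt : (Cfsg.extendByZero H ρ.character ((1 : G)⁻¹ * (a : G) * 1)).re < (n : ℝ) := by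
        have e : (1 : G)⁻¹ * (a : G) * 1 = a := by group
        rw [e, extendByZero_mem H _ a.2]
        exact lt_of_le_of_ne (le_trans (Complex.re_le_norm _) (hbound _)) hne
      have h5 := Finset.sum_lt_sum (fun x _ => hle x) ⟨1, Finset.mem_univ _, hlt⟩
      rw [h3] at h5
      exact lt_irrefl _ h5
    rw [hone]
    have hb := hbound a
    have h5 : (ρ.character a).re ^ 2 + (ρ.character a).im ^ 2 = ‖ρ.character a‖ ^ 2 := by
      rw [Complex.sq_norm, Complex.normSq_apply]; ring
    have h6 : ‖ρ.character a‖ ^ 2 ≤ (n : ℝ) ^ 2 := pow_le_pow_left₀ (norm_nonneg _) hb 2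
    have h7 : (ρ.character a).im ^ 2 ≤ 0 := by rw [hre] at h5; linarith
    have h8 : (ρ.character a).im = 0 :=
      pow_eq_zero_iff (two_ne_zero) |>.mp (le_antisymm h7 (sq_nonneg _))
    apply Complex.ext
    · rw [hre]; simp
    · rw [h8]; simp

end Cfsg.Agent.S1487
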