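import Cfsg.Statements.S1488
import Cfsg.Agent.Lib.Helper2.Ind
-- import your own Cfsg.Agent.* helpers here

set_option autoImplicit false
open Cfsg

namespace Cfsg.Agent.S1488

open Cfsg.Agent.Lib.Helper2

/-- Let A be a normal subgroup of the finite group G contained in the subgroup H, let θ be a function on H and θ₁ a function on the image of H in G ⧸ A whose composite with the projection is θ. Then the function induced from θ₁ to G ⧸ A, composed with the projection G → G ⧸ A, equals the function induced from θ to G. -/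
theorem result {G : Type*} [Group G] [Fintype G] (A H : Subgroup G) [A.Normal] (hAH : A ≤ H) [Fintype (G ⧸ A)] [Fintype ↥(H.map (QuotientGroup.mk' A))] (θ : H → ℂ) (θ₁ : ↥(H.map (QuotientGroup.mk' A)) → ℂ) (hθ : ∀ x : H, θ₁ ⟨QuotientGroup.mk' A x, Subgroup.mem_map_of_mem _ x.2⟩ = θ x) (g : G) : Cfsg.indFun (H.map (QuotientGroup.mk' A)) θ₁ (QuotientGroup.mk' A g) = Cfsg.indFun H θ g := by
  classical
  have hkey : ∀ y : G, Cfsg.extendByZero (H.map (QuotientGroup.mk' A)) θ₁ (QuotientGroup.mk' A y) =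
      Cfsg.extendByZero H θ y := by
    intro y
    by_cases hy : y ∈ H
    · rw [extendByZero_mem H θ hy, extendByZero_mem (H.map (QuotientGroup.mk' A)) θ₁
        (Subgroup.mem_map_of_mem _ hy)]
      exact hθ ⟨y, hy⟩
    · rw [extendByZero_not_mem H θ hy, extendByZero_not_mem]
      rintro ⟨h, hh, he⟩
      have h1 : h⁻¹ * y ∈ A := QuotientGroup.eq.mp he
      have h2 := H.mul_mem hh (hAH h1)
      rw [mul_inv_cancel_left] at h2
      exact hy h2
  have hcard : (Nat.card H : ℂ) =
      (Nat.card A : ℂ) * (Nat.card ↥(H.map (QuotientGroup.mk' A)) : ℂ) := by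
    have h1 : Nat.card H * H.index = Nat.card G := H.card_mul_index
    have h2 : Nat.card ↥(H.map (QuotientGroup.mk' A)) * (H.map (QuotientGroup.mk' A)).index =
        Nat.card (G ⧸ A) := Subgroup.card_mul_index _
    have h3 : (H.map (QuotientGroup.mk' A)).index = H.index :=
      Subgroup.index_map_eq H (QuotientGroup.mk'_surjective A) (by rw [QuotientGroup.ker_mk']; exact hAH)
    have h4 : Nat.card G = Nat.card (G ⧸ A) * Nat.card A :=
      Subgroup.card_eq_card_quotient_mul_card_subgroup A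
    have h5 : H.index ≠ 0 := Subgroup.index_ne_zero_of_finite
    have h6 : Nat.card H = Nat.card A * Nat.card ↥(H.map (QuotientGroup.mk' A)) := by
      apply Nat.eq_of_mul_eq_mul_right (Nat.pos_of_ne_zero h5)
      rw [h1, h4, ← h2, h3]; ring
    rw [h6]; push_cast; rfl
  have hsum : ∑ x : G, Cfsg.extendByZero H θ (x⁻¹ * g * x) = (Nat.card A : ℂ) *
      ∑ q : G ⧸ A, Cfsg.extendByZero (H.map (QuotientGroup.mk' A)) θ₁
        (q⁻¹ * QuotientGroup.mk' A g * q) := by
    rw [← sum_comp_mk A (fun q => Cfsg.extendByZero (H.map (QuotientGroup.mk' A)) θ₁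
      (q⁻¹ * QuotientGroup.mk' A g * q))]
    apply Finset.sum_congr rfl
    intro x _
    rw [← hkey]
    rfl
  unfold Cfsg.indFun
  rw [hsum, hcard]
  have hA0 : (Nat.card A : ℂ) ≠ 0 := Nat.cast_ne_zero.mpr Nat.card_pos.ne'
  have hH0 : (Nat.card ↥(H.map (QuotientGroup.mk' A)) : ℂ) ≠ 0 :=
    Nat.cast_ne_zero.mpr Nat.card_pos.ne'
  field_simp

end Cfsg.Agent.S1488
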