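import Cfsg.Statements.S1490
import Cfsg.Agent.Lib.Lead.CharAbQuot

set_option autoImplicit false
open Cfsg

namespace Cfsg.Agent.S1490

open Cfsg.Agent.Lib.Lead in
theorem result {G : Type*} [Group G] [Fintype G] (H T : Subgroup G) [hN : H.Normal] (θ : H → ℂ) (hθ : Cfsg.IsIrrCharacter H θ) (hT : ∀ g : G, g ∈ T ↔ ∀ h : H, θ ⟨g * h * g⁻¹, hN.conj_mem h h.2 g⟩ = θ h) (hab : ∀ x ∈ T, ∀ y ∈ T, x * y * x⁻¹ * y⁻¹ ∈ H) : ∃ (e : ℕ) (C : Finset (G → ℂ)), 0 < e ∧ (∀ χ ∈ C, Cfsg.IsIrrCharacter G χ) ∧ e ^ 2 * C.card * Nat.card H = Nat.card T ∧ Cfsg.indFun H θ = (e : ℂ) • ∑ χ ∈ C, χ ∧ ∀ χ ∈ C, χ 1 = (T.index : ℂ) * e * θ 1 := by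
  classical
  letI : Fintype H := Fintype.ofFinite H
  letI : Fintype T := Fintype.ofFinite T
  letI : Fintype (H.subgroupOf T) := Fintype.ofFinite _
  have hHT : H ≤ T := by
    intro x hx
    rw [hT]
    intro h
    exact isClassFunction_irr ⟨θ, hθ⟩ h ⟨x, hx⟩
  have hirr' := isIrrCharacter_resSub H T hHT hθ
  have hinv' : ∀ (g : T) (n : H.subgroupOf T), resSub H T θ ⟨g * n * g⁻¹,
      (inferInstance : (H.subgroupOf T).Normal).conj_mem (n : T) n.2 g⟩ = resSub H T θ n := by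
    intro g n
    exact (hT g).mp g.2 ⟨(n : T), Subgroup.mem_subgroupOf.mp n.2⟩
  have hab' : ∀ x y : T, x * y * x⁻¹ * y⁻¹ ∈ H.subgroupOf T := by
    intro x y; rw [Subgroup.mem_subgroupOf]; exact hab x x.2 y y.2
  obtain ⟨e, S, he, hsum, hdeg, hcard, hover⟩ :=
    abelian_quotient_ind (H.subgroupOf T) hirr' hinv' hab'
  have hc : ∀ ξ ∈ S, Cfsg.classInner (fun n : H => (ξ : T → ℂ) ⟨n, hHT n.2⟩) θ ≠ 0 := by
    intro ξ hξ
    rw [← classInner_resSub H T hHT]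
    exact hover ξ hξ
  have hinj : Set.InjOn (fun ξ : Cfsg.IrrCharacter T => Cfsg.indFun T (ξ : T → ℂ)) S := by
    intro ξ hξ ξ' hξ' heq
    exact Subtype.ext (clifford_corr_inj H T hHT hθ hT ξ.2 ξ'.2 (hc ξ hξ) (hc ξ' hξ') heq)
  refine ⟨e, S.image (fun ξ : Cfsg.IrrCharacter T => Cfsg.indFun T (ξ : T → ℂ)), he, ?_, ?_, ?_, ?_⟩
  · intro χ hχ
    obtain ⟨ξ, hξ, rfl⟩ := Finset.mem_image.mp hχ
    exact (clifford_corr_irr H T hHT hθ hT ξ.2 (hc ξ hξ)).1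
  · rw [Finset.card_image_of_injOn hinj]
    have hcardH : Nat.card (H.subgroupOf T) = Nat.card H :=
      Nat.card_congr (Subgroup.subgroupOfEquivOfLe hHT).toEquiv
    rw [← hcardH]; exact hcard
  · rw [← indFun_trans H T hHT θ]
    have h1 : (fun x : H.subgroupOf T => θ ⟨(x : T), Subgroup.mem_subgroupOf.mp x.2⟩) =
        resSub H T θ := rfl
    rw [h1, hsum, indFun_smul, indFun_sum, Finset.sum_image hinj]
  · intro χ hχ
    obtain ⟨ξ, hξ, rfl⟩ := Finset.mem_image.mp hχ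
    rw [indFun_one, hdeg ξ hξ]
    have h1 : resSub H T θ 1 = θ 1 := rfl
    rw [h1]; ring

end Cfsg.Agent.S1490
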