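import Cfsg.Statements.S1491
import Cfsg.Agent.S0867
import Cfsg.Agent.Lib.Lead.CharClifford3
import Cfsg.Agent.Lib.Lead.CharAbQuot
import Cfsg.Agent.Lib.Lead.CharDet
import Cfsg.Agent.Lib.Lead.CharRing

set_option autoImplicit false
set_option maxHeartbeats 800000

namespace Cfsg.Agent.S1491

open Cfsg Cfsg.Agent.Lib.Lead Cfsg.Agent.Lib.Helper2 Module
open scoped ComplexConjugate

theorem detOrder_dvd_card_aux {N : Type*} [Group N] [Finite N] {ϑ : N → ℂ}
    (hϑ : IsIrrCharacter N ϑ) : detOrder ϑ ∣ Nat.card N := by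
  obtain ⟨φ, hφ⟩ := exists_detChar_hom hϑ
  unfold detOrder
  apply orderOf_dvd_of_pow_eq_one
  funext g
  rw [Pi.pow_apply, hφ, Pi.one_apply, ← Units.val_pow_eq_pow_val, ← map_pow, pow_card_eq_one',
    map_one, Units.val_one]

theorem result {G : Type*} [Group G] [Fintype G] (H T : Subgroup G) [hN : H.Normal] (θ : H → ℂ) (hθ : Cfsg.IsIrrCharacter H θ) (hT : ∀ g : G, g ∈ T ↔ ∀ h : H, θ ⟨g * h * g⁻¹, hN.conj_mem h h.2 g⟩ = θ h) (hab : ∀ x ∈ T, ∀ y ∈ T, x * y * x⁻¹ * y⁻¹ ∈ H) (hcop : Nat.Coprime (Nat.card H) (H.relIndex T)) : ∃ C : Finset (G → ℂ), (∀ χ ∈ C, Cfsg.IsIrrCharacter G χ) ∧ C.card = H.relIndex T ∧ Cfsg.indFun H θ = ∑ χ ∈ C, χ ∧ ∀ χ ∈ C, χ 1 = (T.index : ℂ) * θ 1 := by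
  classical
  letI : Fintype H := Fintype.ofFinite H
  letI : Fintype T := Fintype.ofFinite T
  have hHT : H ≤ T := by
    intro h hh
    rw [hT]
    intro k
    have hcf := isClassFunction_of_isCharacter (isCharacter_of_isIrrCharacter hθ)
    exact hcf k ⟨h, hh⟩
  haveI hN' : (H.subgroupOf T).Normal := Subgroup.normal_subgroupOf
  letI : Fintype (H.subgroupOf T) := Fintype.ofFinite _
  haveI : Finite (IrrCharacter T) := irr_finite
  letI : Fintype (IrrCharacter T) := Fintype.ofFinite _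
  obtain ⟨θ', hθ'⟩ : ∃ θ' : H.subgroupOf T → ℂ, θ' = resSub H T θ := ⟨_, rfl⟩
  have hθ'irr : IsIrrCharacter (H.subgroupOf T) θ' := by
    rw [hθ']; exact isIrrCharacter_resSub H T hHT hθ
  have hinv : ∀ (g : T) (n : H.subgroupOf T),
      θ' ⟨g * n * g⁻¹, hN'.conj_mem n n.2 g⟩ = θ' n := by
    intro g n
    rw [hθ']
    exact (hT g).mp g.2 ⟨((n : T) : G), Subgroup.mem_subgroupOf.mp n.2⟩
  have hab' : ∀ x y : T, x * y * x⁻¹ * y⁻¹ ∈ H.subgroupOf T := by
    intro x y
    rw [Subgroup.mem_subgroupOf]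
    exact hab x x.2 y y.2
  obtain ⟨e, S, he, hind, hdeg, hcard, hover⟩ :=
    abelian_quotient_ind (H.subgroupOf T) hθ'irr hinv hab'
  -- extension
  obtain ⟨d, hd⟩ : ∃ d : ℕ, θ' 1 = d := ⟨charDegree θ', isIrrCharacter_one_eq_charDegree hθ'irr⟩
  have hcardH : Nat.card (H.subgroupOf T) = Nat.card H :=
    Nat.card_congr (Subgroup.subgroupOfEquivOfLe hHT).toEquiv
  have hidx : (H.subgroupOf T).index = H.relIndex T := rfl
  have hdd : d ∣ Nat.card H := by
    rw [← hcardH]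
    exact irr_degree_dvd_card ⟨θ', hθ'irr⟩ d hd
  have hoo : detOrder θ' ∣ Nat.card H := by rw [← hcardH]; exact detOrder_dvd_card_aux hθ'irr
  have hcop' : Nat.Coprime (H.subgroupOf T).index (detOrder θ' * d) := by
    rw [hidx]
    exact Nat.Coprime.mul_right (Nat.Coprime.coprime_dvd_right hoo hcop.symm)
      (Nat.Coprime.coprime_dvd_right hdd hcop.symm)
  obtain ⟨χT, ⟨hχT, hres, -⟩, -⟩ :=
    Cfsg.Agent.S0867.result (H.subgroupOf T) θ' hθ'irr hinv d hd hcop'
  -- e = 1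
  have hθθ : classInner θ' θ' = 1 := by rw [irr_orthonormal hθ'irr hθ'irr, if_pos rfl]
  have h1 : classInner (indFun (H.subgroupOf T) θ') χT = 1 := by
    rw [frobenius_reciprocity (H.subgroupOf T) θ' χT (isClassFunction_irr ⟨χT, hχT⟩)]
    have : (fun h : H.subgroupOf T => χT h) = θ' := funext hres
    rw [this, hθθ]
  have he1 : e = 1 := by
    rw [hind, classInner_smul_left, classInner_sum_left] at h1
    have h2 : ∑ ξ ∈ S, classInner (ξ : T → ℂ) χT =
        ((S.filter (fun ξ : IrrCharacter T => (ξ : T → ℂ) = χT)).card : ℂ) := by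
      rw [Finset.card_filter]
      push_cast
      apply Finset.sum_congr rfl
      intro ξ _
      rw [irr_orthonormal ξ.2 hχT]
    rw [h2] at h1
    have h3 : e * (S.filter (fun ξ : IrrCharacter T => (ξ : T → ℂ) = χT)).card = 1 := by
      exact_mod_cast h1
    exact Nat.eq_one_of_mul_eq_one_right h3
  subst he1
  have hScard : S.card = H.relIndex T := by
    have h3 : S.card * Nat.card (H.subgroupOf T) = Nat.card T := by simpa using hcard
    have h4 := Subgroup.card_mul_index (H.subgroupOf T)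
    rw [hidx] at h4
    have hpos : 0 < Nat.card (H.subgroupOf T) := Nat.card_pos
    nlinarith
  have hcH : ∀ ξ ∈ S, classInner (fun n : H => (ξ : T → ℂ) ⟨n, hHT n.2⟩) θ ≠ 0 := by
    intro ξ hξ
    have := hover ξ hξ
    rw [hθ', classInner_resSub H T hHT] at this
    exact this
  have hinj : Set.InjOn (fun ξ : IrrCharacter T => indFun T (ξ : T → ℂ)) S := by
    intro a ha b hb hab
    apply Subtype.ext
    exact clifford_corr_inj H T hHT hθ hT a.2 b.2 (hcH a ha) (hcH b hb) hab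
  refine ⟨S.image (fun ξ : IrrCharacter T => indFun T (ξ : T → ℂ)), ?_, ?_, ?_, ?_⟩
  · intro χ hχ
    obtain ⟨ξ, hξ, rfl⟩ := Finset.mem_image.mp hχ
    exact (clifford_corr_irr H T hHT hθ hT ξ.2 (hcH ξ hξ)).1
  · rw [Finset.card_image_of_injOn hinj, hScard]
  · rw [Finset.sum_image hinj, ← indFun_sum, ← indFun_trans H T hHT θ]
    congr 1
    have : (fun x : H.subgroupOf T => θ ⟨(x : T), Subgroup.mem_subgroupOf.mp x.2⟩) = θ' := by
      rw [hθ']; rfl
    rw [this, hind]; simp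
  · intro χ hχ
    obtain ⟨ξ, hξ, rfl⟩ := Finset.mem_image.mp hχ
    rw [indFun_one, hdeg ξ hξ]
    have : θ' 1 = θ 1 := by rw [hθ']; rfl
    rw [this]; simp

end Cfsg.Agent.S1491
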