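import Cfsg.Statements.S1492
import Cfsg.Agent.Lib.Lead.CharKer

set_option autoImplicit false
open Cfsg

namespace Cfsg.Agent.S1492

open Cfsg.Agent.Lib.Lead Module in
open scoped ComplexConjugate in
theorem result {G : Type*} [Group G] [Finite G] (ψ : G → ℂ) (hψ : Cfsg.IsIrrCharacter G ψ) (B C D : Subgroup G) (hBD : B ≤ D) (hDC : D ≤ C) (hBn : ∀ c ∈ C, ∀ b ∈ B, c * b * c⁻¹ ∈ B) (hcent : ∀ d ∈ D, ∀ c ∈ C, d * c * d⁻¹ * c⁻¹ ∈ B) (hker : ∀ b ∈ B, ψ b = ψ 1) : ‖ψ 1‖ ^ 2 * (Nat.card C : ℝ) * (Nat.card D : ℝ) ≤ (Nat.card G : ℝ) ^ 2 := by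
  classical
  letI := Fintype.ofFinite G
  letI : Fintype C := Fintype.ofFinite C
  haveI : Finite (IrrCharacter C) := irr_finite
  letI : Fintype (IrrCharacter C) := Fintype.ofFinite _
  have hres : IsCharacter C (fun c : C => ψ c) :=
    isCharacter_res C (isCharacter_of_isIrrCharacter hψ)
  have hm : ∀ ξ : IrrCharacter C, ∃ n : ℕ, classInner (fun c : C => ψ c) ξ = (n : ℂ) :=
    fun ξ => classInner_isCharacter_nat hres (isCharacter_of_isIrrCharacter ξ.2)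
  choose a ha using hm
  have hCpos : (0 : ℝ) < Nat.card C := by exact_mod_cast Nat.card_pos
  have hDpos : (0 : ℝ) < Nat.card D := by exact_mod_cast Nat.card_pos
  have h1 : ((∑ ξ : IrrCharacter C, a ξ ^ 2 : ℕ) : ℝ) * (Nat.card C : ℝ) ≤ (Nat.card G : ℝ) := by
    have e1 := classInner_self_eq_sum_sq hres a ha
    unfold Cfsg.classInner at e1
    have e2 := sum_norm_sq_irr hψ
    have e3 := sum_norm_sq_split (N := C) ψ
    have e4 : ∑ c : C, (ψ c) * conj (ψ c) = ((∑ c : C, ‖ψ (c : G)‖ ^ 2 : ℝ) : ℂ) := by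
      push_cast
      apply Finset.sum_congr rfl; intro c _
      rw [Complex.mul_conj, Complex.normSq_eq_norm_sq]; push_cast; rfl
    rw [e4] at e1
    have hC0 : (Nat.card C : ℂ) ≠ 0 := by
      have : Nat.card C ≠ 0 := Nat.card_pos.ne'
      exact_mod_cast this
    have e5 : ((∑ c : C, ‖ψ (c : G)‖ ^ 2 : ℝ) : ℂ) =
        ((∑ ξ : IrrCharacter C, a ξ ^ 2 : ℕ) : ℂ) * (Nat.card C : ℂ) := by
      rw [← e1]; field_simp
    have e6 : (∑ c : C, ‖ψ (c : G)‖ ^ 2 : ℝ) =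
        ((∑ ξ : IrrCharacter C, a ξ ^ 2 : ℕ) : ℝ) * (Nat.card C : ℝ) := by exact_mod_cast e5
    have e7 : (0 : ℝ) ≤ ∑ g : G, (if g ∈ C then 0 else ‖ψ g‖ ^ 2) := by
      apply Finset.sum_nonneg
      intro g _
      split_ifs
      · exact le_refl _
      · positivity
    rw [← e6, ← e2, e3]; linarith
  have h2 : ∀ ξ : IrrCharacter C, a ξ ≠ 0 →
      Cfsg.charDegree (ξ : C → ℂ) ^ 2 * Nat.card D ≤ Nat.card C := by
    intro ξ hξ
    have hξ' : classInner (fun c : C => ψ c) ξ ≠ 0 := by rw [ha]; exact_mod_cast hξ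
    have hkerξ : ∀ c : C, (c : G) ∈ B → (ξ : C → ℂ) c = (ξ : C → ℂ) 1 := by
      intro c hc
      apply constituent_eq_one_of_eq_one hres ξ hξ' c
      show ψ c = ψ ((1 : C) : G)
      rw [Subgroup.coe_one]; exact hker c hc
    obtain ⟨n, σ, hσirr, hσ⟩ := ξ.2
    haveI := hσirr
    have hpos := finrank_pos_of_irreducible σ
    have hσB : ∀ c : C, (c : G) ∈ B → σ c = 1 := by
      intro c hc
      apply rho_eq_one_of_char_eq σ hpos c
      rw [hσ]; exact hkerξ c hc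
    have hscal : ∀ d ∈ D.subgroupOf C, ∃ s : ℂ, σ d = s • LinearMap.id := by
      intro d hd
      apply schur_scalar σ (σ d)
      intro c v
      rw [← Module.End.mul_apply, ← Module.End.mul_apply, ← map_mul, ← map_mul]
      congr 1
      have hb : ((d * c * d⁻¹ * c⁻¹ : C) : G) ∈ B := by
        have := hcent d (Subgroup.mem_subgroupOf.mp hd) c c.2
        simpa using this
      have : d * c = (d * c * d⁻¹ * c⁻¹) * (c * d) := by group
      rw [this, map_mul, hσB _ hb, one_mul]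
    have h3 := degree_sq_mul_card_le_of_scalar σ (D.subgroupOf C) hscal
    have h4 : Nat.card (D.subgroupOf C) = Nat.card D :=
      Nat.card_congr (Subgroup.subgroupOfEquivOfLe hDC).toEquiv
    rw [h4] at h3
    have h5 : Cfsg.charDegree (ξ : C → ℂ) = finrank ℂ (Fin n → ℂ) := by
      rw [← hσ]; exact charDegree_character σ
    rw [h5]; exact h3
  have h3 := charDegree_eq_sum hres a ha
  have hdeg : Cfsg.charDegree (fun c : C => ψ c) = Cfsg.charDegree ψ :=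
    charDegree_of_one_eq (by
      show ψ ((1 : C) : G) = _
      rw [Subgroup.coe_one]; exact isIrrCharacter_one_eq_charDegree hψ)
  set r := Real.sqrt ((Nat.card C : ℝ) / (Nat.card D : ℝ)) with hr
  have hr0 : 0 ≤ r := Real.sqrt_nonneg _
  have hξr : ∀ ξ : IrrCharacter C,
      (a ξ : ℝ) * (Cfsg.charDegree (ξ : C → ℂ) : ℝ) ≤ ((a ξ ^ 2 : ℕ) : ℝ) * r := by
    intro ξ
    by_cases h0 : a ξ = 0
    · simp [h0]
    · have := h2 ξ h0
      have h6 : (Cfsg.charDegree (ξ : C → ℂ) : ℝ) ≤ r := by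
        apply Real.le_sqrt_of_sq_le
        rw [le_div_iff₀ hDpos]
        exact_mod_cast this
      have h7 : (a ξ : ℝ) ≤ ((a ξ ^ 2 : ℕ) : ℝ) := by
        have : a ξ ≤ a ξ ^ 2 := Nat.le_self_pow (by norm_num) _
        exact_mod_cast this
      calc (a ξ : ℝ) * (Cfsg.charDegree (ξ : C → ℂ) : ℝ) ≤ (a ξ : ℝ) * r := by gcongr
        _ ≤ ((a ξ ^ 2 : ℕ) : ℝ) * r := by gcongr
  have hψ1 : ‖ψ 1‖ = (Cfsg.charDegree ψ : ℝ) := norm_irr_one ⟨ψ, hψ⟩
  have h8 : (Cfsg.charDegree ψ : ℝ) ≤ ((∑ ξ : IrrCharacter C, a ξ ^ 2 : ℕ) : ℝ) * r := by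
    rw [← hdeg, h3]
    push_cast
    rw [Finset.sum_mul]
    exact Finset.sum_le_sum (fun ξ _ => by have := hξr ξ; push_cast at this; exact this)
  set S : ℝ := ((∑ ξ : IrrCharacter C, a ξ ^ 2 : ℕ) : ℝ) with hS
  have hS0 : 0 ≤ S := Nat.cast_nonneg _
  have hr2 : r ^ 2 = (Nat.card C : ℝ) / (Nat.card D : ℝ) := Real.sq_sqrt (by positivity)
  rw [hψ1]
  have hdeg0 : (0 : ℝ) ≤ Cfsg.charDegree ψ := Nat.cast_nonneg _
  calc (Cfsg.charDegree ψ : ℝ) ^ 2 * (Nat.card C : ℝ) * (Nat.card D : ℝ)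
      ≤ (S * r) ^ 2 * (Nat.card C : ℝ) * (Nat.card D : ℝ) := by gcongr
    _ = (S * (Nat.card C : ℝ)) ^ 2 := by rw [mul_pow, hr2]; field_simp
    _ ≤ (Nat.card G : ℝ) ^ 2 := by gcongr

end Cfsg.Agent.S1492
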