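import Cfsg.Statements.S1493
import Cfsg.Agent.Lib.Lead.CharPowMap

set_option autoImplicit false
set_option maxHeartbeats 800000

namespace Cfsg.Agent.S1493

open Cfsg Cfsg.Agent.Lib.Lead Cfsg.Agent.Lib.Helper2

theorem result {G : Type*} [Group G] [Finite G] (a b k : ℕ) (hab : Nat.card G = a * b) (hcop : Nat.Coprime a b) (hk : Nat.Coprime k a) (χ : G → ℂ) (hχ : Cfsg.IsCharacter G χ) : ∃ χ' : G → ℂ, Cfsg.IsCharacter G χ' ∧ (Cfsg.IsIrrCharacter G χ → Cfsg.IsIrrCharacter G χ') ∧ (∀ g : G, orderOf g ∣ a → χ' g = χ (g ^ k)) ∧ (∀ g : G, Nat.Coprime (orderOf g) a → χ' g = χ g) := by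
  classical
  letI := Fintype.ofFinite G
  obtain ⟨m, hma, hmb⟩ := Nat.chineseRemainder hcop k 1
  have hm : m.Coprime (Nat.card G) := by
    rw [hab]
    apply Nat.Coprime.mul_right
    · have := Nat.ModEq.gcd_eq hma
      unfold Nat.Coprime; rw [this]; exact hk
    · have := Nat.ModEq.gcd_eq hmb
      unfold Nat.Coprime; rw [this]; exact Nat.gcd_one_left b
  refine ⟨fun g => χ (g ^ m), isCharacter_pow_coprime hχ hm,
    fun h => isIrrCharacter_pow_coprime h hm, ?_, ?_⟩
  · intro g hg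
    show χ (g ^ m) = χ (g ^ k)
    congr 1
    rw [pow_eq_pow_iff_modEq]
    exact hma.of_dvd hg
  · intro g hg
    show χ (g ^ m) = χ g
    congr 1
    have hgb : orderOf g ∣ b := by
      have h1 : orderOf g ∣ a * b := hab ▸ orderOf_dvd_natCard g
      exact hg.dvd_of_dvd_mul_left h1
    have : g ^ m = g ^ 1 := by rw [pow_eq_pow_iff_modEq]; exact hmb.of_dvd hgb
    rw [this, pow_one]

end Cfsg.Agent.S1493
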