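import Cfsg.Statements.S1494
import Cfsg.Agent.Lib.Helper2.CharAux
-- import your own Cfsg.Agent.* helpers here

set_option autoImplicit false
open Cfsg

namespace Cfsg.Agent.S1494

open Cfsg.Agent.Lib.Lead Cfsg.Agent.Lib.Helper2

theorem irr_mul_of_comm {B : Type*} [Group B] [Finite B] (hB : ∀ a b : B, a * b = b * a)
    (ψ : B → ℂ) (hψ : Cfsg.IsIrrCharacter B ψ) : ψ 1 = 1 ∧ ∀ a b, ψ (a * b) = ψ a * ψ b := by
  obtain ⟨n, ρ, hirr, rfl⟩ := hψ
  have : IsMulCommutative B := ⟨⟨hB⟩⟩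
  have h1 : Module.finrank ℂ (Fin n → ℂ) = 1 :=
    Representation.IsIrreducible.finrank_eq_one_of_isMulCommutative ρ
  obtain ⟨v, hv, hspan⟩ := finrank_eq_one_iff'.mp h1
  have key : ∀ a, ρ a = ρ.character a • LinearMap.id := by
    intro a
    obtain ⟨t, ht⟩ := hspan (ρ a v)
    have h2 : ρ a = t • LinearMap.id := by
      refine LinearMap.ext fun w => ?_
      obtain ⟨c, rfl⟩ := hspan w
      simp only [map_smul, ← ht, LinearMap.smul_apply, LinearMap.id_apply, smul_smul, mul_comm]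
    have h3 : ρ.character a = t := by
      show LinearMap.trace ℂ _ (ρ a) = t
      rw [h2, map_smul, LinearMap.trace_id, h1]; simp
    rw [h3]; exact h2
  constructor
  · rw [Representation.char_one, h1]; simp
  · intro a b
    have h2 := key (a * b)
    rw [map_mul, key a, key b] at h2
    have h3 := congrArg (fun f : (Fin n → ℂ) →ₗ[ℂ] (Fin n → ℂ) => f v) h2
    simp only [Module.End.mul_apply, LinearMap.smul_apply, LinearMap.id_apply, map_smul,
      smul_smul] at h3
    have h4 : (ρ.character a * ρ.character b - ρ.character (a * b)) • v = 0 := by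
      rw [sub_smul, mul_comm, h3, sub_self]
    rcases smul_eq_zero.mp h4 with h | h
    · exact (sub_eq_zero.mp h).symm
    · exact absurd h hv

theorem char_case {G : Type*} [Group G] [Finite G] (χ : G → ℂ) (hχ : Cfsg.IsCharacter G χ)
    (p : ℕ) (hp : p.Prime) (x y : G) (hx : orderOf x = p) (hxy : x * y = y * x) :
    ∃ ω : ℂ, IsIntegral ℤ ω ∧
      χ (x * y) - χ y = (1 - Complex.exp (2 * Real.pi * Complex.I / p)) * ω := by
  classical
  have hk : ∀ a ∈ ({x, y} : Set G), ∀ b ∈ ({x, y} : Set G), a * b = b * a := by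
    rintro a (rfl | rfl) b (rfl | rfl)
    · rfl
    · exact hxy
    · exact hxy.symm
    · rfl
  have hBcomm : ∀ a b : Subgroup.closure ({x, y} : Set G), a * b = b * a := by
    intro a b
    exact (Subgroup.isMulCommutative_closure (k := {x, y}) hk).is_comm.comm a b
  letI : Fintype (Subgroup.closure ({x, y} : Set G)) := Fintype.ofFinite _
  haveI : Finite (Cfsg.IrrCharacter (Subgroup.closure ({x, y} : Set G))) := irr_finite'
  letI : Fintype (Cfsg.IrrCharacter (Subgroup.closure ({x, y} : Set G))) := Fintype.ofFinite _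
  have hres : Cfsg.IsCharacter (Subgroup.closure ({x, y} : Set G))
      (fun h : Subgroup.closure ({x, y} : Set G) => χ h) := by
    obtain ⟨n, ρ, rfl⟩ := hχ
    exact ⟨n, ρ.comp (Subgroup.closure ({x, y} : Set G)).subtype, rfl⟩
  have hexp := expansion (fun h : Subgroup.closure ({x, y} : Set G) => χ h)
    (isClassFunction_of_isCharacter hres)
  have hnat : ∀ ψ : Cfsg.IrrCharacter (Subgroup.closure ({x, y} : Set G)), ∃ n : ℕ,
      Cfsg.classInner (fun h : Subgroup.closure ({x, y} : Set G) => χ h) (ψ : _ → ℂ) = n := by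
    intro ψ
    obtain ⟨n, ρ, hirr, h⟩ := ψ.2
    exact isCharacter_inner_nat hres ⟨n, ρ, h⟩
  choose c hc using hnat
  set X : Subgroup.closure ({x, y} : Set G) := ⟨x, Subgroup.subset_closure (by simp)⟩ with hX
  set Y : Subgroup.closure ({x, y} : Set G) := ⟨y, Subgroup.subset_closure (by simp)⟩ with hY
  set ζ : ℂ := Complex.exp (2 * Real.pi * Complex.I / p) with hζdef
  have hζ : IsPrimitiveRoot ζ p := Complex.isPrimitiveRoot_exp p hp.ne_zero
  haveI : NeZero p := ⟨hp.ne_zero⟩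
  have hζint : IsIntegral ℤ ζ := hζ.isIntegral hp.pos
  have hψ : ∀ ψ : Cfsg.IrrCharacter (Subgroup.closure ({x, y} : Set G)), ∃ ω : ℂ,
      IsIntegral ℤ ω ∧ (ψ : _ → ℂ) (X * Y) - (ψ : _ → ℂ) Y = (1 - ζ) * ω := by
    intro ψ
    obtain ⟨h1, hmul⟩ := irr_mul_of_comm hBcomm ψ.1 ψ.2
    have hpw : ∀ k : ℕ, (ψ : _ → ℂ) (X ^ k) = (ψ : _ → ℂ) X ^ k := by
      intro k
      induction k with
      | zero => simpa using h1
      | succ k ih => rw [pow_succ, hmul, ih, pow_succ]
    have hXp : X ^ p = 1 := by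
      apply Subtype.ext
      show x ^ p = 1
      rw [← hx]; exact pow_orderOf_eq_one x
    have hpow : (ψ : _ → ℂ) X ^ p = 1 := by rw [← hpw, hXp, h1]
    obtain ⟨k, hk, hkeq⟩ := hζ.eq_pow_of_pow_eq_one hpow
    have hYint : IsIntegral ℤ ((ψ : _ → ℂ) Y) := by
      obtain ⟨n, ρ, hirr, h⟩ := ψ.2
      rw [← h]; exact char_isIntegral ρ Y
    refine ⟨-(∑ i ∈ Finset.range k, ζ ^ i) * (ψ : _ → ℂ) Y, ?_, ?_⟩
    · exact IsIntegral.mul (IsIntegral.neg (IsIntegral.sum _ (fun i _ => IsIntegral.pow hζint i)))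
        hYint
    · rw [hmul, ← hkeq]
      linear_combination (-((ψ : _ → ℂ) Y)) * geom_sum_mul ζ k
  choose ω hω1 hω2 using hψ
  refine ⟨∑ ψ, (c ψ : ℂ) * ω ψ,
    IsIntegral.sum _ (fun ψ _ => IsIntegral.mul (by simpa using (isIntegral_algebraMap (R := ℤ) (A := ℂ) (x := ((c ψ : ℕ) : ℤ)))) (hω1 ψ)), ?_⟩
  have e1 : χ (x * y) = ∑ ψ : Cfsg.IrrCharacter (Subgroup.closure ({x, y} : Set G)),
      (c ψ : ℂ) * (ψ : _ → ℂ) (X * Y) := by
    have h2 := congrFun hexp (X * Y)
    simp only [Finset.sum_apply, Pi.smul_apply, smul_eq_mul, hc] at h2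
    exact h2
  have e2 : χ y = ∑ ψ : Cfsg.IrrCharacter (Subgroup.closure ({x, y} : Set G)),
      (c ψ : ℂ) * (ψ : _ → ℂ) Y := by
    have h2 := congrFun hexp Y
    simp only [Finset.sum_apply, Pi.smul_apply, smul_eq_mul, hc] at h2
    exact h2
  rw [e1, e2, ← Finset.sum_sub_distrib, Finset.mul_sum]
  apply Finset.sum_congr rfl
  intro ψ _
  rw [← mul_sub, hω2]; ring

/-- Let χ be a generalized character of the finite group G, p a prime, x an element of order p and y an element commuting with x. Then χ(x * y) − χ(y) = (1 − ε) * ω for some algebraic integer ω, where ε = exp(2πi/p). -/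
theorem result {G : Type*} [Group G] [Finite G] (χ : G → ℂ) (hχ : Cfsg.IsGeneralizedCharacter G χ) (p : ℕ) (hp : p.Prime) (x y : G) (hx : orderOf x = p) (hxy : x * y = y * x) : ∃ ω : ℂ, IsIntegral ℤ ω ∧ χ (x * y) - χ y = (1 - Complex.exp (2 * Real.pi * Complex.I / p)) * ω := by
  obtain ⟨χ₁, χ₂, h₁, h₂, rfl⟩ := hχ
  obtain ⟨ω₁, hi₁, he₁⟩ := char_case χ₁ h₁ p hp x y hx hxy
  obtain ⟨ω₂, hi₂, he₂⟩ := char_case χ₂ h₂ p hp x y hx hxy
  refine ⟨ω₁ - ω₂, IsIntegral.sub hi₁ hi₂, ?_⟩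
  simp only [Pi.sub_apply]
  linear_combination he₁ - he₂

end Cfsg.Agent.S1494
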