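import Cfsg.Statements.S1495
import Mathlib
-- import your own Cfsg.Agent.* helpers here

set_option autoImplicit false
open Cfsg

namespace Cfsg.Agent.S1495

/-- Let p be a prime, ε = exp(2πi/p), and n an integer such that n = (1 − ε) * ω for some algebraic integer ω. Then p divides n. -/
theorem result (p : ℕ) (hp : p.Prime) (n : ℤ) (ω : ℂ) (hω : IsIntegral ℤ ω) (h : (n : ℂ) = (1 - Complex.exp (2 * Real.pi * Complex.I / p)) * ω) : (p : ℤ) ∣ n := by
  have hζ : IsPrimitiveRoot (Complex.exp (2 * Real.pi * Complex.I / p)) p :=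
    Complex.isPrimitiveRoot_exp p hp.ne_zero
  generalize Complex.exp (2 * Real.pi * Complex.I / p) = ζ at hζ h
  have hζint : IsIntegral ℤ ζ := hζ.isIntegral hp.pos
  obtain ⟨m, rfl⟩ : ∃ m, p = m + 1 := ⟨p - 1, by have := hp.pos; omega⟩
  have hprod := hζ.prod_one_sub_pow_eq_order
  have key : ∀ k ∈ Finset.range m, ∃ c : ℂ, IsIntegral ℤ c ∧ 1 - ζ = (1 - ζ ^ (k + 1)) * c := by
    intro k hk
    rw [Finset.mem_range] at hk
    have hcop : Nat.Coprime (k + 1) (m + 1) :=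
      Nat.Coprime.symm ((Nat.Prime.coprime_iff_not_dvd hp).mpr
        (Nat.not_dvd_of_pos_of_lt (Nat.succ_pos k) (by omega)))
    obtain ⟨j, -, hj⟩ := Nat.exists_mul_mod_eq_one_of_coprime hcop (by have := hp.one_lt; omega)
    refine ⟨∑ i ∈ Finset.range j, (ζ ^ (k + 1)) ^ i, ?_, ?_⟩
    · exact IsIntegral.sum _ (fun i _ => (hζint.pow _).pow _)
    · rw [mul_neg_geom_sum, ← pow_mul]
      have h1 : ζ ^ ((k + 1) * j) = ζ := by
        rw [← Nat.mod_add_div ((k + 1) * j) (m + 1), hj, pow_add, pow_mul, hζ.pow_eq_one, one_pow,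
          mul_one, pow_one]
      rw [h1]
  choose! c hc1 hc2 using key
  have hpow : (1 - ζ) ^ m = ((m : ℂ) + 1) * ∏ k ∈ Finset.range m, c k := by
    calc (1 - ζ) ^ m = ∏ k ∈ Finset.range m, (1 - ζ) := by
          rw [Finset.prod_const, Finset.card_range]
      _ = ∏ k ∈ Finset.range m, ((1 - ζ ^ (k + 1)) * c k) :=
          Finset.prod_congr rfl (fun k hk => hc2 k hk)
      _ = (∏ k ∈ Finset.range m, (1 - ζ ^ (k + 1))) * ∏ k ∈ Finset.range m, c k :=
          Finset.prod_mul_distrib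
      _ = ((m : ℂ) + 1) * ∏ k ∈ Finset.range m, c k := by rw [hprod]
  have ht : IsIntegral ℤ ((∏ k ∈ Finset.range m, c k) * ω ^ m) :=
    IsIntegral.mul (IsIntegral.prod _ (fun k hk => hc1 k hk)) (hω.pow m)
  have hn : (n : ℂ) ^ m = ((m : ℂ) + 1) * ((∏ k ∈ Finset.range m, c k) * ω ^ m) := by
    rw [h, mul_pow, hpow]; ring
  have hm1 : ((m : ℂ) + 1) ≠ 0 := by
    have : ((m + 1 : ℕ) : ℂ) ≠ 0 := Nat.cast_ne_zero.mpr (Nat.succ_ne_zero m)
    push_cast at this; exact this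
  have hq : algebraMap ℚ ℂ ((n : ℚ) ^ m / ((m : ℚ) + 1)) =
      (∏ k ∈ Finset.range m, c k) * ω ^ m := by
    rw [eq_comm, ← mul_right_inj' hm1, ← hn]
    simp only [eq_ratCast]
    push_cast
    field_simp
  have hqint : IsIntegral ℤ ((n : ℚ) ^ m / ((m : ℚ) + 1)) :=
    (isIntegral_algebraMap_iff (algebraMap ℚ ℂ).injective).mp (hq ▸ ht)
  obtain ⟨y, hy⟩ := IsIntegrallyClosed.isIntegral_iff.mp hqint
  have hm1' : ((m : ℚ) + 1) ≠ 0 := by positivity
  have hy' : (n : ℚ) ^ m = ((m : ℚ) + 1) * (y : ℚ) := by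
    have : (y : ℚ) = (n : ℚ) ^ m / ((m : ℚ) + 1) := hy
    rw [this]; field_simp
  have hdvd : ((m + 1 : ℕ) : ℤ) ∣ n ^ m := by
    refine ⟨y, ?_⟩
    exact_mod_cast hy'
  exact Int.Prime.dvd_pow' hp hdvd

end Cfsg.Agent.S1495
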