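import Cfsg.Statements.S1496
import Cfsg.Agent.Lib.Helper2.SZCyclic
-- import your own Cfsg.Agent.* helpers here

set_option autoImplicit false
open Cfsg

namespace Cfsg.Agent.S1496

open Cfsg.Agent.Lib.Helper2

/-- Let H be a subgroup of the finite group G and g an element normalising H whose order is coprime to the order of H. Then for every h ∈ H there are x ∈ H and c ∈ H commuting with g such that x * (h * g) * x⁻¹ = c * g. -/
theorem result {G : Type*} [Group G] [Finite G] (H : Subgroup G) (g : G) (hg : g ∈ Subgroup.normalizer (H : Set G)) (hcop : Nat.Coprime (orderOf g) (Nat.card H)) (h : G) (hh : h ∈ H) : ∃ x ∈ H, ∃ c ∈ H, c * g = g * c ∧ x * (h * g) * x⁻¹ = c * g := by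
  obtain ⟨x, hx, c, hc, hcg, hxe⟩ := coset_conj (H.subgroupOf (Subgroup.normalizer (H : Set G)))
    (⟨g, hg⟩ : Subgroup.normalizer (H : Set G)) ⟨h, Subgroup.le_normalizer hh⟩
    (by
      rw [Subgroup.orderOf_mk,
        Nat.card_congr (Subgroup.subgroupOfEquivOfLe Subgroup.le_normalizer).toEquiv]
      exact hcop)
    (Subgroup.mem_subgroupOf.mpr hh)
  exact ⟨x, Subgroup.mem_subgroupOf.mp hx, c, Subgroup.mem_subgroupOf.mp hc,
    congrArg Subtype.val hcg, congrArg Subtype.val hxe⟩

end Cfsg.Agent.S1496
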