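import Cfsg.Statements.S1497
import Mathlib.Tactic.Group
-- import your own Cfsg.Agent.* helpers here

set_option autoImplicit false
open Cfsg

namespace Cfsg.Agent.S1497

/-- Let A be a nonempty subset of the finite group G not containing 1 and L a subgroup. Then A is a TI-subset whose normaliser is L if and only if the Dade hypothesis holds for A, L and the constant choice H(a) = ⊥. -/
theorem result {G : Type*} [Group G] [Finite G] (A : Set G) (hA : A.Nonempty) (h1 : (1 : G) ∉ A) (L : Subgroup G) : (Cfsg.IsTISubset A ∧ Subgroup.normalizer A = L) ↔ Cfsg.DadeHypothesis A L (fun _ => ⊥) := by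
  have hcent : ∀ (a c : G), c ∈ Subgroup.centralizer ({a} : Set G) ↔ a * c = c * a := by
    intro a c
    rw [Subgroup.mem_centralizer_iff]
    constructor
    · intro h; exact h a rfl
    · intro h x hx; rw [Set.mem_singleton_iff] at hx; rw [hx]; exact h
  constructor
  · rintro ⟨hTI, hN⟩
    have hmemN : ∀ g : G, ∀ a ∈ A, g * a * g⁻¹ ∈ A → g ∈ Subgroup.normalizer A := by
      intro g a ha hga
      by_contra hg
      exact h1 (hTI g hg a ha hga ▸ ha)
    refine ⟨h1, ?_, ?_, ?_, ?_, ?_, ?_, ?_, ?_⟩
    · intro a ha
      have : a ∈ Subgroup.normalizer A := hmemN a a ha (by simpa using ha)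
      rw [hN] at this; exact this
    · intro x hx a ha
      rw [← hN] at hx
      exact (Subgroup.mem_set_normalizer_iff.mp hx a).mp ha
    · intro a ha g hga
      exact ⟨g, hN ▸ hmemN g a ha hga, rfl⟩
    · intro a _; exact bot_le
    · intro a _ c _ u hu
      rw [Subgroup.mem_bot] at hu ⊢
      rw [hu]; group
    · intro a _; exact bot_inf_eq _
    · intro a ha
      rw [bot_sup_eq]
      apply inf_eq_right.mpr
      intro c hc
      rw [hcent] at hc
      rw [← hN]
      apply hmemN c a ha
      have : c * a * c⁻¹ = a := by rw [← hc]; group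
      rw [this]; exact ha
    · intro a _ b _
      simp
  · intro hD
    have hCL : ∀ a ∈ A, Subgroup.centralizer ({a} : Set G) ≤ L := by
      intro a ha
      have := hD.sup_eq a ha
      rw [bot_sup_eq] at this
      rw [← this]; exact inf_le_left
    have hfus : ∀ g : G, ∀ a ∈ A, g * a * g⁻¹ ∈ A → g ∈ L := by
      intro g a ha hga
      obtain ⟨x, hx, hxe⟩ := hD.fusion a ha g hga
      have h2 : x⁻¹ * g ∈ Subgroup.centralizer ({a} : Set G) := by
        rw [hcent]
        have h3 : a = x⁻¹ * (g * a * g⁻¹) * x := by rw [← hxe]; group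
        have h4 : x⁻¹ * g * a = x⁻¹ * (g * a * g⁻¹) * x * (x⁻¹ * g) := by group
        rw [h4, ← h3]
      have h5 := L.mul_mem hx (hCL a ha h2)
      have h6 : x * (x⁻¹ * g) = g := by group
      rwa [h6] at h5
    have hN : Subgroup.normalizer A = L := by
      apply le_antisymm
      · intro g hg
        obtain ⟨a, ha⟩ := hA
        exact hfus g a ha ((Subgroup.mem_set_normalizer_iff.mp hg a).mp ha)
      · intro x hx
        rw [Subgroup.mem_set_normalizer_iff]
        intro a
        constructor
        · intro ha; exact hD.conj_mem x hx a ha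
        · intro hxa
          have := hD.conj_mem x⁻¹ (L.inv_mem hx) _ hxa
          have h6 : x⁻¹ * (x * a * x⁻¹) * x⁻¹⁻¹ = a := by group
          rwa [h6] at this
    refine ⟨?_, hN⟩
    intro g hg x hx hgx
    rw [hN] at hg
    exact absurd (hfus g x hx hgx) hg

end Cfsg.Agent.S1497
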