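import Cfsg.Statements.S1498
import Cfsg.Agent.Lib.Helper2.Hall
-- import your own Cfsg.Agent.* helpers here

set_option autoImplicit false
open Cfsg

namespace Cfsg.Agent.S1498

open Cfsg.Agent.Lib.Helper2

/-- Under the Dade hypothesis for (A, L, H): for a ∈ A and x ∈ L, the subgroup attached to x * a * x⁻¹ is the conjugate of H a by x. -/
theorem result {G : Type*} [Group G] [Finite G] (A : Set G) (L : Subgroup G) (H : G → Subgroup G) (hD : Cfsg.DadeHypothesis A L H) (a : G) (ha : a ∈ A) (x : G) (hx : x ∈ L) : H (x * a * x⁻¹) = (H a).map (MulAut.conj x).toMonoidHom := by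
  have hcent : ∀ (a c : G), c ∈ Subgroup.centralizer ({a} : Set G) ↔ a * c = c * a := by
    intro a c
    rw [Subgroup.mem_centralizer_iff]
    constructor
    · intro h; exact h a rfl
    · intro h x hx; rw [Set.mem_singleton_iff] at hx; rw [hx]; exact h
  have key : ∀ b ∈ A, ∀ y ∈ Subgroup.centralizer ({b} : Set G),
      (orderOf y).Coprime (Nat.card ↥(L ⊓ Subgroup.centralizer ({b} : Set G))) → y ∈ H b := by
    intro b hb y hy hcop
    exact mem_of_normalized_sup_coprime (H b) (L ⊓ Subgroup.centralizer ({b} : Set G))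
      (Subgroup.centralizer ({b} : Set G)) (hD.le_centralizer b hb) inf_le_right
      (hD.conj_mem_H b hb) (hD.sup_eq b hb) y hy hcop
  have ha' : x * a * x⁻¹ ∈ A := hD.conj_mem x hx a ha
  have hord : ∀ (b : G) (u : G), u ∈ H b → orderOf u ∣ Nat.card (H b) := by
    intro b u hu
    have := orderOf_dvd_natCard (⟨u, hu⟩ : H b)
    rwa [Subgroup.orderOf_mk] at this
  apply le_antisymm
  · intro v hv
    rw [Subgroup.mem_map]
    refine ⟨x⁻¹ * v * x, ?_, ?_⟩
    · apply key a ha
      · rw [hcent]
        have h1 := (hcent _ _).mp (hD.le_centralizer _ ha' hv)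
        have h2 : a * (x⁻¹ * v * x) = x⁻¹ * (x * a * x⁻¹ * v) * x := by group
        have h3 : x⁻¹ * v * x * a = x⁻¹ * (v * (x * a * x⁻¹)) * x := by group
        rw [h2, h3, h1]
      · have h1 : orderOf (x⁻¹ * v * x) = orderOf v := by
          have := (MulAut.conj x⁻¹).orderOf_eq v
          rwa [MulAut.conj_apply, inv_inv] at this
        rw [h1]
        exact Nat.Coprime.coprime_dvd_left (hord _ v hv) (hD.coprime _ ha' a ha)
    · show x * (x⁻¹ * v * x) * x⁻¹ = v
      group
  · rintro _ ⟨u, hu, rfl⟩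
    show x * u * x⁻¹ ∈ H (x * a * x⁻¹)
    apply key _ ha'
    · rw [hcent]
      have h1 := (hcent _ _).mp (hD.le_centralizer _ ha hu)
      have h2 : x * a * x⁻¹ * (x * u * x⁻¹) = x * (a * u) * x⁻¹ := by group
      have h3 : x * u * x⁻¹ * (x * a * x⁻¹) = x * (u * a) * x⁻¹ := by group
      rw [h2, h3, h1]
    · have h1 : orderOf (x * u * x⁻¹) = orderOf u := (MulAut.conj x).orderOf_eq u
      rw [h1]
      exact Nat.Coprime.coprime_dvd_left (hord _ u hu) (hD.coprime a ha _ ha')

end Cfsg.Agent.S1498
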