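import Cfsg.Statements.S1499
import Cfsg.Agent.Lib.Helper2.Hall
-- import your own Cfsg.Agent.* helpers here

set_option autoImplicit false
open Cfsg

namespace Cfsg.Agent.S1499

open Cfsg.Agent.Lib.Helper2

/-- Under the Dade hypothesis for (A, L, H), let a, b ∈ A. If an element of the coset a·H(a) is conjugate in G to an element of b·H(b), then a and b are conjugate by an element of L. Moreover the set normaliser of the coset a·H(a) is the centraliser of a. -/
theorem result {G : Type*} [Group G] [Finite G] (A : Set G) (L : Subgroup G) (H : G → Subgroup G) (hD : Cfsg.DadeHypothesis A L H) (a b : G) (ha : a ∈ A) (hb : b ∈ A) : ((∃ u ∈ H a, ∃ v ∈ H b, ∃ g : G, g * (a * u) * g⁻¹ = b * v) → ∃ x ∈ L, x * a * x⁻¹ = b) ∧ Subgroup.normalizer ((fun u : G => a * u) '' (H a : Set G)) = Subgroup.centralizer ({a} : Set G) := by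
  have hcent := @mem_centralizer_singleton_iff' G _
  have hoA : ∀ c ∈ A, orderOf c ∣ Nat.card ↥(L ⊓ Subgroup.centralizer ({c} : Set G)) := by
    intro c hc
    apply orderOf_dvd_card_of_mem
    exact ⟨hD.subset hc, (hcent c c).mpr rfl⟩
  have hcomm : ∀ c ∈ A, ∀ w ∈ H c, Commute c w := by
    intro c hc w hw
    exact (hcent c w).mp (hD.le_centralizer c hc hw)
  have hcop : ∀ c ∈ A, ∀ d ∈ A, ∀ w ∈ H c, (orderOf d).Coprime (orderOf w) := by
    intro c hc d hd w hw
    exact (Nat.Coprime.coprime_dvd_left (orderOf_dvd_card_of_mem _ w hw)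
      (Nat.Coprime.coprime_dvd_right (hoA d hd) (hD.coprime c hc d hd))).symm
  constructor
  · rintro ⟨u, hu, v, hv, g, hg⟩
    have h1 : orderOf (a * u) = orderOf a * orderOf u :=
      (hcomm a ha u hu).orderOf_mul_eq_mul_orderOf_of_coprime (hcop a ha a ha u hu)
    have h2 : orderOf (b * v) = orderOf b * orderOf v :=
      (hcomm b hb v hv).orderOf_mul_eq_mul_orderOf_of_coprime (hcop b hb b hb v hv)
    have h3 : orderOf a * orderOf u = orderOf b * orderOf v := by
      rw [← h1, ← h2, ← hg, orderOf_conj']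
    have h4 : orderOf a ∣ orderOf b :=
      (hcop b hb a ha v hv).dvd_of_dvd_mul_right ⟨orderOf u, h3.symm⟩
    have h5 : orderOf b ∣ orderOf a :=
      (hcop a ha b hb u hu).dvd_of_dvd_mul_right ⟨orderOf v, h3⟩
    have h6 : orderOf a = orderOf b := Nat.dvd_antisymm h4 h5
    have h7 : orderOf u = orderOf v := by
      rw [h6] at h3
      exact Nat.eq_of_mul_eq_mul_left (orderOf_pos b) h3
    have e1 := mul_pow_crt (hcop a ha a ha u hu) a u (hcomm a ha u hu) dvd_rfl dvd_rfl
    have e2 := mul_pow_crt (hcop a ha a ha u hu) b v (hcomm b hb v hv) (h6 ▸ dvd_rfl)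
      (h7 ▸ dvd_rfl)
    have h8 : g * a * g⁻¹ = b := by
      rw [← e2, ← hg, conj_pow, e1]
    obtain ⟨x, hx, hxe⟩ := hD.fusion a ha g (h8 ▸ hb)
    exact ⟨x, hx, hxe.trans h8⟩
  · apply le_antisymm
    · intro g hg
      rw [Subgroup.mem_set_normalizer_iff] at hg
      have h1 : a ∈ (fun u : G => a * u) '' (H a : Set G) := ⟨1, (H a).one_mem, mul_one a⟩
      obtain ⟨u, hu, hue⟩ := (hg a).mp h1
      have hu' : u ∈ H a := hu
      have hue' : a * u = g * a * g⁻¹ := hue
      have h2 : orderOf a * orderOf u = orderOf a := by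
        rw [← (hcomm a ha u hu').orderOf_mul_eq_mul_orderOf_of_coprime (hcop a ha a ha u hu'),
          hue', orderOf_conj']
      have h3 : orderOf u = 1 := by
        have := Nat.eq_of_mul_eq_mul_left (orderOf_pos a) (h2.trans (mul_one _).symm)
        exact this
      rw [orderOf_eq_one_iff] at h3
      rw [h3, mul_one] at hue'
      rw [hcent]
      have : a * g = g * a * g⁻¹ * g := by rw [← hue']
      rw [this]; group
    · intro c hc
      have hconj : ∀ c ∈ Subgroup.centralizer ({a} : Set G),
          ∀ s ∈ (fun u : G => a * u) '' (H a : Set G),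
          c * s * c⁻¹ ∈ (fun u : G => a * u) '' (H a : Set G) := by
        rintro c hc _ ⟨u, hu, rfl⟩
        refine ⟨c * u * c⁻¹, hD.conj_mem_H a ha c hc u hu, ?_⟩
        have h1 := (hcent a c).mp hc
        show a * (c * u * c⁻¹) = c * (a * u) * c⁻¹
        have : c * (a * u) * c⁻¹ = (c * a) * u * c⁻¹ := by group
        rw [this, ← h1]; group
      rw [Subgroup.mem_set_normalizer_iff]
      intro s
      constructor
      · exact hconj c hc s
      · intro hs
        have := hconj c⁻¹ (Subgroup.inv_mem _ hc) _ hs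
        have e : c⁻¹ * (c * s * c⁻¹) * c⁻¹⁻¹ = s := by group
        rwa [e] at this

end Cfsg.Agent.S1499
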