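import Cfsg.Statements.S1504
-- import your own Cfsg.Agent.* helpers here
import Cfsg.Agent.Lib.Helper7.Coprime

set_option autoImplicit false
open Cfsg

namespace Cfsg.Agent.S1504


open Cfsg.Agent.Lib.Helper7

/-- Let W₁, W₂ be subgroups of a finite group with W₁ ⊓ W₂ = ⊥ whose elements commute, and W = W₁ ⊔ W₂. For linear characters φ, ψ of W with φ trivial on W₂ and ψ trivial on W₁, the function (1 − φ)(1 − ψ) vanishes on W₁ ∪ W₂; and the family of these functions, indexed by pairs (φ, ψ) with φ ≠ 1 ≠ ψ, is linearly independent over ℂ. -/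
theorem result {G : Type*} [Group G] [Finite G] (W₁ W₂ : Subgroup G) (hdisj : W₁ ⊓ W₂ = ⊥) (hcomm : ∀ a ∈ W₁, ∀ b ∈ W₂, a * b = b * a) : (∀ φ ψ : ↥(W₁ ⊔ W₂) →* ℂˣ, (∀ w : ↥(W₁ ⊔ W₂), (w : G) ∈ W₂ → φ w = 1) → (∀ w : ↥(W₁ ⊔ W₂), (w : G) ∈ W₁ → ψ w = 1) → ∀ w : ↥(W₁ ⊔ W₂), ((w : G) ∈ W₁ ∨ (w : G) ∈ W₂) → (1 - (φ w : ℂ) - (ψ w : ℂ) + (φ w : ℂ) * (ψ w : ℂ)) = 0) ∧ LinearIndependent ℂ (fun p : {p : (↥(W₁ ⊔ W₂) →* ℂˣ) × (↥(W₁ ⊔ W₂) →* ℂˣ) // p.1 ≠ 1 ∧ p.2 ≠ 1 ∧ (∀ w : ↥(W₁ ⊔ W₂), (w : G) ∈ W₂ → p.1 w = 1) ∧ (∀ w : ↥(W₁ ⊔ W₂), (w : G) ∈ W₁ → p.2 w = 1)} => fun w : ↥(W₁ ⊔ W₂) => 1 - (p.1.1 w : ℂ) - (p.1.2 w : ℂ) + (p.1.1 w : ℂ) * (p.1.2 w : ℂ)) := by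
  classical
  constructor
  · intro φ ψ hφ hψ w hw
    rcases hw with h | h
    · rw [hψ w h, Units.val_one]; ring
    · rw [hφ w h, Units.val_one]; ring
  · have hnorm : W₂ ≤ Subgroup.normalizer (W₁ : Set G) := by
      intro b hb
      rw [Subgroup.mem_normalizer_iff]
      intro h
      constructor
      · intro hh
        have e : b * h * b⁻¹ = h := by rw [← hcomm h hh b hb, mul_inv_cancel_right]
        rw [e]; exact hh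
      · intro hh
        have e : h = b⁻¹ * (b * h * b⁻¹) * b := by group
        have e2 : b⁻¹ * (b * h * b⁻¹) * b = b * h * b⁻¹ := by
          rw [mul_assoc, hcomm _ hh b hb, inv_mul_cancel_left]
        rw [e, e2]; exact hh
    have hD : ∀ w : ↥(W₁ ⊔ W₂), ∃ a b : ↥(W₁ ⊔ W₂), (a : G) ∈ W₁ ∧ (b : G) ∈ W₂ ∧ w = a * b := by
      rintro ⟨w, hw⟩
      obtain ⟨a, ha, b, hb, rfl⟩ := exists_mul_of_mem_sup hnorm hw
      exact ⟨⟨a, Subgroup.mem_sup_left ha⟩, ⟨b, Subgroup.mem_sup_right hb⟩, ha, hb, rfl⟩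
    obtain ⟨toC, htoC⟩ : ∃ toC : (↥(W₁ ⊔ W₂) →* ℂˣ) → (↥(W₁ ⊔ W₂) →* ℂ),
        ∀ φ w, toC φ w = (φ w : ℂ) := ⟨fun φ => (Units.coeHom ℂ).comp φ, fun φ w => rfl⟩
    have hinj : Function.Injective toC := by
      intro a b h
      ext w
      have h1 := DFunLike.congr_fun h w
      rw [htoC, htoC] at h1
      exact h1
    have hLI := linearIndependent_monoidHom (↥(W₁ ⊔ W₂)) ℂ
    rw [linearIndependent_iff']
    intro s g hsum p₀ hp₀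
    obtain ⟨l, hl⟩ : ∃ l : (↥(W₁ ⊔ W₂) →* ℂ) →₀ ℂ, l = ∑ p ∈ s,
        (Finsupp.single (toC 1) (g p) - Finsupp.single (toC p.1.1) (g p)
          - Finsupp.single (toC p.1.2) (g p) + Finsupp.single (toC (p.1.1 * p.1.2)) (g p)) :=
      ⟨_, rfl⟩
    have h1 : Finsupp.linearCombination ℂ
        (fun f : ↥(W₁ ⊔ W₂) →* ℂ => (f : ↥(W₁ ⊔ W₂) → ℂ)) l = 0 := by
      rw [hl]
      simp only [map_sum, map_add, map_sub, Finsupp.linearCombination_single]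
      rw [← hsum]
      apply Finset.sum_congr rfl
      intro p _
      funext w
      simp only [Pi.add_apply, Pi.sub_apply, Pi.smul_apply, smul_eq_mul, htoC, map_one,
        Units.val_one, MonoidHom.mul_apply, Units.val_mul, MonoidHom.one_apply]
      ring
    have h2 : l = 0 := (linearIndependent_iff.mp hLI) l h1
    have h3 : l (toC (p₀.1.1 * p₀.1.2)) = 0 := by rw [h2]; rfl
    rw [hl] at h3
    simp only [Finsupp.finset_sum_apply, Finsupp.add_apply, Finsupp.sub_apply,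
      Finsupp.single_apply] at h3
    -- structural claims
    have hA : ∀ p : {p : (↥(W₁ ⊔ W₂) →* ℂˣ) × (↥(W₁ ⊔ W₂) →* ℂˣ) // p.1 ≠ 1 ∧ p.2 ≠ 1 ∧
        (∀ w : ↥(W₁ ⊔ W₂), (w : G) ∈ W₂ → p.1 w = 1) ∧
        (∀ w : ↥(W₁ ⊔ W₂), (w : G) ∈ W₁ → p.2 w = 1)},
        ∃ a : ↥(W₁ ⊔ W₂), (a : G) ∈ W₁ ∧ p.1.1 a ≠ 1 := by
      intro p
      by_contra hcon
      push Not at hcon
      apply p.2.1
      ext w
      obtain ⟨a, b, ha, hb, rfl⟩ := hD w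
      rw [map_mul, p.2.2.2.1 b hb, hcon a ha]
      simp
    have hB : ∀ p : {p : (↥(W₁ ⊔ W₂) →* ℂˣ) × (↥(W₁ ⊔ W₂) →* ℂˣ) // p.1 ≠ 1 ∧ p.2 ≠ 1 ∧
        (∀ w : ↥(W₁ ⊔ W₂), (w : G) ∈ W₂ → p.1 w = 1) ∧
        (∀ w : ↥(W₁ ⊔ W₂), (w : G) ∈ W₁ → p.2 w = 1)},
        ∃ b : ↥(W₁ ⊔ W₂), (b : G) ∈ W₂ ∧ p.1.2 b ≠ 1 := by
      intro p
      by_contra hcon
      push Not at hcon
      apply p.2.2.1
      ext w
      obtain ⟨a, b, ha, hb, rfl⟩ := hD w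
      rw [map_mul, p.2.2.2.2 a ha, hcon b hb]
      simp
    obtain ⟨a₀, ha₀, hφa₀⟩ := hA p₀
    obtain ⟨b₀, hb₀, hψb₀⟩ := hB p₀
    have c1 : ¬ toC 1 = toC (p₀.1.1 * p₀.1.2) := by
      intro h
      have h' := DFunLike.congr_fun (hinj h) b₀
      rw [MonoidHom.mul_apply, p₀.2.2.2.1 b₀ hb₀, one_mul, MonoidHom.one_apply] at h'
      exact hψb₀ h'.symm
    have c2 : ∀ p : {p : (↥(W₁ ⊔ W₂) →* ℂˣ) × (↥(W₁ ⊔ W₂) →* ℂˣ) // p.1 ≠ 1 ∧ p.2 ≠ 1 ∧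
        (∀ w : ↥(W₁ ⊔ W₂), (w : G) ∈ W₂ → p.1 w = 1) ∧
        (∀ w : ↥(W₁ ⊔ W₂), (w : G) ∈ W₁ → p.2 w = 1)},
        ¬ toC p.1.1 = toC (p₀.1.1 * p₀.1.2) := by
      intro p h
      have h' := DFunLike.congr_fun (hinj h) b₀
      rw [MonoidHom.mul_apply, p₀.2.2.2.1 b₀ hb₀, one_mul, p.2.2.2.1 b₀ hb₀] at h'
      exact hψb₀ h'.symm
    have c3 : ∀ p : {p : (↥(W₁ ⊔ W₂) →* ℂˣ) × (↥(W₁ ⊔ W₂) →* ℂˣ) // p.1 ≠ 1 ∧ p.2 ≠ 1 ∧
        (∀ w : ↥(W₁ ⊔ W₂), (w : G) ∈ W₂ → p.1 w = 1) ∧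
        (∀ w : ↥(W₁ ⊔ W₂), (w : G) ∈ W₁ → p.2 w = 1)},
        ¬ toC p.1.2 = toC (p₀.1.1 * p₀.1.2) := by
      intro p h
      have h' := DFunLike.congr_fun (hinj h) a₀
      rw [MonoidHom.mul_apply, p₀.2.2.2.2 a₀ ha₀, mul_one, p.2.2.2.2 a₀ ha₀] at h'
      exact hφa₀ h'.symm
    have c4 : ∀ p : {p : (↥(W₁ ⊔ W₂) →* ℂˣ) × (↥(W₁ ⊔ W₂) →* ℂˣ) // p.1 ≠ 1 ∧ p.2 ≠ 1 ∧
        (∀ w : ↥(W₁ ⊔ W₂), (w : G) ∈ W₂ → p.1 w = 1) ∧
        (∀ w : ↥(W₁ ⊔ W₂), (w : G) ∈ W₁ → p.2 w = 1)},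
        toC (p.1.1 * p.1.2) = toC (p₀.1.1 * p₀.1.2) → p = p₀ := by
      intro p h
      have h' := hinj h
      apply Subtype.ext
      apply Prod.ext
      · ext w
        obtain ⟨a, b, ha, hb, rfl⟩ := hD w
        have h4 := DFunLike.congr_fun h' a
        rw [MonoidHom.mul_apply, MonoidHom.mul_apply, p.2.2.2.2 a ha, p₀.2.2.2.2 a ha, mul_one,
          mul_one] at h4
        rw [map_mul, map_mul, p.2.2.2.1 b hb, p₀.2.2.2.1 b hb, h4]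
      · ext w
        obtain ⟨a, b, ha, hb, rfl⟩ := hD w
        have h4 := DFunLike.congr_fun h' b
        rw [MonoidHom.mul_apply, MonoidHom.mul_apply, p.2.2.2.1 b hb, p₀.2.2.2.1 b hb, one_mul,
          one_mul] at h4
        rw [map_mul, map_mul, p.2.2.2.2 a ha, p₀.2.2.2.2 a ha, h4]
    have hterm : ∀ p ∈ s, ((if toC 1 = toC (p₀.1.1 * p₀.1.2) then g p else 0)
        - (if toC p.1.1 = toC (p₀.1.1 * p₀.1.2) then g p else 0)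
        - (if toC p.1.2 = toC (p₀.1.1 * p₀.1.2) then g p else 0)
        + (if toC (p.1.1 * p.1.2) = toC (p₀.1.1 * p₀.1.2) then g p else 0))
        = if p = p₀ then g p else 0 := by
      intro p _
      rw [if_neg c1, if_neg (c2 p), if_neg (c3 p)]
      by_cases hp : p = p₀
      · subst hp
        simp
      · rw [if_neg (fun h => hp (c4 p h)), if_neg hp]
        simp
    rw [Finset.sum_congr rfl hterm, Finset.sum_ite_eq', if_pos hp₀] at h3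
    exact h3

end Cfsg.Agent.S1504
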