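import Cfsg.Statements.S1509
import Cfsg.Agent.Lib.Helper2.CharAux
-- import your own Cfsg.Agent.* helpers here

set_option autoImplicit false
open Cfsg

namespace Cfsg.Agent.S1509

open Cfsg.Agent.Lib.Helper2 Cfsg.Agent.Lib.Lead
open scoped ComplexConjugate

/-- Let α, β, γ, δ be functions on a finite group X each of which is an irreducible character or the negative of one, and u, v nonzero real numbers. Suppose ⟨α, β⟩ = ⟨γ, δ⟩ = 0, ⟨α − β, uγ − vδ⟩ = 0, α 1 = β 1 and u γ 1 = v δ 1. Then also ⟨α, γ⟩ = ⟨α, δ⟩ = ⟨β, γ⟩ = ⟨β, δ⟩ = 0. -/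
theorem result {X : Type*} [Group X] [Fintype X] (α β γ δ : X → ℂ) (hα : Cfsg.IsIrrCharacter X α ∨ Cfsg.IsIrrCharacter X (-α)) (hβ : Cfsg.IsIrrCharacter X β ∨ Cfsg.IsIrrCharacter X (-β)) (hγ : Cfsg.IsIrrCharacter X γ ∨ Cfsg.IsIrrCharacter X (-γ)) (hδ : Cfsg.IsIrrCharacter X δ ∨ Cfsg.IsIrrCharacter X (-δ)) (u v : ℝ) (hu : u ≠ 0) (hv : v ≠ 0) (hab : Cfsg.classInner α β = 0) (hcd : Cfsg.classInner γ δ = 0) (hmix : Cfsg.classInner (α - β) ((u : ℂ) • γ - (v : ℂ) • δ) = 0) (h1 : α 1 = β 1) (h2 : (u : ℂ) * γ 1 = (v : ℂ) * δ 1) : Cfsg.classInner α γ = 0 ∧ Cfsg.classInner α δ = 0 ∧ Cfsg.classInner β γ = 0 ∧ Cfsg.classInner β δ = 0 := by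
  have hexp : classInner (α - β) ((u : ℂ) • γ - (v : ℂ) • δ) =
      u * classInner α γ - v * classInner α δ - u * classInner β γ + v * classInner β δ := by
    rw [classInner_sub_left, classInner_sub_right, classInner_sub_right, classInner_smul_right,
      classInner_smul_right, classInner_smul_right, classInner_smul_right, Complex.conj_ofReal,
      Complex.conj_ofReal]
    ring
  rw [hexp] at hmix
  have hba : classInner β α = 0 := classInner_eq_zero_symm hab
  have hu' : (u : ℂ) ≠ 0 := Complex.ofReal_ne_zero.mpr hu
  have hv' : (v : ℂ) ≠ 0 := Complex.ofReal_ne_zero.mpr hv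
  have hα1 := signed_irr_one_ne_zero hα
  have hsgn : ∀ s : ℂ, (s = 1 ∨ s = -1) → s ≠ 0 ∧ conj s = s := by
    rintro s (rfl | rfl) <;> simp
  have stepA : classInner α γ ≠ 0 → False := by
    intro ha
    rcases signed_irr_cases hα hγ with h0 | ⟨s, hs, rfl⟩
    · exact ha h0
    · obtain ⟨hs0, hsc⟩ := hsgn s hs
      have hb : classInner α δ = 0 := by
        rw [classInner_smul_left] at hcd
        exact (mul_eq_zero.mp hcd).resolve_left hs0
      have hc : classInner β (s • α) = 0 := by rw [classInner_smul_right, hba, mul_zero]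
      have haa : classInner α (s • α) = s := by
        rw [classInner_smul_right, hsc, signed_irr_inner_self hα, mul_one]
      rw [haa, hb, hc] at hmix
      have hd : classInner β δ ≠ 0 := by
        intro h0
        rw [h0] at hmix
        have h3 : (u : ℂ) * s = 0 := by linear_combination hmix
        exact (mul_ne_zero hu' hs0) h3
      rcases signed_irr_cases hβ hδ with h0 | ⟨s', hs', rfl⟩
      · exact hd h0
      · obtain ⟨hs0', hsc'⟩ := hsgn s' hs'
        have hbb : classInner β (s' • β) = s' := by
          rw [classInner_smul_right, hsc', signed_irr_inner_self hβ, mul_one]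
        rw [hbb] at hmix
        simp only [Pi.smul_apply, smul_eq_mul] at h2
        rw [← h1] at h2
        have h3 : (u : ℂ) * s = v * s' := by
          apply mul_right_cancel₀ hα1
          linear_combination h2
        have h4 : (u : ℂ) * s = 0 := by linear_combination (1 / 2 : ℂ) * hmix + (1 / 2 : ℂ) * h3
        exact (mul_ne_zero hu' hs0) h4
  have stepB : classInner α δ ≠ 0 → False := by
    intro hb
    rcases signed_irr_cases hα hδ with h0 | ⟨s, hs, rfl⟩
    · exact hb h0
    · obtain ⟨hs0, hsc⟩ := hsgn s hs
      have ha : classInner α γ = 0 := by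
        rw [classInner_smul_right, hsc] at hcd
        exact classInner_eq_zero_symm ((mul_eq_zero.mp hcd).resolve_left hs0)
      have hd : classInner β (s • α) = 0 := by rw [classInner_smul_right, hba, mul_zero]
      have hbb : classInner α (s • α) = s := by
        rw [classInner_smul_right, hsc, signed_irr_inner_self hα, mul_one]
      rw [ha, hd, hbb] at hmix
      have hc : classInner β γ ≠ 0 := by
        intro h0
        rw [h0] at hmix
        have h3 : (v : ℂ) * s = 0 := by linear_combination -hmix
        exact (mul_ne_zero hv' hs0) h3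
      rcases signed_irr_cases hβ hγ with h0 | ⟨s', hs', rfl⟩
      · exact hc h0
      · obtain ⟨hs0', hsc'⟩ := hsgn s' hs'
        have hcc : classInner β (s' • β) = s' := by
          rw [classInner_smul_right, hsc', signed_irr_inner_self hβ, mul_one]
        rw [hcc] at hmix
        simp only [Pi.smul_apply, smul_eq_mul] at h2
        rw [← h1] at h2
        have h3 : (u : ℂ) * s' = v * s := by
          apply mul_right_cancel₀ hα1
          linear_combination h2
        have h4 : (v : ℂ) * s = 0 := by linear_combination (-1 / 2 : ℂ) * hmix - (1 / 2 : ℂ) * h3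
        exact (mul_ne_zero hv' hs0) h4
  have stepC : classInner β γ ≠ 0 → False := by
    intro hc
    rcases signed_irr_cases hβ hγ with h0 | ⟨s', hs', rfl⟩
    · exact hc h0
    · obtain ⟨hs0', hsc'⟩ := hsgn s' hs'
      have ha : classInner α (s' • β) = 0 := by rw [classInner_smul_right, hab, mul_zero]
      have hd : classInner β δ = 0 := by
        rw [classInner_smul_left] at hcd
        exact (mul_eq_zero.mp hcd).resolve_left hs0'
      have hcc : classInner β (s' • β) = s' := by
        rw [classInner_smul_right, hsc', signed_irr_inner_self hβ, mul_one]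
      rw [ha, hd, hcc] at hmix
      apply stepB
      intro h0
      rw [h0] at hmix
      have h3 : (u : ℂ) * s' = 0 := by linear_combination -hmix
      exact (mul_ne_zero hu' hs0') h3
  have stepD : classInner β δ ≠ 0 → False := by
    intro hd
    rcases signed_irr_cases hβ hδ with h0 | ⟨s', hs', rfl⟩
    · exact hd h0
    · obtain ⟨hs0', hsc'⟩ := hsgn s' hs'
      have hb : classInner α (s' • β) = 0 := by rw [classInner_smul_right, hab, mul_zero]
      have hc : classInner β γ = 0 := by
        rw [classInner_smul_right, hsc'] at hcd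
        exact classInner_eq_zero_symm ((mul_eq_zero.mp hcd).resolve_left hs0')
      have hdd : classInner β (s' • β) = s' := by
        rw [classInner_smul_right, hsc', signed_irr_inner_self hβ, mul_one]
      rw [hb, hc, hdd] at hmix
      apply stepA
      intro h0
      rw [h0] at hmix
      have h3 : (v : ℂ) * s' = 0 := by linear_combination hmix
      exact (mul_ne_zero hv' hs0') h3
  exact ⟨not_not.mp stepA, not_not.mp stepB, not_not.mp stepC, not_not.mp stepD⟩

end Cfsg.Agent.S1509
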