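import Cfsg.Statements.S1512
import Cfsg.Agent.Lib.Helper2.SZCyclic
-- import your own Cfsg.Agent.* helpers here

set_option autoImplicit false
open Cfsg

namespace Cfsg.Agent.S1512

open Cfsg.Agent.Lib.Helper2

/-- Let K be a normal subgroup of the finite group L and x a non-identity element whose order is coprime to the order of K, such that K ⊓ C_L(y) = W₂ for every non-identity element y of the cyclic group generated by x. Then the number of conjugacy classes of K mapped to themselves by conjugation by x is at most Nat.card W₂. -/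
theorem result {L : Type*} [Group L] [Finite L] (K W₂ : Subgroup L) [hK : K.Normal] (x : L) (hx1 : x ≠ 1) (hx : Nat.Coprime (orderOf x) (Nat.card K)) (hC : ∀ y ∈ Subgroup.zpowers x, y ≠ 1 → K ⊓ Subgroup.centralizer ({y} : Set L) = W₂) : Nat.card {C : ConjClasses K // ConjClasses.map (MulEquiv.toMonoidHom ((MulAut.conjNormal x : MulAut K))) C = C} ≤ Nat.card W₂ := by
  have hW : K ⊓ Subgroup.centralizer ({x} : Set L) = W₂ := hC x (Subgroup.mem_zpowers x) hx1
  have hmemW : ∀ w ∈ W₂, w ∈ K ∧ x * w = w * x := by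
    intro w hw
    rw [← hW] at hw
    exact ⟨hw.1, (mem_centralizer_singleton_iff' x w).mp hw.2⟩
  have hfix : ∀ w : ↥W₂, ConjClasses.map (MulEquiv.toMonoidHom ((MulAut.conjNormal x : MulAut K)))
      (ConjClasses.mk (⟨(w : L), (hmemW w w.2).1⟩ : K)) = ConjClasses.mk ⟨(w : L), (hmemW w w.2).1⟩ := by
    intro w
    show ConjClasses.mk ((MulAut.conjNormal x : MulAut K) ⟨(w : L), (hmemW w w.2).1⟩) =
      ConjClasses.mk _
    congr 1
    apply Subtype.ext
    rw [MulAut.conjNormal_apply]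
    show x * (w : L) * x⁻¹ = w
    rw [(hmemW w w.2).2]; group
  apply Nat.card_le_card_of_surjective
    (fun w : ↥W₂ => (⟨ConjClasses.mk ⟨(w : L), (hmemW w w.2).1⟩, hfix w⟩ :
      {C : ConjClasses K // ConjClasses.map (MulEquiv.toMonoidHom
        ((MulAut.conjNormal x : MulAut K))) C = C}))
  rintro ⟨C, hCfix⟩
  obtain ⟨k, rfl⟩ := ConjClasses.exists_rep C
  have h1 : ConjClasses.mk ((MulAut.conjNormal x : MulAut K) k) = ConjClasses.mk k := hCfix
  obtain ⟨t, ht⟩ := isConj_iff.mp (ConjClasses.mk_eq_mk_iff_isConj.mp h1)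
  have ht' : (t : L) * (x * (k : L) * x⁻¹) * (t : L)⁻¹ = k := by
    have := congrArg Subtype.val ht
    rwa [Subgroup.coe_mul, Subgroup.coe_mul, MulAut.conjNormal_apply, Subgroup.coe_inv] at this
  obtain ⟨y, hy, c, hc, hcx, hye⟩ := coset_conj K x (t : L) hx t.2
  have hcomm1 : (c * x) * (y * (k : L) * y⁻¹) = (y * (k : L) * y⁻¹) * (c * x) := by
    rw [← hye]
    have e1 : y * ((t : L) * x) * y⁻¹ * (y * (k : L) * y⁻¹) =
        y * ((t : L) * (x * (k : L) * x⁻¹) * (t : L)⁻¹) * y⁻¹ * (y * ((t : L) * x) * y⁻¹) := by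
      group
    rw [e1, ht']
  have hxc : Commute x c := hcx.symm
  have hpow := mul_pow_crt hx x c hxc dvd_rfl (orderOf_dvd_card_of_mem K c hc)
  have hcomm2 : x * (y * (k : L) * y⁻¹) = (y * (k : L) * y⁻¹) * x := by
    have h2 : Commute (x * c) (y * (k : L) * y⁻¹) := by
      have : x * c = c * x := hcx.symm
      rw [this]; exact hcomm1
    have h3 := h2.pow_left ((Nat.chineseRemainder hx 1 0 : ℕ))
    rw [hpow] at h3
    exact h3
  have hk'K : y * (k : L) * y⁻¹ ∈ K := hK.conj_mem _ k.2 y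
  have hk'W : y * (k : L) * y⁻¹ ∈ W₂ := by
    rw [← hW]
    exact ⟨hk'K, (mem_centralizer_singleton_iff' x _).mpr hcomm2⟩
  refine ⟨⟨y * (k : L) * y⁻¹, hk'W⟩, ?_⟩
  apply Subtype.ext
  show ConjClasses.mk (⟨y * (k : L) * y⁻¹, _⟩ : K) = ConjClasses.mk k
  rw [ConjClasses.mk_eq_mk_iff_isConj, isConj_iff]
  refine ⟨⟨y, hy⟩⁻¹, ?_⟩
  apply Subtype.ext
  show y⁻¹ * (y * (k : L) * y⁻¹) * y⁻¹⁻¹ = k
  group

end Cfsg.Agent.S1512
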