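import Cfsg.Statements.S1514
import Cfsg.Agent.Lib.Helper2.CharAux2
-- import your own Cfsg.Agent.* helpers here

set_option autoImplicit false
open Cfsg

namespace Cfsg.Agent.S1514

open Cfsg.Agent.Lib.Helper2 Cfsg.Agent.Lib.Lead
open scoped ComplexConjugate

/-- Let S be a nonempty set of irreducible characters of the finite group L, closed under complex conjugation and containing no real-valued member, and τ a linear isometry on the integer combinations of S vanishing at 1, with values virtual characters of G vanishing at 1. Then there is a choice R making (S, τ, R) a coherence system. -/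
theorem result {L : Type*} [Group L] [Fintype L] {G : Type*} [Group G] [Fintype G] (S : Set (L → ℂ)) (hS : S.Nonempty) (hirr : ∀ χ ∈ S, Cfsg.IsIrrCharacter L χ) (hconj : ∀ χ ∈ S, Cfsg.conjFun χ ∈ S ∧ Cfsg.conjFun χ ≠ χ) (τ : (L → ℂ) → (G → ℂ)) (hτ : Cfsg.IsLinearIsometryOn (Cfsg.zspanOn S {1}ᶜ) τ) (hτ1 : ∀ α ∈ Cfsg.zspanOn S {1}ᶜ, τ α 1 = 0) : ∃ R : (L → ℂ) → Finset (G → ℂ), Cfsg.IsCoherenceSystem S τ R := by
  classical
  obtain ⟨hadd, hsmul, hinner, hgen⟩ := hτ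
  have hreal : ∀ χ ∈ S, conj (χ 1) = χ 1 := by
    intro χ hχ
    obtain ⟨d, -, hd⟩ := irr_degree_pos (hirr χ hχ)
    rw [hd]; simp
  have hmem : ∀ χ ∈ S, χ - Cfsg.conjFun χ ∈ Cfsg.zspanOn S {1}ᶜ := by
    intro χ hχ
    refine ⟨Submodule.sub_mem _ (Submodule.subset_span hχ)
      (Submodule.subset_span (hconj χ hχ).1), ?_⟩
    intro x hx
    have hx1 : x = 1 := by simpa using hx
    subst hx1
    show χ 1 - conj (χ 1) = 0
    rw [hreal χ hχ, sub_self]
  have hnorm : ∀ χ ∈ S, Cfsg.classInner (χ - Cfsg.conjFun χ) (χ - Cfsg.conjFun χ) = 2 := by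
    intro χ hχ
    have hc := hconj χ hχ
    rw [classInner_sub_left, classInner_sub_right, classInner_sub_right,
      irr_orthonormal (hirr χ hχ) (hirr χ hχ), irr_orthonormal (hirr χ hχ) (hirr _ hc.1),
      irr_orthonormal (hirr _ hc.1) (hirr χ hχ), irr_orthonormal (hirr _ hc.1) (hirr _ hc.1),
      if_pos rfl, if_pos rfl, if_neg (Ne.symm hc.2), if_neg hc.2]
    norm_num
  have key : ∀ χ ∈ S, ∃ ψ₁ ψ₂ : G → ℂ, Cfsg.IsIrrCharacter G ψ₁ ∧ Cfsg.IsIrrCharacter G ψ₂ ∧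
      ψ₁ ≠ ψ₂ ∧ τ (χ - Cfsg.conjFun χ) = ψ₁ - ψ₂ := by
    intro χ hχ
    apply genChar_norm_two (hgen _ (hmem χ hχ))
    · rw [hinner _ (hmem χ hχ) _ (hmem χ hχ), hnorm χ hχ]
    · exact hτ1 _ (hmem χ hχ)
  choose! ψ₁ ψ₂ h₁ h₂ hne hτeq using key
  have hne' : ∀ χ ∈ S, ψ₁ χ ≠ -ψ₂ χ := by
    intro χ hχ heq
    obtain ⟨d1, hd1, e1⟩ := irr_degree_pos (h₁ χ hχ)
    obtain ⟨d2, hd2, e2⟩ := irr_degree_pos (h₂ χ hχ)
    have h3 := congrFun heq 1
    rw [Pi.neg_apply, e1, e2] at h3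
    have h4 : ((d1 + d2 : ℕ) : ℂ) = 0 := by push_cast; linear_combination h3
    have h5 : d1 + d2 = 0 := by exact_mod_cast h4
    omega
  refine ⟨fun χ => {ψ₁ χ, -ψ₂ χ}, ?_⟩
  refine { nonempty := hS, isCharacter := fun χ hχ => isCharacter_of_isIrrCharacter (hirr χ hχ),
           conj_mem := fun χ hχ => (hconj χ hχ).1, conj_ne := fun χ hχ => (hconj χ hχ).2,
           isometry := ⟨hadd, hsmul, hinner, hgen⟩, map_one := hτ1, orthogonal := ?_,
           orthonormal := ?_, virtual := ?_, sum_eq := ?_, disjoint := ?_ }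
  · intro χ hχ φ hφ hne
    rw [irr_orthonormal (hirr χ hχ) (hirr φ hφ), if_neg hne]
  · intro χ hχ α hα β hβ
    simp only [Finset.mem_insert, Finset.mem_singleton] at hα hβ
    have e11 : Cfsg.classInner (ψ₁ χ) (ψ₁ χ) = 1 := by
      rw [irr_orthonormal (h₁ χ hχ) (h₁ χ hχ), if_pos rfl]
    have e22 : Cfsg.classInner (ψ₂ χ) (ψ₂ χ) = 1 := by
      rw [irr_orthonormal (h₂ χ hχ) (h₂ χ hχ), if_pos rfl]
    have e12 : Cfsg.classInner (ψ₁ χ) (ψ₂ χ) = 0 := by
      rw [irr_orthonormal (h₁ χ hχ) (h₂ χ hχ), if_neg (hne χ hχ)]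
    have e21 : Cfsg.classInner (ψ₂ χ) (ψ₁ χ) = 0 := by
      rw [irr_orthonormal (h₂ χ hχ) (h₁ χ hχ), if_neg (Ne.symm (hne χ hχ))]
    rcases hα with rfl | rfl <;> rcases hβ with rfl | rfl
    · rw [if_pos rfl, e11]
    · rw [if_neg (hne' χ hχ), classInner_neg_right, e12, neg_zero]
    · rw [if_neg (Ne.symm (hne' χ hχ)), classInner_neg_left, e21, neg_zero]
    · rw [if_pos rfl, classInner_neg_left, classInner_neg_right, e22, neg_neg]
  · intro χ hχ α hα
    simp only [Finset.mem_insert, Finset.mem_singleton] at hα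
    rcases hα with rfl | rfl
    · exact isGenChar_of_isCharacter (isCharacter_of_isIrrCharacter (h₁ χ hχ))
    · exact isGenChar_neg_of_isCharacter (isCharacter_of_isIrrCharacter (h₂ χ hχ))
  · intro χ hχ
    rw [Finset.sum_pair (hne' χ hχ), hτeq χ hχ, sub_eq_add_neg]
  · intro χ hχ φ hφ h0 h0' α hα β hβ
    have hz : Cfsg.classInner (ψ₁ φ - ψ₂ φ) (ψ₁ χ - ψ₂ χ) = 0 := by
      rw [← hτeq φ hφ, ← hτeq χ hχ, hinner _ (hmem φ hφ) _ (hmem χ hχ)]
      simp only [classInner_sub_left, classInner_sub_right, h0, h0', classInner_conjFun_conjFun,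
        classInner_conjFun_left, conjFun_conjFun, map_zero, sub_zero]
    rw [classInner_sub_left, classInner_sub_right, classInner_sub_right,
      irr_orthonormal (h₁ φ hφ) (h₁ χ hχ), irr_orthonormal (h₁ φ hφ) (h₂ χ hχ),
      irr_orthonormal (h₂ φ hφ) (h₁ χ hχ), irr_orthonormal (h₂ φ hφ) (h₂ χ hχ)] at hz
    have a1 : ψ₁ φ ≠ ψ₁ χ := by
      intro e
      have e2 : ψ₁ φ ≠ ψ₂ χ := fun e' => hne χ hχ (e.symm.trans e')
      have e3 : ψ₂ φ ≠ ψ₁ χ := fun e' => hne φ hφ (e.trans e'.symm)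
      rw [if_pos e, if_neg e2, if_neg e3] at hz
      split_ifs at hz <;> norm_num at hz
    have a4 : ψ₂ φ ≠ ψ₂ χ := by
      intro e
      have e2 : ψ₁ φ ≠ ψ₂ χ := fun e' => hne φ hφ (e'.trans e.symm)
      have e3 : ψ₂ φ ≠ ψ₁ χ := fun e' => hne χ hχ (e'.symm.trans e)
      rw [if_pos e, if_neg e2, if_neg e3] at hz
      split_ifs at hz <;> norm_num at hz
    have a2 : ψ₁ φ ≠ ψ₂ χ := by
      intro e
      rw [if_neg a1, if_pos e, if_neg a4] at hz
      split_ifs at hz <;> norm_num at hz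
    have a3 : ψ₂ φ ≠ ψ₁ χ := by
      intro e
      rw [if_neg a1, if_neg a2, if_pos e, if_neg a4] at hz
      norm_num at hz
    simp only [Finset.mem_insert, Finset.mem_singleton] at hα hβ
    rcases hα with rfl | rfl <;> rcases hβ with rfl | rfl
    · rw [irr_orthonormal (h₁ φ hφ) (h₁ χ hχ), if_neg a1]
    · rw [classInner_neg_right, irr_orthonormal (h₁ φ hφ) (h₂ χ hχ), if_neg a2, neg_zero]
    · rw [classInner_neg_left, irr_orthonormal (h₂ φ hφ) (h₁ χ hχ), if_neg a3, neg_zero]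
    · rw [classInner_neg_left, classInner_neg_right, irr_orthonormal (h₂ φ hφ) (h₂ χ hχ),
        if_neg a4, neg_zero, neg_zero]

end Cfsg.Agent.S1514
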