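import Cfsg.Statements.S1515
import Cfsg.Agent.Lib.Helper2.Coh1
-- import your own Cfsg.Agent.* helpers here

set_option autoImplicit false
open Cfsg

namespace Cfsg.Agent.S1515

open Cfsg.Agent.Lib.Helper2.Coh Cfsg.Agent.Lib.Helper2 Cfsg.Agent.Lib.Lead Cfsg.Agent.S0177
open scoped ComplexConjugate

/-- Let (S, τ, R) be a coherence system from L to G, χ ∈ S, and ψ an integer combination of S with ⟨χ, ψ⟩ = ⟨conj χ, ψ⟩ = 0. Let τ₁ be a linear isometry on the integer combinations of χ − ψ and χ − conj χ, with virtual-character values, agreeing with τ on integer multiples of χ − conj χ. Then the sum over α ∈ R χ of the squared absolute values of ⟨τ₁(χ − ψ), α⟩ is at least ⟨χ, χ⟩; and if ⟨τ₁(χ − ψ), τ₁(χ − ψ)⟩ minus that sum is at least ⟨ψ, ψ⟩, then the sum equals ⟨χ, χ⟩ and every ⟨τ₁(χ − ψ), α⟩ with α ∈ R χ is 0 or 1. -/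
theorem result {L : Type*} [Group L] [Fintype L] {G : Type*} [Group G] [Fintype G] (S : Set (L → ℂ)) (τ : (L → ℂ) → (G → ℂ)) (R : (L → ℂ) → Finset (G → ℂ)) (hS : Cfsg.IsCoherenceSystem S τ R) (χ : L → ℂ) (hχ : χ ∈ S) (ψ : L → ℂ) (hψ : ψ ∈ Cfsg.zspan S) (h1 : Cfsg.classInner χ ψ = 0) (h2 : Cfsg.classInner (Cfsg.conjFun χ) ψ = 0) (τ₁ : (L → ℂ) → (G → ℂ)) (hτ₁ : Cfsg.IsLinearIsometryOn (Cfsg.zspan {χ - ψ, χ - Cfsg.conjFun χ}) τ₁) (hagree : ∀ n : ℤ, τ₁ (n • (χ - Cfsg.conjFun χ)) = τ (n • (χ - Cfsg.conjFun χ))) : (Cfsg.classInner χ χ).re ≤ ∑ α ∈ R χ, ‖Cfsg.classInner (τ₁ (χ - ψ)) α‖ ^ 2 ∧ ((Cfsg.classInner ψ ψ).re ≤ (Cfsg.classInner (τ₁ (χ - ψ)) (τ₁ (χ - ψ))).re - ∑ α ∈ R χ, ‖Cfsg.classInner (τ₁ (χ - ψ)) α‖ ^ 2 → (∑ α ∈ R χ, ‖Cfsg.classInner (τ₁ (χ - ψ)) α‖ ^ 2 = (Cfsg.classInner χ χ).re ∧ ∀ α ∈ R χ, Cfsg.classInner (τ₁ (χ - ψ)) α = 0 ∨ Cfsg.classInner (τ₁ (χ - ψ)) α = 1)) :=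 by
  classical
  obtain ⟨hadd, hsmul, hinner, hgen⟩ := hτ₁
  have m1 : χ - ψ ∈ Cfsg.zspan {χ - ψ, χ - Cfsg.conjFun χ} :=
    Submodule.subset_span (Set.mem_insert _ _)
  have m2 : χ - Cfsg.conjFun χ ∈ Cfsg.zspan {χ - ψ, χ - Cfsg.conjFun χ} :=
    Submodule.subset_span (Set.mem_insert_of_mem _ rfl)
  have hX := hgen _ m1
  have e1 : τ₁ (χ - Cfsg.conjFun χ) = ∑ α ∈ R χ, α := by
    have h0 := hagree 1
    rw [one_smul] at h0
    rw [h0, hS.sum_eq χ hχ]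
  have e2 : Cfsg.classInner (τ₁ (χ - ψ)) (τ₁ (χ - Cfsg.conjFun χ)) = Cfsg.classInner χ χ := by
    rw [hinner _ m1 _ m2, classInner_sub_left, classInner_sub_right, classInner_sub_right,
      hS.orthogonal χ hχ _ (hS.conj_mem χ hχ) (Ne.symm (hS.conj_ne χ hχ)),
      classInner_eq_zero_symm h1, classInner_eq_zero_symm h2]
    ring
  rw [e1, classInner_sum_right] at e2
  have hint : ∀ α : G → ℂ, ∃ z : ℤ, α ∈ R χ → Cfsg.classInner (τ₁ (χ - ψ)) α = z := by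
    intro α
    by_cases hα : α ∈ R χ
    · obtain ⟨z, hz⟩ := genChar_inner_int hX (hS.virtual χ hχ α hα)
      exact ⟨z, fun _ => hz⟩
    · exact ⟨0, fun h => absurd h hα⟩
  choose z hz using hint
  have e3 : ∑ α ∈ R χ, ‖Cfsg.classInner (τ₁ (χ - ψ)) α‖ ^ 2 =
      ((∑ α ∈ R χ, (z α) ^ 2 : ℤ) : ℝ) := by
    push_cast
    apply Finset.sum_congr rfl
    intro α hα
    rw [hz α hα, Complex.norm_intCast, sq_abs]
  have e4 : (Cfsg.classInner χ χ).re = ((∑ α ∈ R χ, z α : ℤ) : ℝ) := by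
    rw [← e2, Finset.sum_congr rfl (fun α hα => hz α hα), Complex.re_sum]
    push_cast
    apply Finset.sum_congr rfl
    intro α _
    exact Complex.intCast_re _
  have hle : (∑ α ∈ R χ, z α : ℤ) ≤ ∑ α ∈ R χ, (z α) ^ 2 :=
    Finset.sum_le_sum (fun α _ => int_le_sq (z α))
  refine ⟨?_, ?_⟩
  · rw [e3, e4]
    exact_mod_cast hle
  · intro hb
    have e5 : Cfsg.classInner (τ₁ (χ - ψ)) (τ₁ (χ - ψ)) =
        Cfsg.classInner χ χ + Cfsg.classInner ψ ψ := by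
      rw [hinner _ m1 _ m1, classInner_sub_left, classInner_sub_right, classInner_sub_right,
        h1, classInner_eq_zero_symm h1]
      ring
    rw [e5, Complex.add_re, e3, e4] at hb
    have hge : (∑ α ∈ R χ, (z α) ^ 2 : ℤ) ≤ ∑ α ∈ R χ, z α := by
      have : ((∑ α ∈ R χ, (z α) ^ 2 : ℤ) : ℝ) ≤ ((∑ α ∈ R χ, z α : ℤ) : ℝ) := by linarith
      exact_mod_cast this
    have heq : (∑ α ∈ R χ, (z α) ^ 2 : ℤ) = ∑ α ∈ R χ, z α := le_antisymm hge hle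
    have hterm : ∀ α ∈ R χ, (z α) ^ 2 - z α = 0 := by
      have hs : ∑ α ∈ R χ, ((z α) ^ 2 - z α) = 0 := by
        rw [Finset.sum_sub_distrib, heq, sub_self]
      exact (Finset.sum_eq_zero_iff_of_nonneg
        (fun α _ => sub_nonneg.mpr (int_le_sq (z α)))).mp hs
    refine ⟨?_, ?_⟩
    · rw [e3, e4, heq]
    · intro α hα
      rw [hz α hα]
      have h0 := hterm α hα
      have h2' : z α * (z α - 1) = 0 := by rw [← h0]; ring
      rcases mul_eq_zero.mp h2' with h3 | h3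
      · left; rw [h3]; simp
      · right
        have : z α = 1 := by omega
        rw [this]; simp

end Cfsg.Agent.S1515
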