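import Cfsg.Statements.S1518
import Cfsg.Agent.Lib.Helper2.Dade8
import Cfsg.Agent.Lib.Helper2.CharAux2
import Cfsg.Agent.Lib.Lead.CharBurnside
-- import your own Cfsg.Agent.* helpers here

set_option autoImplicit false
open Cfsg

namespace Cfsg.Agent.S1518

/-- Under the Dade hypothesis for (A, L, H): if χ is an irreducible character of L vanishing at every non-identity element of L outside A, then the Dade image of χ − conj χ equals μ − conj μ for some irreducible character μ of G. -/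
theorem result {G : Type*} [Group G] [Fintype G] (A : Set G) (L : Subgroup G) [Fintype L] (H : G → Subgroup G) (hD : Cfsg.DadeHypothesis A L H) (χ : L → ℂ) (hχ : Cfsg.IsIrrCharacter L χ) (hsupp : ∀ x : L, x ≠ 1 → (x : G) ∉ A → χ x = 0) : ∃ μ : G → ℂ, Cfsg.IsIrrCharacter G μ ∧ Cfsg.dadeIsometry A L H (χ - Cfsg.conjFun χ) = μ - Cfsg.conjFun μ := by
  classical
  have hχc := Cfsg.Agent.Lib.Lead.isCharacter_of_isIrrCharacter hχ
  have hχbar : IsIrrCharacter L (conjFun χ) := Cfsg.Agent.Lib.Lead.isIrrCharacter_conj hχ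
  have hχbarc := Cfsg.Agent.Lib.Lead.isCharacter_of_isIrrCharacter hχbar
  have hα : IsGeneralizedCharacter L (χ - conjFun χ) := ⟨χ, conjFun χ, hχc, hχbarc, rfl⟩
  have hαcf := Cfsg.Agent.Lib.Helper2.isGenChar_isClassFunction hα
  have hαA : ∀ x : L, (x : G) ∉ A → (χ - conjFun χ) x = 0 := by
    intro x hx
    show χ x - (starRingEnd ℂ) (χ x) = 0
    by_cases h1 : x = 1
    · obtain ⟨d, _, hd⟩ := Cfsg.Agent.Lib.Helper2.irr_degree_pos hχ
      rw [h1, hd]; simp
    · rw [hsupp x h1 hx]; simp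
  have hθ := Cfsg.Agent.Lib.Helper2.Dade.dade_genChar hD (χ - conjFun χ) hα hαA
  by_cases hreal : χ = conjFun χ
  · refine ⟨fun _ => 1, Cfsg.Agent.Lib.Lead.isIrrCharacter_one G, ?_⟩
    have h0 : χ - conjFun χ = 0 := by rw [← hreal]; exact sub_self χ
    rw [h0]
    funext g
    show dadeIsometry A L H 0 g = (1 : ℂ) - (starRingEnd ℂ) 1
    unfold dadeIsometry
    simp
  · -- norm two
    have hn2 : classInner (dadeIsometry A L H (χ - conjFun χ)) (dadeIsometry A L H (χ - conjFun χ)) = 2 := by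
      rw [Cfsg.Agent.Lib.Helper2.Dade.dade_inner hD _ hαcf hαA _ hαcf]
      rw [Cfsg.Agent.Lib.Lead.classInner_sub_left, Cfsg.Agent.Lib.Helper2.classInner_sub_right,
        Cfsg.Agent.Lib.Helper2.classInner_sub_right,
        Cfsg.Agent.Lib.Lead.irr_orthonormal hχ hχ, Cfsg.Agent.Lib.Lead.irr_orthonormal hχ hχbar,
        Cfsg.Agent.Lib.Lead.irr_orthonormal hχbar hχ, Cfsg.Agent.Lib.Lead.irr_orthonormal hχbar hχbar,
        if_pos rfl, if_neg hreal, if_neg (fun h => hreal h.symm), if_pos rfl]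
      norm_num
    have h1 : dadeIsometry A L H (χ - conjFun χ) 1 = 0 := by
      apply Cfsg.Agent.Lib.Helper2.Dade.dade_zero
      rintro ⟨a, ha, x, u, hu, h⟩
      have h' : (a : G) * u = 1 := by rw [← h]; group
      have hau : (a : G) = u⁻¹ := eq_inv_of_mul_eq_one_left h'
      have hmem : (a : G) ∈ H (a : G) ⊓ (L ⊓ Subgroup.centralizer ({(a : G)} : Set G)) := by
        refine ⟨?_, a.2, Subgroup.mem_centralizer_singleton_iff.mpr rfl⟩
        rw [hau]
        have := (H (a : G)).inv_mem hu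
        rwa [← hau] at this ⊢
      rw [hD.inf_eq_bot _ ha, Subgroup.mem_bot] at hmem
      rw [hmem] at ha
      exact hD.one_not_mem ha
    obtain ⟨ψ₁, ψ₂, hψ₁, hψ₂, hne, heq⟩ := Cfsg.Agent.Lib.Helper2.genChar_norm_two hθ hn2 h1
    -- conjugation antisymmetry
    have hconj : ∀ g : G, (starRingEnd ℂ) (dadeIsometry A L H (χ - conjFun χ) g) =
        - dadeIsometry A L H (χ - conjFun χ) g := by
      intro g
      unfold dadeIsometry
      by_cases hex : ∃ a : ↥L, (a : G) ∈ A ∧ ∃ x : G, ∃ u ∈ H (a : G), x * g * x⁻¹ = (a : G) * u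
      · rw [dif_pos hex]
        show (starRingEnd ℂ) (χ _ - (starRingEnd ℂ) (χ _)) = -(χ _ - (starRingEnd ℂ) (χ _))
        rw [map_sub, Complex.conj_conj]; ring
      · rw [dif_neg hex]; simp
    have hψ₁bar : IsIrrCharacter G (conjFun ψ₁) := Cfsg.Agent.Lib.Lead.isIrrCharacter_conj hψ₁
    have hψ₂bar : IsIrrCharacter G (conjFun ψ₂) := Cfsg.Agent.Lib.Lead.isIrrCharacter_conj hψ₂
    have hsumeq : conjFun ψ₁ + ψ₁ = ψ₂ + conjFun ψ₂ := by
      funext g
      have := hconj g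
      rw [heq] at this
      simp only [Pi.sub_apply, map_sub] at this
      show (starRingEnd ℂ) (ψ₁ g) + ψ₁ g = ψ₂ g + (starRingEnd ℂ) (ψ₂ g)
      linear_combination this
    have hinn := congrArg (fun f => classInner f ψ₂) hsumeq
    simp only [Cfsg.Agent.Lib.Lead.classInner_add_left] at hinn
    rw [Cfsg.Agent.Lib.Lead.irr_orthonormal hψ₁ hψ₂, if_neg hne,
      Cfsg.Agent.Lib.Lead.irr_orthonormal hψ₂ hψ₂, if_pos rfl,
      Cfsg.Agent.Lib.Lead.irr_orthonormal hψ₁bar hψ₂, Cfsg.Agent.Lib.Lead.irr_orthonormal hψ₂bar hψ₂] at hinn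
    have hψ₂eq : conjFun ψ₁ = ψ₂ := by
      by_contra hcon
      rw [if_neg hcon] at hinn
      split_ifs at hinn <;> norm_num at hinn
    refine ⟨ψ₁, hψ₁, ?_⟩
    rw [heq, hψ₂eq]

end Cfsg.Agent.S1518
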