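import Cfsg.Statements.S1527
-- import your own Cfsg.Agent.* helpers here

set_option autoImplicit false
open Cfsg

namespace Cfsg.Agent.S1527

theorem card_ne_one (α : Type*) [Group α] [Finite α] :
    Nat.card {x : α // x ≠ 1} = Nat.card α - 1 := by
  classical
  haveI := Fintype.ofFinite α
  rw [Nat.card_eq_fintype_card, Nat.card_eq_fintype_card, Fintype.card_subtype_compl,
    Fintype.card_subtype_eq]

/-- Let G be a finite group and H i (i in a finite index type) subgroups of pairwise coprime orders, each of whose underlying sets is a TI-subset of G, such that every non-identity element of G is conjugate to an element of some H i. Then Nat.card G − 1 = Σ_i [G : N_G(H i)] · (Nat.card (H i) − 1). -/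
theorem result {G : Type*} [Group G] [Finite G] {ι : Type*} [Fintype ι] (H : ι → Subgroup G) (hcop : ∀ i j, i ≠ j → Nat.Coprime (Nat.card (H i)) (Nat.card (H j))) (hTI : ∀ i, Cfsg.IsTISubset (H i : Set G)) (hcover : ∀ g : G, g ≠ 1 → ∃ i, ∃ x : G, x * g * x⁻¹ ∈ H i) : Nat.card G - 1 = ∑ i, (Subgroup.normalizer (H i : Set G)).index * (Nat.card (H i) - 1) := by
  classical
  have hne : ∀ (c : G) (x : G), x ≠ 1 → c * x * c⁻¹ ≠ 1 := by
    intro c x hx h
    apply hx
    have h0 : x = c⁻¹ * (c * x * c⁻¹) * c := by group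
    rw [h0, h]; group
  obtain ⟨Φ, hΦ⟩ : ∃ Φ : (Σ i : ι, (G ⧸ Subgroup.normalizer (H i : Set G)) × {h : H i // h ≠ 1}) →
      {g : G // g ≠ 1}, ∀ s, (Φ s : G) = s.2.1.out * (s.2.2.1 : G) * s.2.1.out⁻¹ :=
    ⟨fun s => ⟨s.2.1.out * (s.2.2.1 : G) * s.2.1.out⁻¹,
      hne _ _ (fun h => s.2.2.2 (Subtype.ext h))⟩, fun s => rfl⟩
  have hinj : Function.Injective Φ := by
    rintro ⟨i, q, h, hh⟩ ⟨i', q', h', hh'⟩ heq
    have heq' : q.out * (h : G) * q.out⁻¹ = q'.out * (h' : G) * q'.out⁻¹ := by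
      have h0 := congrArg Subtype.val heq
      rw [hΦ, hΦ] at h0
      exact h0
    have hii : i = i' := by
      by_contra hne'
      have hord : orderOf (h : G) = orderOf (h' : G) := by
        have h1 : (h : G) = MulAut.conj (q.out⁻¹ * q'.out) (h' : G) := by
          rw [MulAut.conj_apply]
          have h0 : (h : G) = q.out⁻¹ * (q.out * (h : G) * q.out⁻¹) * q.out := by group
          rw [h0, heq']; group
        rw [h1, MulEquiv.orderOf_eq]
      have h2 : orderOf (h : G) ∣ Nat.card (H i) := by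
        rw [Subgroup.orderOf_coe]; exact orderOf_dvd_natCard h
      have h3 : orderOf (h : G) ∣ Nat.card (H i') := by
        rw [hord, Subgroup.orderOf_coe]; exact orderOf_dvd_natCard h'
      have h4 : orderOf (h : G) = 1 := Nat.eq_one_of_dvd_coprimes (hcop i i' hne') h2 h3
      rw [orderOf_eq_one_iff] at h4
      exact hh (Subtype.ext h4)
    subst hii
    have hq : q = q' := by
      rw [← QuotientGroup.out_eq' q, ← QuotientGroup.out_eq' q', QuotientGroup.eq]
      by_contra hnot
      have h5 := hTI i _ hnot (h' : G) h'.2 (by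
        have h0 : q.out⁻¹ * q'.out * (h' : G) * (q.out⁻¹ * q'.out)⁻¹ =
            q.out⁻¹ * (q'.out * (h' : G) * q'.out⁻¹) * q.out := by group
        rw [h0, ← heq']
        have h00 : q.out⁻¹ * (q.out * (h : G) * q.out⁻¹) * q.out = h := by group
        rw [h00]; exact h.2)
      exact hh' (Subtype.ext h5)
    subst hq
    have hhh : (h : G) = h' := mul_left_cancel (mul_right_cancel heq')
    have h6 : h = h' := Subtype.ext hhh
    subst h6
    rfl
  have hsurj : Function.Surjective Φ := by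
    rintro ⟨g, hg⟩
    obtain ⟨i, x, hx⟩ := hcover g hg
    obtain ⟨n, hn⟩ := QuotientGroup.mk_out_eq_mul (Subgroup.normalizer (H i : Set G)) x⁻¹
    have hnN := n.2
    rw [Subgroup.mem_normalizer_iff] at hnN
    have hmem : (n : G)⁻¹ * (x * g * x⁻¹) * n ∈ H i := by
      rw [hnN]
      have h0 : (n : G) * ((n : G)⁻¹ * (x * g * x⁻¹) * n) * (n : G)⁻¹ = x * g * x⁻¹ := by group
      rw [h0]; exact hx
    have hne1 : (⟨_, hmem⟩ : H i) ≠ 1 := by
      intro h
      have h1 : (n : G)⁻¹ * (x * g * x⁻¹) * n = 1 := congrArg Subtype.val h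
      apply hg
      have h0 : g = x⁻¹ * n * ((n : G)⁻¹ * (x * g * x⁻¹) * n) * (x⁻¹ * n)⁻¹ := by group
      rw [h0, h1]; group
    refine ⟨⟨i, (QuotientGroup.mk x⁻¹ : G ⧸ _), ⟨⟨_, hmem⟩, hne1⟩⟩, ?_⟩
    apply Subtype.ext
    rw [hΦ]
    show (QuotientGroup.mk x⁻¹ : G ⧸ _).out * ((n : G)⁻¹ * (x * g * x⁻¹) * n) *
      (QuotientGroup.mk x⁻¹ : G ⧸ _).out⁻¹ = g
    rw [hn]; group
  have hcard := Nat.card_congr (Equiv.ofBijective Φ ⟨hinj, hsurj⟩)
  rw [Nat.card_sigma] at hcard
  rw [card_ne_one G] at hcard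
  rw [← hcard]
  apply Finset.sum_congr rfl
  intro i _
  rw [Nat.card_prod, card_ne_one]
  rfl

end Cfsg.Agent.S1527
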