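import Cfsg.Statements.S1529
import Cfsg.Agent.Lib.Helper2.CharAux
-- import your own Cfsg.Agent.* helpers here

set_option autoImplicit false
open Cfsg

namespace Cfsg.Agent.S1529

open Cfsg.Agent.Lib.Helper2 Cfsg.Agent.Lib.Lead
open scoped ComplexConjugate

/-- Let N be a subgroup of the finite group G, S a set of irreducible characters of N with at least two members, and τ₁ a linear isometry on the integer combinations of S with virtual-character values such that τ₁ α vanishes at 1 whenever α ∈ ℤ[S] does. Then there is ε ∈ {1, −1} such that ε • τ₁ χ is an irreducible character of G for every χ ∈ S, and distinct members of S give distinct characters. -/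
theorem result {G : Type*} [Group G] [Fintype G] (N : Subgroup G) [Fintype N] (S : Set (N → ℂ)) (hirr : ∀ χ ∈ S, Cfsg.IsIrrCharacter N χ) (htwo : ∃ χ ∈ S, ∃ ψ ∈ S, χ ≠ ψ) (τ₁ : (N → ℂ) → (G → ℂ)) (hτ₁ : Cfsg.IsLinearIsometryOn (Cfsg.zspan S) τ₁) (h0 : ∀ α ∈ Cfsg.zspan S, α 1 = 0 → τ₁ α 1 = 0) : ∃ ε : ℂ, (ε = 1 ∨ ε = -1) ∧ (∀ χ ∈ S, Cfsg.IsIrrCharacter G (ε • τ₁ χ)) ∧ (∀ χ ∈ S, ∀ ψ ∈ S, τ₁ χ = τ₁ ψ → χ = ψ) := by
  obtain ⟨hadd, hsmul, hinner, hgen⟩ := hτ₁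
  have hmemE : ∀ χ ∈ S, χ ∈ Cfsg.zspan S := fun χ hχ => Submodule.subset_span hχ
  have hdeg : ∀ {X : Type _} [Group X] (θ : X → ℂ), Cfsg.IsIrrCharacter X θ →
      ∃ d : ℕ, 0 < d ∧ θ 1 = d := by
    intro X _ θ hθ
    obtain ⟨d, hd⟩ := irr_one_eq_natCast (⟨θ, hθ⟩ : Cfsg.IrrCharacter X)
    refine ⟨d, ?_, hd⟩
    rcases Nat.eq_zero_or_pos d with h | h
    · exfalso
      apply irr_one_ne_zero hθ
      have hd' : θ 1 = (d : ℂ) := hd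
      rw [hd', h]; simp
    · exact h
  have hdich : ∀ χ ∈ S, (Cfsg.IsIrrCharacter G (τ₁ χ) ∧ ∃ d : ℕ, 0 < d ∧ τ₁ χ 1 = d) ∨
      (Cfsg.IsIrrCharacter G (-τ₁ χ) ∧ ∃ d : ℕ, 0 < d ∧ τ₁ χ 1 = -(d : ℂ)) := by
    intro χ hχ
    have h1 : Cfsg.classInner (τ₁ χ) (τ₁ χ) = 1 := by
      rw [hinner χ (hmemE χ hχ) χ (hmemE χ hχ), irr_orthonormal (hirr χ hχ) (hirr χ hχ), if_pos rfl]
    rcases genChar_norm_one (hgen χ (hmemE χ hχ)) h1 with h | h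
    · exact Or.inl ⟨h, hdeg _ h⟩
    · right
      refine ⟨h, ?_⟩
      obtain ⟨d, hd, hde⟩ := hdeg _ h
      refine ⟨d, hd, ?_⟩
      have : (-τ₁ χ) 1 = -(τ₁ χ 1) := rfl
      rw [this] at hde
      rw [← hde, neg_neg]
  have hsign : ∀ χ ∈ S, ∀ ψ ∈ S, (∃ d : ℕ, 0 < d ∧ τ₁ χ 1 = d) →
      (∃ d : ℕ, 0 < d ∧ τ₁ ψ 1 = -(d : ℂ)) → False := by
    rintro χ hχ ψ hψ ⟨d, hd, hde⟩ ⟨d', hd', hde'⟩
    obtain ⟨n, hn, hne⟩ := hdeg χ (hirr χ hχ)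
    obtain ⟨m, hm, hme⟩ := hdeg ψ (hirr ψ hψ)
    have hE1 : (m : ℤ) • χ ∈ Cfsg.zspan S := Submodule.smul_mem _ _ (hmemE χ hχ)
    have hE2 : (-(n : ℤ)) • ψ ∈ Cfsg.zspan S := Submodule.smul_mem _ _ (hmemE ψ hψ)
    have hE : (m : ℤ) • χ + (-(n : ℤ)) • ψ ∈ Cfsg.zspan S := Submodule.add_mem _ hE1 hE2
    have hval : ((m : ℤ) • χ + (-(n : ℤ)) • ψ) 1 = 0 := by
      rw [Pi.add_apply, Pi.smul_apply, Pi.smul_apply, zsmul_eq_mul, zsmul_eq_mul, hne, hme]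
      push_cast; ring
    have h3 := h0 _ hE hval
    rw [hadd _ hE1 _ hE2, hsmul χ (hmemE χ hχ), hsmul ψ (hmemE ψ hψ)] at h3
    rw [Pi.add_apply, Pi.smul_apply, Pi.smul_apply, zsmul_eq_mul, zsmul_eq_mul, hde, hde'] at h3
    have h4 : ((m * d + n * d' : ℕ) : ℂ) = 0 := by
      push_cast at h3 ⊢
      linear_combination h3
    have h5 : m * d + n * d' = 0 := by exact_mod_cast h4
    have h6 : 0 < m * d := Nat.mul_pos hm hd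
    omega
  obtain ⟨χ₀, hχ₀, -⟩ := htwo
  have hinj : ∀ χ ∈ S, ∀ ψ ∈ S, τ₁ χ = τ₁ ψ → χ = ψ := by
    intro χ hχ ψ hψ he
    by_contra hne
    have h1 := hinner χ (hmemE χ hχ) ψ (hmemE ψ hψ)
    rw [← he, hinner χ (hmemE χ hχ) χ (hmemE χ hχ), irr_orthonormal (hirr χ hχ) (hirr χ hχ),
      if_pos rfl, irr_orthonormal (hirr χ hχ) (hirr ψ hψ), if_neg hne] at h1
    exact one_ne_zero h1
  rcases hdich χ₀ hχ₀ with ⟨-, hP⟩ | ⟨-, hQ⟩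
  · refine ⟨1, Or.inl rfl, ?_, hinj⟩
    intro χ hχ
    rw [one_smul]
    rcases hdich χ hχ with ⟨h, -⟩ | ⟨-, hQ⟩
    · exact h
    · exact absurd (hsign χ₀ hχ₀ χ hχ hP hQ) id
  · refine ⟨-1, Or.inr rfl, ?_, hinj⟩
    intro χ hχ
    rw [neg_one_smul]
    rcases hdich χ hχ with ⟨-, hP⟩ | ⟨h, -⟩
    · exact absurd (hsign χ hχ χ₀ hχ₀ hP hQ) id
    · exact h

end Cfsg.Agent.S1529
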