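import Cfsg.Statements.S1546
import Mathlib
-- import your own Cfsg.Agent.* helpers here

set_option autoImplicit false
open Cfsg

namespace Cfsg.Agent.S1546

theorem geom_mod (p q m : ℕ) (hpm : p % m = 1 % m) :
    (∑ k ∈ Finset.range q, p ^ k) % m = q % m := by
  rw [Finset.sum_nat_mod]
  have h : ∀ k ∈ Finset.range q, p ^ k % m = 1 % m := by
    intro k _
    rw [Nat.pow_mod, hpm, ← Nat.pow_mod, one_pow]
  rw [Finset.sum_congr rfl h, Finset.sum_const, Finset.card_range, smul_eq_mul, Nat.mul_mod_mod,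
    mul_one]

theorem succ_mod_of_dvd (a q : ℕ) (hq : 1 < q) (ha : 0 < a) (h : q ∣ a - 1) : a % q = 1 := by
  obtain ⟨c, hc⟩ := h
  have : a = q * c + 1 := by omega
  rw [this, Nat.mul_add_mod, Nat.mod_eq_of_lt hq]

/-- Let p and q be odd primes and N = (p ^ q − 1) / (p − 1) = 1 + p + ⋯ + p^(q−1). Then N is odd; if p ≡ 1 (mod q) then q ∣ N; and if p is not ≡ 1 (mod q) then N is coprime to p − 1 and every divisor of N is ≡ 1 (mod q). -/
theorem result (p q : ℕ) (hp : p.Prime) (hq : q.Prime) (hp2 : p ≠ 2) (hq2 : q ≠ 2) : Odd ((p ^ q - 1) / (p - 1)) ∧ (p % q = 1 → q ∣ (p ^ q - 1) / (p - 1)) ∧ (p % q ≠ 1 → Nat.Coprime ((p ^ q - 1) / (p - 1)) (p - 1) ∧ ∀ x : ℕ, x ∣ (p ^ q - 1) / (p - 1) → x % q = 1) := by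
  have hp2' : 2 ≤ p := hp.two_le
  have hS : (p ^ q - 1) / (p - 1) = ∑ k ∈ Finset.range q, p ^ k := (Nat.geomSum_eq hp2' q).symm
  have hdvd : p - 1 ∣ p ^ q - 1 := by
    have := Nat.sub_dvd_pow_sub_pow p 1 q
    rwa [one_pow] at this
  have hmul : (∑ k ∈ Finset.range q, p ^ k) * (p - 1) = p ^ q - 1 := by
    rw [← hS]; exact Nat.div_mul_cancel hdvd
  rw [hS]
  have hpodd : p % 2 = 1 := (hp.eq_two_or_odd).resolve_left hp2
  have hqodd : q % 2 = 1 := (hq.eq_two_or_odd).resolve_left hq2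
  have hq1 : 1 < q := hq.one_lt
  have hodd : Odd (∑ k ∈ Finset.range q, p ^ k) := by
    rw [Nat.odd_iff, geom_mod p q 2 (by rw [hpodd]), hqodd]
  refine ⟨hodd, ?_, ?_⟩
  · intro hpq
    apply Nat.dvd_of_mod_eq_zero
    rw [geom_mod p q q (by rw [hpq, Nat.mod_eq_of_lt hq1]), Nat.mod_self]
  · intro hpq
    have hcop : Nat.Coprime (∑ k ∈ Finset.range q, p ^ k) (p - 1) := by
      have hd1 : Nat.gcd (∑ k ∈ Finset.range q, p ^ k) (p - 1) ∣ (∑ k ∈ Finset.range q, p ^ k) :=
        Nat.gcd_dvd_left _ _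
      have hd2 : Nat.gcd (∑ k ∈ Finset.range q, p ^ k) (p - 1) ∣ p - 1 := Nat.gcd_dvd_right _ _
      have hmod : (∑ k ∈ Finset.range q, p ^ k) % (p - 1) = q % (p - 1) := by
        apply geom_mod
        have h0 := Nat.add_mod_left (p - 1) 1
        rwa [Nat.sub_add_cancel hp.one_lt.le] at h0
      have hd3 : Nat.gcd (∑ k ∈ Finset.range q, p ^ k) (p - 1) ∣ q := by
        rw [← Nat.dvd_mod_iff hd2, ← hmod, Nat.dvd_mod_iff hd2]
        exact hd1
      rcases (Nat.dvd_prime hq).mp hd3 with h | h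
      · exact h
      · exfalso
        apply hpq
        apply succ_mod_of_dvd p q hq1 hp.pos
        rw [← h]; exact hd2
    refine ⟨hcop, ?_⟩
    have hprime : ∀ r : ℕ, r.Prime → r ∣ (∑ k ∈ Finset.range q, p ^ k) → r % q = 1 := by
      intro r hr hrS
      have : Fact r.Prime := ⟨hr⟩
      have h1 : r ∣ p ^ q - 1 := dvd_trans hrS ⟨p - 1, hmul.symm⟩
      have h2 : ((p ^ q - 1 : ℕ) : ZMod r) = 0 := (ZMod.natCast_eq_zero_iff _ _).mpr h1
      have h3 : (p : ZMod r) ^ q = 1 := by
        rw [Nat.cast_sub (Nat.one_le_pow _ _ hp.pos)] at h2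
        push_cast at h2
        exact sub_eq_zero.mp h2
      have h4 : orderOf (p : ZMod r) ∣ q := orderOf_dvd_of_pow_eq_one h3
      rcases (Nat.dvd_prime hq).mp h4 with h5 | h5
      · exfalso
        rw [orderOf_eq_one_iff] at h5
        have h6 : ((p - 1 : ℕ) : ZMod r) = 0 := by
          rw [Nat.cast_sub hp.one_lt.le, h5]; simp
        have h7 : r ∣ p - 1 := (ZMod.natCast_eq_zero_iff _ _).mp h6
        have h8 : r ∣ 1 := by
          have := Nat.dvd_gcd hrS h7
          rwa [hcop] at this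
        exact hr.one_lt.ne' (Nat.dvd_one.mp h8)
      · have h6 : (p : ZMod r) ≠ 0 := by
          intro h0
          rw [h0, zero_pow hq.ne_zero] at h3
          exact zero_ne_one h3
        have h7 := ZMod.orderOf_dvd_card_sub_one h6
        rw [h5] at h7
        exact succ_mod_of_dvd r q hq1 hr.pos h7
    intro x
    induction x using Nat.strong_induction_on with
    | _ x ih =>
      intro hx
      rcases Nat.lt_or_ge x 2 with hlt | hge
      · interval_cases x
        · exfalso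
          rw [zero_dvd_iff] at hx
          rw [hx] at hodd
          exact (Nat.not_odd_iff_even.mpr (by decide)) hodd
        · exact Nat.mod_eq_of_lt hq1
      · have hx1 : x ≠ 1 := by omega
        have hr := Nat.minFac_prime hx1
        have hrx := Nat.minFac_dvd x
        have hy : x / x.minFac < x := Nat.div_lt_self (by omega) hr.one_lt
        have hyx : x / x.minFac ∣ x := Nat.div_dvd_of_dvd hrx
        have e : x = x.minFac * (x / x.minFac) := (Nat.mul_div_cancel' hrx).symm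
        have i1 := ih _ hy (dvd_trans hyx hx)
        have i2 := hprime _ hr (dvd_trans hrx hx)
        rw [e, Nat.mul_mod, i1, i2, Nat.mod_eq_of_lt hq1]

end Cfsg.Agent.S1546
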