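import Cfsg.Statements.S1587
-- import your own Cfsg.Agent.* helpers here

set_option autoImplicit false
open Matrix
open Cfsg

namespace Cfsg.Agent.S1587

/-- First step of the characterisation of the rank-24 lattice: in an even lattice without roots, norm-8 vectors congruent modulo 2 are equal, opposite or orthogonal. -/
theorem result (B : Matrix (Fin 24) (Fin 24) ℤ) (hsymm : B.IsSymm) (hpos : ∀ x : Fin 24 → ℤ, x ≠ 0 → 0 < x ⬝ᵥ (B *ᵥ x)) (heven : ∀ x : Fin 24 → ℤ, (2 : ℤ) ∣ x ⬝ᵥ (B *ᵥ x)) (h2 : ∀ x : Fin 24 → ℤ, x ⬝ᵥ (B *ᵥ x) ≠ 2) (x y : Fin 24 → ℤ) (hx : x ⬝ᵥ (B *ᵥ x) = 8) (hy : y ⬝ᵥ (B *ᵥ y) = 8) (hc : ∀ i, (2 : ℤ) ∣ (x - y) i) : y = x ∨ y = -x ∨ x ⬝ᵥ (B *ᵥ y) = 0 := by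
  have hsym : ∀ u v : Fin 24 → ℤ, u ⬝ᵥ (B *ᵥ v) = v ⬝ᵥ (B *ᵥ u) := by
    intro u v
    rw [Matrix.dotProduct_mulVec, ← Matrix.mulVec_transpose, hsymm.eq, dotProduct_comm]
  obtain ⟨z, hz⟩ : ∃ z : Fin 24 → ℤ, x - y = 2 • z := by
    refine ⟨fun i => (x - y) i / 2, ?_⟩
    funext i
    simp only [Pi.smul_apply]
    rw [nsmul_eq_mul]
    exact (Int.mul_ediv_cancel' (hc i)).symm
  have hz' : x + y = 2 • (z + y) := by
    rw [smul_add, ← hz]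
    funext i; simp; ring
  have hN2 : ∀ v : Fin 24 → ℤ, (2 • v) ⬝ᵥ (B *ᵥ (2 • v)) = 4 * (v ⬝ᵥ (B *ᵥ v)) := by
    intro v
    rw [Matrix.mulVec_smul, smul_dotProduct, dotProduct_smul]
    simp; ring
  have e1 : (x - y) ⬝ᵥ (B *ᵥ (x - y)) = 16 - 2 * (x ⬝ᵥ (B *ᵥ y)) := by
    rw [Matrix.mulVec_sub, sub_dotProduct, dotProduct_sub, dotProduct_sub, hx, hy, hsym y x]; ring
  have e2 : (x + y) ⬝ᵥ (B *ᵥ (x + y)) = 16 + 2 * (x ⬝ᵥ (B *ᵥ y)) := by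
    rw [Matrix.mulVec_add, add_dotProduct, dotProduct_add, dotProduct_add, hx, hy, hsym y x]; ring
  rw [hz, hN2] at e1
  rw [hz', hN2] at e2
  by_cases hz0 : z = 0
  · left
    rw [hz0, smul_zero, sub_eq_zero] at hz
    exact hz.symm
  · by_cases hz0' : z + y = 0
    · right; left
      rw [hz0', smul_zero] at hz'
      exact (eq_neg_of_add_eq_zero_right hz')
    · right; right
      have p1 := hpos z hz0
      have p2 := hpos (z + y) hz0'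
      obtain ⟨m1, hm1⟩ := heven z
      obtain ⟨m2, hm2⟩ := heven (z + y)
      have q1 := h2 z
      have q2 := h2 (z + y)
      omega

end Cfsg.Agent.S1587
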