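import Cfsg.Statements.S1595
-- import your own Cfsg.Agent.* helpers here
import Cfsg.Agent.Lib.Helper7.Steiner

set_option autoImplicit false
open Cfsg

namespace Cfsg.Agent.S1595

open Cfsg.Agent.Lib.Helper7

section
variable {α : Type*} [DecidableEq α]

theorem sum_supersets (b s : Finset α) (hs : s ⊆ b) (f : Finset α → ℕ) (e : ℕ → ℕ)
    (hfe : ∀ Z, s ⊆ Z → Z ⊆ b → f Z = e Z.card) :
    ∑ Z ∈ b.powerset.filter (fun Z => s ⊆ Z), f Z =
      ∑ j ∈ Finset.range (b.card + 1),
        if s.card ≤ j then Nat.choose (b.card - s.card) (j - s.card) * e j else 0 := by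
  have h1 : ∀ Z ∈ b.powerset.filter (fun Z => s ⊆ Z), f Z = e Z.card := by
    intro Z hZ
    rw [Finset.mem_filter, Finset.mem_powerset] at hZ
    exact hfe Z hZ.2 hZ.1
  rw [Finset.sum_congr rfl h1]
  rw [← Finset.sum_fiberwise_of_maps_to (g := fun Z : Finset α => Z.card)
    (t := Finset.range (b.card + 1))
    (fun Z hZ => by
      rw [Finset.mem_filter, Finset.mem_powerset] at hZ
      exact Finset.mem_range.mpr (Nat.lt_succ_of_le (Finset.card_le_card hZ.1)))]
  apply Finset.sum_congr rfl
  intro j hj
  have h2 : ∀ Z ∈ (b.powerset.filter (fun Z => s ⊆ Z)).filter (fun Z => Z.card = j),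
      e Z.card = e j := by
    intro Z hZ
    rw [(Finset.mem_filter.mp hZ).2]
  rw [Finset.sum_congr rfl h2, Finset.sum_const, smul_eq_mul]
  by_cases hsj : s.card ≤ j
  · rw [if_pos hsj]
    congr 1
    rw [← st_card_between b s hs j hsj]
    congr 1
    ext Z
    simp only [Finset.mem_filter, Finset.mem_powerset, Finset.mem_powersetCard]
    tauto
  · rw [if_neg hsj]
    have h3 : (b.powerset.filter (fun Z => s ⊆ Z)).filter (fun Z => Z.card = j) = ∅ := by
      rw [Finset.filter_eq_empty_iff]
      intro Z hZ hZj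
      rw [Finset.mem_filter] at hZ
      have := Finset.card_le_card hZ.2
      omega
    rw [h3, Finset.card_empty, zero_mul]

end

/-- Leech triangle of S(5, 6, 12): blocks meet in 0, 2, 3 or 4 points, and a block is met exactly in a given 2-, 3- or 4-subset by 3, 2, 3 blocks respectively. -/
theorem result {α : Type*} [Fintype α] [DecidableEq α] (hα : Fintype.card α = 12) {B : Set (Finset α)} (hB : Cfsg.IsSteinerSystem 5 6 B) (b : Finset α) (hb : b ∈ B) : (∀ c ∈ B, c ≠ b → (b ∩ c).card = 0 ∨ (b ∩ c).card = 2 ∨ (b ∩ c).card = 3 ∨ (b ∩ c).card = 4) ∧ ∀ s ⊆ b, (s.card = 2 → {c : Finset α | c ∈ B ∧ b ∩ c = s}.ncard = 3) ∧ (s.card = 3 → {c : Finset α | c ∈ B ∧ b ∩ c = s}.ncard = 2) ∧ (s.card = 4 → {c : Finset α | c ∈ B ∧ b ∩ c = s}.ncard = 3) := by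
  classical
  have hfin : B.Finite := Set.toFinite B
  obtain ⟨Bf, hBf⟩ : ∃ Bf : Finset (Finset α), ∀ b, b ∈ Bf ↔ b ∈ B :=
    ⟨hfin.toFinset, fun b => Set.Finite.mem_toFinset hfin⟩
  have hk := hB.1
  have hb6 := hk b hb
  constructor
  · have h0 := st_block_moment hB Bf hBf b hb 0 (by norm_num)
    have h1 := st_block_moment hB Bf hBf b hb 1 (by norm_num)
    have h2 := st_block_moment hB Bf hBf b hb 2 (by norm_num)
    have h3 := st_block_moment hB Bf hBf b hb 3 (by norm_num)
    have h4 := st_block_moment hB Bf hBf b hb 4 (by norm_num)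
    rw [hα] at h0 h1 h2 h3 h4
    simp only [Finset.sum_range_succ, Finset.sum_range_zero] at h0 h1 h2 h3 h4
    norm_num [Nat.choose, -Finset.card_eq_zero] at h0 h1 h2 h3 h4
    have hn1 : ((Bf.erase b).filter (fun c => (c ∩ b).card = 1)).card = 0 := by omega
    intro c hc hcb
    have hlt := st_inter_lt hB hb hc hcb
    have hcmem : c ∈ Bf.erase b := Finset.mem_erase.mpr ⟨hcb, (hBf c).mpr hc⟩
    rw [Finset.inter_comm]
    rw [Finset.card_eq_zero, Finset.filter_eq_empty_iff] at hn1
    have e1 := hn1 hcmem
    omega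
  · obtain ⟨E, hEdef⟩ : ∃ E : Finset α → ℕ,
        ∀ Z, E Z = (Bf.filter (fun c => b ∩ c = Z)).card := ⟨_, fun Z => rfl⟩
    have hN : ∀ s : Finset α, s ⊆ b → (Bf.filter (fun c => s ⊆ c)).card =
        ∑ Z ∈ b.powerset.filter (fun Z => s ⊆ Z), E Z := by
      intro s hs
      rw [Finset.card_eq_sum_card_fiberwise (f := fun c => b ∩ c)
        (t := b.powerset.filter (fun Z => s ⊆ Z))
        (fun c hc => by
          have hc' := Finset.mem_filter.mp (Finset.mem_coe.mp hc)
          exact Finset.mem_coe.mpr (Finset.mem_filter.mpr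
            ⟨Finset.mem_powerset.mpr Finset.inter_subset_left, Finset.subset_inter hs hc'.2⟩))]
      apply Finset.sum_congr rfl
      intro Z hZ
      rw [Finset.mem_filter] at hZ
      rw [hEdef]
      congr 1
      ext c
      simp only [Finset.mem_filter]
      constructor
      · rintro ⟨⟨hc, _⟩, h⟩; exact ⟨hc, h⟩
      · rintro ⟨hc, h⟩
        exact ⟨⟨hc, by rw [← h] at hZ; exact hZ.2.trans Finset.inter_subset_right⟩, h⟩
    have hlam : ∀ s : Finset α, s.card ≤ 5 →
        (Bf.filter (fun c => s ⊆ c)).card * Nat.choose (6 - s.card) (5 - s.card) =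
          Nat.choose (12 - s.card) (5 - s.card) := by
      intro s hs
      have h9 := st_lambda hB Bf hBf s hs
      rw [hα] at h9
      exact h9
    have hE6 : E b = 1 := by
      rw [hEdef, Finset.card_eq_one]
      refine ⟨b, ?_⟩
      ext c
      rw [Finset.mem_filter, Finset.mem_singleton]
      constructor
      · rintro ⟨hc, h⟩
        have hbc : b ⊆ c := by rw [← h]; exact Finset.inter_subset_right
        exact (Finset.eq_of_subset_of_card_le hbc (by rw [hk b hb, hk c ((hBf c).mp hc)])).symm
      · rintro rfl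
        exact ⟨(hBf c).mpr hb, Finset.inter_self c⟩
    have hE5 : ∀ Z, Z ⊆ b → Z.card = 5 → E Z = 0 := by
      intro Z hZb hZ
      rw [hEdef, Finset.card_eq_zero, Finset.filter_eq_empty_iff]
      intro c hc h
      by_cases hcb : c = b
      · rw [hcb, Finset.inter_self] at h
        rw [← h, hk b hb] at hZ; omega
      · have h9 := st_inter_lt hB hb ((hBf c).mp hc) hcb
        rw [Finset.inter_comm, h, hZ] at h9; omega
    have step : ∀ (i : ℕ) (eK : ℕ → ℕ) (Z : Finset α), Z ⊆ b → Z.card = i →
        (∀ Z', Z' ⊆ b → i < Z'.card → E Z' = eK Z'.card) →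
        (Bf.filter (fun c => Z ⊆ c)).card = ∑ j ∈ Finset.range 7,
          if i ≤ j then Nat.choose (6 - i) (j - i) * (if j = i then E Z else eK j) else 0 := by
      intro i eK Z hZb hZ hK
      rw [hN Z hZb, sum_supersets b Z hZb E (fun j => if j = i then E Z else eK j) (by
        intro Z' hZZ' hZ'b
        have hc1 := Finset.card_le_card hZZ'
        by_cases h4 : Z'.card = i
        · rw [if_pos h4]
          congr 1
          exact (Finset.eq_of_subset_of_card_le hZZ' (by rw [h4, hZ])).symm
        · rw [if_neg h4]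
          exact hK Z' hZ'b (by omega)), hb6, hZ]
    have hE4 : ∀ Z, Z ⊆ b → Z.card = 4 → E Z = 3 := by
      intro Z hZb hZ
      have h1 := step 4 (fun j => if j = 5 then 0 else 1) Z hZb hZ (by
        intro Z' hZ'b hlt
        have hc2 := Finset.card_le_card hZ'b
        rw [hb6] at hc2
        by_cases h5 : Z'.card = 5
        · rw [if_pos h5]; exact hE5 Z' hZ'b h5
        · rw [if_neg h5]
          have h6 : Z' = b := Finset.eq_of_subset_of_card_le hZ'b (by rw [hb6]; omega)
          rw [h6]; exact hE6)
      have h2 := hlam Z (by omega)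
      rw [hZ] at h2
      simp only [Finset.sum_range_succ, Finset.sum_range_zero] at h1
      norm_num [Nat.choose] at h1 h2
      omega
    have hE3 : ∀ Z, Z ⊆ b → Z.card = 3 → E Z = 2 := by
      intro Z hZb hZ
      have h1 := step 3 (fun j => if j = 4 then 3 else if j = 5 then 0 else 1) Z hZb hZ (by
        intro Z' hZ'b hlt
        have hc2 := Finset.card_le_card hZ'b
        rw [hb6] at hc2
        by_cases h4 : Z'.card = 4
        · rw [if_pos h4]; exact hE4 Z' hZ'b h4
        · rw [if_neg h4]
          by_cases h5 : Z'.card = 5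
          · rw [if_pos h5]; exact hE5 Z' hZ'b h5
          · rw [if_neg h5]
            have h6 : Z' = b := Finset.eq_of_subset_of_card_le hZ'b (by rw [hb6]; omega)
            rw [h6]; exact hE6)
      have h2 := hlam Z (by omega)
      rw [hZ] at h2
      simp only [Finset.sum_range_succ, Finset.sum_range_zero] at h1
      norm_num [Nat.choose] at h1 h2
      omega
    have hE2 : ∀ Z, Z ⊆ b → Z.card = 2 → E Z = 3 := by
      intro Z hZb hZ
      have h1 := step 2 (fun j => if j = 3 then 2 else if j = 4 then 3 else if j = 5 then 0 else 1)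
        Z hZb hZ (by
        intro Z' hZ'b hlt
        have hc2 := Finset.card_le_card hZ'b
        rw [hb6] at hc2
        by_cases h3 : Z'.card = 3
        · rw [if_pos h3]; exact hE3 Z' hZ'b h3
        · rw [if_neg h3]
          by_cases h4 : Z'.card = 4
          · rw [if_pos h4]; exact hE4 Z' hZ'b h4
          · rw [if_neg h4]
            by_cases h5 : Z'.card = 5
            · rw [if_pos h5]; exact hE5 Z' hZ'b h5
            · rw [if_neg h5]
              have h6 : Z' = b := Finset.eq_of_subset_of_card_le hZ'b (by rw [hb6]; omega)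
              rw [h6]; exact hE6)
      have h2 := hlam Z (by omega)
      rw [hZ] at h2
      simp only [Finset.sum_range_succ, Finset.sum_range_zero] at h1
      norm_num [Nat.choose] at h1 h2
      omega
    have hset : ∀ s : Finset α, {c : Finset α | c ∈ B ∧ b ∩ c = s}.ncard = E s := by
      intro s
      rw [hEdef, ← Set.ncard_coe_finset]
      congr 1
      ext c
      simp only [Set.mem_setOf_eq, Finset.coe_filter, hBf]
    intro s hs
    refine ⟨fun h => ?_, fun h => ?_, fun h => ?_⟩
    · rw [hset]; exact hE2 s hs h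
    · rw [hset]; exact hE3 s hs h
    · rw [hset]; exact hE4 s hs h

end Cfsg.Agent.S1595
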