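import Cfsg.Statements.S1691
-- import your own Cfsg.Agent.* helpers here

set_option autoImplicit false
open Cfsg

namespace Cfsg.Agent.S1691

/-- The commutator subgroup of the presented group Fi₂₄ has index 2 (the presented group is Fi₂₄′:2 with Fi₂₄′ its derived subgroup). -/
theorem result : (commutator Cfsg.Spor.Fi24).index = 2 := by
  classical
  have hgg : Multiplicative.ofAdd (1 : ZMod 2) * Multiplicative.ofAdd (1 : ZMod 2) = 1 := by decide
  have hg1 : Multiplicative.ofAdd (1 : ZMod 2) ≠ 1 := by decide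
  have hginv : (Multiplicative.ofAdd (1 : ZMod 2))⁻¹ = Multiplicative.ofAdd (1 : ZMod 2) :=
    inv_eq_of_mul_eq_one_left hgg
  have hrel : ∀ r ∈ (Cfsg.Spor.coxRelators Cfsg.Spor.Fi24.edges ∪ {r | r ∈ Cfsg.Spor.Fi24.extra}),
      FreeGroup.lift (fun _ : Cfsg.Spor.Fi24.Gen => Multiplicative.ofAdd (1 : ZMod 2)) r = 1 := by
    rintro r (⟨x, -, y, -, rfl⟩ | hr)
    · rw [map_pow, map_mul, FreeGroup.lift_apply_of, FreeGroup.lift_apply_of, hgg, one_pow]
    · have hr' : r ∈ Cfsg.Spor.Fi24.extra := hr
      simp only [Cfsg.Spor.Fi24.extra, List.mem_cons, List.not_mem_nil, or_false] at hr'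
      rcases hr' with rfl | rfl
      · simp only [map_mul, map_pow, map_inv, FreeGroup.lift_apply_of]
        apply Multiplicative.toAdd.injective
        decide
      · simp only [map_mul, map_pow, FreeGroup.lift_apply_of]
        apply Multiplicative.toAdd.injective
        decide
  have hnode : ∀ x : Cfsg.Spor.Fi24.Gen, x ∈ Cfsg.Spor.coxNodes Cfsg.Spor.Fi24.edges := by
    intro x; cases x <;> decide
  have hsq : ∀ x : Cfsg.Spor.Fi24.Gen,
      (PresentedGroup.of x : Cfsg.Spor.Fi24) * PresentedGroup.of x = 1 := by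
    intro x
    have hmem : (FreeGroup.of x * FreeGroup.of x) ^ Cfsg.Spor.coxLabel Cfsg.Spor.Fi24.edges x x ∈
        (Cfsg.Spor.coxRelators Cfsg.Spor.Fi24.edges ∪ {r | r ∈ Cfsg.Spor.Fi24.extra}) :=
      Or.inl ⟨x, hnode x, x, hnode x, rfl⟩
    have h1 := PresentedGroup.one_of_mem hmem
    have hl : Cfsg.Spor.coxLabel Cfsg.Spor.Fi24.edges x x = 1 := by simp [Cfsg.Spor.coxLabel]
    rw [hl, pow_one, map_mul] at h1
    exact h1
  have hedge : ∀ x y : Cfsg.Spor.Fi24.Gen, Cfsg.Spor.coxLabel Cfsg.Spor.Fi24.edges x y = 3 →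
      ((PresentedGroup.of x : Cfsg.Spor.Fi24) * PresentedGroup.of y) ^ 3 = 1 := by
    intro x y hl
    have hmem : (FreeGroup.of x * FreeGroup.of y) ^ Cfsg.Spor.coxLabel Cfsg.Spor.Fi24.edges x y ∈
        (Cfsg.Spor.coxRelators Cfsg.Spor.Fi24.edges ∪ {r | r ∈ Cfsg.Spor.Fi24.extra}) :=
      Or.inl ⟨x, hnode x, y, hnode y, rfl⟩
    have h1 := PresentedGroup.one_of_mem hmem
    rw [hl, map_pow, map_mul] at h1
    exact h1
  have hadj : ∀ x y : Cfsg.Spor.Fi24.Gen, Cfsg.Spor.coxLabel Cfsg.Spor.Fi24.edges x y = 3 →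
      Abelianization.of (PresentedGroup.of x : Cfsg.Spor.Fi24) =
        Abelianization.of (PresentedGroup.of y : Cfsg.Spor.Fi24) := by
    intro x y hl
    have h1 := congrArg (Abelianization.of (G := Cfsg.Spor.Fi24)) (hedge x y hl)
    have h2 := congrArg (Abelianization.of (G := Cfsg.Spor.Fi24)) (hsq x)
    have h3 := congrArg (Abelianization.of (G := Cfsg.Spor.Fi24)) (hsq y)
    rw [map_pow, map_mul, map_one] at h1
    rw [map_mul, map_one] at h2 h3
    generalize Abelianization.of (PresentedGroup.of x : Cfsg.Spor.Fi24) = u at h1 h2 h3 ⊢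
    generalize Abelianization.of (PresentedGroup.of y : Cfsg.Spor.Fi24) = v at h1 h3 ⊢
    have h4 : u * v = 1 := by
      have : (u * v) ^ 3 = (u * u) * (v * v) * (u * v) := by
        rw [pow_succ, pow_two, mul_mul_mul_comm u v u v]
      rw [this, h2, h3, one_mul, one_mul] at h1
      exact h1
    calc u = u * (v * v) := by rw [h3, mul_one]
      _ = (u * v) * v := by rw [mul_assoc]
      _ = v := by rw [h4, one_mul]
  have hall : ∀ x : Cfsg.Spor.Fi24.Gen,
      Abelianization.of (PresentedGroup.of x : Cfsg.Spor.Fi24) =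
        Abelianization.of (PresentedGroup.of Cfsg.Spor.Fi24.Gen.d : Cfsg.Spor.Fi24) := by
    have hc := hadj .c .d (by decide)
    have hb := (hadj .b .c (by decide)).trans hc
    have ha := (hadj .a .b (by decide)).trans hb
    have hk := (hadj .k .a (by decide)).trans ha
    have hl := (hadj .l .k (by decide)).trans hk
    have he := hadj .e .d (by decide)
    have hf := (hadj .f .e (by decide)).trans he
    have hg := (hadj .g .f (by decide)).trans hf
    have hj := (hadj .j .g (by decide)).trans hg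
    have hh := hadj .h .d (by decide)
    have hi := (hadj .i .h (by decide)).trans hh
    intro x
    cases x
    · exact hl
    · exact hk
    · exact ha
    · exact hb
    · exact hc
    · rfl
    · exact he
    · exact hf
    · exact hg
    · exact hj
    · exact hh
    · exact hi
  have htt : Abelianization.of (PresentedGroup.of Cfsg.Spor.Fi24.Gen.d : Cfsg.Spor.Fi24) *
      Abelianization.of (PresentedGroup.of Cfsg.Spor.Fi24.Gen.d : Cfsg.Spor.Fi24) = 1 := by
    rw [← map_mul, hsq, map_one]
  have key : ∀ w : FreeGroup Cfsg.Spor.Fi24.Gen,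
      (PresentedGroup.toGroup hrel (PresentedGroup.mk _ w) = 1 ∧
        Abelianization.of (PresentedGroup.mk _ w : Cfsg.Spor.Fi24) = 1) ∨
      (PresentedGroup.toGroup hrel (PresentedGroup.mk _ w) = Multiplicative.ofAdd (1 : ZMod 2) ∧
        Abelianization.of (PresentedGroup.mk _ w : Cfsg.Spor.Fi24) =
          Abelianization.of (PresentedGroup.of Cfsg.Spor.Fi24.Gen.d : Cfsg.Spor.Fi24)) := by
    intro w
    induction w using FreeGroup.induction_on with
    | C1 => left; simp
    | of x =>
      right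
      exact ⟨PresentedGroup.toGroup.of hrel, hall x⟩
    | inv_of x ih =>
      rcases ih with ⟨h1, h2⟩ | ⟨h1, h2⟩
      · left
        rw [map_inv, map_inv, h1, map_inv, h2]; simp
      · right
        rw [map_inv, map_inv, h1, map_inv, h2]
        exact ⟨hginv, inv_eq_of_mul_eq_one_left htt⟩
    | mul x y ihx ihy =>
      rw [map_mul, map_mul, map_mul]
      rcases ihx with ⟨h1, h2⟩ | ⟨h1, h2⟩ <;> rcases ihy with ⟨h3, h4⟩ | ⟨h3, h4⟩
      · left; rw [h1, h2, h3, h4]; simp
      · right; rw [h1, h2, h3, h4]; simp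
      · right; rw [h1, h2, h3, h4]; simp
      · left; rw [h1, h2, h3, h4]; exact ⟨hgg, htt⟩
  have hker : (PresentedGroup.toGroup hrel).ker = commutator Cfsg.Spor.Fi24 := by
    apply le_antisymm
    · intro w hw
      obtain ⟨w, rfl⟩ := PresentedGroup.mk_surjective _ w
      rw [MonoidHom.mem_ker] at hw
      rcases key w with ⟨_, h2⟩ | ⟨h1, _⟩
      · rw [← Abelianization.ker_of, MonoidHom.mem_ker]
        exact h2
      · exact absurd (hw.symm.trans h1).symm hg1
    · exact Abelianization.commutator_subset_ker _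
  rw [← hker, Subgroup.index_ker]
  have hsurj : Function.Surjective (PresentedGroup.toGroup hrel) := by
    intro q
    by_cases hq : q = 1
    · exact ⟨1, by rw [map_one, hq]⟩
    · refine ⟨PresentedGroup.of Cfsg.Spor.Fi24.Gen.d, ?_⟩
      rw [PresentedGroup.toGroup.of]
      revert q
      decide
  rw [MonoidHom.range_eq_top.mpr hsurj, Subgroup.card_top]
  simp [Nat.card_eq_fintype_card]

end Cfsg.Agent.S1691
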