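import Cfsg.Statements.S1753

set_option autoImplicit false
universe u
open Cfsg

namespace Cfsg.Agent.S1753

/-- Let K be any property of groups. (1) If G is a minimal counterexample relative to K — a finite non-abelian simple group not satisfying K such that every finite non-abelian simple group of smaller order satisfies K — then every proper subgroup of G is a K-group (all its non-abelian simple sections satisfy K), since such sections have smaller order than G. (2) Consequently (induction on the order), if every finite non-abelian simple group all of whose proper subgroups are K-groups satisfies K, then every finite non-abelian simple group satisfies K. -/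
theorem result (K : ∀ (X : Type u) [Group X], Prop) :
    (∀ (G : Type u) [Group G], Cfsg.IsMinCounterexampleWith K G → Cfsg.IsKProperWith K G) ∧
      ((∀ (X : Type u) [Group X] [Finite X], IsSimpleGroup X → ¬ IsMulCommutative X → Cfsg.IsKProperWith K X → K X) →
        ∀ (G : Type u) [Group G] [Finite G], IsSimpleGroup G → ¬ IsMulCommutative G → K G) := by
  have part1 : ∀ (G : Type u) [Group G], Cfsg.IsMinCounterexampleWith K G →
      Cfsg.IsKProperWith K G := by
    intro G _ hmin
    obtain ⟨hfin, hsimp, hnc, hnK, hmin'⟩ := hmin
    intro H hH H' N _ hs hn
    apply hmin' _ hs hn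
    have h1 : Nat.card (H' ⧸ N) ≤ Nat.card H' :=
      Nat.card_le_card_of_surjective _ (QuotientGroup.mk_surjective)
    have h2 : Nat.card H' ≤ Nat.card H := Subgroup.card_le_card_group H'
    have h3 : Nat.card H < Nat.card G := by
      by_contra hcon
      have h4 : Nat.card H = Nat.card G :=
        le_antisymm (Subgroup.card_le_card_group H) (not_lt.mp hcon)
      exact hH ((Subgroup.card_eq_iff_eq_top H).mp h4)
    omega
  refine ⟨part1, ?_⟩
  intro hyp
  have key : ∀ n : ℕ, ∀ (G : Type u) [Group G] [Finite G], Nat.card G = n → IsSimpleGroup G →
      ¬ IsMulCommutative G → K G := by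
    intro n
    induction n using Nat.strong_induction_on with
    | _ n ih =>
      intro G _ _ hcard hs hn
      by_contra hK
      exact hK (hyp G hs hn (part1 G ⟨inferInstance, hs, hn, hK,
        fun X _ _ hXs hXn hlt => ih (Nat.card X) (hcard ▸ hlt) X rfl hXs hXn⟩))
  intro G _ _ hs hn
  exact key _ G rfl hs hn

end Cfsg.Agent.S1753
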