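import Cfsg.Statements.S1754
import Cfsg.Agent.Lib.Helper1.Comp

set_option autoImplicit false
open Cfsg

open Cfsg Cfsg.Agent.Lib.Helper1

namespace Cfsg.Agent.S1754

/-- Let A be a standard subgroup of the finite group G (A quasisimple, C_G(A) tightly embedded of even order, A commuting elementwise with no other conjugate of itself, and N_G(A) = N_G(C_G(A))), and let t be an involution of G centralizing A. Then the centralizer of t lies in the normalizer of A; in particular A, viewed inside C_G(t), is a component of C_G(t). -/
theorem result {G : Type*} [Group G] [Finite G]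
    (A : Subgroup G) (hA : Cfsg.IsStandardSubgroup A) (t : G) (ht : orderOf t = 2) (htA : t ∈ Subgroup.centralizer (A : Set G)) :
    Subgroup.centralizer ({t} : Set G) ≤ Subgroup.normalizer (A : Set G) ∧
      Cfsg.IsComponent (A.subgroupOf (Subgroup.centralizer ({t} : Set G))) := by
  obtain ⟨hqs, ⟨heven, htight⟩, hcomm, hN⟩ := hA
  have hCN : Subgroup.centralizer ({t} : Set G) ≤ Subgroup.normalizer (A : Set G) := by
    intro g hg
    rw [hN]
    by_contra hgn
    have hodd := htight g hgn
    have htg : g * t * g⁻¹ = t := by
      have := Subgroup.mem_centralizer_iff.mp hg t (Set.mem_singleton t)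
      rw [← this]; group
    have hmem : t ∈ Subgroup.centralizer (A : Set G) ⊓
        (Subgroup.centralizer (A : Set G)).map (MulAut.conj g).toMonoidHom :=
      Subgroup.mem_inf.mpr ⟨htA, ⟨t, htA, htg⟩⟩
    have h2 : 2 ∣ Nat.card ↥(Subgroup.centralizer (A : Set G) ⊓
        (Subgroup.centralizer (A : Set G)).map (MulAut.conj g).toMonoidHom) := by
      rw [← ht]; exact Subgroup.orderOf_dvd_natCard _ hmem
    exact (Nat.not_even_iff_odd.mpr hodd) (even_iff_two_dvd.mpr h2)
  have hAC : A ≤ Subgroup.centralizer ({t} : Set G) := by
    intro a ha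
    rw [Subgroup.mem_centralizer_iff]
    intro y hy
    rw [Set.mem_singleton_iff] at hy
    rw [hy]
    exact (Subgroup.mem_centralizer_iff.mp htA a ha).symm
  refine ⟨hCN, ?_, ?_⟩
  · have hn : (A.subgroupOf (Subgroup.centralizer ({t} : Set G))).Normal :=
      (Subgroup.normal_subgroupOf_iff_le_normalizer hAC).mpr hCN
    exact hn.isSubnormal
  · exact (isQuasisimple_subgroupOf hAC).mpr hqs

end Cfsg.Agent.S1754
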