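import Cfsg.Statements.S1755
import Cfsg.Agent.Lib.Helper1.GenFit

set_option autoImplicit false
open Cfsg

open Cfsg Cfsg.Agent.Lib.Helper1

namespace Cfsg.Agent.S1755

theorem eq_of_orderOf_two_of_isCyclic {A : Type*} [Group A] [Finite A] [IsCyclic A] {x y : A}
    (hx : orderOf x = 2) (hy : orderOf y = 2) : x = y := by
  classical
  haveI : Fintype A := Fintype.ofFinite A
  have hd : 2 ∣ Fintype.card A := by rw [← hx]; exact orderOf_dvd_card
  have h := IsCyclic.card_orderOf_eq_totient hd
  rw [Nat.totient_two] at h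
  exact Finset.card_le_one.mp (le_of_eq h) x (by simp [hx]) y (by simp [hy])

theorem key {G : Type*} [Group G] [Finite G] (C : Subgroup G) (z : G) (hz : orderOf z = 2)
    (hC : ∀ g, g ∈ C ↔ g * z = z * g) (Q : Subgroup ↥C) (hQn : Q.Normal)
    (hcent : Subgroup.centralizer (Q : Set ↥C) ≤ Q) (hQ : Cfsg.IsOfSymplecticType ↥Q)
    (B : Subgroup ↥Q) [hBc : B.Characteristic] (hBa : IsMulCommutative ↥B) (g : G) :
    ((B.map Q.subtype).map C.subtype).map (MulAut.conj g).toMonoidHom =
        (B.map Q.subtype).map C.subtype ∨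
      ((B.map Q.subtype).map C.subtype).map (MulAut.conj g).toMonoidHom ⊓
        (B.map Q.subtype).map C.subtype = ⊥ := by
  have hzC : z ∈ C := (hC z).mpr rfl
  have hzQ : (⟨z, hzC⟩ : ↥C) ∈ Q := by
    apply hcent
    rw [Subgroup.mem_centralizer_iff]
    intro q _
    apply Subtype.ext
    exact (hC q).mp q.2
  have hzo : orderOf (⟨⟨z, hzC⟩, hzQ⟩ : ↥Q) = 2 := by
    rw [Subgroup.orderOf_mk, Subgroup.orderOf_mk, hz]
  have hzcen : (⟨⟨z, hzC⟩, hzQ⟩ : ↥Q) ∈ Subgroup.center ↥Q := by
    rw [Subgroup.mem_center_iff]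
    intro q
    apply Subtype.ext
    apply Subtype.ext
    exact (hC q).mp (q : ↥C).2
  haveI hcycZ : IsCyclic ↥(Subgroup.center ↥Q) := hQ.2 _ inferInstance inferInstance
  haveI hcycB : IsCyclic ↥B := hQ.2 B hBc hBa
  have hBn : B.Normal := Subgroup.normal_of_characteristic B
  -- involutions of `B` equal `z`
  have claimA : ∀ b ∈ B, orderOf b = 2 → b = (⟨⟨z, hzC⟩, hzQ⟩ : ↥Q) := by
    intro b hb hbo
    have hbcen : b ∈ Subgroup.center ↥Q := by
      rw [Subgroup.mem_center_iff]
      intro q
      have h1 : q * b * q⁻¹ ∈ B := hBn.conj_mem b hb q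
      have h2 : orderOf (q * b * q⁻¹) = 2 := by
        rw [← hbo]
        exact orderOf_injective (MulAut.conj q).toMonoidHom (MulAut.conj q).injective b
      have h3 : (⟨q * b * q⁻¹, h1⟩ : ↥B) = ⟨b, hb⟩ :=
        eq_of_orderOf_two_of_isCyclic (by rw [Subgroup.orderOf_mk]; exact h2)
          (by rw [Subgroup.orderOf_mk]; exact hbo)
      have h4 : q * b * q⁻¹ = b := congrArg Subtype.val h3
      calc q * b = (q * b * q⁻¹) * q := by group
        _ = b * q := by rw [h4]
    have h5 : (⟨b, hbcen⟩ : ↥(Subgroup.center ↥Q)) = ⟨_, hzcen⟩ :=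
      eq_of_orderOf_two_of_isCyclic (by rw [Subgroup.orderOf_mk]; exact hbo)
        (by rw [Subgroup.orderOf_mk]; exact hzo)
    exact congrArg Subtype.val h5
  have claimB : ∀ x ∈ (B.map Q.subtype).map C.subtype, orderOf x = 2 → x = z := by
    rintro _ ⟨_, ⟨b, hb, rfl⟩, rfl⟩ hx
    have hbo : orderOf b = 2 := by
      rw [← hx]
      have h1 := orderOf_injective Q.subtype Q.subtype_injective b
      have h2 := orderOf_injective C.subtype C.subtype_injective (Q.subtype b)
      rw [h2, h1]
    rw [claimA b hb hbo]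
    rfl
  by_cases hint : ((B.map Q.subtype).map C.subtype).map (MulAut.conj g).toMonoidHom ⊓
        (B.map Q.subtype).map C.subtype = ⊥
  · exact Or.inr hint
  · left
    have hB1p : IsPGroup 2 ↥((B.map Q.subtype).map C.subtype) :=
      ((hQ.1.to_subgroup B).map _).map _
    have hIp : IsPGroup 2 ↥(((B.map Q.subtype).map C.subtype).map (MulAut.conj g).toMonoidHom ⊓
        (B.map Q.subtype).map C.subtype) := hB1p.to_le inf_le_right
    have hdvd : 2 ∣ Nat.card ↥(((B.map Q.subtype).map C.subtype).map (MulAut.conj g).toMonoidHom ⊓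
        (B.map Q.subtype).map C.subtype) := by
      obtain ⟨n, hn⟩ := IsPGroup.iff_card.mp hIp
      rcases Nat.eq_zero_or_pos n with h0 | hpos
      · rw [h0, pow_zero] at hn
        exact absurd (Subgroup.card_eq_one.mp hn) hint
      · rw [hn]; exact dvd_pow_self 2 hpos.ne'
    haveI : Fact (Nat.Prime 2) := ⟨Nat.prime_two⟩
    obtain ⟨w, hw⟩ := exists_prime_orderOf_dvd_card' 2 hdvd
    have hw' : orderOf (w : G) = 2 := by rw [Subgroup.orderOf_coe]; exact hw
    obtain ⟨hw1, hw2⟩ := Subgroup.mem_inf.mp w.2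
    have hwz : (w : G) = z := claimB _ hw2 hw'
    obtain ⟨x, hx, hxw⟩ := hw1
    have hxo : orderOf x = 2 := by
      rw [← hw', ← hxw]
      exact (orderOf_injective (MulAut.conj g).toMonoidHom (MulAut.conj g).injective x).symm
    have hxz : x = z := claimB x hx hxo
    have hgC : g ∈ C := by
      rw [hC]
      have h1 : g * z * g⁻¹ = z := by
        have h2 : (MulAut.conj g).toMonoidHom x = g * x * g⁻¹ := rfl
        rw [h2, hxz] at hxw
        rw [hxw, hwz]
      calc g * z = (g * z * g⁻¹) * g := by group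
        _ = z * g := by rw [h1]
    haveI hNn : (B.map Q.subtype).Normal := normal_map_subtype_of_characteristic hQn B
    ext y
    constructor
    · rintro ⟨_, ⟨n, hn, rfl⟩, rfl⟩
      exact ⟨(⟨g, hgC⟩ : ↥C) * n * (⟨g, hgC⟩ : ↥C)⁻¹, hNn.conj_mem n hn _, rfl⟩
    · rintro ⟨n, hn, rfl⟩
      refine ⟨C.subtype ((⟨g, hgC⟩ : ↥C)⁻¹ * n * (⟨g, hgC⟩ : ↥C)⁻¹⁻¹),
        ⟨_, hNn.conj_mem n hn _, rfl⟩, ?_⟩
      show g * (C.subtype ((⟨g, hgC⟩ : ↥C)⁻¹ * n * (⟨g, hgC⟩ : ↥C)⁻¹⁻¹)) * g⁻¹ = C.subtype n
      simp only [Subgroup.coe_subtype, Subgroup.coe_mul, Subgroup.coe_inv]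
      group

/-- Let G be a finite group and let z be an involution of G such that Q, the generalized Fitting subgroup of the centralizer C of z, is a 2-group of symplectic type (every characteristic abelian subgroup of Q is cyclic). Let B be a characteristic abelian subgroup of Q, viewed as a subgroup of G. Then for every g in G, the conjugate of B by g either equals B or meets B trivially. -/
theorem result {G : Type*} [Group G] [Finite G] (z : G) (hz : orderOf z = 2) (hQ : Cfsg.IsOfSymplecticType ↥(Cfsg.generalizedFittingSubgroup ↥(Subgroup.centralizer ({z} : Set G))))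
    (B : Subgroup ↥(Cfsg.generalizedFittingSubgroup ↥(Subgroup.centralizer ({z} : Set G)))) (hBc : B.Characteristic) (hBa : IsMulCommutative ↥B) (g : G) :
    ((B.map (Cfsg.generalizedFittingSubgroup ↥(Subgroup.centralizer ({z} : Set G))).subtype).map (Subgroup.centralizer ({z} : Set G)).subtype).map (MulAut.conj g).toMonoidHom =
        (B.map (Cfsg.generalizedFittingSubgroup ↥(Subgroup.centralizer ({z} : Set G))).subtype).map (Subgroup.centralizer ({z} : Set G)).subtype ∨
      ((B.map (Cfsg.generalizedFittingSubgroup ↥(Subgroup.centralizer ({z} : Set G))).subtype).map (Subgroup.centralizer ({z} : Set G)).subtype).map (MulAut.conj g).toMonoidHom ⊓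
        (B.map (Cfsg.generalizedFittingSubgroup ↥(Subgroup.centralizer ({z} : Set G))).subtype).map (Subgroup.centralizer ({z} : Set G)).subtype = ⊥ := by
  haveI := hBc
  refine key (Subgroup.centralizer ({z} : Set G)) z hz ?_ _ (genFitting_normal _)
    (centralizer_genFitting_le _) hQ B hBa g
  intro x
  rw [Subgroup.mem_centralizer_iff]
  constructor
  · intro h; exact (h z (Set.mem_singleton z)).symm
  · intro h y hy
    rw [Set.mem_singleton_iff] at hy
    rw [hy]; exact h.symm

end Cfsg.Agent.S1755
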