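import Cfsg.Statements.S1756
import Cfsg.Agent.Lib.Helper2.PGroup
import Cfsg.Agent.Lib.Helper6.Frattini
import Cfsg.Agent.Lib.Helper7.Coprime2
import Cfsg.Agent.Lib.Helper7.PCore
import Mathlib.Tactic.Group

set_option autoImplicit false
open Cfsg

open Cfsg.Agent.Lib.Helper7

namespace Cfsg.Agent.S1756

theorem exists_commHom {P : Type*} [Group P] (hcomm : commutator P = Subgroup.center P) (y : P) :
    ∃ f : P →* Subgroup.center P,
      ∀ q : P, ((f q : Subgroup.center P) : P) = q * y * q⁻¹ * y⁻¹ := by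
  have hmem : ∀ q : P, q * y * q⁻¹ * y⁻¹ ∈ Subgroup.center P := by
    intro q
    rw [← hcomm]
    exact comm_mem_commutator (Subgroup.mem_top q) (Subgroup.mem_top y)
  refine ⟨{ toFun := fun q => ⟨q * y * q⁻¹ * y⁻¹, hmem q⟩, map_one' := ?_, map_mul' := ?_ },
    fun q => rfl⟩
  · apply Subtype.ext
    show 1 * y * 1⁻¹ * y⁻¹ = 1
    group
  · intro q q'
    apply Subtype.ext
    show q * q' * y * (q * q')⁻¹ * y⁻¹ = (q * y * q⁻¹ * y⁻¹) * (q' * y * q'⁻¹ * y⁻¹)
    have hc : ∀ g : P, g * (q' * y * q'⁻¹ * y⁻¹) = (q' * y * q'⁻¹ * y⁻¹) * g :=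
      fun g => Subgroup.mem_center_iff.mp (hmem q') g
    calc q * q' * y * (q * q')⁻¹ * y⁻¹
        = (q * (q' * y * q'⁻¹ * y⁻¹)) * (y * q⁻¹ * y⁻¹) := by group
      _ = ((q' * y * q'⁻¹ * y⁻¹) * q) * (y * q⁻¹ * y⁻¹) := by rw [hc q]
      _ = (q' * y * q'⁻¹ * y⁻¹) * (q * y * q⁻¹ * y⁻¹) := by group
      _ = (q * y * q⁻¹ * y⁻¹) * (q' * y * q'⁻¹ * y⁻¹) := (hc _).symm

theorem centralizer_card_bound {P : Type*} [Group P] [Finite P] (hP : IsPGroup 2 P)
    (hcomm : commutator P = Subgroup.center P) (hZ : Nat.card (Subgroup.center P) = 2) :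
    ∀ D : Subgroup P, Subgroup.center P ≤ D →
      2 * Nat.card P ≤ Nat.card (Subgroup.centralizer (D : Set P)) * Nat.card D := by
  haveI : Fact (Nat.Prime 2) := ⟨Nat.prime_two⟩
  have key : ∀ n : ℕ, ∀ D : Subgroup P, Nat.card D = n → Subgroup.center P ≤ D →
      2 * Nat.card P ≤ Nat.card (Subgroup.centralizer (D : Set P)) * Nat.card D := by
    intro n
    induction n using Nat.strong_induction_on with
    | _ n ih =>
      intro D hn hZD
      by_cases hD : D = Subgroup.center P
      · have h1 : Subgroup.centralizer (D : Set P) = ⊤ := by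
          rw [Subgroup.centralizer_eq_top_iff_subset, hD]
        rw [h1, Subgroup.card_top, hD, hZ, mul_comm]
      · have hZ' : (Subgroup.center P).subgroupOf D ≠ ⊤ := by
          intro h
          rw [Subgroup.subgroupOf_eq_top] at h
          exact hD (le_antisymm h hZD)
        haveI := Cfsg.Agent.Lib.Helper6.fr_finite_subgroup D
        obtain ⟨M', hM', hZM'⟩ :=
          (eq_top_or_exists_le_coatom ((Subgroup.center P).subgroupOf D)).resolve_left hZ'
        have hD2 : IsPGroup 2 D := hP.to_subgroup D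
        have hidx : M'.index = 2 := Cfsg.Agent.Lib.Helper2.coatom_index_of_pGroup hD2 M' hM'
        set D0 : Subgroup P := M'.map D.subtype with hD0
        have hcardD0 : Nat.card D0 = Nat.card M' :=
          Subgroup.card_map_of_injective D.subtype_injective
        have hcardD : Nat.card D = Nat.card M' * 2 := by
          rw [← hidx]; exact (Subgroup.card_mul_index M').symm
        have hZD0 : Subgroup.center P ≤ D0 := by
          intro z hz
          exact ⟨⟨z, hZD hz⟩, hZM' (Subgroup.mem_subgroupOf.mpr hz), rfl⟩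
        have hlt : Nat.card D0 < n := by
          rw [← hn, hcardD, hcardD0]
          have h0 : 0 < Nat.card M' := Nat.card_pos
          omega
        have ih0 := ih _ hlt D0 rfl hZD0
        obtain ⟨y', hy'⟩ : ∃ y' : D, y' ∉ M' := by
          by_contra hcon
          push Not at hcon
          exact hM'.1 (eq_top_iff.mpr (fun x _ => hcon x))
        obtain ⟨f, hf⟩ := exists_commHom hcomm (y' : P)
        set K : Subgroup P := f.ker ⊓ Subgroup.centralizer (D0 : Set P) with hK
        have hKle : K ≤ Subgroup.centralizer (D : Set P) := by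
          intro x hx
          obtain ⟨hx1, hx2⟩ := Subgroup.mem_inf.mp hx
          have hxy : x * (y' : P) = (y' : P) * x := by
            have h1 : f x = 1 := MonoidHom.mem_ker.mp hx1
            have h2 := hf x
            rw [h1] at h2
            have h3 : x * (y' : P) * x⁻¹ * (y' : P)⁻¹ = 1 := by rw [← h2]; rfl
            have h4 : x * (y' : P) = (x * (y' : P) * x⁻¹ * (y' : P)⁻¹) * ((y' : P) * x) := by
              group
            rw [h4, h3, one_mul]
          rw [Subgroup.mem_centralizer_iff] at hx2 ⊢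
          intro d hd
          by_cases hdM : (⟨d, hd⟩ : D) ∈ M'
          · exact hx2 d ⟨⟨d, hd⟩, hdM, rfl⟩
          · have h5 : (⟨d, hd⟩ : D) * y'⁻¹ ∈ M' := by
              rw [Subgroup.mul_mem_iff_of_index_two hidx]
              constructor
              · intro h; exact absurd h hdM
              · intro h; exact absurd (by simpa using M'.inv_mem h) hy'
            have h6 : d * (y' : P)⁻¹ ∈ D0 := ⟨_, h5, rfl⟩
            have h7 := hx2 _ h6
            calc d * x = (d * (y' : P)⁻¹) * ((y' : P) * x) := by group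
              _ = (d * (y' : P)⁻¹) * (x * (y' : P)) := by rw [hxy]
              _ = ((d * (y' : P)⁻¹) * x) * (y' : P) := by group
              _ = (x * (d * (y' : P)⁻¹)) * (y' : P) := by rw [h7]
              _ = x * d := by group
        have hrel : f.ker.relIndex (Subgroup.centralizer (D0 : Set P)) ≤ 2 := by
          rw [Subgroup.relIndex_ker]
          have h1 : Nat.card ((Subgroup.centralizer (D0 : Set P)).map f) ∣
              Nat.card (Subgroup.center P) := Subgroup.card_subgroup_dvd_card _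
          rw [hZ] at h1
          exact Nat.le_of_dvd (by norm_num) h1
        have hcK : Nat.card K * f.ker.relIndex (Subgroup.centralizer (D0 : Set P)) =
            Nat.card (Subgroup.centralizer (D0 : Set P)) := by
          have h1 := card_mul_relIndex_of_le (H := K)
            (L := Subgroup.centralizer (D0 : Set P)) inf_le_right
          rw [hK, Subgroup.inf_relIndex_right] at h1
          exact h1
        have hcle : Nat.card K ≤ Nat.card (Subgroup.centralizer (D : Set P)) :=
          Subgroup.card_le_of_le hKle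
        rw [hcardD0] at ih0
        rw [hcardD]
        calc 2 * Nat.card P ≤ Nat.card (Subgroup.centralizer (D0 : Set P)) * Nat.card M' := ih0
          _ = Nat.card K * f.ker.relIndex (Subgroup.centralizer (D0 : Set P)) * Nat.card M' := by
              rw [hcK]
          _ ≤ Nat.card K * 2 * Nat.card M' := by gcongr
          _ = Nat.card K * (Nat.card M' * 2) := by ring
          _ ≤ Nat.card (Subgroup.centralizer (D : Set P)) * (Nat.card M' * 2) := by gcongr
  intro D hZD
  exact key _ D rfl hZD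

/-- Let Q be an extraspecial 2-subgroup of the finite group G (special with centre of order 2) and t an involution of G normalizing Q such that the centralizer of t in Q has index at most 2 in Q. Then t lies in the product of Q with the centralizer of Q. -/
theorem result {G : Type*} [Group G] [Finite G] (Q : Subgroup G)
    (hQ : Cfsg.IsExtraspecial 2 ↥Q) (t : G) (ht : orderOf t = 2) (htN : t ∈ Subgroup.normalizer (Q : Set G))
    (hi : (Subgroup.centralizer ({t} : Set G) ⊓ Q).relIndex Q ≤ 2) :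
    t ∈ Q ⊔ Subgroup.centralizer (Q : Set G) := by
  classical
  haveI : Fact (Nat.Prime 2) := ⟨Nat.prime_two⟩
  obtain ⟨⟨hQ2, hfr, hcm⟩, hZ2⟩ := hQ
  set C : Subgroup G := Subgroup.centralizer ({t} : Set G) ⊓ Q with hC
  have hCmem : ∀ q : G, q ∈ C ↔ (t * q = q * t ∧ q ∈ Q) := by
    intro q
    rw [hC, Subgroup.mem_inf, Subgroup.mem_centralizer_iff]
    constructor
    · rintro ⟨h1, h2⟩; exact ⟨h1 t rfl, h2⟩
    · rintro ⟨h1, h2⟩
      exact ⟨fun h hh => by rw [Set.mem_singleton_iff.mp hh]; exact h1, h2⟩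
  have hCQ : C ≤ Q := inf_le_right
  have ht2 : t * t = 1 := by rw [← pow_two, ← ht, pow_orderOf_eq_one]
  have htinv : t⁻¹ = t := inv_eq_of_mul_eq_one_left ht2
  have htQ : ∀ q ∈ Q, t * q * t⁻¹ ∈ Q := fun q hq => conj_mem_of_mem_normalizer htN hq
  set C' : Subgroup Q := C.subgroupOf Q with hC'
  have hidx_le : C'.index ≤ 2 := hi
  have hidx_ne : C'.index ≠ 0 := Subgroup.index_ne_zero_of_finite
  by_cases h1 : C'.index = 1
  · have h2 : C' = ⊤ := Subgroup.index_eq_one.mp h1
    rw [hC', Subgroup.subgroupOf_eq_top] at h2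
    apply Subgroup.mem_sup_right
    rw [Subgroup.mem_centralizer_iff]
    intro q hq
    exact (((hCmem q).mp (h2 hq)).1).symm
  have hidx : C'.index = 2 := by omega
  have hI : ∀ a ∈ Q, ∀ b ∈ Q, (a * b ∈ C ↔ (a ∈ C ↔ b ∈ C)) := by
    intro a ha b hb
    have h2 := Subgroup.mul_mem_iff_of_index_two hidx (a := ⟨a, ha⟩) (b := ⟨b, hb⟩)
    exact h2
  obtain ⟨q0, hq0Q, hq0C⟩ : ∃ q ∈ Q, q ∉ C := by
    by_contra hcon
    push Not at hcon
    apply h1
    rw [Subgroup.index_eq_one, hC', Subgroup.subgroupOf_eq_top]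
    exact hcon
  have hinvC : ∀ q ∈ Q, t * q * t⁻¹ ∈ C → q ∈ C := by
    intro q hq h
    have h2 := ((hCmem _).mp h).1
    rw [hCmem]
    refine ⟨?_, hq⟩
    have h3 : t * (t * q * t⁻¹) = q * t := by
      rw [htinv]
      calc t * (t * q * t) = (t * t) * q * t := by group
        _ = q * t := by rw [ht2, one_mul]
    have h4 : t * q * t⁻¹ * t = t * q := by group
    rw [h3, h4] at h2
    exact h2.symm
  obtain ⟨z, hz1, hzuniq⟩ := (Nat.card_eq_two_iff' (1 : Subgroup.center Q)).mp hZ2
  have stepA : ∀ q ∈ Q, q ∉ C → t * q * t⁻¹ = ((z : Q) : G) * q := by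
    intro q hq hqC
    set c : G := t * q * t⁻¹ * q⁻¹ with hc
    have htq : t * q * t⁻¹ = c * q := by rw [hc]; group
    have htqQ : t * q * t⁻¹ ∈ Q := htQ q hq
    have htqC : t * q * t⁻¹ ∉ C := fun h => hqC (hinvC q hq h)
    have hqinvC : q⁻¹ ∉ C := fun h => hqC (by simpa using C.inv_mem h)
    have hcC : c ∈ C := by
      rw [hc, hI _ htqQ _ (Q.inv_mem hq)]
      exact ⟨fun h => absurd h htqC, fun h => absurd h hqinvC⟩
    have hcQ : c ∈ Q := hCQ hcC
    have htc : t * c = c * t := ((hCmem c).mp hcC).1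
    have htc' : t * c * t⁻¹ = c := by rw [htc]; group
    have hcc : c * c = 1 := by
      have h2 : t * (t * q * t⁻¹) * t⁻¹ = q := by
        rw [htinv]
        calc t * (t * q * t) * t = (t * t) * q * (t * t) := by group
          _ = q := by rw [ht2]; group
      rw [htq] at h2
      have h3 : t * (c * q) * t⁻¹ = (t * c * t⁻¹) * (t * q * t⁻¹) := by group
      rw [h3, htc', htq] at h2
      have h4 : c * c * q = 1 * q := by rw [one_mul, mul_assoc]; exact h2
      exact mul_right_cancel h4
    have hcinv : c⁻¹ = c := inv_eq_of_mul_eq_one_left hcc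
    have hqqC : q * q ∈ C := by rw [hI q hq q hq]
    have hcq : c * q = q * c := by
      have h2 := ((hCmem _).mp hqqC).1
      have h3 : t * (q * q) * t⁻¹ = q * q := by rw [h2]; group
      have h4 : t * (q * q) * t⁻¹ = (t * q * t⁻¹) * (t * q * t⁻¹) := by group
      rw [h4, htq] at h3
      have h5 : c * q * c = q := by
        have h6 : c * q * c * q = q * q := by rw [← h3]; group
        exact mul_right_cancel h6
      calc c * q = (c * q * c) * c⁻¹ := by group
        _ = q * c := by rw [h5, hcinv]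
    have hcC' : ∀ c' ∈ C, c * c' = c' * c := by
      intro c' hc'
      have hc'Q : c' ∈ Q := hCQ hc'
      have htc'' : t * c' * t⁻¹ = c' := by rw [((hCmem c').mp hc').1]; group
      have hk : c' * q * c'⁻¹ * q⁻¹ ∈ C := by
        have h2 : c' * q * c'⁻¹ ∉ C := by
          intro h
          rw [hI _ (Q.mul_mem hc'Q hq) _ (Q.inv_mem hc'Q), hI _ hc'Q _ hq] at h
          exact hqC ((h.mpr (C.inv_mem hc')).mp hc')
        rw [hI _ (Q.mul_mem (Q.mul_mem hc'Q hq) (Q.inv_mem hc'Q)) _ (Q.inv_mem hq)]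
        exact ⟨fun h => absurd h h2, fun h => absurd h hqinvC⟩
      have h3 : t * (c' * q * c'⁻¹ * q⁻¹) * t⁻¹ = c' * q * c'⁻¹ * q⁻¹ := by
        rw [((hCmem _).mp hk).1]; group
      have h4 : t * (c' * q * c'⁻¹ * q⁻¹) * t⁻¹ =
          (t * c' * t⁻¹) * (t * q * t⁻¹) * (t * c' * t⁻¹)⁻¹ * (t * q * t⁻¹)⁻¹ := by group
      rw [h4, htc'', htq] at h3
      have h5 : c * (q * c'⁻¹ * q⁻¹) * c⁻¹ = q * c'⁻¹ * q⁻¹ := by
        have h6 : c' * (c * (q * c'⁻¹ * q⁻¹) * c⁻¹) = c' * (q * c'⁻¹ * q⁻¹) := by
          calc c' * (c * (q * c'⁻¹ * q⁻¹) * c⁻¹) = c' * (c * q) * c'⁻¹ * (c * q)⁻¹ := by group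
            _ = c' * q * c'⁻¹ * q⁻¹ := h3
            _ = c' * (q * c'⁻¹ * q⁻¹) := by group
        exact mul_left_cancel h6
      have h7 : c * c'⁻¹ = c'⁻¹ * c := by
        have h8 : c * (q * c'⁻¹ * q⁻¹) = (q * c'⁻¹ * q⁻¹) * c := by
          calc c * (q * c'⁻¹ * q⁻¹) = (c * (q * c'⁻¹ * q⁻¹) * c⁻¹) * c := by group
            _ = (q * c'⁻¹ * q⁻¹) * c := by rw [h5]
        have hcq' : c * q⁻¹ = q⁻¹ * c := by
          calc c * q⁻¹ = q⁻¹ * (q * c) * q⁻¹ := by group
            _ = q⁻¹ * (c * q) * q⁻¹ := by rw [hcq]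
            _ = q⁻¹ * c := by group
        calc c * c'⁻¹ = (c * q⁻¹) * (q * c'⁻¹ * q⁻¹) * q := by group
          _ = (q⁻¹ * c) * (q * c'⁻¹ * q⁻¹) * q := by rw [hcq']
          _ = q⁻¹ * (c * (q * c'⁻¹ * q⁻¹)) * q := by group
          _ = q⁻¹ * ((q * c'⁻¹ * q⁻¹) * c) * q := by rw [h8]
          _ = q⁻¹ * (q * c'⁻¹ * q⁻¹) * (c * q) := by group
          _ = q⁻¹ * (q * c'⁻¹ * q⁻¹) * (q * c) := by rw [hcq]
          _ = c'⁻¹ * c := by group
      calc c * c' = c' * (c'⁻¹ * c) * c' := by group
        _ = c' * (c * c'⁻¹) * c' := by rw [h7]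
        _ = c' * c := by group
    have hcen : (⟨c, hcQ⟩ : Q) ∈ Subgroup.center Q := by
      rw [Subgroup.mem_center_iff]
      rintro ⟨g, hg⟩
      apply Subtype.ext
      show g * c = c * g
      by_cases hgC : g ∈ C
      · exact (hcC' g hgC).symm
      · have h2 : g * q⁻¹ ∈ C := by
          rw [hI g hg _ (Q.inv_mem hq)]
          exact ⟨fun h => absurd h hgC, fun h => absurd h hqinvC⟩
        have h3 := hcC' _ h2
        calc g * c = (g * q⁻¹) * (q * c) := by group
          _ = (g * q⁻¹) * (c * q) := by rw [hcq]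
          _ = ((g * q⁻¹) * c) * q := by group
          _ = (c * (g * q⁻¹)) * q := by rw [h3]
          _ = c * g := by group
    have hc1 : c ≠ 1 := by
      intro h
      apply hqC
      rw [hCmem]
      refine ⟨?_, hq⟩
      rw [h, one_mul] at htq
      exact mul_inv_eq_iff_eq_mul.mp htq
    have hcz : (⟨⟨c, hcQ⟩, hcen⟩ : Subgroup.center Q) = z := by
      apply hzuniq
      intro h
      apply hc1
      exact congrArg (fun w : Subgroup.center Q => ((w : Q) : G)) h
    rw [htq]
    have h9 : ((z : Q) : G) = c := by rw [← hcz]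
    rw [h9]
  have hzC : ((z : Q) : G) ∈ C := by
    have h2 := stepA q0 hq0Q hq0C
    have h3 : ((z : Q) : G) = (t * q0 * t⁻¹) * q0⁻¹ := by rw [h2]; group
    rw [h3, hI _ (htQ q0 hq0Q) _ (Q.inv_mem hq0Q)]
    exact ⟨fun h => absurd (hinvC q0 hq0Q h) hq0C,
      fun h => absurd (by simpa using C.inv_mem h) hq0C⟩
  have hZC' : Subgroup.center Q ≤ C' := by
    intro w hw
    by_cases hw1 : (⟨w, hw⟩ : Subgroup.center Q) = 1
    · have h2 : w = 1 := congrArg Subtype.val hw1
      rw [h2]; exact C'.one_mem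
    · have h2 := hzuniq ⟨w, hw⟩ hw1
      have h3 : w = (z : Q) := congrArg Subtype.val h2
      rw [h3]
      exact hzC
  have hL := centralizer_card_bound hQ2 hcm hZ2 C' hZC'
  have hcardC' : Nat.card C' * 2 = Nat.card Q := by
    rw [← hidx]; exact Subgroup.card_mul_index C'
  obtain ⟨x', hx', hx'Z⟩ : ∃ x' : Q, x' ∈ Subgroup.centralizer (C' : Set Q) ∧
      x' ∉ Subgroup.center Q := by
    by_contra hcon
    push Not at hcon
    have h2 : Subgroup.centralizer (C' : Set Q) ≤ Subgroup.center Q := hcon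
    have h3 : Nat.card (Subgroup.centralizer (C' : Set Q)) ≤ 2 := by
      rw [← hZ2]; exact Subgroup.card_le_of_le h2
    have h4 : 0 < Nat.card C' := Nat.card_pos
    rw [← hcardC'] at hL
    have h5 := Nat.mul_le_mul_right (Nat.card C') h3
    linarith
  set x : G := (x' : G) with hx
  have hxQ : x ∈ Q := x'.2
  have hxC : ∀ c ∈ C, x * c = c * x := by
    intro c hc
    have h2 := Subgroup.mem_centralizer_iff.mp hx' ⟨c, hCQ hc⟩ hc
    exact (congrArg Subtype.val h2).symm
  have stepB : ∀ q ∈ Q, q ∉ C → x * q * x⁻¹ = ((z : Q) : G) * q := by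
    intro q hq hqC
    have hqinvC : q⁻¹ ∉ C := fun h => hqC (by simpa using C.inv_mem h)
    have he : (x' * ⟨q, hq⟩ * x'⁻¹ * (⟨q, hq⟩ : Q)⁻¹) ∈ Subgroup.center Q := by
      rw [← hcm]
      exact comm_mem_commutator (Subgroup.mem_top _) (Subgroup.mem_top _)
    have he1 : (⟨_, he⟩ : Subgroup.center Q) ≠ 1 := by
      intro h
      have h2 : x * q * x⁻¹ * q⁻¹ = 1 :=
        congrArg (fun w : Subgroup.center Q => ((w : Q) : G)) h
      have hxq : x * q = q * x := by
        have h3 : x * q = (x * q * x⁻¹ * q⁻¹) * (q * x) := by group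
        rw [h3, h2, one_mul]
      apply hx'Z
      rw [Subgroup.mem_center_iff]
      rintro ⟨g, hg⟩
      apply Subtype.ext
      show g * x = x * g
      by_cases hgC : g ∈ C
      · exact (hxC g hgC).symm
      · have h4 : g * q⁻¹ ∈ C := by
          rw [hI g hg _ (Q.inv_mem hq)]
          exact ⟨fun h => absurd h hgC, fun h => absurd h hqinvC⟩
        have h5 := hxC _ h4
        calc g * x = (g * q⁻¹) * (q * x) := by group
          _ = (g * q⁻¹) * (x * q) := by rw [hxq]
          _ = ((g * q⁻¹) * x) * q := by group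
          _ = (x * (g * q⁻¹)) * q := by rw [h5]
          _ = x * g := by group
    have h6 := hzuniq _ he1
    have h7 : x * q * x⁻¹ * q⁻¹ = ((z : Q) : G) :=
      congrArg (fun w : Subgroup.center Q => ((w : Q) : G)) h6
    rw [← h7]; group
  have hg : x⁻¹ * t ∈ Subgroup.centralizer (Q : Set G) := by
    rw [Subgroup.mem_centralizer_iff]
    intro q hq
    by_cases hqC : q ∈ C
    · have h2 := ((hCmem q).mp hqC).1
      have h3 := hxC q hqC
      have h4 : q * x⁻¹ = x⁻¹ * q := by
        calc q * x⁻¹ = x⁻¹ * (x * q) * x⁻¹ := by group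
          _ = x⁻¹ * (q * x) * x⁻¹ := by rw [h3]
          _ = x⁻¹ * q := by group
      calc q * (x⁻¹ * t) = (q * x⁻¹) * t := by group
        _ = (x⁻¹ * q) * t := by rw [h4]
        _ = x⁻¹ * (q * t) := by group
        _ = x⁻¹ * (t * q) := by rw [h2]
        _ = (x⁻¹ * t) * q := by group
    · have hA : t * q = (((z : Q) : G) * q) * t := by rw [← stepA q hq hqC]; group
      have hB : q * x⁻¹ = x⁻¹ * (((z : Q) : G) * q) := by rw [← stepB q hq hqC]; group
      calc q * (x⁻¹ * t) = (q * x⁻¹) * t := by group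
        _ = x⁻¹ * (((z : Q) : G) * q) * t := by rw [hB]
        _ = x⁻¹ * ((((z : Q) : G) * q) * t) := by group
        _ = x⁻¹ * (t * q) := by rw [hA]
        _ = (x⁻¹ * t) * q := by group
  have hfin : t = x * (x⁻¹ * t) := by group
  rw [hfin]
  exact Subgroup.mul_mem_sup hxQ hg

end Cfsg.Agent.S1756
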