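import Cfsg.Statements.S1780
import Mathlib.GroupTheory.PGroup

set_option autoImplicit false
open Cfsg

namespace Cfsg.Agent.S1780

/-- Let A be a finite abelian 2-group and t an automorphism of A whose order is a power of 2. If every element of A fixed by t² is fixed by t, then t fixes every element of A. -/
theorem result {A : Type*} [CommGroup A] [Finite A]
    (hA : IsPGroup 2 A) (t : MulAut A) (ht : ∃ k : ℕ, orderOf t = 2 ^ k) (hC : ∀ a : A, t (t a) = a → t a = a) :
    ∀ a : A, t a = a := by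
  classical
  haveI : Fact (Nat.Prime 2) := ⟨Nat.prime_two⟩
  obtain ⟨k, hk⟩ := ht
  have hT : IsPGroup 2 (Subgroup.zpowers t) := by
    apply IsPGroup.of_card (n := k)
    rw [Nat.card_zpowers, hk]
  let δ : A →* A :=
    { toFun := fun a => a⁻¹ * t a
      map_one' := by simp
      map_mul' := by
        intro a b
        simp only [map_mul, mul_inv_rev]
        rw [mul_comm b⁻¹ a⁻¹, mul_mul_mul_comm] }
  have hδ : ∀ a, δ a = a⁻¹ * t a := fun a => rfl
  let D : SubMulAction (Subgroup.zpowers t) A :=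
    { carrier := (δ.range : Set A)
      smul_mem' := by
        rintro ⟨s, hs⟩ _ ⟨a, rfl⟩
        refine ⟨s a, ?_⟩
        have hcomm : t (s a) = s (t a) := by
          obtain ⟨n, rfl⟩ := Subgroup.mem_zpowers_iff.mp hs
          have h1 : t * t ^ n = t ^ n * t := (Commute.zpow_right (Commute.refl t) n).eq
          exact congrArg (fun f : MulAut A => f a) h1
        show (s a)⁻¹ * t (s a) = s (a⁻¹ * t a)
        rw [hcomm, map_mul, map_inv] }
  by_contra hne
  push Not at hne
  obtain ⟨a0, ha0⟩ := hne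
  have hDcard : 2 ∣ Nat.card D := by
    have h1 : IsPGroup 2 δ.range := hA.to_subgroup _
    rcases h1.card_eq_or_dvd with h2 | h2
    · exfalso
      have h3 : δ.range = ⊥ := Subgroup.eq_bot_of_card_eq _ h2
      have h4 : δ a0 ∈ δ.range := ⟨a0, rfl⟩
      rw [h3, Subgroup.mem_bot, hδ] at h4
      apply ha0
      exact (inv_mul_eq_one.mp h4).symm
    · exact h2
  have hone : (⟨1, ⟨1, map_one δ⟩⟩ : D) ∈ MulAction.fixedPoints (Subgroup.zpowers t) D := by
    rintro ⟨s, hs⟩
    apply Subtype.ext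
    show s 1 = 1
    simp
  obtain ⟨⟨c, a, hac⟩, hb, hb1⟩ := hT.exists_fixed_point_of_prime_dvd_card_of_fixed_point D hDcard hone
  have htc : t c = c := by
    have h1 := hb ⟨t, Subgroup.mem_zpowers t⟩
    exact congrArg Subtype.val h1
  have hc1 : c ≠ 1 := by
    rintro rfl
    exact hb1 rfl
  have hta : t a = a * c := by
    rw [← hac, hδ, mul_inv_cancel_left]
  obtain ⟨j, hj⟩ := hA c
  have hdvd : orderOf c ∣ 2 ^ j := orderOf_dvd_of_pow_eq_one hj
  obtain ⟨i, hi, hi'⟩ := (Nat.dvd_prime_pow Nat.prime_two).mp hdvd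
  have hi0 : i ≠ 0 := by
    rintro rfl
    rw [pow_zero, orderOf_eq_one_iff] at hi'
    exact hc1 hi'
  obtain ⟨m, rfl⟩ : ∃ m, i = m + 1 := Nat.exists_eq_succ_of_ne_zero hi0
  have htx : t (a ^ 2 ^ m) = a ^ 2 ^ m * c ^ 2 ^ m := by
    rw [map_pow, hta, mul_pow]
  have httx : t (t (a ^ 2 ^ m)) = a ^ 2 ^ m := by
    rw [htx, map_mul, htx, map_pow, htc, mul_assoc, ← pow_add, ← two_mul, ← pow_succ', ← hi',
      pow_orderOf_eq_one, mul_one]
  have h5 := hC _ httx
  rw [htx] at h5
  have h6 : c ^ 2 ^ m = 1 := by simpa using h5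
  have h7 := orderOf_dvd_of_pow_eq_one h6
  rw [hi', pow_succ] at h7
  have h9 : 0 < 2 ^ m := pow_pos (by norm_num) m
  have h8 := Nat.le_of_dvd h9 h7
  omega

end Cfsg.Agent.S1780
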