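import Cfsg.Statements.S1781
import Cfsg.Agent.S1757
import Cfsg.Agent.S1780

set_option autoImplicit false
open Cfsg

open Cfsg.Agent.Lib.Helper7 Cfsg.Agent.Lib.Helper8
open scoped IsMulCommutative

namespace Cfsg.Agent.S1781

/-- Let A be an abelian 2-subgroup of the finite group G such that every conjugate of A equals A or meets A trivially, and let g ∈ G with g A g⁻¹ ≠ A. Then either the subgroup of those elements of A that normalize g A g⁻¹ is an elementary abelian 2-group, or A and g A g⁻¹ commute elementwise. -/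
theorem result {G : Type*} [Group G] [Finite G] (A : Subgroup G)
    (hA2 : IsPGroup 2 ↥A) (hAa : IsMulCommutative ↥A)
    (hti : ∀ h : G, A.map (MulAut.conj h).toMonoidHom = A ∨ A.map (MulAut.conj h).toMonoidHom ⊓ A = ⊥)
    (g : G) (hg : A.map (MulAut.conj g).toMonoidHom ≠ A) :
    Cfsg.IsElementaryAbelian 2 (A ⊓ Subgroup.normalizer ((A.map (MulAut.conj g).toMonoidHom : Subgroup G) : Set G)) ∨
      ⁅A, A.map (MulAut.conj g).toMonoidHom⁆ = ⊥ := by
  classical
  haveI : Fact (Nat.Prime 2) := ⟨Nat.prime_two⟩
  haveI := hAa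
  set B : Subgroup G := A.map (MulAut.conj g).toMonoidHom with hBdef
  by_cases hel : ∀ a ∈ A ⊓ Subgroup.normalizer (B : Set G), a ^ 2 = 1
  · left
    refine ⟨⟨⟨?_⟩⟩, hel⟩
    rintro ⟨a, ha⟩ ⟨b, hb⟩
    apply Subtype.ext
    exact setLike_mul_comm (s := A) (Subgroup.mem_inf.mp ha).1
      (Subgroup.mem_inf.mp hb).1
  · right
    push Not at hel
    obtain ⟨x, hx, hx2⟩ := hel
    have hxA : x ∈ A := (Subgroup.mem_inf.mp hx).1
    have hxN : x ∈ Subgroup.normalizer (B : Set G) := (Subgroup.mem_inf.mp hx).2
    have hx1 : x ≠ 1 := by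
      rintro rfl
      exact hx2 (one_pow 2)
    have hAB : A ⊓ B = ⊥ := by
      rcases hti g with h | h
      · exact absurd h hg
      · rw [inf_comm]; exact h
    have hBti : ∀ h : G, B.map (MulAut.conj h).toMonoidHom = B ∨
        B.map (MulAut.conj h).toMonoidHom ⊓ B = ⊥ := by
      intro h
      have key : B.map (MulAut.conj h).toMonoidHom =
          (A.map (MulAut.conj (g⁻¹ * h * g)).toMonoidHom).map (MulAut.conj g).toMonoidHom := by
        rw [hBdef, Subgroup.map_map, Subgroup.map_map]
        congr 1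
        ext y
        simp [mul_assoc]
      rcases hti (g⁻¹ * h * g) with h1 | h1
      · left; rw [key, h1]
      · right
        rw [key, hBdef, ← Subgroup.map_inf _ _ _ (MulAut.conj g).injective, h1, Subgroup.map_bot]
    have hB2 : IsPGroup 2 B := hA2.map _
    have hle : Nat.card A ≤ Nat.card B :=
      (Subgroup.card_map_of_injective (MulAut.conj g).injective).ge
    -- elements of B commuting with a nontrivial element of A normalize A
    have hnorm : ∀ y ∈ A, y ≠ 1 → ∀ b : G, b * y = y * b → b ∈ Subgroup.normalizer (A : Set G) := by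
      intro y hy hy1 b hby
      rcases hti b with h | h
      · exact h8_mem_normalizer_of_map_conj_eq h
      · exfalso
        have h1 : y ∈ A.map (MulAut.conj b).toMonoidHom ⊓ A := by
          refine Subgroup.mem_inf.mpr ⟨⟨y, hy, ?_⟩, hy⟩
          show b * y * b⁻¹ = y
          rw [hby, mul_inv_cancel_right]
        rw [h, Subgroup.mem_bot] at h1
        exact hy1 h1
    -- commutator argument
    have hcomm : ∀ b ∈ B, b ∈ Subgroup.normalizer (A : Set G) → x * b * x⁻¹ = b := by
      intro b hb hbN
      have h1 : x * b * x⁻¹ * b⁻¹ ∈ A ⊓ B := by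
        refine Subgroup.mem_inf.mpr ⟨?_, ?_⟩
        · have h2 : b * x⁻¹ * b⁻¹ ∈ A := conj_mem_of_mem_normalizer hbN (A.inv_mem hxA)
          have h3 : x * b * x⁻¹ * b⁻¹ = x * (b * x⁻¹ * b⁻¹) := by group
          rw [h3]; exact A.mul_mem hxA h2
        · exact B.mul_mem (conj_mem_of_mem_normalizer hxN hb) (B.inv_mem hb)
      rw [hAB, Subgroup.mem_bot] at h1
      exact mul_inv_eq_one.mp h1
    set t : MulAut B := B.normalizerMonoidHom ⟨x, hxN⟩ with htdef
    have htval : ∀ b : B, ((t b : B) : G) = x * b * x⁻¹ := fun b => rfl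
    have ht : ∃ k : ℕ, orderOf t = 2 ^ k := by
      obtain ⟨k, hk⟩ := hA2 ⟨x, hxA⟩
      have hk' : x ^ 2 ^ k = 1 := by
        have := congrArg Subtype.val hk
        simpa using this
      have h1 : t ^ 2 ^ k = 1 := by
        rw [htdef, ← map_pow]
        have h2 : (⟨x, hxN⟩ : Subgroup.normalizer (B : Set G)) ^ 2 ^ k = 1 := by
          apply Subtype.ext
          simpa using hk'
        rw [h2, map_one]
      obtain ⟨j, _, hj⟩ := (Nat.dvd_prime_pow Nat.prime_two).mp (orderOf_dvd_of_pow_eq_one h1)
      exact ⟨j, hj⟩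
    have hC : ∀ b : B, t (t b) = b → t b = b := by
      intro b hb
      have h1 : x * (x * (b : G) * x⁻¹) * x⁻¹ = b := by
        have := congrArg Subtype.val hb
        rw [htval, htval] at this
        exact this
      have h2 : (b : G) * x ^ 2 = x ^ 2 * b := by
        rw [pow_two]
        have h3 : x * x * (b : G) = (x * (x * (b : G) * x⁻¹) * x⁻¹) * (x * x) := by group
        rw [h3, h1]
      have h4 := hnorm (x ^ 2) (A.pow_mem hxA 2) hx2 b h2
      apply Subtype.ext
      rw [htval]
      exact hcomm b b.2 h4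
    have hfix := Cfsg.Agent.S1780.result hB2 t ht hC
    have hBN : B ≤ Subgroup.normalizer (A : Set G) := by
      intro b hb
      have h1 : x * b * x⁻¹ = b := by
        have := congrArg Subtype.val (hfix ⟨b, hb⟩)
        rw [htval] at this
        exact this
      apply hnorm x hxA hx1 b
      have h2 : b * x = (x * b * x⁻¹) * x := by rw [h1]
      rw [h2]; group
    exact Cfsg.Agent.S1757.result 2 A B hA2 hB2 hti hBti hle hAB hBN

end Cfsg.Agent.S1781
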