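import Cfsg.Statements.S1783
import Cfsg.Agent.Lib.Helper1.TIFamily
import Cfsg.Agent.Lib.Helper1.GenFit
import Cfsg.Agent.Lib.Helper1.Layer
import Cfsg.Agent.Lib.Helper7.PCore
import Cfsg.Agent.S0029

set_option autoImplicit false
open Cfsg

open Cfsg.Agent.Lib.Helper7 Cfsg.Agent.Lib.Helper8 Cfsg.Agent.Lib.Helper1 Cfsg.Agent.S1782
open scoped IsMulCommutative

namespace Cfsg.Agent.S1783

theorem ti_pow_mem {G : Type*} [Group G] (R : Subgroup G)
    (hti : ∀ g : G, R.map (MulAut.conj g).toMonoidHom = R ∨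
      R.map (MulAut.conj g).toMonoidHom ⊓ R = ⊥)
    (u v c : G) (hu : u ∈ R) (hu2 : u ^ 2 ≠ 1) (hbab : v * u * v⁻¹ = c * u)
    (hvc : Commute v c) (hcu : Commute c u) (m : ℕ) (hc2 : (c ^ 2 ^ m) ^ 2 = 1) :
    c ^ 2 ^ m ∈ R := by
  have h1 := conj_pow_of_comm u v c hbab hvc (2 ^ m)
  have h3 : v ^ 2 ^ m * u ^ 2 * (v ^ 2 ^ m)⁻¹ = u ^ 2 := by
    rw [← conj_pow, h1, (hcu.pow_left _).mul_pow, hc2, one_mul]
  have h2 : v ^ 2 ^ m * u ^ 2 = u ^ 2 * v ^ 2 ^ m := mul_inv_eq_iff_eq_mul.mp h3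
  have h4 : v ^ 2 ^ m ∈ Subgroup.normalizer (R : Set G) :=
    ti_norm R hti (R.pow_mem hu 2) hu2 h2
  have h5 : c ^ 2 ^ m * u ∈ R := by
    rw [← h1]; exact conj_mem_of_mem_normalizer h4 hu
  have h6 : c ^ 2 ^ m = (c ^ 2 ^ m * u) * u⁻¹ := (mul_inv_cancel_right _ _).symm
  rw [h6]; exact R.mul_mem h5 (R.inv_mem hu)

/-- Let X be a finite group whose generalized Fitting subgroup equals its largest normal 2-subgroup Q, and let A be an abelian 2-subgroup of X such that every conjugate of A equals A or meets A trivially. Let B be the subgroup generated by the squares of the elements of A. Then B lies in Q, and if B is not an elementary abelian 2-group then the normal closure of B in X is commutative. -/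
theorem result {X : Type*} [Group X] [Finite X]
    (hX : Cfsg.generalizedFittingSubgroup X = Cfsg.pCore 2 X) (A : Subgroup X) (hA2 : IsPGroup 2 ↥A) (hAa : IsMulCommutative ↥A)
    (hti : ∀ h : X, A.map (MulAut.conj h).toMonoidHom = A ∨ A.map (MulAut.conj h).toMonoidHom ⊓ A = ⊥) :
    Subgroup.closure ((fun a : X => a ^ 2) '' (A : Set X)) ≤ Cfsg.pCore 2 X ∧
      (¬ Cfsg.IsElementaryAbelian 2 (Subgroup.closure ((fun a : X => a ^ 2) '' (A : Set X))) →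
        IsMulCommutative ↥(Subgroup.normalClosure ((fun a : X => a ^ 2) '' (A : Set X)))) := by
  classical
  haveI : Fact (Nat.Prime 2) := ⟨Nat.prime_two⟩
  haveI := hAa
  set Q : Subgroup X := Cfsg.pCore 2 X with hQdef
  have hQn : Q.Normal := pCore_normal 2 X
  have hQ2 : IsPGroup 2 Q := pCore_isPGroup 2 X
  have hCQ : Subgroup.centralizer (Q : Set X) ≤ Q := by
    have h1 := Cfsg.Agent.Lib.Helper1.centralizer_genFitting_le X
    rw [hX] at h1
    exact h1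
  set Sq : Set X := (fun a : X => a ^ 2) '' (A : Set X) with hSq
  have hBA : Subgroup.closure Sq ≤ A := by
    rw [Subgroup.closure_le]
    rintro _ ⟨a, ha, rfl⟩
    exact A.pow_mem ha 2
  by_cases hall : ∀ a ∈ A, a ^ 2 = 1
  · have hB : Subgroup.closure Sq = ⊥ := by
      rw [eq_bot_iff, Subgroup.closure_le]
      rintro _ ⟨a, ha, rfl⟩
      exact Subgroup.mem_bot.mpr (hall a ha)
    refine ⟨by rw [hB]; exact bot_le, fun hne => absurd ?_ hne⟩
    rw [hB]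
    refine ⟨⟨⟨?_⟩⟩, ?_⟩
    · rintro ⟨a, ha⟩ ⟨b, hb⟩
      apply Subtype.ext
      rw [Subgroup.mem_bot] at ha hb
      show a * b = b * a
      rw [ha, hb]
    · intro a ha
      rw [Subgroup.mem_bot] at ha
      rw [ha, one_pow]
  push Not at hall
  obtain ⟨a0, ha0, ha0sq⟩ := hall
  set Δ : Set (Subgroup X) := {R | ∃ x : X, R = A.map (MulAut.conj x).toMonoidHom} with hΔ
  have hΔinv : ∀ s : X, ∀ R ∈ Δ, R.map (MulAut.conj s).toMonoidHom ∈ Δ := by
    rintro s _ ⟨x, rfl⟩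
    refine ⟨s * x, ?_⟩
    rw [Subgroup.map_map]
    congr 1
    ext y
    simp [mul_assoc]
  have hΔsq : ∀ R ∈ Δ, ∃ a ∈ R, a ^ 2 ≠ 1 := by
    rintro _ ⟨x, rfl⟩
    refine ⟨x * a0 * x⁻¹, ⟨a0, ha0, rfl⟩, ?_⟩
    rw [conj_pow]
    intro h
    apply ha0sq
    have h1 : a0 ^ 2 = x⁻¹ * (x * a0 ^ 2 * x⁻¹) * x := by
      simp only [mul_assoc, inv_mul_cancel_left, inv_mul_cancel, mul_one]
    rw [h1, h]; simp
  have hΔord : ∀ R ∈ Δ, ∀ T ∈ Δ, Nat.card ↥R = Nat.card ↥T := by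
    rintro _ ⟨x, rfl⟩ _ ⟨y, rfl⟩
    rw [Subgroup.card_map_of_injective (MulAut.conj x).injective,
      Subgroup.card_map_of_injective (MulAut.conj y).injective]
  have hΔti : ∀ R ∈ Δ, ∀ T ∈ Δ, R = T ∨ R ⊓ T = ⊥ := by
    rintro _ ⟨x, rfl⟩ _ ⟨y, rfl⟩
    have key : A.map (MulAut.conj x).toMonoidHom =
        (A.map (MulAut.conj (y⁻¹ * x)).toMonoidHom).map (MulAut.conj y).toMonoidHom := by
      rw [Subgroup.map_map]
      congr 1
      ext z
      simp [mul_assoc]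
    rcases hti (y⁻¹ * x) with h1 | h1
    · left; rw [key, h1]
    · right
      rw [key, ← Subgroup.map_inf _ _ _ (MulAut.conj y).injective, h1, Subgroup.map_bot]
  have hTI : ∀ R ∈ Δ, ∀ g : X, R.map (MulAut.conj g).toMonoidHom = R ∨
      R.map (MulAut.conj g).toMonoidHom ⊓ R = ⊥ :=
    fun R hR g => hΔti _ (hΔinv g R hR) R hR
  have hAΔ : A ∈ Δ := by
    refine ⟨1, ?_⟩
    ext z
    constructor
    · intro hz
      exact ⟨z, hz, by simp⟩
    · rintro ⟨w, hw, rfl⟩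
      simpa using hw
  have dagger := Cfsg.Agent.Lib.Helper1.ti_family_commute Δ hΔinv hΔsq hΔord hΔti
  have hΔab : ∀ R ∈ Δ, ∀ r ∈ R, ∀ r' ∈ R, r * r' = r' * r := by
    rintro _ ⟨x, rfl⟩ _ ⟨a, ha, rfl⟩ _ ⟨a', ha', rfl⟩
    show (x * a * x⁻¹) * (x * a' * x⁻¹) = (x * a' * x⁻¹) * (x * a * x⁻¹)
    have h1 : a * a' = a' * a := setLike_mul_comm (s := A) ha ha'
    calc (x * a * x⁻¹) * (x * a' * x⁻¹) = x * (a * a') * x⁻¹ := by group
      _ = x * (a' * a) * x⁻¹ := by rw [h1]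
      _ = (x * a' * x⁻¹) * (x * a * x⁻¹) := by group
  have hΔ2 : ∀ R ∈ Δ, IsPGroup 2 R := by
    rintro _ ⟨x, rfl⟩
    exact hA2.map _
  have Q1 : ∀ R ∈ Δ, ∀ k ∈ Q, ∀ r ∈ R, ∀ r' ∈ R,
      r * (k * r' * k⁻¹) = (k * r' * k⁻¹) * r := by
    intro R hR k hk r hr r' hr'
    haveI := hQn
    have hH : IsPGroup 2 (R ⊔ Q : Subgroup X) :=
      IsPGroup.to_sup_of_normal_right (hΔ2 R hR) hQ2
    by_cases hRk : R.map (MulAut.conj k).toMonoidHom = R
    · have h1 : k * r' * k⁻¹ ∈ R := by rw [← hRk]; exact ⟨r', hr', rfl⟩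
      exact hΔab R hR _ hr _ h1
    · have hle : R.map (MulAut.conj k).toMonoidHom ≤ R ⊔ Q := by
        rintro _ ⟨y, hy, rfl⟩
        show k * y * k⁻¹ ∈ R ⊔ Q
        exact Subgroup.mul_mem _ (Subgroup.mul_mem _ (Subgroup.mem_sup_right hk)
          (Subgroup.mem_sup_left hy)) (Subgroup.inv_mem _ (Subgroup.mem_sup_right hk))
      have h1 := dagger (R ⊔ Q) hH R hR _ (hΔinv k R hR) le_sup_left hle (Ne.symm hRk)
      rw [Subgroup.commutator_eq_bot_iff_le_centralizer] at h1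
      have h2 := h1 hr
      rw [Subgroup.mem_centralizer_iff] at h2
      exact (h2 (k * r' * k⁻¹) ⟨r', hr', rfl⟩).symm
  set F : Subgroup X := (frattini Q).map Q.subtype with hF
  have hFn : F.Normal :=
    Cfsg.Agent.Lib.Helper1.normal_map_subtype_of_characteristic hQn (frattini Q)
  have hsqF : ∀ d ∈ Q, d ^ 2 ∈ F := by
    intro d hd
    exact ⟨⟨d, hd⟩ ^ 2, Cfsg.Agent.Lib.Helper2.pow_mem_frattini_of_pGroup hQ2 ⟨d, hd⟩, rfl⟩
  let C : Subgroup X :=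
    { carrier := {y | ∀ k ∈ Q, y * k * y⁻¹ * k⁻¹ ∈ F}
      one_mem' := by
        intro k hk
        have h1 : (1 : X) * k * 1⁻¹ * k⁻¹ = 1 := by group
        rw [h1]; exact F.one_mem
      mul_mem' := by
        intro y y' hy hy' k hk
        have h1 : y * y' * k * (y * y')⁻¹ * k⁻¹ =
            (y * (y' * k * y'⁻¹ * k⁻¹) * y⁻¹) * (y * k * y⁻¹ * k⁻¹) := by group
        rw [h1]
        exact F.mul_mem (hFn.conj_mem _ (hy' k hk) y) (hy k hk)
      inv_mem' := by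
        intro y hy k hk
        have hk' : y⁻¹ * k * y ∈ Q := by
          have h0 := hQn.conj_mem k hk y⁻¹
          simpa using h0
        have h1 : y⁻¹ * k * y⁻¹⁻¹ * k⁻¹ =
            (y * (y⁻¹ * k * y) * y⁻¹ * (y⁻¹ * k * y)⁻¹)⁻¹ := by group
        rw [h1]
        exact F.inv_mem (hy _ hk') }
  have hCmem : ∀ y, y ∈ C ↔ ∀ k ∈ Q, y * k * y⁻¹ * k⁻¹ ∈ F := fun y => Iff.rfl
  have hCn : C.Normal := by
    constructor
    intro y hy g
    rw [hCmem]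
    intro k hk
    have hk' : g⁻¹ * k * g ∈ Q := by
      have h0 := hQn.conj_mem k hk g⁻¹
      simpa using h0
    have h1 : g * y * g⁻¹ * k * (g * y * g⁻¹)⁻¹ * k⁻¹ =
        g * (y * (g⁻¹ * k * g) * y⁻¹ * (g⁻¹ * k * g)⁻¹) * g⁻¹ := by group
    rw [h1]
    exact hFn.conj_mem _ ((hCmem y).mp hy _ hk') g
  have hC2 : IsPGroup 2 C := by
    rintro ⟨y, hy⟩
    have hn0 : orderOf y ≠ 0 := (orderOf_pos y).ne'
    obtain ⟨e, m, hm, hnm⟩ := Nat.exists_eq_pow_mul_and_not_dvd hn0 2 (by norm_num)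
    refine ⟨e, Subtype.ext ?_⟩
    show y ^ 2 ^ e = 1
    set z : X := y ^ 2 ^ e with hz
    have hzC : z ∈ C := C.pow_mem hy _
    have hzm : z ^ m = 1 := by
      rw [hz, ← pow_mul, ← hnm, pow_orderOf_eq_one]
    have hzC' : Subgroup.zpowers z ≤ C := by
      rw [Subgroup.zpowers_le]; exact hzC
    have hcent : Subgroup.zpowers z ≤ Subgroup.centralizer (Q : Set X) := by
      apply Cfsg.Agent.S0029.result (Subgroup.zpowers z) Q
      · rw [Subgroup.normalizer_eq_top_iff.mpr hQn]; exact le_top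
      · rw [Nat.card_zpowers]
        obtain ⟨i, hi⟩ := IsPGroup.iff_card.mp (hQ2.to_subgroup (frattini Q))
        rw [hi]
        apply Nat.Coprime.pow_right
        have h1 : orderOf z ∣ m := orderOf_dvd_of_pow_eq_one hzm
        have h2 : ¬ 2 ∣ orderOf z := fun h => hm (dvd_trans h h1)
        exact ((Nat.Prime.coprime_iff_not_dvd Nat.prime_two).mpr h2).symm
      · intro a ha k hk
        exact (hCmem a).mp (hzC' ha) k hk
    have hzQ : z ∈ Q := hCQ (hcent (Subgroup.mem_zpowers z))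
    obtain ⟨i, hi⟩ := hQ2 ⟨z, hzQ⟩
    have hi' : z ^ 2 ^ i = 1 := by
      have h0 := congrArg Subtype.val hi
      simpa using h0
    have h1 : orderOf z ∣ m := orderOf_dvd_of_pow_eq_one hzm
    have h2 : orderOf z ∣ 2 ^ i := orderOf_dvd_of_pow_eq_one hi'
    have h3 : Nat.Coprime m (2 ^ i) :=
      Nat.Coprime.pow_right _ ((Nat.Prime.coprime_iff_not_dvd Nat.prime_two).mpr hm).symm
    have h4 : orderOf z ∣ 1 := by
      rw [← h3]; exact Nat.dvd_gcd h1 h2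
    exact orderOf_eq_one_iff.mp (Nat.dvd_one.mp h4)
  have hCQ' : C ≤ Q := le_pCore hCn hC2
  have hsqQ : ∀ a ∈ A, a ^ 2 ∈ Q := by
    intro a ha
    apply hCQ'
    rw [hCmem]
    intro k hk
    have hau := Q1 A hAΔ k hk a ha a⁻¹ (A.inv_mem ha)
    have h1 : a ^ 2 * k * (a ^ 2)⁻¹ * k⁻¹ = a * (a * (k * a⁻¹ * k⁻¹)) * (k * a⁻¹ * k⁻¹) := by
      rw [pow_two]; group
    rw [h1, hau, ← mul_assoc a (k * a⁻¹ * k⁻¹) a,
      mul_assoc (a * (k * a⁻¹ * k⁻¹)) a (k * a⁻¹ * k⁻¹), ← pow_two]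
    apply hsqF
    have h2 : a * (k * a⁻¹ * k⁻¹) = (a * k * a⁻¹) * k⁻¹ := by group
    rw [h2]
    exact Q.mul_mem (hQn.conj_mem k hk a) (Q.inv_mem hk)
  refine ⟨?_, ?_⟩
  · rw [Subgroup.closure_le]
    rintro _ ⟨a, ha, rfl⟩
    exact hsqQ a ha
  intro hnel
  -- an element whose square has nontrivial square
  obtain ⟨a1, ha1, ha1sq⟩ : ∃ a ∈ A, (a ^ 2) ^ 2 ≠ 1 := by
    by_contra hcon
    push Not at hcon
    apply hnel
    refine ⟨⟨⟨?_⟩⟩, ?_⟩
    · rintro ⟨a, ha⟩ ⟨b, hb⟩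
      apply Subtype.ext
      exact setLike_mul_comm (s := A) (hBA ha) (hBA hb)
    · intro b hb
      have h1 : b ∈ A ∧ b ^ 2 = 1 := by
        refine Subgroup.closure_induction (p := fun x _ => x ∈ A ∧ x ^ 2 = 1) ?_ ?_ ?_ ?_ hb
        · rintro _ ⟨a, ha, rfl⟩
          exact ⟨A.pow_mem ha 2, hcon a ha⟩
        · exact ⟨A.one_mem, one_pow 2⟩
        · rintro x y _ _ ⟨hx, hx2⟩ ⟨hy, hy2⟩
          refine ⟨A.mul_mem hx hy, ?_⟩
          have hc : Commute x y := setLike_mul_comm (s := A) hx hy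
          rw [hc.mul_pow, hx2, hy2, one_mul]
        · rintro x _ ⟨hx, hx2⟩
          exact ⟨A.inv_mem hx, by rw [inv_pow, hx2, inv_one]⟩
      exact h1.2
  have hex : ∀ R ∈ Δ, ∃ u0 ∈ R, u0 ∈ Q ∧ u0 ^ 2 ≠ 1 := by
    rintro _ ⟨x, rfl⟩
    refine ⟨x * a1 ^ 2 * x⁻¹, ⟨a1 ^ 2, A.pow_mem ha1 2, rfl⟩,
      hQn.conj_mem _ (hsqQ a1 ha1) x, ?_⟩
    rw [conj_pow]
    intro h
    apply ha1sq
    have h1 : (a1 ^ 2) ^ 2 = x⁻¹ * (x * (a1 ^ 2) ^ 2 * x⁻¹) * x := by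
      simp only [mul_assoc, inv_mul_cancel_left, inv_mul_cancel, mul_one]
    rw [h1, h]; simp
  have CC : ∀ R ∈ Δ, ∀ T ∈ Δ, R ≠ T → ∀ u ∈ R, u ∈ Q → u ^ 2 ≠ 1 → ∀ v ∈ T, v ∈ Q →
      v ^ 2 ≠ 1 → u * v = v * u := by
    intro R hR T hT hne u hu huQ hu2 v hv hvQ hv2
    have hRT : R ⊓ T = ⊥ := (hΔti R hR T hT).resolve_left hne
    by_contra hnc
    set c : X := v * u * v⁻¹ * u⁻¹ with hc
    have hbab : v * u * v⁻¹ = c * u := by rw [hc]; group
    have hcu : Commute c u := by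
      have h1 := Q1 R hR v hvQ u hu u hu
      show c * u = u * c
      rw [← hbab, hc]
      have h2 : u * (v * u * v⁻¹ * u⁻¹) = (u * (v * u * v⁻¹)) * u⁻¹ := by group
      rw [h2, h1]; group
    have hvc : Commute v c := by
      have h1 := Q1 T hT u huQ v hv v⁻¹ (T.inv_mem hv)
      show v * c = c * v
      have h2 : c = v * (u * v⁻¹ * u⁻¹) := by rw [hc]; group
      rw [h2]
      calc v * (v * (u * v⁻¹ * u⁻¹)) = v * ((u * v⁻¹ * u⁻¹) * v) := by rw [h1]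
        _ = (v * (u * v⁻¹ * u⁻¹)) * v := (mul_assoc _ _ _).symm
    have hc1 : c ≠ 1 := by
      intro h
      apply hnc
      rw [h, one_mul] at hbab
      exact (mul_inv_eq_iff_eq_mul.mp hbab).symm
    have hcQ : c ∈ Q := by
      have h2 : c = v * (u * v⁻¹ * u⁻¹) := by rw [hc]; group
      rw [h2]
      exact Q.mul_mem hvQ (hQn.conj_mem _ (Q.inv_mem hvQ) u)
    obtain ⟨j, hj0⟩ := hQ2 ⟨c, hcQ⟩
    have hj : c ^ 2 ^ j = 1 := by
      have h0 := congrArg Subtype.val hj0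
      simpa using h0
    obtain ⟨i, hi, hi'⟩ :=
      (Nat.dvd_prime_pow Nat.prime_two).mp (orderOf_dvd_of_pow_eq_one hj)
    have hi0 : i ≠ 0 := by
      rintro rfl
      rw [pow_zero, orderOf_eq_one_iff] at hi'
      exact hc1 hi'
    obtain ⟨m, rfl⟩ : ∃ m, i = m + 1 := Nat.exists_eq_succ_of_ne_zero hi0
    have hc' : c ^ 2 ^ m ≠ 1 := by
      intro h
      have h7 := orderOf_dvd_of_pow_eq_one h
      rw [hi', pow_succ] at h7
      have h9 : 0 < 2 ^ m := pow_pos (by norm_num) m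
      have h8 := Nat.le_of_dvd h9 h7
      omega
    have hc'2 : (c ^ 2 ^ m) ^ 2 = 1 := by
      rw [← pow_mul, ← pow_succ, ← hi', pow_orderOf_eq_one]
    have h1 : c ^ 2 ^ m ∈ R := ti_pow_mem R (hTI R hR) u v c hu hu2 hbab hvc hcu m hc'2
    have hbab' : u * v * u⁻¹ = c⁻¹ * v := by rw [hc]; group
    have h2 : c⁻¹ ^ 2 ^ m ∈ T :=
      ti_pow_mem T (hTI T hT) v u c⁻¹ hv hv2 hbab' hcu.symm.inv_right hvc.symm.inv_left m
        (by rw [inv_pow, inv_pow, hc'2, inv_one])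
    rw [inv_pow] at h2
    have h3 : c ^ 2 ^ m ∈ R ⊓ T := Subgroup.mem_inf.mpr ⟨h1, by simpa using T.inv_mem h2⟩
    rw [hRT, Subgroup.mem_bot] at h3
    exact hc' h3
  have CC' : ∀ R ∈ Δ, ∀ T ∈ Δ, R ≠ T → ∀ u ∈ R, u ∈ Q → ∀ v ∈ T, v ∈ Q →
      v ^ 2 ≠ 1 → u * v = v * u := by
    intro R hR T hT hne u hu huQ v hv hvQ hv2
    by_cases hu2 : u ^ 2 = 1
    · obtain ⟨u0, hu0, hu0Q, hu02⟩ := hex R hR
      have h1 : (u * u0) ^ 2 ≠ 1 := by
        rw [(show Commute u u0 from hΔab R hR u hu u0 hu0).mul_pow, hu2, one_mul]; exact hu02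
      have h2 := CC R hR T hT hne (u * u0) (R.mul_mem hu hu0) (Q.mul_mem huQ hu0Q) h1 v hv hvQ hv2
      have h3 := CC R hR T hT hne u0 hu0 hu0Q hu02 v hv hvQ hv2
      have h4 : u * v * u0 = v * u * u0 := by
        calc u * v * u0 = u * (v * u0) := mul_assoc _ _ _
          _ = u * (u0 * v) := by rw [h3]
          _ = (u * u0) * v := (mul_assoc _ _ _).symm
          _ = v * (u * u0) := h2
          _ = v * u * u0 := (mul_assoc _ _ _).symm
      exact mul_right_cancel h4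
    · exact CC R hR T hT hne u hu huQ hu2 v hv hvQ hv2
  have CC'' : ∀ R ∈ Δ, ∀ T ∈ Δ, R ≠ T → ∀ u ∈ R, u ∈ Q → ∀ v ∈ T, v ∈ Q → u * v = v * u := by
    intro R hR T hT hne u hu huQ v hv hvQ
    by_cases hv2 : v ^ 2 = 1
    · obtain ⟨v0, hv0, hv0Q, hv02⟩ := hex T hT
      have h1 : (v * v0) ^ 2 ≠ 1 := by
        rw [(show Commute v v0 from hΔab T hT v hv v0 hv0).mul_pow, hv2, one_mul]; exact hv02
      have h2 := CC' R hR T hT hne u hu huQ (v * v0) (T.mul_mem hv hv0) (Q.mul_mem hvQ hv0Q) h1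
      have h3 := CC' R hR T hT hne u hu huQ v0 hv0 hv0Q hv02
      have h4 : u * v * v0 = v * u * v0 := by
        calc u * v * v0 = u * (v * v0) := mul_assoc _ _ _
          _ = (v * v0) * u := h2
          _ = v * (v0 * u) := mul_assoc _ _ _
          _ = v * (u * v0) := by rw [h3]
          _ = v * u * v0 := (mul_assoc _ _ _).symm
      exact mul_right_cancel h4
    · exact CC' R hR T hT hne u hu huQ v hv hvQ hv2
  have hgen : ∀ g ∈ Group.conjugatesOfSet Sq, ∃ R ∈ Δ, g ∈ R ∧ g ∈ Q := by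
    intro g hg
    rw [Group.mem_conjugatesOfSet_iff] at hg
    obtain ⟨s, ⟨a, ha, rfl⟩, hconj⟩ := hg
    obtain ⟨x, rfl⟩ := isConj_iff.mp hconj
    refine ⟨A.map (MulAut.conj x).toMonoidHom, ⟨x, rfl⟩, ⟨a ^ 2, A.pow_mem ha 2, rfl⟩, ?_⟩
    exact hQn.conj_mem _ (hsqQ a ha) x
  have hpair : ∀ g ∈ Group.conjugatesOfSet Sq, ∀ g' ∈ Group.conjugatesOfSet Sq,
      g * g' = g' * g := by
    intro g hg g' hg'
    obtain ⟨R, hR, hgR, hgQ⟩ := hgen g hg
    obtain ⟨T, hT, hgT, hgQ'⟩ := hgen g' hg'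
    by_cases hRT : R = T
    · subst hRT
      exact hΔab R hR g hgR g' hgT
    · exact CC'' R hR T hT hRT g hgR hgQ g' hgT hgQ'
  have hcl := closure_comm_of_comm _ hpair
  refine ⟨⟨?_⟩⟩
  rintro ⟨g, hg⟩ ⟨g', hg'⟩
  apply Subtype.ext
  exact hcl g hg g' hg'

end Cfsg.Agent.S1783
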