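import Cfsg.Statements.S1785
import Mathlib
import Cfsg.Agent.Lib.Helper3.EA
import Cfsg.Agent.Lib.Helper1.SupNorm

set_option autoImplicit false
open Cfsg

namespace Cfsg.Agent.S1785

open Cfsg.Agent.Lib.Helper3 Cfsg.Agent.Lib.Helper1

theorem rtg_symm {α : Type*} {r : α → α → Prop} (hr : ∀ a b, r a b → r b a) {a b : α}
    (h : Relation.ReflTransGen r a b) : Relation.ReflTransGen r b a := by
  induction h with
  | refl => exact Relation.ReflTransGen.refl
  | tail _ hbc ih => exact Relation.ReflTransGen.head (hr _ _ hbc) ih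

/-- an involution acting on an elementary abelian 2-group `D` has `|C_D(a)|^2 ≥ |D|` -/
theorem fix_sq {X : Type*} [Group X] [Finite X] (D : Subgroup X)
    (hDc : ∀ d ∈ D, ∀ d' ∈ D, d * d' = d' * d) (hD2 : ∀ d ∈ D, d * d = 1)
    (a : X) (ha : a * a = 1) (hn : ∀ d ∈ D, a * d * a⁻¹ ∈ D) :
    Nat.card D ≤ Nat.card ↥(D ⊓ Subgroup.centralizer ({a} : Set X)) ^ 2 := by
  have hainv : a⁻¹ = a := inv_eq_of_mul_eq_one_left ha
  let f : ↥D →* ↥D :=
    { toFun := fun d => ⟨d * (a * d * a⁻¹), D.mul_mem d.2 (hn d d.2)⟩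
      map_one' := by apply Subtype.ext; simp
      map_mul' := by
        intro x y
        apply Subtype.ext
        show ((x : X) * y) * (a * ((x : X) * y) * a⁻¹) = (x * (a * x * a⁻¹)) * (y * (a * y * a⁻¹))
        have h1 := hDc y y.2 (a * x * a⁻¹) (hn x x.2)
        calc ((x : X) * y) * (a * ((x : X) * y) * a⁻¹)
            = x * (y * (a * x * a⁻¹)) * (a * y * a⁻¹) := by group
          _ = x * ((a * x * a⁻¹) * y) * (a * y * a⁻¹) := by rw [h1]
          _ = (x * (a * x * a⁻¹)) * (y * (a * y * a⁻¹)) := by group }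
  have hcardC : Nat.card ((D ⊓ Subgroup.centralizer ({a} : Set X)).subgroupOf D) =
      Nat.card ↥(D ⊓ Subgroup.centralizer ({a} : Set X)) := card_subgroupOf_of_le inf_le_left
  have hker : f.ker ≤ (D ⊓ Subgroup.centralizer ({a} : Set X)).subgroupOf D := by
    intro d hd
    rw [MonoidHom.mem_ker] at hd
    have h1 : (d : X) * (a * d * a⁻¹) = 1 := congrArg Subtype.val hd
    rw [Subgroup.mem_subgroupOf]
    refine Subgroup.mem_inf.mpr ⟨d.2, ?_⟩
    rw [Subgroup.mem_centralizer_singleton_iff]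
    have h2 : a * d * a⁻¹ = (d : X)⁻¹ := (inv_eq_of_mul_eq_one_right h1).symm
    have h3 : (d : X)⁻¹ = d := inv_eq_of_mul_eq_one_left (hD2 d d.2)
    rw [h3] at h2
    calc (d : X) * a = (a * d * a⁻¹) * a := by rw [h2]
      _ = a * d := by group
  have hrange : f.range ≤ (D ⊓ Subgroup.centralizer ({a} : Set X)).subgroupOf D := by
    rintro _ ⟨d, rfl⟩
    rw [Subgroup.mem_subgroupOf]
    refine Subgroup.mem_inf.mpr ⟨(f d).2, ?_⟩
    rw [Subgroup.mem_centralizer_singleton_iff]
    show (d : X) * (a * d * a⁻¹) * a = a * ((d : X) * (a * d * a⁻¹))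
    have h1 := hDc d d.2 (a * d * a⁻¹) (hn d d.2)
    rw [h1]
    rw [hainv]
    calc a * (d : X) * a * d * a = a * d * a * d * a := rfl
      _ = a * (a * d * a * d) := by
        have h1' : (d : X) * (a * d * a) = (a * d * a) * d := by rw [hainv] at h1; exact h1
        calc a * (d : X) * a * d * a = a * ((a * a) * d * a * d * a) := by rw [ha]; group
          _ = a * (a * ((a * d * a) * d) * a) := by group
          _ = a * (a * (d * (a * d * a)) * a) := by rw [h1']
          _ = a * (a * d * a * d * (a * a)) := by group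
          _ = a * (a * d * a * d) := by rw [ha, mul_one]
  have hcard : Nat.card ↥D = Nat.card f.ker * Nat.card f.range := by
    rw [← Subgroup.index_ker f]
    exact (Subgroup.card_mul_index f.ker).symm
  calc Nat.card D = Nat.card f.ker * Nat.card f.range := hcard
    _ ≤ Nat.card ((D ⊓ Subgroup.centralizer ({a} : Set X)).subgroupOf D) *
        Nat.card ((D ⊓ Subgroup.centralizer ({a} : Set X)).subgroupOf D) :=
      Nat.mul_le_mul (Subgroup.card_le_of_le hker) (Subgroup.card_le_of_le hrange)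
    _ = _ := by rw [hcardC, pow_two]

theorem fix_pow {X : Type*} [Group X] [Finite X] (E : Subgroup X) [hEn : E.Normal]
    (hE : Cfsg.IsElementaryAbelian 2 E) :
    ∀ k : ℕ, ∀ F : Subgroup X, Cfsg.IsElementaryAbelian 2 F →
      Nat.card F = 2 ^ k * Nat.card ↥(F ⊓ E) →
      Nat.card E ≤ Nat.card ↥(E ⊓ Subgroup.centralizer (F : Set X)) ^ (2 ^ k) := by
  haveI : Fact (Nat.Prime 2) := ⟨Nat.prime_two⟩
  have hE' := hE
  rw [isEA_iff] at hE'
  intro k
  induction k with
  | zero =>
    intro F hF hc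
    have hFE : F ⊓ E = F := by
      apply Subgroup.eq_of_le_of_card_ge inf_le_left
      rw [hc]; simp
    have hFleE : F ≤ E := by rw [← hFE]; exact inf_le_right
    have : E ⊓ Subgroup.centralizer (F : Set X) = E := by
      apply le_antisymm inf_le_left
      intro e he
      refine Subgroup.mem_inf.mpr ⟨he, ?_⟩
      rw [Subgroup.mem_centralizer_iff]
      intro f hf
      exact hE'.1 f (hFleE hf) e he
    rw [this]; simp
  | succ k ih =>
    intro F hF hc
    have hF' := hF
    rw [isEA_iff] at hF'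
    have hFp : IsPGroup 2 ↥F := isPGroup_of_isEA hF
    obtain ⟨j, hj⟩ := IsPGroup.iff_card.mp (hFp.to_le (inf_le_left : F ⊓ E ≤ F))
    have hcF : Nat.card ↥F = 2 ^ (k + 1 + j) := by rw [hc, hj]; ring
    have hH' : Nat.card ((F ⊓ E).subgroupOf F) = 2 ^ j := by
      rw [card_subgroupOf_of_le inf_le_left, hj]
    obtain ⟨K, hK, hHK⟩ := Sylow.exists_subgroup_card_pow_prime_le 2 (n := j) (m := k + j)
      (by rw [hcF]; exact pow_dvd_pow 2 (by omega)) ((F ⊓ E).subgroupOf F) hH' (by omega)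
    have hF₀F : K.map F.subtype ≤ F := by
      rintro _ ⟨x, _, rfl⟩; exact x.2
    have hcF₀ : Nat.card ↥(K.map F.subtype) = 2 ^ (k + j) := by rw [card_map_subtype, hK]
    have hFE₀ : F ⊓ E ≤ K.map F.subtype := by
      intro x hx
      exact ⟨⟨x, hx.1⟩, hHK (by rw [Subgroup.mem_subgroupOf]; exact hx), rfl⟩
    have hF₀E : K.map F.subtype ⊓ E = F ⊓ E :=
      le_antisymm (inf_le_inf_right E hF₀F) (le_inf hFE₀ inf_le_right)
    have hc₀ : Nat.card ↥(K.map F.subtype) = 2 ^ k * Nat.card ↥(K.map F.subtype ⊓ E) := by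
      rw [hF₀E, hj, hcF₀]; ring
    have hF₀ea : Cfsg.IsElementaryAbelian 2 (K.map F.subtype) := isEA_of_le hF₀F hF
    have ih' := ih (K.map F.subtype) hF₀ea hc₀
    have hidx : K.index = 2 := by
      have := Subgroup.card_mul_index K
      rw [hK, hcF] at this
      have h2 : 2 ^ (k + 1 + j) = 2 ^ (k + j) * 2 := by ring
      rw [h2] at this
      exact Nat.eq_of_mul_eq_mul_left (by positivity) this
    obtain ⟨a', ha'⟩ : ∃ a' : ↥F, a' ∉ K := by
      by_contra hcon
      push_neg at hcon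
      have : K = ⊤ := by
        ext x; simp [hcon x]
      rw [this, Subgroup.index_top] at hidx
      omega
    have haa : (a' : X) * a' = 1 := by
      have := hF'.2 a' a'.2
      rwa [pow_two] at this
    have hnorm : ∀ d ∈ E ⊓ Subgroup.centralizer ((K.map F.subtype : Subgroup X) : Set X),
        (a' : X) * d * (a' : X)⁻¹ ∈ E ⊓ Subgroup.centralizer ((K.map F.subtype : Subgroup X) : Set X) := by
      intro d hd
      refine Subgroup.mem_inf.mpr ⟨hEn.conj_mem d hd.1 a', ?_⟩
      rw [Subgroup.mem_centralizer_iff]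
      intro f hf
      have h1 : f * d = d * f := (Subgroup.mem_centralizer_iff.mp hd.2) f hf
      have h2 : f * (a' : X) = a' * f := hF'.1 f (hF₀F hf) a' a'.2
      have h3 : f * (a' : X)⁻¹ = (a' : X)⁻¹ * f := by
        have : Commute f (a' : X) := h2
        exact this.inv_right.eq
      calc f * ((a' : X) * d * (a' : X)⁻¹) = (f * a') * d * (a' : X)⁻¹ := by group
        _ = (a' * f) * d * (a' : X)⁻¹ := by rw [h2]
        _ = a' * (f * d) * (a' : X)⁻¹ := by group
        _ = a' * (d * f) * (a' : X)⁻¹ := by rw [h1]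
        _ = a' * d * (f * (a' : X)⁻¹) := by group
        _ = a' * d * ((a' : X)⁻¹ * f) := by rw [h3]
        _ = (a' : X) * d * (a' : X)⁻¹ * f := by group
    have hK1 := fix_sq (E ⊓ Subgroup.centralizer ((K.map F.subtype : Subgroup X) : Set X))
      (fun d hd d' hd' => hE'.1 d hd.1 d' hd'.1)
      (fun d hd => by have := hE'.2 d hd.1; rwa [pow_two] at this) (a' : X) haa hnorm
    have hsub : (E ⊓ Subgroup.centralizer ((K.map F.subtype : Subgroup X) : Set X)) ⊓
        Subgroup.centralizer ({(a' : X)} : Set X) ≤ E ⊓ Subgroup.centralizer (F : Set X) := by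
      intro x hx
      obtain ⟨hx1, hxa⟩ := Subgroup.mem_inf.mp hx
      obtain ⟨hxE, hxF₀⟩ := Subgroup.mem_inf.mp hx1
      refine Subgroup.mem_inf.mpr ⟨hxE, ?_⟩
      rw [Subgroup.mem_centralizer_iff]
      intro f hf
      rw [Subgroup.mem_centralizer_singleton_iff] at hxa
      by_cases hfK : (⟨f, hf⟩ : ↥F) ∈ K
      · exact (Subgroup.mem_centralizer_iff.mp hxF₀) f ⟨⟨f, hf⟩, hfK, rfl⟩
      · have h1 : (⟨f, hf⟩ : ↥F) * a' ∈ K :=
          (Subgroup.mul_mem_iff_of_index_two hidx).mpr (by simp [hfK, ha'])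
        have h2 : (f * (a' : X)) * x = x * (f * (a' : X)) :=
          (Subgroup.mem_centralizer_iff.mp hxF₀) _ ⟨_, h1, rfl⟩
        have h3 : f * x * a' = x * f * a' := by
          calc f * x * a' = f * (x * a') := by group
            _ = f * (a' * x) := by rw [hxa]
            _ = (f * a') * x := by group
            _ = x * (f * a') := h2
            _ = x * f * a' := by group
        exact mul_right_cancel h3
    calc Nat.card E
        ≤ Nat.card ↥(E ⊓ Subgroup.centralizer ((K.map F.subtype : Subgroup X) : Set X)) ^ (2 ^ k) := ih'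
      _ ≤ (Nat.card ↥((E ⊓ Subgroup.centralizer ((K.map F.subtype : Subgroup X) : Set X)) ⊓
            Subgroup.centralizer ({(a' : X)} : Set X)) ^ 2) ^ (2 ^ k) := Nat.pow_le_pow_left hK1 _
      _ ≤ (Nat.card ↥(E ⊓ Subgroup.centralizer (F : Set X)) ^ 2) ^ (2 ^ k) :=
        Nat.pow_le_pow_left (Nat.pow_le_pow_left (Subgroup.card_le_of_le hsub) 2) _
      _ = Nat.card ↥(E ⊓ Subgroup.centralizer (F : Set X)) ^ (2 ^ (k + 1)) := by
        rw [← pow_mul, pow_succ, mul_comm]

theorem exists_cent {X : Type*} [Group X] [Finite X] (E : Subgroup X) [hEn : E.Normal]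
    (hE : Cfsg.IsElementaryAbelian 2 E) (hE32 : 32 ≤ Nat.card ↥E)
    (F : Subgroup X) (hF : Cfsg.IsElementaryAbelian 2 F) (n : ℕ) (hn : n ≤ 3)
    (hFc : Nat.card F = 2 ^ n) :
    ∃ e ∈ E, e ∈ Subgroup.centralizer (F : Set X) ∧ e ∉ F := by
  by_contra hcon
  push_neg at hcon
  have hle : E ⊓ Subgroup.centralizer (F : Set X) ≤ F ⊓ E := fun e he => ⟨hcon e he.1 he.2, he.1⟩
  obtain ⟨j, hj⟩ := IsPGroup.iff_card.mp ((isPGroup_of_isEA hF).to_le (inf_le_left : F ⊓ E ≤ F))
  have hjn : j ≤ n := by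
    have := Subgroup.card_le_of_le (inf_le_left : F ⊓ E ≤ F)
    rw [hj, hFc] at this
    exact (Nat.pow_le_pow_iff_right (by norm_num)).mp this
  have hc : Nat.card F = 2 ^ (n - j) * Nat.card ↥(F ⊓ E) := by
    rw [hj, hFc, ← pow_add]
    congr 1
    omega
  have h1 := fix_pow E hE (n - j) F hF hc
  have h2 := Subgroup.card_le_of_le hle
  rw [hj] at h2
  have h3 : Nat.card ↥(E ⊓ Subgroup.centralizer (F : Set X)) ^ 2 ^ (n - j) ≤ (2 ^ j) ^ 2 ^ (n - j) :=
    Nat.pow_le_pow_left h2 _
  have h4 : 32 ≤ (2 ^ j) ^ 2 ^ (n - j) := hE32.trans (h1.trans h3)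
  interval_cases n <;> interval_cases j <;> norm_num at h4

/-- adjoining a centralizing involution outside `F` doubles the order -/
theorem card_sup_zpowers {X : Type*} [Group X] [Finite X] (F : Subgroup X) (e : X)
    (he2 : e ^ 2 = 1) (heF : e ∉ F) (hec : e ∈ Subgroup.centralizer (F : Set X)) :
    Nat.card ↥(F ⊔ Subgroup.zpowers e) = 2 * Nat.card F := by
  haveI : Fact (Nat.Prime 2) := ⟨Nat.prime_two⟩
  have he1 : e ≠ 1 := fun h => heF (h ▸ F.one_mem)
  have hLE : F ≤ Subgroup.normalizer (Subgroup.zpowers e : Set X) := by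
    apply le_normalizer_of_conj_mem
    intro b hb u hu
    obtain ⟨i, rfl⟩ := Subgroup.mem_zpowers_iff.mp hu
    have hbe : Commute b e := (Subgroup.mem_centralizer_iff.mp hec b hb)
    have : b * e ^ i * b⁻¹ = e ^ i := by
      rw [(hbe.zpow_right i).eq, mul_assoc, mul_inv_cancel, mul_one]
    rw [this]
    exact Subgroup.zpow_mem _ (Subgroup.mem_zpowers e) i
  have h1 := card_sup_mul_card_inf F (Subgroup.zpowers e) hLE
  have hinf : F ⊓ Subgroup.zpowers e = ⊥ := by
    rw [eq_bot_iff]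
    rintro x ⟨hxF, hxZ⟩
    obtain ⟨i, rfl⟩ := Subgroup.mem_zpowers_iff.mp hxZ
    rw [Subgroup.mem_bot]
    rcases Int.even_or_odd' i with ⟨q, rfl | rfl⟩
    · rw [zpow_mul, zpow_ofNat, he2, one_zpow]
    · exfalso
      apply heF
      have : e ^ (2 * q + 1) = e := by
        rw [zpow_add, zpow_mul, zpow_ofNat, he2, one_zpow, one_mul, zpow_one]
      rwa [this] at hxF
  rw [hinf, Subgroup.card_bot, mul_one, Nat.card_zpowers, orderOf_eq_prime he2 he1] at h1
  rw [h1, mul_comm]

/-- Let X be a finite 2-group having a normal elementary abelian subgroup of order at least 32. Then (a) for any two elementary abelian subgroups A, B of X of order 8 there is a chain A = A₁, A₂, …, Aₙ = B of elementary abelian subgroups of order 8 in which consecutive members commute elementwise; and (b) every elementary abelian subgroup of X of order 4 is contained in an elementary abelian subgroup of order 8. -/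
theorem result {X : Type*} [Group X] [Finite X]
    (hX : IsPGroup 2 X) (E : Subgroup X) [E.Normal] (hE : Cfsg.IsElementaryAbelian 2 E) (hE32 : 32 ≤ Nat.card ↥E) :
    (∀ A B : Subgroup X, Cfsg.IsElementaryAbelian 2 A → Nat.card ↥A = 8 → Cfsg.IsElementaryAbelian 2 B → Nat.card ↥B = 8 →
        Relation.ReflTransGen
          (fun C D : Subgroup X => Cfsg.IsElementaryAbelian 2 C ∧ Nat.card ↥C = 8 ∧ Cfsg.IsElementaryAbelian 2 D ∧ Nat.card ↥D = 8 ∧ ⁅C, D⁆ = ⊥)
          A B) ∧
      (∀ V : Subgroup X, Cfsg.IsElementaryAbelian 2 V → Nat.card ↥V = 4 →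
        ∃ A : Subgroup X, V ≤ A ∧ Cfsg.IsElementaryAbelian 2 A ∧ Nat.card ↥A = 8) := by
  classical
  haveI : Fact (Nat.Prime 2) := ⟨Nat.prime_two⟩
  have hE' := hE
  rw [isEA_iff] at hE'
  -- the relation is symmetric
  have hsymm : ∀ C D : Subgroup X,
      (Cfsg.IsElementaryAbelian 2 C ∧ Nat.card ↥C = 8 ∧ Cfsg.IsElementaryAbelian 2 D ∧ Nat.card ↥D = 8 ∧ ⁅C, D⁆ = ⊥) →
      (Cfsg.IsElementaryAbelian 2 D ∧ Nat.card ↥D = 8 ∧ Cfsg.IsElementaryAbelian 2 C ∧ Nat.card ↥C = 8 ∧ ⁅D, C⁆ = ⊥) := by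
    rintro C D ⟨h1, h2, h3, h4, h5⟩
    exact ⟨h3, h4, h1, h2, by rw [Subgroup.commutator_comm]; exact h5⟩
  -- every E8 reaches an E8 inside E
  have reach : ∀ m : ℕ, ∀ A : Subgroup X, Cfsg.IsElementaryAbelian 2 A → Nat.card ↥A = 8 →
      8 - Nat.card ↥(A ⊓ E) ≤ m →
      ∃ A' : Subgroup X, A' ≤ E ∧ Cfsg.IsElementaryAbelian 2 A' ∧ Nat.card ↥A' = 8 ∧
        Relation.ReflTransGen
          (fun C D : Subgroup X => Cfsg.IsElementaryAbelian 2 C ∧ Nat.card ↥C = 8 ∧ Cfsg.IsElementaryAbelian 2 D ∧ Nat.card ↥D = 8 ∧ ⁅C, D⁆ = ⊥)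
          A A' := by
    intro m
    induction m with
    | zero =>
      intro A hA hAc hm
      have hle := Subgroup.card_le_of_le (inf_le_left : A ⊓ E ≤ A)
      have hAE : A ⊓ E = A := by
        apply Subgroup.eq_of_le_of_card_ge inf_le_left
        omega
      exact ⟨A, by rw [← hAE]; exact inf_le_right, hA, hAc, Relation.ReflTransGen.refl⟩
    | succ m ih =>
      intro A hA hAc hm
      by_cases hAE : A ≤ E
      · exact ⟨A, hAE, hA, hAc, Relation.ReflTransGen.refl⟩
      have hA' := hA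
      rw [isEA_iff] at hA'
      obtain ⟨e, heE, heC, heA⟩ := exists_cent E hE hE32 A hA 3 le_rfl (by rw [hAc]; norm_num)
      have he2 : e ^ 2 = 1 := hE'.2 e heE
      have hcommAe : ∀ a ∈ A, ∀ c ∈ Subgroup.zpowers e, a * c = c * a := by
        intro a ha c hc
        obtain ⟨i, rfl⟩ := Subgroup.mem_zpowers_iff.mp hc
        have : Commute a e := (Subgroup.mem_centralizer_iff.mp heC a ha)
        exact (this.zpow_right i).eq
      have hMea : Cfsg.IsElementaryAbelian 2 (A ⊔ Subgroup.zpowers e) :=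
        isEA_sup hA (isEA_zpowers he2) hcommAe
      have hMc : Nat.card ↥(A ⊔ Subgroup.zpowers e) = 16 := by
        rw [card_sup_zpowers A e he2 heA heC, hAc]
      -- the subgroup H = (A ⊓ E) ⊔ ⟨e⟩
      obtain ⟨j, hj⟩ := IsPGroup.iff_card.mp ((isPGroup_of_isEA hA).to_le (inf_le_left : A ⊓ E ≤ A))
      have hj2 : j ≤ 2 := by
        have h1 := Subgroup.card_le_of_le (inf_le_left : A ⊓ E ≤ A)
        rw [hj, hAc] at h1
        have h2 : j ≤ 3 := by
          by_contra hcon
          have : 2 ^ 4 ≤ 2 ^ j := Nat.pow_le_pow_right (by norm_num) (by omega)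
          omega
        by_contra hcon
        have hj3 : j = 3 := by omega
        apply hAE
        have : A ⊓ E = A := by
          apply Subgroup.eq_of_le_of_card_ge inf_le_left
          rw [hj, hj3, hAc]; norm_num
        rw [← this]; exact inf_le_right
      have hHc : Nat.card ↥((A ⊓ E) ⊔ Subgroup.zpowers e) = 2 ^ (j + 1) := by
        rw [card_sup_zpowers (A ⊓ E) e he2 (fun h => heA h.1)
          (Subgroup.centralizer_le (by intro x hx; exact hx.1) heC), hj, pow_succ, mul_comm]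
      have hHM : (A ⊓ E) ⊔ Subgroup.zpowers e ≤ A ⊔ Subgroup.zpowers e :=
        sup_le (inf_le_left.trans le_sup_left) le_sup_right
      have hHE : (A ⊓ E) ⊔ Subgroup.zpowers e ≤ E :=
        sup_le inf_le_right (by rw [Subgroup.zpowers_le]; exact heE)
      have hH'c : Nat.card (((A ⊓ E) ⊔ Subgroup.zpowers e).subgroupOf (A ⊔ Subgroup.zpowers e)) =
          2 ^ (j + 1) := by
        rw [card_subgroupOf_of_le hHM, hHc]
      obtain ⟨K, hK, hHK⟩ := Sylow.exists_subgroup_card_pow_prime_le 2 (n := j + 1) (m := 3)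
        (by rw [hMc]; norm_num) (((A ⊓ E) ⊔ Subgroup.zpowers e).subgroupOf (A ⊔ Subgroup.zpowers e))
        hH'c (by omega)
      have hA''M : K.map (A ⊔ Subgroup.zpowers e).subtype ≤ A ⊔ Subgroup.zpowers e := by
        rintro _ ⟨x, _, rfl⟩; exact x.2
      have hA''c : Nat.card ↥(K.map (A ⊔ Subgroup.zpowers e).subtype) = 8 := by
        rw [card_map_subtype, hK]; norm_num
      have hA''ea : Cfsg.IsElementaryAbelian 2 (K.map (A ⊔ Subgroup.zpowers e).subtype) :=
        isEA_of_le hA''M hMea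
      have hHA'' : (A ⊓ E) ⊔ Subgroup.zpowers e ≤ K.map (A ⊔ Subgroup.zpowers e).subtype := by
        intro x hx
        exact ⟨⟨x, hHM hx⟩, hHK (by rw [Subgroup.mem_subgroupOf]; exact hx), rfl⟩
      have hMea' := hMea
      rw [isEA_iff] at hMea'
      have hR : ⁅A, K.map (A ⊔ Subgroup.zpowers e).subtype⁆ = ⊥ := by
        rw [Subgroup.commutator_eq_bot_iff_le_centralizer]
        intro a ha
        rw [Subgroup.mem_centralizer_iff]
        intro y hy
        exact hMea'.1 y (hA''M hy) a (le_sup_left (a := A) ha)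
      have hcard'' : 2 ^ (j + 1) ≤ Nat.card ↥(K.map (A ⊔ Subgroup.zpowers e).subtype ⊓ E) := by
        rw [← hHc]
        exact Subgroup.card_le_of_le (le_inf hHA'' hHE)
      have hm' : 8 - Nat.card ↥(K.map (A ⊔ Subgroup.zpowers e).subtype ⊓ E) ≤ m := by
        rw [hj] at hm
        have h1 : 2 ^ (j + 1) = 2 * 2 ^ j := by ring
        have h2 : 1 ≤ 2 ^ j := Nat.one_le_two_pow
        have h3 : 2 ^ j ≤ 4 := by
          have : 2 ^ j ≤ 2 ^ 2 := Nat.pow_le_pow_right (by norm_num) hj2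
          simpa using this
        omega
      obtain ⟨A', hA'E, hA'ea, hA'c, hchain⟩ := ih _ hA''ea hA''c hm'
      exact ⟨A', hA'E, hA'ea, hA'c,
        Relation.ReflTransGen.head ⟨hA, hAc, hA''ea, hA''c, hR⟩ hchain⟩
  refine ⟨?_, ?_⟩
  · intro A B hA hAc hB hBc
    obtain ⟨A', hA'E, hA'ea, hA'c, hchainA⟩ := reach _ A hA hAc le_rfl
    obtain ⟨B', hB'E, hB'ea, hB'c, hchainB⟩ := reach _ B hB hBc le_rfl
    have hmid : ⁅A', B'⁆ = ⊥ := by
      rw [Subgroup.commutator_eq_bot_iff_le_centralizer]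
      intro a ha
      rw [Subgroup.mem_centralizer_iff]
      intro y hy
      exact hE'.1 y (hB'E hy) a (hA'E ha)
    exact (hchainA.tail ⟨hA'ea, hA'c, hB'ea, hB'c, hmid⟩).trans (rtg_symm hsymm hchainB)
  · intro V hV hVc
    obtain ⟨e, heE, heC, heV⟩ := exists_cent E hE hE32 V hV 2 (by norm_num) (by rw [hVc]; norm_num)
    have he2 : e ^ 2 = 1 := hE'.2 e heE
    refine ⟨V ⊔ Subgroup.zpowers e, le_sup_left, ?_, ?_⟩
    · apply isEA_sup hV (isEA_zpowers he2)
      intro a ha c hc
      obtain ⟨i, rfl⟩ := Subgroup.mem_zpowers_iff.mp hc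
      have : Commute a e := (Subgroup.mem_centralizer_iff.mp heC a ha)
      exact (this.zpow_right i).eq
    · rw [card_sup_zpowers V e he2 heV heC, hVc]

end Cfsg.Agent.S1785
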