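import Cfsg.Statements.S1965
import Cfsg.Agent.Lib.Helper2.ConjFam
-- import your own Cfsg.Agent.* helpers here

set_option autoImplicit false
open Cfsg

namespace Cfsg.Agent.S1965

open Cfsg.Agent.Lib.Helper2

/-- Let p be a prime, G a finite group with Sylow p-subgroup S and 𝓕 a set of subgroups of S. Suppose that every subgroup T of S is G-conjugate to some member U of 𝓕 for which N_S(U) is a Sylow p-subgroup of N_G(U). Then 𝓕 is a conjugation family for S in G. -/
theorem result {G : Type*} [Group G] [Finite G] {p : ℕ} [Fact p.Prime] (S : Sylow p G) (𝓕 : Set (Subgroup G)) (h𝓕 : ∀ U ∈ 𝓕, U ≤ (S : Subgroup G)) (h : ∀ T : Subgroup G, T ≤ (S : Subgroup G) → ∃ U ∈ 𝓕, (∃ g : G, T.map (MulAut.conj g).toMonoidHom = U) ∧ ¬ p ∣ ((S : Subgroup G) ⊓ Subgroup.normalizer ((U : Subgroup G) : Set G)).relIndex (Subgroup.normalizer ((U : Subgroup G) : Set G))) : Cfsg.IsConjugationFamily 𝓕 (S : Subgroup G) := by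
  refine ⟨h𝓕, ?_⟩
  intro A g _ hAS hAg
  have hcl : Subgroup.closure A ≤ (S : Subgroup G) := (Subgroup.closure_le _).mpr hAS
  have hclg : cj ((Subgroup.closure A : Subgroup G) : Set G) g ⊆ (S : Subgroup G) := by
    intro y hy
    rw [mem_cj] at hy
    have hle : Subgroup.closure A ≤ (S : Subgroup G).map (MulAut.conj g).toMonoidHom := by
      rw [Subgroup.closure_le]
      intro a ha
      rw [SetLike.mem_coe, mem_map_conj_iff]
      exact hAg ⟨a, ha, rfl⟩
    have h1 := hle hy
    rw [mem_map_conj_iff] at h1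
    have e : g⁻¹ * (g * y * g⁻¹) * g = y := by group
    rwa [e] at h1
  have hdec := (dec_of_fullyNormalized S 𝓕 h𝓕 h (Subgroup.closure A) hcl g hclg).mono A
    Subgroup.subset_closure
  obtain ⟨n, T, x, hprod, hSt, h0, hstep⟩ := hdec.toForm
  exact ⟨n, T, x, hprod, fun i => (hSt i).1, fun i => (hSt i).2, h0, hstep⟩

end Cfsg.Agent.S1965
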