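import Cfsg.Statements.S1966
import Cfsg.Agent.Lib.Helper2.SylowAux
import Cfsg.Agent.Lib.Helper7.PCore
-- import your own Cfsg.Agent.* helpers here

set_option autoImplicit false
open Cfsg

namespace Cfsg.Agent.S1966

open Cfsg.Agent.Lib.Helper2 Cfsg.Agent.Lib.Helper7

/-- Let p be a prime, G a finite group with Sylow p-subgroup S and 𝓕 a conjugation family for S in G. Then the members of 𝓕 containing O_p(G) still form a conjugation family for S in G. -/
theorem result {G : Type*} [Group G] [Finite G] {p : ℕ} [Fact p.Prime] (S : Sylow p G) (𝓕 : Set (Subgroup G)) (h : Cfsg.IsConjugationFamily 𝓕 (S : Subgroup G)) : Cfsg.IsConjugationFamily {T : Subgroup G | T ∈ 𝓕 ∧ Cfsg.pCore p G ≤ T} (S : Subgroup G) := by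
  obtain ⟨h1, h2⟩ := h
  have hOn := pCore_normal p G
  have hOS : Cfsg.pCore p G ≤ (S : Subgroup G) :=
    normal_pGroup_le_sylow _ hOn (pCore_isPGroup p G) S
  refine ⟨fun T hT => h1 T hT.1, ?_⟩
  intro A g hne hAS hAg
  have hcond : (fun a => g⁻¹ * a * g) '' (A ∪ (Cfsg.pCore p G : Set G)) ⊆ (S : Subgroup G) := by
    rintro _ ⟨a, ha | ha, rfl⟩
    · exact hAg ⟨a, ha, rfl⟩
    · have := hOn.conj_mem a ha g⁻¹
      rw [inv_inv] at this
      exact hOS this
  obtain ⟨n, T, x, hprod, hT, hx, h0, hstep⟩ := h2 (A ∪ (Cfsg.pCore p G : Set G)) g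
    (hne.mono Set.subset_union_left) (Set.union_subset hAS hOS) hcond
  refine ⟨n, T, x, hprod, ?_, hx, fun h => Set.subset_union_left.trans (h0 h), fun i h => ?_⟩
  · rintro ⟨i, hi⟩
    refine ⟨hT _, ?_⟩
    cases i with
    | zero => exact fun y hy => h0 hi (Or.inr hy)
    | succ j =>
      intro y hy
      have hs := hstep ⟨j, by omega⟩ hi
      set w := ((List.ofFn x).take (j + 1)).prod with hw
      have h3 : w * y * w⁻¹ ∈ Cfsg.pCore p G := hOn.conj_mem y hy w
      have h4 : y = w⁻¹ * (w * y * w⁻¹) * w := by group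
      rw [h4]
      exact hs ⟨w * y * w⁻¹, Or.inr h3, rfl⟩
  · exact (Set.image_mono Set.subset_union_left).trans (hstep i h)

end Cfsg.Agent.S1966
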