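import Cfsg.Statements.S1967
import Cfsg.Agent.Lib.Helper2.WellPlaced
-- import your own Cfsg.Agent.* helpers here

set_option autoImplicit false
open Cfsg

namespace Cfsg.Agent.S1967

open Cfsg.Agent.Lib.Helper2

/-- Let p be a prime, G a finite group with Sylow p-subgroup S and W a conjugacy functor for p on G. Then W controls strong fusion in G if and only if, whenever T ≤ S and g ∈ G satisfy gTg⁻¹ ≤ S, one can write g = n c with n ∈ N_G(W(S)) and c ∈ C_G(T). -/
theorem result {G : Type*} [Group G] [Finite G] {p : ℕ} [Fact p.Prime] (S : Sylow p G) (W : Subgroup G → Subgroup G) (hW : Cfsg.IsConjugacyFunctor p W) : Cfsg.ControlsStrongFusionIn p W ⊤ ↔ ∀ (T : Subgroup G) (g : G), T ≤ (S : Subgroup G) → T.map (MulAut.conj g).toMonoidHom ≤ (S : Subgroup G) → ∃ n ∈ Subgroup.normalizer ((W (S : Subgroup G) : Subgroup G) : Set G), ∃ c ∈ Subgroup.centralizer (T : Set G), g = n * c := by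
  constructor
  · rintro ⟨T₀, -, hT₀p, hT₀idx, hctl⟩ T g hTS hTg
    rw [Subgroup.relIndex_top_right] at hT₀idx
    obtain ⟨u, hu⟩ := MulAction.exists_smul_eq G (hT₀p.toSylow hT₀idx) S
    have hSmem : ∀ x, x ∈ (S : Subgroup G) ↔ u⁻¹ * x * u ∈ T₀ := by
      intro x
      rw [← hu, mem_sylow_smul_iff]
      rfl
    have hSeq : (S : Subgroup G) = T₀.map (MulAut.conj u).toMonoidHom := by
      ext x
      rw [hSmem, mem_map_conj_iff]
    have hA : cj (T : Set G) u ⊆ T₀ := by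
      intro a ha
      rw [mem_cj] at ha
      have h1 := (hSmem _).mp (hTS ha)
      have e : u⁻¹ * (u * a * u⁻¹) * u = a := by group
      rwa [e] at h1
    have hAh : (fun a => (u⁻¹ * g * u) * a * (u⁻¹ * g * u)⁻¹) '' (cj (T : Set G) u) ⊆ T₀ := by
      rintro _ ⟨a, ha, rfl⟩
      rw [mem_cj] at ha
      have h1 : g * (u * a * u⁻¹) * g⁻¹ ∈ T.map (MulAut.conj g).toMonoidHom := by
        rw [mem_map_conj_iff]
        have e : g⁻¹ * (g * (u * a * u⁻¹) * g⁻¹) * g = u * a * u⁻¹ := by group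
        rw [e]; exact ha
      have h2 := (hSmem _).mp (hTg h1)
      have e : u⁻¹ * (g * (u * a * u⁻¹) * g⁻¹) * u = (u⁻¹ * g * u) * a * (u⁻¹ * g * u)⁻¹ := by group
      rw [e] at h2
      exact h2
    obtain ⟨x, hx, hxa⟩ := hctl (cj (T : Set G) u) (u⁻¹ * g * u) (Subgroup.mem_top _) hA hAh
    have hxN := hx.2
    refine ⟨u * x * u⁻¹, ?_, (u * x * u⁻¹)⁻¹ * g, ?_, by group⟩
    · rw [hSeq, (hW T₀ hT₀p).2.2 u, normalizer_map_conj, mem_map_conj_iff]
      have e : u⁻¹ * (u * x * u⁻¹) * u = x := by group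
      rw [e]; exact hxN
    · rw [Subgroup.mem_centralizer_iff]
      intro t ht
      have h1 := hxa (u⁻¹ * t * u) (by
        rw [mem_cj]
        have e : u * (u⁻¹ * t * u) * u⁻¹ = t := by group
        rw [e]; exact ht)
      have h2 : (u * x * u⁻¹) * t * (u * x * u⁻¹)⁻¹ = g * t * g⁻¹ := by
        have e1 : (u * x * u⁻¹) * t * (u * x * u⁻¹)⁻¹ = u * (x * (u⁻¹ * t * u) * x⁻¹) * u⁻¹ := by group
        have e2 : g * t * g⁻¹ = u * ((u⁻¹ * g * u) * (u⁻¹ * t * u) * (u⁻¹ * g * u)⁻¹) * u⁻¹ := by group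
        rw [e1, e2, h1]
      have e3 : t * ((u * x * u⁻¹)⁻¹ * g) = (u * x * u⁻¹)⁻¹ * ((u * x * u⁻¹) * t * (u * x * u⁻¹)⁻¹) * g := by group
      have e4 : (u * x * u⁻¹)⁻¹ * g * t = (u * x * u⁻¹)⁻¹ * (g * t * g⁻¹) * g := by group
      rw [e3, e4, h2]
  · intro h
    refine ⟨(S : Subgroup G), le_top, S.2, ?_, ?_⟩
    · rw [Subgroup.relIndex_top_right]; exact S.not_dvd_index
    · intro A h₀ _ hAS hAh
      have hcl : Subgroup.closure A ≤ (S : Subgroup G) := (Subgroup.closure_le _).mpr hAS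
      have hclh : (Subgroup.closure A).map (MulAut.conj h₀).toMonoidHom ≤ (S : Subgroup G) := by
        rw [MonoidHom.map_closure, Subgroup.closure_le]
        rintro _ ⟨a, ha, rfl⟩
        exact hAh ⟨a, ha, rfl⟩
      obtain ⟨n, hn, c, hc, hnc⟩ := h (Subgroup.closure A) h₀ hcl hclh
      refine ⟨n, ⟨Subgroup.mem_top _, hn⟩, ?_⟩
      intro a ha
      have h1 := Subgroup.mem_centralizer_iff.mp hc a (Subgroup.subset_closure ha)
      rw [hnc]
      have e : n * c * a * (n * c)⁻¹ = n * (c * a) * c⁻¹ * n⁻¹ := by group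
      rw [e, ← h1]; group

end Cfsg.Agent.S1967
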