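import Cfsg.Statements.S1968
import Cfsg.Agent.Lib.Helper2.FusionWP
-- import your own Cfsg.Agent.* helpers here

set_option autoImplicit false
open Cfsg

namespace Cfsg.Agent.S1968

open Cfsg.Agent.Lib.Helper2

theorem dec_exists_moving {G : Type*} [Group G] {St : Subgroup G → G → Prop} {A : Set G} {g : G}
    (h : Dec St A g) : cj A g ≠ A → ∃ (T : Subgroup G) (x : G), St T x ∧ A ⊆ (T : Set G) ∧ cj A x ≠ A := by
  induction h with
  | nil A => intro hne; exact absurd (cj_one A) hne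
  | cons A T x g hSt hA _ ih =>
    intro hne
    by_cases hx : cj A x = A
    · rw [← cj_mul, hx] at hne
      rw [hx] at ih
      exact ih hne
    · exact ⟨T, x, hSt, hA, hx⟩

/-- Let p be a prime, G a finite group with Sylow p-subgroup S and W a conjugacy functor for p on G with Z(P) ≤ W(P) for every p-subgroup P. Let A be a subgroup of Z(S) normalized by N_G(W(S)) that is not weakly closed in S with respect to G. Then there is a subgroup T of S, well placed in S with respect to W, such that: A ≤ T; N_G(W(N_S(T))) normalizes A; N_S(T) is a Sylow p-subgroup of N_G(T); A ≤ Z(N_S(T)); and A is not weakly closed in N_S(T) with respect to N_G(T), that is, some N_G(T)-conjugate of A other than A lies in N_S(T). -/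
theorem result {G : Type*} [Group G] [Finite G] {p : ℕ} [Fact p.Prime] (S : Sylow p G) (W : Subgroup G → Subgroup G) (hW : Cfsg.IsConjugacyFunctor p W) (hWZ : ∀ P : Subgroup G, IsPGroup p ↥P → P ⊓ Subgroup.centralizer (P : Set G) ≤ W P) (A : Subgroup G) (hAZ : A ≤ (S : Subgroup G) ⊓ Subgroup.centralizer ((S : Subgroup G) : Set G)) (hAN : Subgroup.normalizer ((W (S : Subgroup G) : Subgroup G) : Set G) ≤ Subgroup.normalizer ((A : Subgroup G) : Set G)) (hnwc : ¬ Cfsg.IsWeaklyClosed A (S : Subgroup G)) : ∃ T : Subgroup G, Cfsg.IsWellPlaced p W (S : Subgroup G) T ∧ A ≤ T ∧ Subgroup.normalizer ((W ((S : Subgroup G) ⊓ Subgroup.normalizer ((T : Subgroup G) : Set G)) : Subgroup G) : Set G) ≤ Subgroup.normalizer ((A : Subgroup G) : Set G) ∧ ¬ p ∣ ((S : Subgroup G) ⊓ Subgroup.normalizer ((T : Subgroup G) : Set G)).relIndex (Subgroup.normalizer ((T : Subgroup G) : Set G)) ∧ A ≤ Subgroup.centralizer (((S : Subgroup G) ⊓ Subgroup.normalizer ((T : Subgroup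 G) : Set G) : Subgroup G) : Set G) ∧ ∃ g ∈ Subgroup.normalizer ((T : Subgroup G) : Set G), A.map (MulAut.conj g).toMonoidHom ≤ (S : Subgroup G) ⊓ Subgroup.normalizer ((T : Subgroup G) : Set G) ∧ A.map (MulAut.conj g).toMonoidHom ≠ A := by
  classical
  have hS : IsPGroup p (S : Subgroup G) := S.2
  have hAS : A ≤ (S : Subgroup G) := hAZ.trans inf_le_left
  have hAC : A ≤ Subgroup.centralizer ((S : Subgroup G) : Set G) := hAZ.trans inf_le_right
  -- Step 1
  have h1 : ∃ g : G, A.map (MulAut.conj g).toMonoidHom ≤ (S : Subgroup G) ∧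
      A.map (MulAut.conj g).toMonoidHom ≠ A := by
    by_contra hcon
    push Not at hcon
    exact hnwc ⟨hAS, hcon⟩
  obtain ⟨g, hgS, hgne⟩ := h1
  set 𝓕 : Set (Subgroup G) := {T | IsWellPlaced p W (S : Subgroup G) T} with h𝓕
  have h𝓕ex : ∀ T : Subgroup G, T ≤ (S : Subgroup G) → ∃ U ∈ 𝓕,
      (∃ g : G, T.map (MulAut.conj g).toMonoidHom = U) ∧
      ¬ p ∣ ((S : Subgroup G) ⊓ Subgroup.normalizer (U : Set G)).relIndex (Subgroup.normalizer (U : Set G)) := by
    intro T hT
    obtain ⟨g, hg⟩ := exists_wellPlaced S W hW T hT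
    exact ⟨_, hg, ⟨g, rfl⟩, hg.2 0⟩
  have hcjS : cj (A : Set G) g⁻¹ ⊆ ((S : Subgroup G) : Set G) := by
    rw [← coe_map_conj]; exact hgS
  have hdec := dec_of_fullyNormalized S 𝓕 (fun U hU => hU.1) h𝓕ex A hAS g⁻¹ hcjS
  have hcjne : cj (A : Set G) g⁻¹ ≠ (A : Set G) := by
    rw [← coe_map_conj]
    intro h
    exact hgne (SetLike.coe_injective h)
  obtain ⟨T₀, x, ⟨hT₀wp, hxN⟩, hAT₀, hxne⟩ := dec_exists_moving hdec hcjne
  -- the family
  set 𝓣 : Set (Subgroup G) := {T | IsWellPlaced p W (S : Subgroup G) T ∧ A ≤ T ∧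
    ∃ g ∈ Subgroup.normalizer (T : Set G), A.map (MulAut.conj g).toMonoidHom ≠ A} with h𝓣
  have hT₀mem : T₀ ∈ 𝓣 := by
    refine ⟨hT₀wp, hAT₀, x⁻¹, inv_mem hxN, ?_⟩
    intro h
    apply hxne
    rw [← coe_map_conj_inv, h]
  haveI : Nonempty 𝓣 := ⟨⟨T₀, hT₀mem⟩⟩
  obtain ⟨⟨T, hTmem⟩, hTmax⟩ := Finite.exists_max (fun T : 𝓣 =>
    Nat.card ((S : Subgroup G) ⊓ Subgroup.normalizer ((T : Subgroup G) : Set G) : Subgroup G))
  obtain ⟨hTwp, hAT, g₁, hg₁N, hg₁ne⟩ := hTmem
  have hTS : T ≤ (S : Subgroup G) := hTwp.1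
  have hA_R : A ≤ (S : Subgroup G) ⊓ Subgroup.normalizer (T : Set G) :=
    le_inf hAS (hAT.trans Subgroup.le_normalizer)
  have hA_CR : A ≤ Subgroup.centralizer ((((S : Subgroup G) ⊓ Subgroup.normalizer (T : Set G) : Subgroup G)) : Set G) :=
    hAC.trans (Subgroup.centralizer_le (by
      intro z hz
      exact hz.1))
  refine ⟨T, hTwp, hAT, ?_, hTwp.2 0, hA_CR, g₁, hg₁N, ?_, hg₁ne⟩
  · by_contra hcon
    rw [SetLike.not_le_iff_exists] at hcon
    obtain ⟨y, hyN, hyA⟩ := hcon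
    have hyA' : A.map (MulAut.conj y).toMonoidHom ≠ A := by
      intro h
      exact hyA (mem_normalizer_iff_map_conj'.mpr h)
    set T₁ := functorTower W (S : Subgroup G) T 1 with hT₁
    have hT₁eq : T₁ = W ((S : Subgroup G) ⊓ Subgroup.normalizer (T : Set G)) := rfl
    have hT₁wp : IsWellPlaced p W (S : Subgroup G) T₁ := wellPlaced_tower W hW (S : Subgroup G) T hS hTwp 1
    have hAT₁ : A ≤ T₁ := by
      rw [hT₁eq]
      exact (le_inf hA_R hA_CR).trans (hWZ _ (hS.to_le inf_le_left))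
    have hT₁mem : T₁ ∈ 𝓣 := ⟨hT₁wp, hAT₁, y, by rw [hT₁eq]; exact hyN, hyA'⟩
    have hmax := hTmax ⟨T₁, hT₁mem⟩
    have hle := nS_mono_succ W hW (S : Subgroup G) T hS 0
    have heq : (S : Subgroup G) ⊓ Subgroup.normalizer ((functorTower W (S : Subgroup G) T 0 : Subgroup G) : Set G) =
        (S : Subgroup G) ⊓ Subgroup.normalizer ((functorTower W (S : Subgroup G) T (0 + 1) : Subgroup G) : Set G) :=
      Subgroup.eq_of_le_of_card_ge hle hmax
    have hstab := nS_eq_of_stable W hW (S : Subgroup G) T hS 0 heq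
    have hstab' : (S : Subgroup G) ⊓ Subgroup.normalizer (T : Set G) = S := hstab
    rw [hstab'] at hyN
    exact hyA (hAN hyN)
  · have h2 : A.map (MulAut.conj g₁).toMonoidHom ≤ T.map (MulAut.conj g₁).toMonoidHom :=
      Subgroup.map_mono hAT
    rw [mem_normalizer_iff_map_conj'.mp hg₁N] at h2
    exact h2.trans (le_inf hTS Subgroup.le_normalizer)

end Cfsg.Agent.S1968
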