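import Cfsg.Statements.S1976
import Cfsg.Agent.Lib.Helper2.KSeq
-- import your own Cfsg.Agent.* helpers here

set_option autoImplicit false
open Cfsg

namespace Cfsg.Agent.S1976

open Cfsg.Agent.Lib.Helper2

/-- Let P be a finite p-group. The K-sequence of P is eventually constant on each parity: from some index on, every even-indexed term equals the lower K-infinity subgroup and every odd-indexed term equals the upper K-infinity subgroup. -/
theorem result {P : Type*} [Group P] [Finite P] {p : ℕ} [Fact p.Prime] (hP : IsPGroup p P) : ∃ n : ℕ, ∀ m : ℕ, n ≤ m → Cfsg.kSeqEven P m = Cfsg.kInfLower P ∧ Cfsg.kSeqOdd P m = Cfsg.kInfUpper P := by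
  have hmono : Monotone (Cfsg.kSeqEven P) := monotone_nat_of_le_succ kSeqEven_monotone
  have hanti : Antitone (Cfsg.kSeqOdd P) := antitone_nat_of_succ_le kSeqOdd_antitone
  obtain ⟨n₁, h₁⟩ := WellFoundedGT.monotone_chain_condition
    (⟨Cfsg.kSeqEven P, hmono⟩ : ℕ →o Subgroup P)
  obtain ⟨n₂, h₂⟩ := WellFoundedGT.monotone_chain_condition
    (⟨fun n => OrderDual.toDual (Cfsg.kSeqOdd P n), fun a b hab => hanti hab⟩ :
      ℕ →o (Subgroup P)ᵒᵈ)
  have h₁' : ∀ m, n₁ ≤ m → Cfsg.kSeqEven P n₁ = Cfsg.kSeqEven P m := h₁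
  have h₂' : ∀ m, n₂ ≤ m → Cfsg.kSeqOdd P n₂ = Cfsg.kSeqOdd P m :=
    fun m hm => congrArg OrderDual.ofDual (h₂ m hm)
  have e1 : Cfsg.kInfLower P = Cfsg.kSeqEven P n₁ := by
    apply le_antisymm
    · apply iSup_le
      intro k
      rcases le_total k n₁ with h | h
      · exact hmono h
      · rw [← h₁' k h]
    · exact le_iSup (Cfsg.kSeqEven P) n₁
  have e2 : Cfsg.kInfUpper P = Cfsg.kSeqOdd P n₂ := by
    apply le_antisymm
    · exact iInf_le (Cfsg.kSeqOdd P) n₂
    · apply le_iInf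
      intro k
      rcases le_total k n₂ with h | h
      · exact hanti h
      · rw [← h₂' k h]
  refine ⟨max n₁ n₂, fun m hm => ⟨?_, ?_⟩⟩
  · rw [e1, ← h₁' m (le_trans (le_max_left _ _) hm)]
  · rw [e2, ← h₂' m (le_trans (le_max_right _ _) hm)]

end Cfsg.Agent.S1976
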