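import Cfsg.Statements.S1978
import Cfsg.Agent.Lib.Helper2.MaxAb
-- import your own Cfsg.Agent.* helpers here

set_option autoImplicit false
open Cfsg

namespace Cfsg.Agent.S1978

/-- Let P be a finite p-group. Each of the two K-infinity subgroups of P contains its own centralizer in P, which in turn contains Z(P); in particular both are nontrivial when P is. -/
theorem result {P : Type*} [Group P] [Finite P] {p : ℕ} [Fact p.Prime] (hP : IsPGroup p P) : Subgroup.centralizer (Cfsg.kInfLower P : Set P) ≤ Cfsg.kInfLower P ∧ Subgroup.center P ≤ Subgroup.centralizer (Cfsg.kInfLower P : Set P) ∧ Subgroup.centralizer (Cfsg.kInfUpper P : Set P) ≤ Cfsg.kInfUpper P ∧ Subgroup.center P ≤ Subgroup.centralizer (Cfsg.kInfUpper P : Set P) := by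
  obtain ⟨A, hAn, hAc, hCA⟩ := Cfsg.Agent.Lib.Helper2.MaxAb.exists_max_normal_abelian hP
  haveI := hAn
  have h1 : A ≤ kInfLower P :=
    le_trans (Cfsg.Agent.Lib.Helper2.normal_abelian_le_kSeqEven A hAc 0)
      (le_iSup (fun n => kSeqEven P n) 0)
  have h2 : A ≤ kInfUpper P :=
    le_iInf (fun n => Cfsg.Agent.Lib.Helper2.normal_abelian_le_kSeqOdd A hAc n)
  have k1 := Cfsg.Agent.Lib.Helper2.MaxAb.key hCA _ h1
  have k2 := Cfsg.Agent.Lib.Helper2.MaxAb.key hCA _ h2
  exact ⟨k1.2, k1.1, k2.2, k2.1⟩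

end Cfsg.Agent.S1978
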