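import Cfsg.Statements.S1981
import Cfsg.Agent.Lib.Helper2.KSeq
-- import your own Cfsg.Agent.* helpers here

set_option autoImplicit false
open Cfsg

namespace Cfsg.Agent.S1981

open Cfsg.Agent.Lib.Helper2

/-- Let P be a finite p-group generated by its abelian normal subgroups. Then both K-infinity subgroups of P equal P. -/
theorem result {P : Type*} [Group P] [Finite P] {p : ℕ} [Fact p.Prime] (hP : IsPGroup p P) (hgen : ⨆ A ∈ {A : Subgroup P | A.Normal ∧ IsMulCommutative ↥A}, A = ⊤) : Cfsg.kInfLower P = ⊤ ∧ Cfsg.kInfUpper P = ⊤ := by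
  constructor
  · rw [eq_top_iff, ← hgen]
    apply iSup₂_le
    intro A hA
    haveI := hA.1
    exact (normal_abelian_le_kSeqEven A hA.2 0).trans (le_iSup (Cfsg.kSeqEven P) 0)
  · rw [eq_top_iff]
    apply le_iInf
    intro n
    rw [← hgen]
    apply iSup₂_le
    intro A hA
    haveI := hA.1
    exact normal_abelian_le_kSeqOdd A hA.2 n

end Cfsg.Agent.S1981
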