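import Cfsg.Statements.S2007
import Cfsg.Agent.Lib.Helper2.NPC2
-- import your own Cfsg.Agent.* helpers here

set_option autoImplicit false
open Cfsg

namespace Cfsg.Agent.S2007

open Cfsg.Agent.Lib.Helper2

/-- Let p be a prime, G a finite group with Sylow p-subgroup S, and T a normal subgroup of S containing C_S(T). If N_G(T)/C_G(T) is a p-group (every element of N_G(T) of order prime to p centralizes T), then N_G(T) has a normal p-complement. -/
theorem result {G : Type*} [Group G] [Finite G] {p : ℕ} [Fact p.Prime] (S : Sylow p G) (T : Subgroup G) (hTS : T ≤ (S : Subgroup G)) (hTn : (S : Subgroup G) ≤ Subgroup.normalizer ((T : Subgroup G) : Set G)) (hC : (S : Subgroup G) ⊓ Subgroup.centralizer ((T : Subgroup G) : Set G) ≤ T) (hN : ∀ g ∈ Subgroup.normalizer ((T : Subgroup G) : Set G), (orderOf g).Coprime p → g ∈ Subgroup.centralizer ((T : Subgroup G) : Set G)) : Cfsg.HasNormalPComplement p ↥(Subgroup.normalizer ((T : Subgroup G) : Set G)) := by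
  set N := Subgroup.normalizer ((T : Subgroup G) : Set G) with hNdef
  set C := Subgroup.centralizer ((T : Subgroup G) : Set G) with hCdef
  have hCN : C ≤ N := Subgroup.centralizer_le_normalizer _
  have hconjC : ∀ n ∈ N, ∀ c ∈ C, n * c * n⁻¹ ∈ C := by
    intro n hn c hc
    rw [hCdef, Subgroup.mem_centralizer_iff]
    intro t ht
    have h1 : n⁻¹ * t * n ∈ T := (Subgroup.mem_normalizer_iff''.mp hn t).mp ht
    have h2 := Subgroup.mem_centralizer_iff.mp hc _ h1
    have e1 : t * (n * c * n⁻¹) = n * ((n⁻¹ * t * n) * c) * n⁻¹ := by group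
    have e2 : n * c * n⁻¹ * t = n * (c * (n⁻¹ * t * n)) * n⁻¹ := by group
    rw [e1, e2, h2]
  have hMn : (C.subgroupOf N).Normal := by
    constructor
    intro c hc n
    rw [Subgroup.mem_subgroupOf] at hc ⊢
    exact hconjC n n.2 c hc
  obtain ⟨b, hb⟩ := index_pow_of_coprime_mem (p := p) (C.subgroupOf N) (fun g hg => by
    rw [Subgroup.mem_subgroupOf]
    apply hN _ g.2
    rwa [Subgroup.orderOf_coe])
  have hC' : Cfsg.HasNormalPComplement p ↥C := by
    obtain ⟨R⟩ : Nonempty (Sylow p C) := inferInstance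
    have hcent : (R : Subgroup C) ≤ Subgroup.center C := by
      intro x hx
      have hxT : (x : G) ∈ T := by
        obtain ⟨k, hk⟩ := R.2 ⟨x, hx⟩
        have hk' : (x : G) ^ p ^ k = 1 := by
          have := congrArg Subtype.val (congrArg Subtype.val hk)
          simpa using this
        obtain ⟨n, hnN, hn⟩ := exists_conj_mem_sylow_of_le S N hTn (x : G) (hCN x.2) hk'
        have hnC : n * x * n⁻¹ ∈ C := hconjC n hnN x x.2
        have h3 : n * x * n⁻¹ ∈ T := hC ⟨hn, hnC⟩
        have h4 := (Subgroup.mem_normalizer_iff''.mp hnN _).mp h3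
        have e : n⁻¹ * (n * (x : G) * n⁻¹) * n = x := by group
        rwa [e] at h4
      rw [Subgroup.mem_center_iff]
      intro y
      apply Subtype.ext
      exact (Subgroup.mem_centralizer_iff.mp y.2 _ hxT).symm
    obtain ⟨K, hKn, hK⟩ := exists_normal_complement_of_central_sylow R hcent
    exact ⟨R, K, hKn, hK⟩
  have hM : Cfsg.HasNormalPComplement p ↥(C.subgroupOf N) :=
    hasNormalPComplement_of_mulEquiv (Subgroup.subgroupOfEquivOfLe hCN).symm hC'
  exact hasNormalPComplement_of_normal_of_index_pow (C.subgroupOf N) hb hM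

end Cfsg.Agent.S2007
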