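import Cfsg.Statements.S2008
import Cfsg.Agent.Lib.Helper2.FPF
-- import your own Cfsg.Agent.* helpers here

set_option autoImplicit false
open Cfsg

namespace Cfsg.Agent.S2008

open Cfsg.Agent.Lib.Helper2

/-- Let H be a finite group and z an involution such that every proper normal subgroup of H meets the centralizer of z trivially, and suppose z lies in a Klein four-subgroup E of H all three of whose involutions are conjugate to z in H. Then H has no non-trivial abelian normal subgroup. -/
theorem result {H : Type*} [Group H] [Finite H] (z : H) (hz : orderOf z = 2) (hN : ∀ N : Subgroup H, N.Normal → N ≠ ⊤ → N ⊓ Subgroup.centralizer ({z} : Set H) = ⊥) (E : Subgroup H) (hE : IsKleinFour ↥E) (hzE : z ∈ E) (hc : ∀ e ∈ E, e ≠ 1 → IsConj z e) (N : Subgroup H) [N.Normal] (hab : IsMulCommutative ↥N) : N = ⊥ := by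
  classical
  by_cases hNtop : N = ⊤
  · exfalso
    have hcomm : ∀ a b : H, a * b = b * a := by
      intro a b
      have ha : a ∈ N := by rw [hNtop]; trivial
      have hb : b ∈ N := by rw [hNtop]; trivial
      have := hab.is_comm.comm (⟨a, ha⟩ : N) ⟨b, hb⟩
      exact congrArg Subtype.val this
    have hall : ∀ e ∈ E, e ≠ 1 → e = z := by
      intro e he he1
      obtain ⟨g, hg⟩ := isConj_iff.mp (hc e he he1)
      rw [← hg, hcomm g z, mul_assoc, mul_inv_cancel, mul_one]
    letI : Fintype E := Fintype.ofFinite _
    have hcard : Fintype.card E = 4 := by rw [← Nat.card_eq_fintype_card]; exact hE.card_four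
    obtain ⟨e, -, he⟩ := Finset.exists_mem_notMem_of_card_lt_card
      (s := ({1, ⟨z, hzE⟩} : Finset E)) (t := Finset.univ)
      (by rw [Finset.card_univ, hcard]; exact lt_of_le_of_lt (Finset.card_insert_le _ _) (by simp))
    simp only [Finset.mem_insert, Finset.mem_singleton, not_or] at he
    exact he.2 (Subtype.ext (hall _ e.2 (fun h => he.1 (Subtype.ext h))))
  · exact eq_bot_of_fpf_klein z hz E hE hzE hc N inferInstance (hN N inferInstance hNtop)

end Cfsg.Agent.S2008
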