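import Cfsg.Statements.S2329
-- import your own Cfsg.Agent.* helpers here
import Mathlib

set_option autoImplicit false
open Cfsg

namespace Cfsg.Agent.S2329


section
variable {F : Type*} [Field F]

theorem nilp_sq (N : Matrix (Fin 2) (Fin 2) F) (hN : IsNilpotent N) : N ^ 2 = 0 := by
  have h1 := Matrix.isNilpotent_charpoly_sub_pow_of_isNilpotent hN
  have h2 : N.charpoly = Polynomial.X ^ 2 := by
    have h0 := h1.eq_zero
    rw [Fintype.card_fin] at h0
    exact sub_eq_zero.mp h0
  have h3 := Matrix.aeval_self_charpoly N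
  rw [h2, map_pow, Polynomial.aeval_X] at h3
  exact h3

/-- The standard unipotent element. -/
noncomputable def stdU (F : Type*) [Field F] : Matrix.GeneralLinearGroup (Fin 2) F :=
  Matrix.GeneralLinearGroup.mkOfDetNeZero !![1, 1; 0, 1] (by simp [Matrix.det_fin_two])

theorem conj_std (p : ℕ) [Fact p.Prime] [CharP F p] (u : Matrix.GeneralLinearGroup (Fin 2) F)
    (hu : orderOf u = p) : ∃ P : Matrix.GeneralLinearGroup (Fin 2) F, u * P = P * stdU F := by
  have hp := (Fact.out : p.Prime)
  obtain ⟨A, hAdef⟩ : ∃ A : Matrix (Fin 2) (Fin 2) F, A = (u : Matrix (Fin 2) (Fin 2) F) :=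
    ⟨_, rfl⟩
  have hA : A ^ p ^ 1 = 1 := by
    have h1 := pow_orderOf_eq_one u
    rw [hu] at h1
    have h2 := congrArg (fun u : Matrix.GeneralLinearGroup (Fin 2) F =>
      (u : Matrix (Fin 2) (Fin 2) F)) h1
    rw [hAdef, pow_one]
    simpa using h2
  have hN : (A - 1) ^ p ^ 1 = 0 := by
    rw [sub_pow_char_pow_of_commute p 1 (Commute.one_right A), hA, one_pow, sub_self]
  have hN2 : (A - 1) ^ 2 = 0 := nilp_sq _ ⟨p ^ 1, hN⟩
  have hA1 : A ≠ 1 := by
    intro h
    have h1 : u = 1 := Units.ext (by rw [← hAdef, h]; rfl)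
    rw [h1, orderOf_one] at hu
    exact hp.one_lt.ne hu
  have e00 := congrFun (congrFun hN2 0) 0
  have e01 := congrFun (congrFun hN2 0) 1
  have e10 := congrFun (congrFun hN2 1) 0
  have e11 := congrFun (congrFun hN2 1) 1
  simp only [pow_two, Matrix.mul_apply, Fin.sum_univ_two, Matrix.sub_apply, Matrix.one_apply,
    Matrix.zero_apply] at e00 e01 e10 e11
  simp at e00 e01 e10 e11
  by_cases hc : A 1 0 = 0
  · -- c = 0
    have ha : A 0 0 = 1 := by
      rw [hc, mul_zero, add_zero] at e00
      exact sub_eq_zero.mp (mul_self_eq_zero.mp e00)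
    have hd : A 1 1 = 1 := by
      rw [hc, zero_mul, zero_add] at e11
      exact sub_eq_zero.mp (mul_self_eq_zero.mp e11)
    have hb : A 0 1 ≠ 0 := by
      intro hb
      apply hA1
      ext i j
      fin_cases i <;> fin_cases j <;> simp [ha, hd, hb, hc]
    refine ⟨Matrix.GeneralLinearGroup.mkOfDetNeZero !![A 0 1, 0; 0, 1]
      (by simp [Matrix.det_fin_two, hb]), ?_⟩
    apply Units.ext
    rw [Units.val_mul, Units.val_mul, ← hAdef]
    unfold stdU
    simp only [Matrix.GeneralLinearGroup.val_mkOfDetNeZero]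
    ext i j
    fin_cases i <;> fin_cases j <;>
      simp [Matrix.mul_apply, Fin.sum_univ_two, ha, hd, hc]
  · refine ⟨Matrix.GeneralLinearGroup.mkOfDetNeZero !![A 0 0 - 1, 1; A 1 0, 0]
      (by simp [Matrix.det_fin_two, hc]), ?_⟩
    apply Units.ext
    rw [Units.val_mul, Units.val_mul, ← hAdef]
    unfold stdU
    simp only [Matrix.GeneralLinearGroup.val_mkOfDetNeZero]
    ext i j
    fin_cases i <;> fin_cases j <;>
      simp [Matrix.mul_apply, Fin.sum_univ_two]
    · linear_combination e00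
    · linear_combination e10

end

/-- Over a finite field of characteristic p, any two elements of order p of GL₂ are conjugate: there is a single conjugacy class of non-identity unipotent elements. -/
theorem result {F : Type*} [Field F] [Fintype F] (p : ℕ) [Fact p.Prime] [CharP F p] (g h : Matrix.GeneralLinearGroup (Fin 2) F)
    (hg : orderOf g = p) (hh : orderOf h = p) : IsConj g h := by
  obtain ⟨P, hP⟩ := conj_std p g hg
  obtain ⟨Q, hQ⟩ := conj_std p h hh
  rw [isConj_iff]
  refine ⟨Q * P⁻¹, ?_⟩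
  calc Q * P⁻¹ * g * (Q * P⁻¹)⁻¹ = Q * (P⁻¹ * (g * P)) * Q⁻¹ := by group
    _ = Q * (P⁻¹ * (P * stdU F)) * Q⁻¹ := by rw [hP]
    _ = (Q * stdU F) * Q⁻¹ := by group
    _ = (h * Q) * Q⁻¹ := by rw [hQ]
    _ = h := by group

end Cfsg.Agent.S2329
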