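import Mathlib
import Cfsg.Statements.S2367

set_option autoImplicit false
open Cfsg

namespace Cfsg.Agent.S2367

theorem spor_aux (N a : ℕ) (l : List (ℕ × ℕ))
    (hN : N = 2 ^ a * (l.map (fun x => x.1 ^ x.2)).prod)
    (hl : ∀ x ∈ l, x.1.Prime)
    (hchk : ∀ x ∈ l, x.1 ^ 3 < 2 ^ a ∨ ¬ x.1 ^ 3 ∣ N ∨ x.1 ^ 4 ∣ N)
    (hN0 : N ≠ 0)
    (p : ℕ) (hp : p.Prime) (hodd : p ≠ 2) (h3 : N.factorization p = 3) :
    p ^ 3 < 2 ^ N.factorization 2 := by
  have h2a : 2 ^ a ∣ N := ⟨_, hN⟩
  have ha : a ≤ N.factorization 2 := (Nat.prime_two.pow_dvd_iff_le_factorization hN0).mp h2a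
  have hp3 : p ^ 3 ∣ N := (hp.pow_dvd_iff_le_factorization hN0).mpr h3.ge
  have hp4 : ¬ p ^ 4 ∣ N := fun h => by
    have h' := (hp.pow_dvd_iff_le_factorization hN0).mp h
    omega
  have hpN : p ∣ N := dvd_trans (dvd_pow_self p (by norm_num)) hp3
  rw [hN] at hpN
  have hpl : p ∣ (l.map (fun x => x.1 ^ x.2)).prod := by
    rcases (Nat.Prime.dvd_mul hp).mp hpN with h | h
    · exfalso
      exact hodd ((Nat.prime_dvd_prime_iff_eq hp Nat.prime_two).mp (hp.dvd_of_dvd_pow h))
    · exact h
  obtain ⟨y, hy, hpy⟩ := (Prime.dvd_prod_iff hp.prime).mp hpl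
  obtain ⟨x, hx, rfl⟩ := List.mem_map.mp hy
  have hpx : p = x.1 := (Nat.prime_dvd_prime_iff_eq hp (hl x hx)).mp (hp.dvd_of_dvd_pow hpy)
  rcases hchk x hx with h | h | h
  · rw [hpx]; exact lt_of_lt_of_le h (Nat.pow_le_pow_right (by norm_num) ha)
  · exact absurd (by rw [← hpx]; exact hp3) h
  · exact absurd (by rw [hpx]; exact h) hp4

theorem pow3_lt (p : ℕ) (hp : 4 ≤ p) : p ^ 3 < 2 ^ (p + 4) := by
  induction p, hp using Nat.le_induction with
  | base => norm_num
  | succ q hq ih =>
    obtain ⟨r, rfl⟩ : ∃ r, q = r + 4 := ⟨q - 4, by omega⟩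
    have e1 : (r + 4 + 1) ^ 3 + (r ^ 3 + 9 * r ^ 2 + 21 * r + 3) = 2 * (r + 4) ^ 3 := by ring
    have h1 : (r + 4 + 1) ^ 3 ≤ 2 * (r + 4) ^ 3 := by rw [← e1]; exact Nat.le_add_right _ _
    calc (r + 4 + 1) ^ 3 ≤ 2 * (r + 4) ^ 3 := h1
      _ < 2 * 2 ^ (r + 4 + 4) := Nat.mul_lt_mul_of_pos_left ih (by norm_num)
      _ = 2 ^ (r + 4 + 1 + 4) := by ring

theorem legendre_lb (p n : ℕ) [Fact p.Prime] :
    n / p + n / p ^ 2 ≤ padicValNat p n.factorial := by
  have hlog : Nat.log p n < n + 3 := by
    have := Nat.log_le_self p n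
    omega
  rw [padicValNat_factorial hlog]
  have hsub : ({1, 2} : Finset ℕ) ⊆ Finset.Ico 1 (n + 3) := by
    intro i hi
    simp only [Finset.mem_insert, Finset.mem_singleton] at hi
    rw [Finset.mem_Ico]; omega
  calc n / p + n / p ^ 2 = ∑ i ∈ ({1, 2} : Finset ℕ), n / p ^ i := by
        rw [Finset.sum_pair (by norm_num)]; simp
    _ ≤ _ := Finset.sum_le_sum_of_subset hsub

theorem alt_aux (n p : ℕ) (hp : p.Prime) (hodd : p ≠ 2) (h3 : padicValNat p n.factorial = 3) :
    p ^ 3 < 2 ^ (padicValNat 2 n.factorial - 1) := by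
  haveI := Fact.mk hp
  have hp3 : 3 ≤ p := by
    have := hp.two_le
    omega
  have hn : 3 * p ≤ n := by
    by_contra hlt
    push_neg at hlt
    have hlt2 : n < p ^ 2 := by nlinarith
    have hlog : Nat.log p n < 2 := Nat.log_lt_of_lt_pow' (by norm_num) hlt2
    have e := padicValNat_factorial (p := p) hlog
    have hI : Finset.Ico 1 2 = ({1} : Finset ℕ) := by decide
    rw [h3, hI, Finset.sum_singleton, pow_one] at e
    have h' := Nat.div_mul_le_self n p
    rw [← e] at h'
    omega
  have hlb := legendre_lb p n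
  have hp5 : 5 ≤ p := by
    by_contra hlt
    push_neg at hlt
    have hp_eq : p = 3 := by
      interval_cases p
      · rfl
      · exact absurd hp (by norm_num)
    subst hp_eq
    norm_num at hlb
    omega
  have hlb2 := legendre_lb 2 n
  norm_num at hlb2
  have h5 : p + 5 ≤ padicValNat 2 n.factorial := by omega
  calc p ^ 3 < 2 ^ (p + 4) := pow3_lt p (by omega)
    _ ≤ 2 ^ (padicValNat 2 n.factorial - 1) := Nat.pow_le_pow_right (by norm_num) (by omega)

/-- Let G be an alternating group of degree at least 5 or a simple group with the order of one of the 26 sporadic groups, and let p be an odd prime such that p³ is the exact power of p dividing the order of G. Then p³ is less than the 2-part of the order of G. -/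
theorem result {G : Type*} [Group G] [Finite G] (hG : Cfsg.IsAlternating G ∨ Cfsg.IsSporadic G)
    (p : ℕ) (hp : p.Prime) (hodd : p ≠ 2) (h3 : (Nat.card G).factorization p = 3) :
    p ^ 3 < 2 ^ (Nat.card G).factorization 2 := by
  rcases hG with hA | hS
  · obtain ⟨n, hn, ⟨e⟩⟩ := hA
    haveI : Nontrivial (Fin n) := Fin.nontrivial_iff_two_le.mpr (by omega)
    have hcard : 2 * Nat.card G = n.factorial := by
      rw [Nat.card_congr e.toEquiv, two_mul_nat_card_alternatingGroup, Nat.card_perm, Nat.card_fin]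
    have hN0 : Nat.card G ≠ 0 := Nat.card_pos.ne'
    haveI := Fact.mk hp
    haveI := Fact.mk Nat.prime_two
    have e1 : padicValNat p n.factorial = 3 := by
      rw [← hcard, padicValNat.mul (by norm_num) hN0, padicValNat_primes hodd, zero_add,
        ← Nat.factorization_def _ hp]
      exact h3
    have e2 : padicValNat 2 n.factorial = 1 + (Nat.card G).factorization 2 := by
      rw [← hcard, padicValNat.mul (by norm_num) hN0, padicValNat_self,
        Nat.factorization_def _ Nat.prime_two]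
    have h := alt_aux n p hp hodd e1
    rw [e2] at h
    simpa using h
  · unfold Cfsg.IsSporadic at hS
    rcases hS with h | h | h | h | h | h | h | h | h | h | h | h | h | h | h | h | h | h | h | h | h | h | h | h | h | h
    · obtain ⟨_, hc⟩ := h
      rw [hc] at h3 ⊢
      exact spor_aux _ 4 [(3, 2), (5, 1), (11, 1)] (by decide +kernel) (by decide +kernel) (by decide +kernel)
        (by norm_num) p hp hodd h3
    · obtain ⟨_, hc⟩ := h
      rw [hc] at h3 ⊢
      exact spor_aux _ 6 [(3, 3), (5, 1), (11, 1)] (by decide +kernel) (by decide +kernel) (by decide +kernel)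
        (by norm_num) p hp hodd h3
    · obtain ⟨_, hc⟩ := h
      rw [hc] at h3 ⊢
      exact spor_aux _ 7 [(3, 2), (5, 1), (7, 1), (11, 1)] (by decide +kernel) (by decide +kernel) (by decide +kernel)
        (by norm_num) p hp hodd h3
    · obtain ⟨_, hc⟩ := h
      rw [hc] at h3 ⊢
      exact spor_aux _ 7 [(3, 2), (5, 1), (7, 1), (11, 1), (23, 1)] (by decide +kernel) (by decide +kernel) (by decide +kernel)
        (by norm_num) p hp hodd h3
    · obtain ⟨_, hc⟩ := h
      rw [hc] at h3 ⊢
      exact spor_aux _ 10 [(3, 3), (5, 1), (7, 1), (11, 1), (23, 1)] (by decide +kernel) (by decide +kernel) (by decide +kernel)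
        (by norm_num) p hp hodd h3
    · obtain ⟨_, hc⟩ := h
      rw [hc] at h3 ⊢
      exact spor_aux _ 3 [(3, 1), (5, 1), (7, 1), (11, 1), (19, 1)] (by decide +kernel) (by decide +kernel) (by decide +kernel)
        (by norm_num) p hp hodd h3
    · obtain ⟨_, hc⟩ := h
      rw [hc] at h3 ⊢
      exact spor_aux _ 7 [(3, 3), (5, 2), (7, 1)] (by decide +kernel) (by decide +kernel) (by decide +kernel)
        (by norm_num) p hp hodd h3
    · obtain ⟨_, hc⟩ := h
      rw [hc] at h3 ⊢
      exact spor_aux _ 7 [(3, 5), (5, 1), (17, 1), (19, 1)] (by decide +kernel) (by decide +kernel) (by decide +kernel)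
        (by norm_num) p hp hodd h3
    · obtain ⟨_, hc⟩ := h
      rw [hc] at h3 ⊢
      exact spor_aux _ 21 [(3, 3), (5, 1), (7, 1), (11, 3), (23, 1), (29, 1), (31, 1), (37, 1), (43, 1)] (by decide +kernel) (by decide +kernel) (by decide +kernel)
        (by norm_num) p hp hodd h3
    · obtain ⟨_, hc⟩ := h
      rw [hc] at h3 ⊢
      exact spor_aux _ 21 [(3, 9), (5, 4), (7, 2), (11, 1), (13, 1), (23, 1)] (by decide +kernel) (by decide +kernel) (by decide +kernel)
        (by norm_num) p hp hodd h3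
    · obtain ⟨_, hc⟩ := h
      rw [hc] at h3 ⊢
      exact spor_aux _ 18 [(3, 6), (5, 3), (7, 1), (11, 1), (23, 1)] (by decide +kernel) (by decide +kernel) (by decide +kernel)
        (by norm_num) p hp hodd h3
    · obtain ⟨_, hc⟩ := h
      rw [hc] at h3 ⊢
      exact spor_aux _ 10 [(3, 7), (5, 3), (7, 1), (11, 1), (23, 1)] (by decide +kernel) (by decide +kernel) (by decide +kernel)
        (by norm_num) p hp hodd h3
    · obtain ⟨_, hc⟩ := h
      rw [hc] at h3 ⊢
      exact spor_aux _ 17 [(3, 9), (5, 2), (7, 1), (11, 1), (13, 1)] (by decide +kernel) (by decide +kernel) (by decide +kernel)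
        (by norm_num) p hp hodd h3
    · obtain ⟨_, hc⟩ := h
      rw [hc] at h3 ⊢
      exact spor_aux _ 18 [(3, 13), (5, 2), (7, 1), (11, 1), (13, 1), (17, 1), (23, 1)] (by decide +kernel) (by decide +kernel) (by decide +kernel)
        (by norm_num) p hp hodd h3
    · obtain ⟨_, hc⟩ := h
      rw [hc] at h3 ⊢
      exact spor_aux _ 21 [(3, 16), (5, 2), (7, 3), (11, 1), (13, 1), (17, 1), (23, 1), (29, 1)] (by decide +kernel) (by decide +kernel) (by decide +kernel)
        (by norm_num) p hp hodd h3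
    · obtain ⟨_, hc⟩ := h
      rw [hc] at h3 ⊢
      exact spor_aux _ 9 [(3, 2), (5, 3), (7, 1), (11, 1)] (by decide +kernel) (by decide +kernel) (by decide +kernel)
        (by norm_num) p hp hodd h3
    · obtain ⟨_, hc⟩ := h
      rw [hc] at h3 ⊢
      exact spor_aux _ 7 [(3, 6), (5, 3), (7, 1), (11, 1)] (by decide +kernel) (by decide +kernel) (by decide +kernel)
        (by norm_num) p hp hodd h3
    · obtain ⟨_, hc⟩ := h
      rw [hc] at h3 ⊢
      exact spor_aux _ 10 [(3, 3), (5, 2), (7, 3), (17, 1)] (by decide +kernel) (by decide +kernel) (by decide +kernel)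
        (by norm_num) p hp hodd h3
    · obtain ⟨_, hc⟩ := h
      rw [hc] at h3 ⊢
      exact spor_aux _ 14 [(3, 3), (5, 3), (7, 1), (13, 1), (29, 1)] (by decide +kernel) (by decide +kernel) (by decide +kernel)
        (by norm_num) p hp hodd h3
    · obtain ⟨_, hc⟩ := h
      rw [hc] at h3 ⊢
      exact spor_aux _ 13 [(3, 7), (5, 2), (7, 1), (11, 1), (13, 1)] (by decide +kernel) (by decide +kernel) (by decide +kernel)
        (by norm_num) p hp hodd h3
    · obtain ⟨_, hc⟩ := h
      rw [hc] at h3 ⊢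
      exact spor_aux _ 9 [(3, 4), (5, 1), (7, 3), (11, 1), (19, 1), (31, 1)] (by decide +kernel) (by decide +kernel) (by decide +kernel)
        (by norm_num) p hp hodd h3
    · obtain ⟨_, hc⟩ := h
      rw [hc] at h3 ⊢
      exact spor_aux _ 14 [(3, 6), (5, 6), (7, 1), (11, 1), (19, 1)] (by decide +kernel) (by decide +kernel) (by decide +kernel)
        (by norm_num) p hp hodd h3
    · obtain ⟨_, hc⟩ := h
      rw [hc] at h3 ⊢
      exact spor_aux _ 8 [(3, 7), (5, 6), (7, 1), (11, 1), (31, 1), (37, 1), (67, 1)] (by decide +kernel) (by decide +kernel) (by decide +kernel)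
        (by norm_num) p hp hodd h3
    · obtain ⟨_, hc⟩ := h
      rw [hc] at h3 ⊢
      exact spor_aux _ 15 [(3, 10), (5, 3), (7, 2), (13, 1), (19, 1), (31, 1)] (by decide +kernel) (by decide +kernel) (by decide +kernel)
        (by norm_num) p hp hodd h3
    · obtain ⟨_, hc⟩ := h
      rw [hc] at h3 ⊢
      exact spor_aux _ 41 [(3, 13), (5, 6), (7, 2), (11, 1), (13, 1), (17, 1), (19, 1), (23, 1), (31, 1), (47, 1)] (by decide +kernel) (by decide +kernel) (by decide +kernel)
        (by norm_num) p hp hodd h3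
    · obtain ⟨_, hc⟩ := h
      rw [hc] at h3 ⊢
      exact spor_aux _ 46 [(3, 20), (5, 9), (7, 6), (11, 2), (13, 3), (17, 1), (19, 1), (23, 1), (29, 1), (31, 1), (41, 1), (47, 1), (59, 1), (71, 1)] (by decide +kernel) (by decide +kernel) (by decide +kernel)
        (by norm_num) p hp hodd h3

end Cfsg.Agent.S2367
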