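import Cfsg.Statements.S2368
-- import your own Cfsg.Agent.* helpers here
import Mathlib

set_option autoImplicit false
open Cfsg

namespace Cfsg.Agent.S2368


section
variable {F : Type*} [Field F]

/-- The nilpotent shift matrix. -/
def shiftMat (F : Type*) [Field F] (m : ℕ) : Matrix (Fin m) (Fin m) F :=
  fun a b => if (b : ℕ) = a + 1 then 1 else 0

theorem shift_pow (m k : ℕ) (a b : Fin m) :
    (shiftMat F m ^ k) a b = if (b : ℕ) = a + k then 1 else 0 := by
  induction k generalizing b with
  | zero =>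
    rw [pow_zero, Matrix.one_apply, add_zero]
    by_cases h : a = b
    · rw [if_pos h, if_pos (by rw [h])]
    · rw [if_neg h, if_neg (fun h' => h (Fin.ext h'.symm))]
  | succ k ih =>
    rw [pow_succ, Matrix.mul_apply]
    simp only [ih, shiftMat]
    by_cases h : (a : ℕ) + k < m
    · rw [Finset.sum_eq_single (⟨a + k, h⟩ : Fin m)]
      · simp only [if_true, one_mul]
        by_cases hb : (b : ℕ) = a + k + 1
        · rw [if_pos hb, if_pos (by rw [hb]; rfl)]
        · rw [if_neg hb, if_neg (by intro h'; exact hb h')]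
      · intro c _ hc
        rw [if_neg (fun h' => hc (Fin.ext h')), zero_mul]
      · intro h'
        exact absurd (Finset.mem_univ _) h'
    · rw [Finset.sum_eq_zero]
      · rw [if_neg]
        have := b.2
        omega
      · intro c _
        rw [if_neg (by have := c.2; omega), zero_mul]

theorem nilp_pow_card {m : ℕ} (N : Matrix (Fin m) (Fin m) F) (hN : IsNilpotent N) :
    N ^ m = 0 := by
  have h1 := Matrix.isNilpotent_charpoly_sub_pow_of_isNilpotent hN
  have h2 : N.charpoly = Polynomial.X ^ m := by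
    have h0 := h1.eq_zero
    rw [Fintype.card_fin] at h0
    exact sub_eq_zero.mp h0
  have h3 := Matrix.aeval_self_charpoly N
  rw [h2, map_pow, Polynomial.aeval_X] at h3
  exact h3

end

/-- Let F be a finite field of characteristic p and m ≥ 1. Every element of GL(m, F) of p-power order has order less than p·m, and GL(m, F) has an element of p-power order at least m; so the largest order of a p-element of GL(m, F) is the least power of p that is at least m. -/
theorem result {F : Type*} [Field F] [Fintype F] (p : ℕ) [Fact p.Prime] [CharP F p] (m : ℕ) (hm : 1 ≤ m) :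
    (∀ g : Matrix.GeneralLinearGroup (Fin m) F, (∃ j : ℕ, orderOf g = p ^ j) → orderOf g < p * m) ∧
      ∃ g : Matrix.GeneralLinearGroup (Fin m) F, (∃ j : ℕ, orderOf g = p ^ j) ∧ m ≤ orderOf g := by
  classical
  haveI : Nonempty (Fin m) := ⟨⟨0, by omega⟩⟩
  have hp := (Fact.out : p.Prime)
  have hex : ∃ i, m ≤ p ^ i := ⟨m, (Nat.lt_pow_self hp.one_lt).le⟩
  obtain ⟨i, hi, hmin⟩ : ∃ i, m ≤ p ^ i ∧ ∀ k < i, ¬ m ≤ p ^ k :=
    ⟨Nat.find hex, Nat.find_spec hex, fun k hk => Nat.find_min hex hk⟩
  have hi2 : p ^ i < p * m := by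
    rcases Nat.eq_zero_or_pos i with h0 | hpos
    · rw [h0, pow_zero]
      have := hp.two_le
      nlinarith
    · have h1 := hmin (i - 1) (Nat.sub_lt hpos one_pos)
      push Not at h1
      calc p ^ i = p * p ^ (i - 1) := by rw [← pow_succ', Nat.sub_add_cancel hpos]
        _ < p * m := Nat.mul_lt_mul_of_pos_left h1 hp.pos
  constructor
  · rintro g ⟨j, hj⟩
    obtain ⟨A, hAdef⟩ : ∃ A : Matrix (Fin m) (Fin m) F, A = (g : Matrix (Fin m) (Fin m) F) :=
      ⟨_, rfl⟩
    have hA : A ^ p ^ j = 1 := by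
      have h1 := pow_orderOf_eq_one g
      rw [hj] at h1
      have h2 := congrArg (fun u : Matrix.GeneralLinearGroup (Fin m) F =>
        (u : Matrix (Fin m) (Fin m) F)) h1
      rw [hAdef]
      simpa using h2
    have hN : (A - 1) ^ p ^ j = 0 := by
      rw [sub_pow_char_pow_of_commute p j (Commute.one_right A), hA, one_pow, sub_self]
    have hNm : (A - 1) ^ m = 0 := nilp_pow_card _ ⟨p ^ j, hN⟩
    have hNi : (A - 1) ^ p ^ i = 0 := by
      rw [← Nat.sub_add_cancel hi, pow_add, hNm, mul_zero]
    have hAi : A ^ p ^ i = 1 := by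
      have h1 := sub_pow_char_pow_of_commute p i (Commute.one_right A)
      rw [hNi, one_pow] at h1
      exact (sub_eq_zero.mp h1.symm)
    have hgi : g ^ p ^ i = 1 := by
      apply Units.ext
      rw [Units.val_pow_eq_pow_val, ← hAdef, hAi]
      rfl
    have hdvd := orderOf_dvd_of_pow_eq_one hgi
    have hle := Nat.le_of_dvd (pow_pos hp.pos i) hdvd
    omega
  · obtain ⟨J, hJdef⟩ : ∃ J : Matrix (Fin m) (Fin m) F, J = 1 + shiftMat F m := ⟨_, rfl⟩
    have hJpow : ∀ k, J ^ p ^ k = 1 + shiftMat F m ^ p ^ k := by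
      intro k
      rw [hJdef, add_pow_char_pow_of_commute p k (Commute.one_left _), one_pow]
    have hNi : shiftMat F m ^ p ^ i = 0 := by
      ext a b
      rw [shift_pow, Matrix.zero_apply, if_neg]
      have := b.2
      omega
    have hJi : J ^ p ^ i = 1 := by rw [hJpow, hNi, add_zero]
    obtain ⟨g, hg⟩ : ∃ g : Matrix.GeneralLinearGroup (Fin m) F,
        (g : Matrix (Fin m) (Fin m) F) = J :=
      ⟨Units.ofPowEqOne J (p ^ i) hJi (pow_pos hp.pos i).ne', rfl⟩
    have hgi : g ^ p ^ i = 1 := by
      apply Units.ext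
      rw [Units.val_pow_eq_pow_val, hg, hJi]
      rfl
    obtain ⟨j, hji, hj⟩ := (Nat.dvd_prime_pow hp).mp (orderOf_dvd_of_pow_eq_one hgi)
    refine ⟨g, ⟨j, hj⟩, ?_⟩
    rw [hj]
    by_contra hlt
    push Not at hlt
    have h1 : g ^ p ^ j = 1 := by rw [← hj]; exact pow_orderOf_eq_one g
    have h2 : J ^ p ^ j = 1 := by
      have h0 := congrArg (fun u : Matrix.GeneralLinearGroup (Fin m) F =>
        (u : Matrix (Fin m) (Fin m) F)) h1
      simp only [Units.val_pow_eq_pow_val, hg] at h0
      exact h0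
    rw [hJpow] at h2
    have h3 : shiftMat F m ^ p ^ j = 0 := by
      have h0 : (1 : Matrix (Fin m) (Fin m) F) + shiftMat F m ^ p ^ j = 1 + 0 := by
        rw [h2, add_zero]
      exact add_left_cancel h0
    have h4 := congrFun (congrFun h3 ⟨0, by omega⟩) ⟨p ^ j, hlt⟩
    rw [shift_pow] at h4
    simp at h4

end Cfsg.Agent.S2368
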