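import Cfsg.Statements.S2391
-- import your own Cfsg.Agent.* helpers here

set_option autoImplicit false
open Cfsg

namespace Cfsg.Agent.S2391

noncomputable def flagW {F : Type*} [Field F] {n : ℕ}
    (U : Subgroup (Matrix.SpecialLinearGroup (Fin n) F)) : ℕ → Submodule F (Fin n → F)
  | 0 => ⊥
  | (i + 1) => ⨅ u : U, (flagW U i).comap
      (Matrix.mulVecLin ((u : Matrix.SpecialLinearGroup (Fin n) F) : Matrix (Fin n) (Fin n) F)
        - LinearMap.id)

theorem mem_flagW_succ {F : Type*} [Field F] {n : ℕ}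
    (U : Subgroup (Matrix.SpecialLinearGroup (Fin n) F)) (i : ℕ) (v : Fin n → F) :
    v ∈ flagW U (i + 1) ↔ ∀ u ∈ U, (u : Matrix (Fin n) (Fin n) F).mulVec v - v ∈ flagW U i := by
  rw [flagW, Submodule.mem_iInf]
  constructor
  · intro h u hu
    have := h ⟨u, hu⟩
    simpa using this
  · intro h u
    have := h u.1 u.2
    simpa using this

theorem flagW_zero {F : Type*} [Field F] {n : ℕ}
    (U : Subgroup (Matrix.SpecialLinearGroup (Fin n) F)) : flagW U 0 = ⊥ := rfl

theorem flagW_mono {F : Type*} [Field F] {n : ℕ}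
    (U : Subgroup (Matrix.SpecialLinearGroup (Fin n) F)) (i : ℕ) : flagW U i ≤ flagW U (i + 1) := by
  induction i with
  | zero => rw [flagW_zero]; exact bot_le
  | succ i ih =>
    intro v hv
    rw [mem_flagW_succ] at hv ⊢
    exact fun u hu => ih (hv u hu)

theorem flagW_inv {F : Type*} [Field F] {n : ℕ}
    (U : Subgroup (Matrix.SpecialLinearGroup (Fin n) F)) (i : ℕ)
    (u : Matrix.SpecialLinearGroup (Fin n) F) (hu : u ∈ U) (v : Fin n → F) (hv : v ∈ flagW U i) :
    (u : Matrix (Fin n) (Fin n) F).mulVec v ∈ flagW U i := by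
  cases i with
  | zero =>
    rw [flagW_zero, Submodule.mem_bot] at hv ⊢
    rw [hv, Matrix.mulVec_zero]
  | succ i =>
    have h1 := (mem_flagW_succ U i v).mp hv u hu
    have e : (u : Matrix (Fin n) (Fin n) F).mulVec v
        = ((u : Matrix (Fin n) (Fin n) F).mulVec v - v) + v := by abel
    rw [e]
    exact add_mem (flagW_mono U i h1) hv

theorem flagW_norm {F : Type*} [Field F] {n : ℕ}
    (U : Subgroup (Matrix.SpecialLinearGroup (Fin n) F))
    (g : Matrix.SpecialLinearGroup (Fin n) F)
    (hg : g ∈ Subgroup.normalizer (U : Set (Matrix.SpecialLinearGroup (Fin n) F))) (i : ℕ) :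
    ∀ v ∈ flagW U i, (g : Matrix (Fin n) (Fin n) F).mulVec v ∈ flagW U i := by
  induction i with
  | zero =>
    intro v hv
    rw [flagW_zero, Submodule.mem_bot] at hv ⊢
    rw [hv, Matrix.mulVec_zero]
  | succ i ih =>
    intro v hv
    rw [mem_flagW_succ] at hv ⊢
    intro u hu
    have hu' : g⁻¹ * u * g ∈ U := by
      have := (Subgroup.mem_normalizer_iff.mp (inv_mem hg) u).mp hu
      simpa using this
    have h1 := ih _ (hv _ hu')
    have e : g * (g⁻¹ * u * g) = u * g := by group
    have e' : (g : Matrix (Fin n) (Fin n) F) * ((g⁻¹ * u * g : Matrix.SpecialLinearGroup (Fin n) F) :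
        Matrix (Fin n) (Fin n) F) = (u : Matrix (Fin n) (Fin n) F) * (g : Matrix (Fin n) (Fin n) F) := by
      rw [← Matrix.SpecialLinearGroup.coe_mul, e, Matrix.SpecialLinearGroup.coe_mul]
    rw [Matrix.mulVec_sub, Matrix.mulVec_mulVec, e', ← Matrix.mulVec_mulVec] at h1
    exact h1

theorem flagW_lt {F : Type*} [Field F] [Fintype F] (p : ℕ) [Fact p.Prime] [CharP F p] {n : ℕ}
    (U : Subgroup (Matrix.SpecialLinearGroup (Fin n) F)) (hU : IsPGroup p ↥U) (i : ℕ)
    (hi : flagW U i ≠ ⊤) : flagW U i < flagW U (i + 1) := by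
  classical
  refine lt_of_le_of_ne (flagW_mono U i) ?_
  intro heq
  set W := flagW U i with hW
  let act : U → ((Fin n → F) ⧸ W) →ₗ[F] ((Fin n → F) ⧸ W) := fun u => W.mapQ W
    (Matrix.mulVecLin ((u : Matrix.SpecialLinearGroup (Fin n) F) : Matrix (Fin n) (Fin n) F))
    (fun v hv => flagW_inv U i u.1 u.2 v hv)
  have hact : ∀ (u : U) (v : Fin n → F), act u (Submodule.Quotient.mk v)
      = Submodule.Quotient.mk
        (((u : Matrix.SpecialLinearGroup (Fin n) F) : Matrix (Fin n) (Fin n) F).mulVec v) :=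
    fun u v => rfl
  letI : MulAction U ((Fin n → F) ⧸ W) :=
    { smul := fun u x => act u x
      one_smul := by
        intro x
        induction x using Submodule.Quotient.induction_on with
        | _ v =>
          change act 1 (Submodule.Quotient.mk v) = _
          rw [hact]
          simp
      mul_smul := by
        intro a b x
        induction x using Submodule.Quotient.induction_on with
        | _ v =>
          change act (a * b) (Submodule.Quotient.mk v)
            = act a (act b (Submodule.Quotient.mk v))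
          rw [hact, hact, hact]
          simp [Matrix.mulVec_mulVec] }
  have hsm : ∀ (u : U) (v : Fin n → F), u • (Submodule.Quotient.mk v : (Fin n → F) ⧸ W)
      = Submodule.Quotient.mk
        (((u : Matrix.SpecialLinearGroup (Fin n) F) : Matrix (Fin n) (Fin n) F).mulVec v) :=
    fun u v => hact u v
  haveI : Finite ((Fin n → F) ⧸ W) := Finite.of_surjective _ (Submodule.Quotient.mk_surjective W)
  have hp : p ∣ Nat.card ((Fin n → F) ⧸ W) := by
    obtain ⟨v, -, hv⟩ := SetLike.exists_of_lt (lt_top_iff_ne_top.mpr hi)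
    have hx : (Submodule.Quotient.mk v : (Fin n → F) ⧸ W) ≠ 0 := by
      rw [Ne, Submodule.Quotient.mk_eq_zero]
      exact hv
    have hpx : p • (Submodule.Quotient.mk v : (Fin n → F) ⧸ W) = 0 := by
      rw [← Submodule.Quotient.mk_smul, Submodule.Quotient.mk_eq_zero]
      have : p • v = 0 := by
        rw [← Nat.cast_smul_eq_nsmul F, CharP.cast_eq_zero, zero_smul]
      rw [this]
      exact W.zero_mem
    have h1 : addOrderOf (Submodule.Quotient.mk v : (Fin n → F) ⧸ W) ∣ p :=
      addOrderOf_dvd_of_nsmul_eq_zero hpx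
    have h2 : addOrderOf (Submodule.Quotient.mk v : (Fin n → F) ⧸ W) = p := by
      rcases (Nat.dvd_prime (Fact.out : p.Prime)).mp h1 with h | h
      · exact absurd (AddMonoid.addOrderOf_eq_one_iff.mp h) hx
      · exact h
    rw [← h2]
    exact addOrderOf_dvd_natCard _
  have h0 : (0 : (Fin n → F) ⧸ W) ∈ MulAction.fixedPoints U ((Fin n → F) ⧸ W) := by
    intro u
    have := hsm u 0
    rw [Matrix.mulVec_zero] at this
    exact this
  obtain ⟨b, hb, hb0⟩ := hU.exists_fixed_point_of_prime_dvd_card_of_fixed_point _ hp h0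
  induction b using Submodule.Quotient.induction_on with
  | _ v =>
    have hv : v ∉ W := by
      intro h
      exact hb0 ((Submodule.Quotient.mk_eq_zero W).mpr h).symm
    apply hv
    rw [heq, mem_flagW_succ]
    intro u hu
    have := hb ⟨u, hu⟩
    rw [hsm, Submodule.Quotient.eq] at this
    exact this

/-- The Borel–Tits property of `SL_n(q)` in flag form: for a field `F` of characteristic `p` with finitely many elements and a non-trivial `p`-subgroup `U` of `SL_n(F)`, there is a flag `0 = V₀ < V₁ < ⋯ < V_{k+1} = F^n` with at least one proper non-zero member such that every element of the normaliser of `U` maps each `V_i` onto itself and every element of `U` acts trivially on each quotient `V_{i+1}/V_i` (so the normaliser lies in the parabolic subgroup of the flag and `U` in its unipotent radical). -/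
theorem result {F : Type*} [Field F] [Fintype F] (p : ℕ) [Fact p.Prime] [CharP F p] (n : ℕ)
    (U : Subgroup (Matrix.SpecialLinearGroup (Fin n) F)) (hU : IsPGroup p ↥U) (hne : U ≠ ⊥) :
    ∃ (k : ℕ) (V : Fin (k + 2) → Submodule F (Fin n → F)), 1 ≤ k ∧ StrictMono V ∧ V 0 = ⊥ ∧ V (Fin.last (k + 1)) = ⊤ ∧
      (∀ g ∈ Subgroup.normalizer (U : Set (Matrix.SpecialLinearGroup (Fin n) F)), ∀ i, (V i).map (Matrix.mulVecLin (g : Matrix (Fin n) (Fin n) F)) = V i) ∧
      (∀ u ∈ U, ∀ i : Fin (k + 1), ∀ v ∈ V i.succ, (u : Matrix (Fin n) (Fin n) F).mulVec v - v ∈ V (Fin.castSucc i)) := by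
  classical
  have hlt := Cfsg.Agent.S2391.flagW_lt p U hU
  have hW0 : Cfsg.Agent.S2391.flagW U 0 = ⊥ := rfl
  -- W 1 ≠ ⊤
  have hW1 : Cfsg.Agent.S2391.flagW U 1 ≠ ⊤ := by
    intro h
    apply hne
    rw [Subgroup.eq_bot_iff_forall]
    intro u hu
    apply Subtype.ext
    rw [Matrix.SpecialLinearGroup.coe_one]
    ext a b
    have hv : Pi.single b (1 : F) ∈ Cfsg.Agent.S2391.flagW U 1 := by rw [h]; trivial
    rw [Cfsg.Agent.S2391.mem_flagW_succ] at hv
    have h2 := hv u hu
    rw [hW0, Submodule.mem_bot, sub_eq_zero] at h2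
    have h3 := congrFun h2 a
    rw [Matrix.mulVec_single_one] at h3
    rw [Matrix.one_apply]
    simp only [Matrix.col_apply] at h3
    rw [h3, Pi.single_apply]
  -- existence of m with W m = ⊤
  have hfin : ∀ i, Cfsg.Agent.S2391.flagW U i ≠ ⊤ →
      i + 1 ≤ Module.finrank F (Cfsg.Agent.S2391.flagW U (i + 1)) := by
    intro i
    induction i with
    | zero =>
      intro h
      have := Submodule.finrank_lt_finrank_of_lt (hlt 0 h)
      omega
    | succ i ih =>
      intro h
      have h' : Cfsg.Agent.S2391.flagW U i ≠ ⊤ := by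
        intro h2
        apply h
        exact top_le_iff.mp (h2 ▸ Cfsg.Agent.S2391.flagW_mono U i)
      have := Submodule.finrank_lt_finrank_of_lt (hlt (i + 1) h)
      have := ih h'
      omega
  have hex : ∃ m, Cfsg.Agent.S2391.flagW U m = ⊤ := by
    by_contra hc
    push Not at hc
    have h1 := hfin n (hc n)
    have h2 := Submodule.finrank_le (Cfsg.Agent.S2391.flagW U (n + 1))
    rw [Module.finrank_fintype_fun_eq_card, Fintype.card_fin] at h2
    omega
  let m := Nat.find hex
  have hm : Cfsg.Agent.S2391.flagW U m = ⊤ := Nat.find_spec hex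
  have hmin : ∀ j, j < m → Cfsg.Agent.S2391.flagW U j ≠ ⊤ := fun j hj => Nat.find_min hex hj
  have hm2 : 2 ≤ m := by
    by_contra hc
    push Not at hc
    have : m = 0 ∨ m = 1 := by omega
    rcases this with h | h
    · rw [h] at hm
      apply hW1
      exact top_le_iff.mp (hm ▸ Cfsg.Agent.S2391.flagW_mono U 0)
    · rw [h] at hm
      exact hW1 hm
  obtain ⟨k, hk⟩ : ∃ k, m = k + 2 := ⟨m - 2, by omega⟩
  refine ⟨k + 1, fun i => Cfsg.Agent.S2391.flagW U i, by omega, ?_, rfl, ?_, ?_, ?_⟩
  · rw [Fin.strictMono_iff_lt_succ]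
    intro i
    have := hlt i (hmin i (by have := i.2; omega))
    simpa using this
  · simp only [Fin.val_last]
    rw [show k + 1 + 1 = m by omega]
    exact hm
  · intro g hg i
    apply le_antisymm
    · rintro _ ⟨v, hv, rfl⟩
      exact Cfsg.Agent.S2391.flagW_norm U g hg i v hv
    · intro v hv
      refine ⟨(g⁻¹ : Matrix.SpecialLinearGroup (Fin n) F).1.mulVec v,
        Cfsg.Agent.S2391.flagW_norm U g⁻¹ (inv_mem hg) i v hv, ?_⟩
      rw [Matrix.mulVecLin_apply, Matrix.mulVec_mulVec]
      have e : g * g⁻¹ = 1 := mul_inv_cancel g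
      have e' := congrArg (fun x : Matrix.SpecialLinearGroup (Fin n) F =>
        (x : Matrix (Fin n) (Fin n) F)) e
      simp only [Matrix.SpecialLinearGroup.coe_mul, Matrix.SpecialLinearGroup.coe_one] at e'
      rw [e', Matrix.one_mulVec]
  · intro u hu i v hv
    have hv' : v ∈ Cfsg.Agent.S2391.flagW U ((i : ℕ) + 1) := by simpa using hv
    have := (Cfsg.Agent.S2391.mem_flagW_succ U i v).mp hv' u hu
    simpa using this

end Cfsg.Agent.S2391
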