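import Mathlib
import Cfsg.Statements.S2532

set_option autoImplicit false
open Cfsg

namespace Cfsg.Agent.S2532

open MulAction

theorem sign_via {α : Type*} [Fintype α] [DecidableEq α] (n : ℕ) (ι : α ↪ Fin n)
    (σ : Equiv.Perm α) :
    Equiv.Perm.sign (Equiv.Perm.viaEmbeddingHom ι σ) = Equiv.Perm.sign σ := by
  classical
  rw [Equiv.Perm.viaEmbeddingHom_apply, Equiv.Perm.viaEmbedding]
  exact @Equiv.Perm.sign_extendDomain _ _ _ _ _ _ σ _ (fun a => Classical.propDecidable _) _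

section
variable {m : ℕ} (H : Subgroup ↥(alternatingGroup (Fin m)))

/-- the point map -/
def iota (K₀ : Subgroup ↥H) {r : ℕ} (x : Fin r → Fin m)
    (hx : ∀ i, stabilizer ↥H (x i) = K₀) : Fin r × (↥H ⧸ K₀) → Fin m :=
  fun y => Quotient.liftOn' y.2 (fun h : ↥H => h • x y.1) (by
    intro a b hab
    rw [QuotientGroup.leftRel_apply] at hab
    have h1 : (a⁻¹ * b) • x y.1 = x y.1 := by
      have h2 : a⁻¹ * b ∈ stabilizer ↥H (x y.1) := by rw [hx]; exact hab
      exact h2
    show a • x y.1 = b • x y.1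
    calc a • x y.1 = a • ((a⁻¹ * b) • x y.1) := by rw [h1]
      _ = b • x y.1 := by rw [← mul_smul, mul_inv_cancel_left])

theorem iota_smul (K₀ : Subgroup ↥H) {r : ℕ} (x : Fin r → Fin m)
    (hx : ∀ i, stabilizer ↥H (x i) = K₀) (g : ↥H) (y : Fin r × (↥H ⧸ K₀)) :
    g • iota H K₀ x hx y = iota H K₀ x hx (y.1, g • y.2) := by
  obtain ⟨i, q⟩ := y
  induction q using Quotient.inductionOn' with
  | _ h =>
    show g • (h • x i) = (g * h) • x i
    rw [mul_smul]

theorem iota_injective (K₀ : Subgroup ↥H) {r : ℕ} (x : Fin r → Fin m)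
    (hx : ∀ i, stabilizer ↥H (x i) = K₀)
    (hdis : ∀ i j, orbitRel ↥H (Fin m) (x i) (x j) → i = j) :
    Function.Injective (iota H K₀ x hx) := by
  rintro ⟨i, q⟩ ⟨j, q'⟩ h
  induction q using Quotient.inductionOn' with
  | _ a =>
    induction q' using Quotient.inductionOn' with
    | _ b =>
      have h' : a • x i = b • x j := h
      have hij : i = j := by
        apply hdis
        rw [orbitRel_apply]
        refine ⟨a⁻¹ * b, ?_⟩
        show (a⁻¹ * b) • x j = x i
        rw [mul_smul, ← h', inv_smul_smul]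
      subst hij
      refine Prod.ext rfl ?_
      apply Quotient.sound'
      rw [QuotientGroup.leftRel_apply, ← hx i, mem_stabilizer_iff, mul_smul, ← h', inv_smul_smul]

theorem exists_points (r : ℕ) (hm : r * Nat.card H * 2 ^ Nat.card H + 1 ≤ m) :
    ∃ (K₀ : Subgroup ↥H) (x : Fin r → Fin m), (∀ i, stabilizer ↥H (x i) = K₀) ∧
      ∀ i j, orbitRel ↥H (Fin m) (x i) (x j) → i = j := by
  classical
  haveI : Fintype (orbitRel.Quotient ↥H (Fin m)) := Fintype.ofFinite _
  haveI : Fintype ↥H := Fintype.ofFinite _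
  -- m ≤ card Q * n
  have h1 : m ≤ Fintype.card (orbitRel.Quotient ↥H (Fin m)) * Nat.card H := by
    have hex : ∀ z : Fin m, ∃ h : ↥H,
        h • (Quotient.mk'' z : orbitRel.Quotient ↥H (Fin m)).out = z := by
      intro z
      have h2 : orbitRel ↥H (Fin m) (Quotient.mk'' z : orbitRel.Quotient ↥H (Fin m)).out z :=
        Quotient.exact' (Quotient.out_eq' (Quotient.mk'' z : orbitRel.Quotient ↥H (Fin m)))
      rw [orbitRel_apply] at h2
      obtain ⟨g, hg⟩ := h2
      have hg' : g • z = (Quotient.mk'' z : orbitRel.Quotient ↥H (Fin m)).out := hg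
      exact ⟨g⁻¹, by rw [← hg', inv_smul_smul]⟩
    choose hh hhz using hex
    have hinj : Function.Injective (fun z : Fin m =>
        ((Quotient.mk'' z : orbitRel.Quotient ↥H (Fin m)), hh z)) := by
      intro z z' e
      simp only [Prod.mk.injEq] at e
      rw [← hhz z, ← hhz z', e.1, e.2]
    have h3 := Fintype.card_le_of_injective _ hinj
    rw [Fintype.card_fin, Fintype.card_prod, ← Nat.card_eq_fintype_card (α := ↥H)] at h3
    exact h3
  -- pigeonhole
  have h2 : Fintype.card (Set ↥H) * r < Fintype.card (orbitRel.Quotient ↥H (Fin m)) := by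
    rw [Fintype.card_set, ← Nat.card_eq_fintype_card (α := ↥H)]
    have hn : 0 < Nat.card H := Nat.card_pos
    by_contra hcon
    push_neg at hcon
    have h3 : Fintype.card (orbitRel.Quotient ↥H (Fin m)) * Nat.card H ≤
        2 ^ Nat.card H * r * Nat.card H := Nat.mul_le_mul_right _ hcon
    have h4 : 2 ^ Nat.card H * r * Nat.card H = r * Nat.card H * 2 ^ Nat.card H := by ring
    omega
  obtain ⟨Ks, hKs⟩ := Fintype.exists_lt_card_fiber_of_mul_lt_card
    (fun q : orbitRel.Quotient ↥H (Fin m) => (stabilizer ↥H q.out : Set ↥H)) h2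
  have hne : (Finset.univ.filter (fun q : orbitRel.Quotient ↥H (Fin m) =>
      (stabilizer ↥H q.out : Set ↥H) = Ks)).Nonempty := Finset.card_pos.1 (by omega)
  obtain ⟨q₀, hq₀⟩ := hne
  rw [Finset.mem_filter] at hq₀
  obtain ⟨F', hF'sub, hF'card⟩ := Finset.exists_subset_card_eq (by omega : r ≤
    (Finset.univ.filter (fun q : orbitRel.Quotient ↥H (Fin m) =>
      (stabilizer ↥H q.out : Set ↥H) = Ks)).card)
  have e := (Finset.equivFinOfCardEq hF'card).symm
  refine ⟨stabilizer ↥H q₀.out, fun i => (e i).1.out, ?_, ?_⟩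
  · intro i
    apply SetLike.coe_injective
    have h3 := (Finset.mem_filter.1 (hF'sub (e i).2)).2
    rw [h3, hq₀.2]
  · intro i j hij
    have h3 : (Quotient.mk'' (e i).1.out : orbitRel.Quotient ↥H (Fin m)) =
        Quotient.mk'' (e j).1.out := Quotient.sound' hij
    rw [Quotient.out_eq', Quotient.out_eq'] at h3
    exact e.injective (Subtype.ext h3)

theorem main (r : ℕ) (K₀ : Subgroup ↥H) (x : Fin r → Fin m)
    (hx : ∀ i, stabilizer ↥H (x i) = K₀)
    (hdis : ∀ i j, orbitRel ↥H (Fin m) (x i) (x j) → i = j) :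
    ∃ K : Subgroup ↥(alternatingGroup (Fin m)),
      Nonempty (↥K ≃* ↥(alternatingGroup (Fin r))) ∧
      K ≤ Subgroup.centralizer (H : Set ↥(alternatingGroup (Fin m))) := by
  classical
  haveI : Fintype (↥H ⧸ K₀) := Fintype.ofFinite _
  let ι : Fin r × (↥H ⧸ K₀) ↪ Fin m := ⟨iota H K₀ x hx, iota_injective H K₀ x hx hdis⟩
  let τ : Equiv.Perm (Fin r) →* Equiv.Perm (Fin r × (↥H ⧸ K₀)) :=
    { toFun := fun σ => Equiv.prodCongrLeft (fun _ => σ)
      map_one' := by ext ⟨i, q⟩ <;> rfl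
      map_mul' := fun σ σ' => by ext ⟨i, q⟩ <;> rfl }
  let ρ : Equiv.Perm (Fin r) →* Equiv.Perm (Fin m) := (Equiv.Perm.viaEmbeddingHom ι).comp τ
  have hτinj : Function.Injective τ := by
    intro σ σ' h
    ext i
    have h1 := congrArg (fun e : Equiv.Perm (Fin r × (↥H ⧸ K₀)) =>
      (e (i, ((1 : ↥H) : ↥H ⧸ K₀))).1) h
    exact congrArg Fin.val h1
  have hρinj : Function.Injective ρ := (Equiv.Perm.viaEmbeddingHom_injective ι).comp hτinj
  have hsign : ∀ σ : Equiv.Perm (Fin r), Equiv.Perm.sign σ = 1 →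
      Equiv.Perm.sign (ρ σ) = 1 := by
    intro σ hσ
    show Equiv.Perm.sign (Equiv.Perm.viaEmbeddingHom ι (τ σ)) = 1
    rw [sign_via]
    show Equiv.Perm.sign (Equiv.prodCongrLeft (fun _ : ↥H ⧸ K₀ => σ)) = 1
    rw [Equiv.Perm.sign_prodCongrLeft]
    simp [hσ]
  let ψ : ↥(alternatingGroup (Fin r)) →* ↥(alternatingGroup (Fin m)) :=
    (ρ.comp (alternatingGroup (Fin r)).subtype).codRestrict (alternatingGroup (Fin m))
      (fun a => by
        rw [Equiv.Perm.mem_alternatingGroup]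
        exact hsign a.1 (Equiv.Perm.mem_alternatingGroup.1 a.2))
  have hψinj : Function.Injective ψ := by
    intro a b hab
    have h1 : ρ a.1 = ρ b.1 := congrArg Subtype.val hab
    exact Subtype.ext (hρinj h1)
  refine ⟨ψ.range, ⟨(MonoidHom.ofInjective hψinj).symm⟩, ?_⟩
  rintro _ ⟨a, rfl⟩
  rw [Subgroup.mem_centralizer_iff]
  intro h hh
  apply Subtype.ext
  apply Equiv.ext
  intro z
  show h.1 (ρ a.1 z) = ρ a.1 (h.1 z)
  have hsm : ∀ w : Fin m, h.1 w = (⟨h, hh⟩ : ↥H) • w := fun w => rfl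
  by_cases hz : z ∈ Set.range ι
  · obtain ⟨y, rfl⟩ := hz
    have e1 : ρ a.1 (ι y) = ι (τ a.1 y) := Equiv.Perm.viaEmbedding_apply _ _ _
    have e2 : (⟨h, hh⟩ : ↥H) • ι y = ι (y.1, (⟨h, hh⟩ : ↥H) • y.2) :=
      iota_smul H K₀ x hx _ y
    have e3 : (⟨h, hh⟩ : ↥H) • ι (τ a.1 y) =
        ι ((τ a.1 y).1, (⟨h, hh⟩ : ↥H) • (τ a.1 y).2) := iota_smul H K₀ x hx _ _
    have e4 : ρ a.1 (ι (y.1, (⟨h, hh⟩ : ↥H) • y.2)) =
        ι (τ a.1 (y.1, (⟨h, hh⟩ : ↥H) • y.2)) := Equiv.Perm.viaEmbedding_apply _ _ _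
    rw [e1, hsm, hsm, e2, e3, e4]
    rfl
  · have e1 : ρ a.1 z = z := Equiv.Perm.viaEmbedding_apply_of_notMem _ _ _ hz
    have hz' : h.1 z ∉ Set.range ι := by
      rintro ⟨y, hy⟩
      apply hz
      refine ⟨(y.1, (⟨h, hh⟩ : ↥H)⁻¹ • y.2), ?_⟩
      have e5 := iota_smul H K₀ x hx (⟨h, hh⟩ : ↥H)⁻¹ y
      have e6 : ι y = (⟨h, hh⟩ : ↥H) • z := hy
      show iota H K₀ x hx (y.1, (⟨h, hh⟩ : ↥H)⁻¹ • y.2) = z
      rw [← e5]
      show (⟨h, hh⟩ : ↥H)⁻¹ • ι y = z
      rw [e6, inv_smul_smul]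
    have e2 : ρ a.1 (h.1 z) = h.1 z := Equiv.Perm.viaEmbedding_apply_of_notMem _ _ _ hz'
    rw [e1, e2]

end

/-- There is a function `f` of two natural-number arguments such that, whenever `m ≥ f(n, r)`, every subgroup of order `n` of the alternating group of degree `m` centralizes some subgroup of that alternating group isomorphic to the alternating group of degree `r`. -/
theorem result :
    ∃ f : ℕ → ℕ → ℕ, ∀ (m r : ℕ) (H : Subgroup ↥(alternatingGroup (Fin m))), f (Nat.card H) r ≤ m →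
      ∃ K : Subgroup ↥(alternatingGroup (Fin m)), Nonempty (↥K ≃* ↥(alternatingGroup (Fin r))) ∧
        K ≤ Subgroup.centralizer (H : Set ↥(alternatingGroup (Fin m))) := by
  refine ⟨fun n r => r * n * 2 ^ n + 1, ?_⟩
  intro m r H hm
  obtain ⟨K₀, x, hx, hdis⟩ := exists_points H r hm
  exact main H r K₀ x hx hdis

end Cfsg.Agent.S2532
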