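import Mathlib
import Cfsg.Statements.S2540
import Cfsg.Agent.Lib.Helper1.SLGen

set_option autoImplicit false
open Cfsg

namespace Cfsg.Agent.S2540

open Matrix Cfsg.Agent.Lib.Helper1
open scoped commutatorElement

variable {F : Type*} [Field F]

theorem mat_eq (M N : Matrix (Fin 2) (Fin 2) F) (h00 : M 0 0 = N 0 0) (h01 : M 0 1 = N 0 1)
    (h10 : M 1 0 = N 1 0) (h11 : M 1 1 = N 1 1) : M = N := by
  ext i j
  fin_cases i <;> fin_cases j <;> assumption

theorem entries (M N : Matrix (Fin 2) (Fin 2) F) :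
    M * N = !![M 0 0 * N 0 0 + M 0 1 * N 1 0, M 0 0 * N 0 1 + M 0 1 * N 1 1;
      M 1 0 * N 0 0 + M 1 1 * N 1 0, M 1 0 * N 0 1 + M 1 1 * N 1 1] := by
  ext i j
  fin_cases i <;> fin_cases j <;> simp [Matrix.mul_apply, Fin.sum_univ_two]

theorem exists_sq_ne_one [Fintype F] (h4 : 4 ≤ Fintype.card F) : ∃ a : F, a ≠ 0 ∧ a * a ≠ 1 := by
  classical
  by_contra hcon
  push Not at hcon
  have hsub : (Finset.univ : Finset F) ⊆ {0, 1, -1} := by
    intro a _
    by_cases ha : a = 0
    · simp [ha]
    · have h1 := hcon a ha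
      have : (a - 1) * (a + 1) = 0 := by linear_combination h1
      rcases mul_eq_zero.1 this with h | h
      · have : a = 1 := by linear_combination h
        simp [this]
      · have : a = -1 := by linear_combination h
        simp [this]
  have h1 := Finset.card_le_card hsub
  have h2 : ({0, 1, -1} : Finset F).card ≤ 3 := Finset.card_le_three
  rw [Finset.card_univ] at h1
  omega

theorem tv_cases (i j : Fin 2) (hij : i ≠ j) (b : F) :
    ((Matrix.SpecialLinearGroup.transvection hij b : Matrix.SpecialLinearGroup (Fin 2) F) :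
      Matrix (Fin 2) (Fin 2) F) = !![1, b; 0, 1] ∨
    ((Matrix.SpecialLinearGroup.transvection hij b : Matrix.SpecialLinearGroup (Fin 2) F) :
      Matrix (Fin 2) (Fin 2) F) = !![1, 0; b, 1] := by
  have h : ((Matrix.SpecialLinearGroup.transvection hij b : Matrix.SpecialLinearGroup (Fin 2) F) :
      Matrix (Fin 2) (Fin 2) F) = Matrix.transvection i j b := rfl
  rw [h]
  fin_cases i <;> fin_cases j
  · exact absurd rfl hij
  · left
    apply mat_eq <;> simp [Matrix.transvection]
  · right
    apply mat_eq <;> simp [Matrix.transvection]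
  · exact absurd rfl hij

theorem sl2_perfect [Fintype F] (h4 : 4 ≤ Fintype.card F) :
    commutator (Matrix.SpecialLinearGroup (Fin 2) F) = ⊤ := by
  obtain ⟨a, ha0, ha1⟩ := exists_sq_ne_one h4
  have ha2 : a * a - 1 ≠ 0 := fun h => ha1 (by linear_combination h)
  rw [eq_top_iff, ← closure_transvections, Subgroup.closure_le]
  rintro g ⟨i, j, hij, b, rfl⟩
  have key : ∀ (d t : Matrix.SpecialLinearGroup (Fin 2) F) (T : Matrix.SpecialLinearGroup (Fin 2) F),
      d * t = T * t * d → T ∈ commutator (Matrix.SpecialLinearGroup (Fin 2) F) := by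
    intro d t T h
    have : T = ⁅d, t⁆ := by
      rw [commutatorElement_def, h]; group
    rw [this]
    exact Subgroup.commutator_mem_commutator (Subgroup.mem_top _) (Subgroup.mem_top _)
  have hdet : (!![a, 0; 0, a⁻¹] : Matrix (Fin 2) (Fin 2) F).det = 1 := by
    rw [Matrix.det_fin_two_of]; field_simp; ring
  have hdet' : (!![a⁻¹, 0; 0, a] : Matrix (Fin 2) (Fin 2) F).det = 1 := by
    rw [Matrix.det_fin_two_of]; field_simp; ring
  obtain ⟨c, hc⟩ : ∃ c : F, a * a * c = b + c := by
    obtain ⟨D, hD⟩ : ∃ D, D = a * a - 1 := ⟨_, rfl⟩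
    have hD0 : D ≠ 0 := hD ▸ ha2
    refine ⟨b / D, ?_⟩
    have : a * a = D + 1 := by rw [hD]; ring
    rw [this]
    field_simp
  rcases tv_cases i j hij b with hT | hT
  · have hdt : (!![1, c; 0, 1] : Matrix (Fin 2) (Fin 2) F).det = 1 := by
      rw [Matrix.det_fin_two_of]; ring
    obtain ⟨d, hd⟩ : ∃ d : Matrix.SpecialLinearGroup (Fin 2) F,
        (d : Matrix (Fin 2) (Fin 2) F) = !![a, 0; 0, a⁻¹] := ⟨⟨_, hdet⟩, rfl⟩
    obtain ⟨t, ht⟩ : ∃ t : Matrix.SpecialLinearGroup (Fin 2) F,
        (t : Matrix (Fin 2) (Fin 2) F) = !![1, c; 0, 1] := ⟨⟨_, hdt⟩, rfl⟩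
    apply key d t
    apply Subtype.ext
    rw [Matrix.SpecialLinearGroup.coe_mul, Matrix.SpecialLinearGroup.coe_mul,
      Matrix.SpecialLinearGroup.coe_mul, hd, ht, hT, entries, entries, entries]
    apply mat_eq <;> simp <;> (field_simp; linear_combination hc)
  · have hdt : (!![1, 0; c, 1] : Matrix (Fin 2) (Fin 2) F).det = 1 := by
      rw [Matrix.det_fin_two_of]; ring
    obtain ⟨d, hd⟩ : ∃ d : Matrix.SpecialLinearGroup (Fin 2) F,
        (d : Matrix (Fin 2) (Fin 2) F) = !![a⁻¹, 0; 0, a] := ⟨⟨_, hdet'⟩, rfl⟩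
    obtain ⟨t, ht⟩ : ∃ t : Matrix.SpecialLinearGroup (Fin 2) F,
        (t : Matrix (Fin 2) (Fin 2) F) = !![1, 0; c, 1] := ⟨⟨_, hdt⟩, rfl⟩
    apply key d t
    apply Subtype.ext
    rw [Matrix.SpecialLinearGroup.coe_mul, Matrix.SpecialLinearGroup.coe_mul,
      Matrix.SpecialLinearGroup.coe_mul, hd, ht, hT, entries, entries, entries]
    apply mat_eq <;> simp <;> (field_simp; linear_combination hc)

theorem psl2_simple [Fintype F] (h4 : 4 ≤ Fintype.card F) :
    IsSimpleGroup (Matrix.ProjectiveSpecialLinearGroup (Fin 2) F) := by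
  have hperf : commutator (Matrix.ProjectiveSpecialLinearGroup (Fin 2) F) = ⊤ := by
    have : Group.IsPerfect (Matrix.SpecialLinearGroup (Fin 2) F) := ⟨sl2_perfect h4⟩
    have : Group.IsPerfect (Matrix.ProjectiveSpecialLinearGroup (Fin 2) F) := inferInstance
    exact this.commutator_eq_top
  exact MulAction.IwasawaStructure.isSimpleGroup hperf pslIwasawa inferInstance

theorem comm_central_left {G : Type*} [Group G] (a z y : G) (hz : ∀ g : G, g * z = z * g) :
    ⁅a * z, y⁆ = ⁅a, y⁆ := by
  rw [commutatorElement_def, commutatorElement_def, mul_assoc a z y, ← hz y]; group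

theorem comm_central_right {G : Type*} [Group G] (a b w : G) (hw : ∀ g : G, g * w = w * g) :
    ⁅a, b * w⁆ = ⁅a, b⁆ := by
  rw [commutatorElement_def, commutatorElement_def, mul_assoc a (b * w) a⁻¹, mul_assoc b w a⁻¹,
    ← hw a⁻¹]; group

theorem normal_sl {n : ℕ} (hs : IsSimpleGroup (Matrix.ProjectiveSpecialLinearGroup (Fin n) F))
    (hp : commutator (Matrix.SpecialLinearGroup (Fin n) F) = ⊤)
    (N : Subgroup (Matrix.SpecialLinearGroup (Fin n) F)) (hN : N.Normal) :
    N ≤ Subgroup.center (Matrix.SpecialLinearGroup (Fin n) F) ∨ N = ⊤ := by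
  have hmap : (N.map (QuotientGroup.mk'
      (Subgroup.center (Matrix.SpecialLinearGroup (Fin n) F)))).Normal :=
    Subgroup.Normal.map hN _ (QuotientGroup.mk'_surjective _)
  rcases hs.eq_bot_or_eq_top_of_normal _ hmap with h | h
  · left
    intro x hx
    have : QuotientGroup.mk' (Subgroup.center (Matrix.SpecialLinearGroup (Fin n) F)) x ∈
        N.map (QuotientGroup.mk' (Subgroup.center (Matrix.SpecialLinearGroup (Fin n) F))) :=
      Subgroup.mem_map_of_mem _ hx
    rw [h, Subgroup.mem_bot] at this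
    exact (QuotientGroup.eq_one_iff x).1 this
  · right
    rw [eq_top_iff, ← hp, commutator_def, Subgroup.commutator_le]
    intro x _ y _
    have hrep : ∀ x : Matrix.SpecialLinearGroup (Fin n) F, ∃ a ∈ N, ∃ z,
        (∀ g : Matrix.SpecialLinearGroup (Fin n) F, g * z = z * g) ∧ x = a * z := by
      intro x
      have hx : QuotientGroup.mk' (Subgroup.center (Matrix.SpecialLinearGroup (Fin n) F)) x ∈
          N.map (QuotientGroup.mk' (Subgroup.center (Matrix.SpecialLinearGroup (Fin n) F))) := by
        rw [h]; trivial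
      obtain ⟨a, ha, hax⟩ := Subgroup.mem_map.1 hx
      have hz : a⁻¹ * x ∈ Subgroup.center (Matrix.SpecialLinearGroup (Fin n) F) := by
        rw [← QuotientGroup.eq]; exact hax
      exact ⟨a, ha, a⁻¹ * x, fun g => Subgroup.mem_center_iff.1 hz g, by group⟩
    obtain ⟨a, ha, z, hz, rfl⟩ := hrep x
    obtain ⟨b, hb, w, hw, rfl⟩ := hrep y
    rw [comm_central_left a z _ hz, comm_central_right a b w hw, commutatorElement_def]
    exact N.mul_mem (N.mul_mem (N.mul_mem ha hb) (N.inv_mem ha)) (N.inv_mem hb)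

/-- Let F be a finite field and n ≥ 1, excluding the case n = 2 with #F ≤ 3. A subgroup of GL_n(F) that is normalized by every element of SL_n(F) either consists of scalar matrices or contains SL_n(F). -/
theorem result {F : Type*} [Field F] [Fintype F] (n : ℕ) (hn : 1 ≤ n) (hex : ¬ (n = 2 ∧ Fintype.card F ≤ 3)) (G : Subgroup (Matrix.GeneralLinearGroup (Fin n) F)) (hG : ∀ s : Matrix.SpecialLinearGroup (Fin n) F, ∀ g ∈ G, (Matrix.SpecialLinearGroup.toGL s) * g * (Matrix.SpecialLinearGroup.toGL s)⁻¹ ∈ G) : (∀ g ∈ G, ∃ c : F, (g : Matrix (Fin n) (Fin n) F) = c • (1 : Matrix (Fin n) (Fin n) F)) ∨ (Matrix.SpecialLinearGroup.toGL : Matrix.SpecialLinearGroup (Fin n) F →* _).range ≤ G := by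
  classical
  rcases Nat.lt_or_ge n 2 with hn1 | hn2
  · left
    have : n = 1 := by omega
    subst this
    intro g _
    refine ⟨(g : Matrix (Fin 1) (Fin 1) F) 0 0, ?_⟩
    ext i j
    fin_cases i; fin_cases j; simp
  have hperf : commutator (Matrix.SpecialLinearGroup (Fin n) F) = ⊤ := by
    rcases Nat.lt_or_ge n 3 with h3 | h3
    · have h2 : n = 2 := by omega
      subst h2
      exact sl2_perfect (by
        by_contra hcon
        exact hex ⟨rfl, by omega⟩)
    · exact commutator_SL_eq_top (by simpa using h3)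
  have hsimple : IsSimpleGroup (Matrix.ProjectiveSpecialLinearGroup (Fin n) F) := by
    rcases Nat.lt_or_ge n 3 with h3 | h3
    · have h2 : n = 2 := by omega
      subst h2
      exact psl2_simple (by
        by_contra hcon
        exact hex ⟨rfl, by omega⟩)
    · exact psl_isSimpleGroup (by simpa using h3)
  obtain ⟨N, hNdef⟩ : ∃ N : Subgroup (Matrix.SpecialLinearGroup (Fin n) F),
      N = G.comap Matrix.SpecialLinearGroup.toGL := ⟨_, rfl⟩
  have hNmem : ∀ s, s ∈ N ↔ Matrix.SpecialLinearGroup.toGL s ∈ G := by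
    intro s; rw [hNdef]; rfl
  have hNn : N.Normal := ⟨fun t ht s => by
    rw [hNmem] at ht ⊢
    rw [map_mul, map_mul, map_inv]
    exact hG s _ ht⟩
  rcases normal_sl hsimple hperf N hNn with hc | htop
  · left
    intro g hg
    have hcomm : ∀ t : Matrix.TransvectionStruct (Fin n) F,
        Commute t.toMatrix (g : Matrix (Fin n) (Fin n) F) := by
      intro t
      obtain ⟨ts, hts⟩ : ∃ ts : Matrix.SpecialLinearGroup (Fin n) F,
          ts = Matrix.SpecialLinearGroup.transvection t.hij t.c := ⟨_, rfl⟩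
      have htsv : (ts : Matrix (Fin n) (Fin n) F) = t.toMatrix := by rw [hts]; rfl
      obtain ⟨T, hT⟩ : ∃ T : Matrix.GeneralLinearGroup (Fin n) F,
          T = Matrix.SpecialLinearGroup.toGL ts := ⟨_, rfl⟩
      have hTv : (T : Matrix (Fin n) (Fin n) F) = t.toMatrix := by rw [hT, ← htsv]; rfl
      obtain ⟨u, hu⟩ : ∃ u : Matrix.GeneralLinearGroup (Fin n) F, u = g * (T * g⁻¹ * T⁻¹) :=
        ⟨_, rfl⟩
      have huG : u ∈ G := by
        rw [hu]
        exact G.mul_mem hg (by rw [hT]; exact hG ts _ (G.inv_mem hg))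
      have hudet : (u : Matrix (Fin n) (Fin n) F).det = 1 := by
        have h1 : Matrix.GeneralLinearGroup.det u = 1 := by
          have hab : ∀ a b : Fˣ, a * (b * a⁻¹ * b⁻¹) = 1 := fun a b => by
            rw [mul_comm b a⁻¹, mul_assoc, mul_inv_cancel, mul_one, mul_inv_cancel]
          rw [hu, map_mul, map_mul, map_mul, map_inv, map_inv]
          exact hab _ _
        have := congrArg Units.val h1
        rwa [Matrix.GeneralLinearGroup.val_det_apply, Units.val_one] at this
      obtain ⟨w, hw⟩ : ∃ w : Matrix.SpecialLinearGroup (Fin n) F,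
          (w : Matrix (Fin n) (Fin n) F) = (u : Matrix (Fin n) (Fin n) F) := ⟨⟨_, hudet⟩, rfl⟩
      have hwN : w ∈ N := by
        rw [hNmem]
        have : Matrix.SpecialLinearGroup.toGL w = u := Units.ext hw
        rw [this]; exact huG
      obtain ⟨r, -, hr⟩ := Matrix.SpecialLinearGroup.mem_center_iff.1 (hc hwN)
      rw [hw] at hr
      -- u * T = g * T * g⁻¹
      have h1 : (u : Matrix (Fin n) (Fin n) F) * t.toMatrix =
          (g : Matrix (Fin n) (Fin n) F) * t.toMatrix *
            ((g⁻¹ : Matrix.GeneralLinearGroup (Fin n) F) : Matrix (Fin n) (Fin n) F) := by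
        rw [← hTv, ← Units.val_mul, ← Units.val_mul, ← Units.val_mul, hu]
        congr 1
        group
      rw [← hr] at h1
      have hgi : ((g⁻¹ : Matrix.GeneralLinearGroup (Fin n) F) : Matrix (Fin n) (Fin n) F) *
          (g : Matrix (Fin n) (Fin n) F) = 1 := by
        rw [← Units.val_mul, inv_mul_cancel, Units.val_one]
      have hgi' : (g : Matrix (Fin n) (Fin n) F) *
          ((g⁻¹ : Matrix.GeneralLinearGroup (Fin n) F) : Matrix (Fin n) (Fin n) F) = 1 := by
        rw [← Units.val_mul, mul_inv_cancel, Units.val_one]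
      obtain ⟨E, hE⟩ : ∃ E : Matrix (Fin n) (Fin n) F, E = Matrix.single t.i t.j t.c := ⟨_, rfl⟩
      have hTE : t.toMatrix = 1 + E := by rw [hE]; rfl
      have hEE : E * E = 0 := by
        rw [hE]
        apply Matrix.single_mul_single_of_ne
        exact Ne.symm t.hij
      have hEcol : ∀ k, E k t.i = 0 := by
        intro k
        rw [hE]
        exact Matrix.single_apply_of_ne _ _ _ _ _ (fun h => t.hij h.2.symm)
      obtain ⟨A, hA⟩ : ∃ A : Matrix (Fin n) (Fin n) F,
          A = (g : Matrix (Fin n) (Fin n) F) * E *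
            ((g⁻¹ : Matrix.GeneralLinearGroup (Fin n) F) : Matrix (Fin n) (Fin n) F) := ⟨_, rfl⟩
      have hA2 : A = Matrix.scalar (Fin n) r * (1 + E) - 1 := by
        rw [← hTE, h1, hTE, Matrix.mul_add, Matrix.add_mul, Matrix.mul_one, hgi', hA]
        abel
      have hAA : A * A = 0 := by
        rw [hA]
        calc (g : Matrix (Fin n) (Fin n) F) * E *
            ((g⁻¹ : Matrix.GeneralLinearGroup (Fin n) F) : Matrix (Fin n) (Fin n) F) *
            ((g : Matrix (Fin n) (Fin n) F) * E *
            ((g⁻¹ : Matrix.GeneralLinearGroup (Fin n) F) : Matrix (Fin n) (Fin n) F))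
            = (g : Matrix (Fin n) (Fin n) F) * E *
              (((g⁻¹ : Matrix.GeneralLinearGroup (Fin n) F) : Matrix (Fin n) (Fin n) F) *
              (g : Matrix (Fin n) (Fin n) F)) * E *
              ((g⁻¹ : Matrix.GeneralLinearGroup (Fin n) F) : Matrix (Fin n) (Fin n) F) := by
                simp only [Matrix.mul_assoc]
          _ = 0 := by
                rw [hgi, Matrix.mul_one, Matrix.mul_assoc (g : Matrix (Fin n) (Fin n) F), hEE,
                  Matrix.mul_zero, Matrix.zero_mul]
      have hAcol : ∀ k, A k t.i = if k = t.i then r - 1 else 0 := by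
        intro k
        rw [hA2]
        simp only [Matrix.sub_apply, Matrix.mul_apply, Matrix.scalar_apply, Matrix.diagonal_apply,
          Matrix.add_apply, Matrix.one_apply, hEcol, add_zero]
        by_cases hk : k = t.i
        · simp [hk]
        · simp [hk]
      have hr1 : r = 1 := by
        have h0 := congrFun (congrFun hAA t.i) t.i
        rw [Matrix.mul_apply] at h0
        simp only [hAcol, Matrix.zero_apply, mul_ite, mul_zero, Finset.sum_ite_eq',
          Finset.mem_univ, if_true] at h0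
        have : r - 1 = 0 := by
          rcases mul_eq_zero.1 h0 with h | h <;> exact h
        linear_combination this
      rw [hr1] at h1
      have h2 : t.toMatrix = (g : Matrix (Fin n) (Fin n) F) * t.toMatrix *
          ((g⁻¹ : Matrix.GeneralLinearGroup (Fin n) F) : Matrix (Fin n) (Fin n) F) := by
        rw [← h1]; simp
      show t.toMatrix * (g : Matrix (Fin n) (Fin n) F) = (g : Matrix (Fin n) (Fin n) F) * t.toMatrix
      conv_lhs => rw [h2]
      rw [Matrix.mul_assoc, hgi, Matrix.mul_one]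
    obtain ⟨c, hc'⟩ := Matrix.mem_range_scalar_of_commute_transvectionStruct hcomm
    refine ⟨c, ?_⟩
    rw [← hc']
    ext i j
    simp [Matrix.scalar_apply, Matrix.diagonal_apply, Matrix.one_apply]
  · right
    rintro _ ⟨s, rfl⟩
    have : s ∈ N := htop ▸ Subgroup.mem_top s
    exact (hNmem s).1 this

end Cfsg.Agent.S2540
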