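import Cfsg.Statements.S2541
-- import your own Cfsg.Agent.* helpers here

set_option autoImplicit false
open Cfsg

namespace Cfsg.Agent.S2541

/-- Let F be a field with 9 elements. The symmetric group S_6 is not isomorphic to PGL_2(F) (although both have index-2 subgroups isomorphic to A_6). -/
theorem result {F : Type*} [Field F] [Fintype F] (hF : Fintype.card F = 9) : ¬ Nonempty (Equiv.Perm (Fin 6) ≃* Matrix.ProjGenLinGroup (Fin 2) F) := by
  classical
  rintro ⟨φ⟩
  -- no element of order 8 in S₆
  have hS6 : ∀ σ : Equiv.Perm (Fin 6), orderOf σ ∣ 60 := by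
    intro σ
    rw [← Equiv.Perm.lcm_cycleType, Multiset.lcm_dvd]
    intro b hb
    have h1 := Equiv.Perm.two_le_of_mem_cycleType hb
    have h2 := Equiv.Perm.le_card_support_of_mem_cycleType hb
    have h3 : σ.support.card ≤ 6 := by
      have := Finset.card_le_univ σ.support
      simpa using this
    have h4 : b ≤ 6 := h2.trans h3
    interval_cases b <;> norm_num
  -- an element of order 8 in PGL₂(9)
  obtain ⟨ζ, hζ⟩ := IsCyclic.exists_ofOrder_eq_natCard (α := Fˣ)
  have hcard : Nat.card Fˣ = 8 := by
    rw [Nat.card_eq_fintype_card, Fintype.card_units, hF]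
  rw [hcard] at hζ
  let D0 : F →* Matrix (Fin 2) (Fin 2) F :=
    { toFun := fun x => Matrix.diagonal ![x, 1]
      map_one' := by
        ext i j
        fin_cases i <;> fin_cases j <;> simp
      map_mul' := by
        intro x y
        rw [Matrix.diagonal_mul_diagonal]
        congr 1
        ext i
        fin_cases i <;> simp }
  let D : Fˣ →* Matrix.ProjGenLinGroup (Fin 2) F :=
    Matrix.ProjGenLinGroup.mk.comp (Units.map D0)
  have hDinj : Function.Injective D := by
    rw [injective_iff_map_eq_one]
    intro u hu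
    have h1 : Units.map D0 u ∈ Subgroup.center (GL (Fin 2) F) :=
      Matrix.ProjGenLinGroup.mk_eq_one.mp hu
    rw [Matrix.GeneralLinearGroup.mem_center_iff_val_mem_range_scalar] at h1
    obtain ⟨a, ha⟩ := h1
    have h2 : Matrix.diagonal (fun _ : Fin 2 => a) = Matrix.diagonal ![(u : F), 1] := by
      rw [← Matrix.scalar_apply]
      exact ha
    have h3 := congrFun (congrFun h2 0) 0
    have h4 := congrFun (congrFun h2 1) 1
    simp at h3 h4
    apply Units.ext
    rw [← h3, h4]
    rfl
  have ho : orderOf (D ζ) = 8 := by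
    rw [orderOf_injective D hDinj, hζ]
  have ho2 : orderOf (φ.symm (D ζ)) = 8 := by
    rw [MulEquiv.orderOf_eq, ho]
  have h5 := hS6 (φ.symm (D ζ))
  rw [ho2] at h5
  norm_num at h5

end Cfsg.Agent.S2541
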