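import Cfsg.Statements.S2552
-- import your own Cfsg.Agent.* helpers here
import Mathlib

set_option autoImplicit false
open Cfsg

namespace Cfsg.Agent.S2552

section
theorem exists_equiv_det {F M : Type*} [Field F] [AddCommGroup M] [Module F M] [FiniteDimensional F M]
    (hM : 1 ≤ Module.finrank F M) (c : F) (hc : c ≠ 0) :
    ∃ a : M ≃ₗ[F] M, LinearMap.det (a : M →ₗ[F] M) = c := by
  classical
  let b := Module.finBasis F M
  let i₀ : Fin (Module.finrank F M) := ⟨0, hM⟩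
  let f : M →ₗ[F] M := Matrix.toLin b b (Matrix.diagonal (Function.update (fun _ => (1:F)) i₀ c))
  have hdet : LinearMap.det f = c := by
    rw [LinearMap.det_toLin, Matrix.det_diagonal, Finset.prod_update_of_mem (Finset.mem_univ _)]
    simp
  have hne : LinearMap.det f ≠ 0 := by rw [hdet]; exact hc
  refine ⟨LinearMap.equivOfDetNeZero f hne, ?_⟩
  rw [show ((LinearMap.equivOfDetNeZero f hne : M ≃ₗ[F] M) : M →ₗ[F] M) = f from
    LinearEquiv.coe_ofIsUnitDet _]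
  exact hdet
end

/-- Let F be a finite field and n ≥ 1. For every k, the special linear group SL_n(F) acts transitively on the set of k-dimensional subspaces of F^n: any two subspaces of the same dimension are carried onto each other by some matrix of determinant 1. -/
theorem result {F : Type*} [Field F] [Fintype F] (n : ℕ) (hn : 1 ≤ n) (U₁ U₂ : Submodule F (Fin n → F)) (h : Module.finrank F U₁ = Module.finrank F U₂) : ∃ g : Matrix.SpecialLinearGroup (Fin n) F, U₁.map ((Matrix.SpecialLinearGroup.toLin' g : (Fin n → F) ≃ₗ[F] (Fin n → F)) : (Fin n → F) →ₗ[F] (Fin n → F)) = U₂ := by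
  classical
  obtain ⟨W₁, h₁⟩ := Submodule.exists_isCompl U₁
  obtain ⟨W₂, h₂⟩ := Submodule.exists_isCompl U₂
  have e1 := Submodule.finrank_add_eq_of_isCompl h₁
  have e2 := Submodule.finrank_add_eq_of_isCompl h₂
  have hW : Module.finrank F W₁ = Module.finrank F W₂ := by omega
  have hsum : Module.finrank F U₂ + Module.finrank F W₂ = n := by
    simpa using e2
  let eU : U₁ ≃ₗ[F] U₂ := LinearEquiv.ofFinrankEq _ _ h
  let eW : W₁ ≃ₗ[F] W₂ := LinearEquiv.ofFinrankEq _ _ hW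
  let P₁ := Submodule.prodEquivOfIsCompl U₁ W₁ h₁
  let P₂ := Submodule.prodEquivOfIsCompl U₂ W₂ h₂
  let φ₀ : (Fin n → F) ≃ₗ[F] (Fin n → F) := P₁.symm ≪≫ₗ (eU.prodCongr eW) ≪≫ₗ P₂
  set d : F := LinearMap.det (φ₀ : (Fin n → F) →ₗ[F] (Fin n → F)) with hd
  have hd0 : d ≠ 0 := (LinearEquiv.isUnit_det' φ₀).ne_zero
  obtain ⟨aU, aW, ha⟩ : ∃ (aU : U₂ ≃ₗ[F] U₂) (aW : W₂ ≃ₗ[F] W₂),
      LinearMap.det (aU : U₂ →ₗ[F] U₂) * LinearMap.det (aW : W₂ →ₗ[F] W₂) = d⁻¹ := by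
    by_cases hk : 1 ≤ Module.finrank F U₂
    · obtain ⟨a, ha⟩ := exists_equiv_det hk d⁻¹ (inv_ne_zero hd0)
      exact ⟨a, LinearEquiv.refl F W₂, by rw [ha]; simp⟩
    · have hk' : 1 ≤ Module.finrank F W₂ := by omega
      obtain ⟨a, ha⟩ := exists_equiv_det hk' d⁻¹ (inv_ne_zero hd0)
      exact ⟨LinearEquiv.refl F U₂, a, by rw [ha]; simp⟩
  let ψ : (Fin n → F) →ₗ[F] (Fin n → F) := (P₂ : _ →ₗ[F] _) ∘ₗ
    ((aU : U₂ →ₗ[F] U₂).prodMap (aW : W₂ →ₗ[F] W₂)) ∘ₗ (P₂.symm : _ →ₗ[F] _)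
  have hψ : LinearMap.det ψ = d⁻¹ := by
    rw [LinearMap.det_conj, LinearMap.det_prodMap, ha]
  let φ : (Fin n → F) ≃ₗ[F] (Fin n → F) :=
    P₁.symm ≪≫ₗ ((eU ≪≫ₗ aU).prodCongr (eW ≪≫ₗ aW)) ≪≫ₗ P₂
  have hφ : (φ : (Fin n → F) →ₗ[F] (Fin n → F)) = ψ ∘ₗ (φ₀ : (Fin n → F) →ₗ[F] (Fin n → F)) := by
    apply LinearMap.ext
    intro x
    simp [φ, ψ, φ₀]
  have hdet : LinearMap.det (φ : (Fin n → F) →ₗ[F] (Fin n → F)) = 1 := by
    rw [hφ, LinearMap.det_comp, hψ, ← hd, inv_mul_cancel₀ hd0]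
  let M : Matrix (Fin n) (Fin n) F := LinearMap.toMatrix' (φ : (Fin n → F) →ₗ[F] (Fin n → F))
  have hM : M.det = 1 := by rw [LinearMap.det_toMatrix', hdet]
  let g : Matrix.SpecialLinearGroup (Fin n) F := ⟨M, hM⟩
  refine ⟨g, ?_⟩
  have hcoe : ((Matrix.SpecialLinearGroup.toLin' g : (Fin n → F) ≃ₗ[F] (Fin n → F)) :
      (Fin n → F) →ₗ[F] (Fin n → F)) = (φ : (Fin n → F) →ₗ[F] (Fin n → F)) := by
    rw [Matrix.SpecialLinearGroup.toLin'_to_linearMap]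
    exact Matrix.toLin'_toMatrix' _
  rw [hcoe]
  apply Submodule.eq_of_le_of_finrank_eq
  · rintro _ ⟨u, hu, rfl⟩
    have : P₁.symm u = ((⟨u, hu⟩ : U₁), (0 : W₁)) :=
      Submodule.prodEquivOfIsCompl_symm_apply_left U₁ W₁ h₁ (⟨u, hu⟩ : U₁)
    simp [φ, this, P₂]
  · rw [LinearEquiv.finrank_map_eq, h]

end Cfsg.Agent.S2552
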