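import Mathlib
import Cfsg.Statements.S2562
import Cfsg.Agent.S0760

set_option autoImplicit false
open Cfsg

namespace Cfsg.Agent.S2562

theorem half {F V : Type*} [Field F] [AddCommGroup V] [Module F V] [FiniteDimensional F V]
    (Q : QuadraticForm F V) (hQ : (QuadraticMap.polarBilin Q).Nondegenerate)
    (W : Submodule F V) (h : ∀ w ∈ W, Q w = 0) : 2 * Module.finrank F W ≤ Module.finrank F V := by
  have h1 : W ≤ (LinearMap.BilinForm.orthogonal (QuadraticMap.polarBilin Q) W) := by
    intro x hx y hy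
    exact Cfsg.Agent.S0760.ts_polar Q W h y hy x hx
  have e1 := Submodule.finrank_mono h1
  have e2 := LinearMap.BilinForm.finrank_orthogonal hQ W
  have e3 := Submodule.finrank_le W
  omega

/-- bilinear form whose diagonal is the plus-type quadratic form -/
noncomputable def Bp (m : ℕ) : LinearMap.BilinForm (ZMod 2) (Fin m ⊕ Fin m → ZMod 2) :=
  LinearMap.mk₂ (ZMod 2) (fun x y => ∑ i : Fin m, x (Sum.inl i) * y (Sum.inr i))
    (by intros; simp [add_mul, Finset.sum_add_distrib])
    (by intros; simp [Finset.mul_sum, mul_assoc])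
    (by intros; simp [mul_add, Finset.sum_add_distrib])
    (by intros; simp [Finset.mul_sum, mul_left_comm])

theorem Bp_apply (m : ℕ) (x y : Fin m ⊕ Fin m → ZMod 2) :
    Bp m x y = ∑ i : Fin m, x (Sum.inl i) * y (Sum.inr i) := rfl

theorem Qp_apply (m : ℕ) (x : Fin m ⊕ Fin m → ZMod 2) :
    (Bp m).toQuadraticMap x = Cfsg.quadFormPlus m (ZMod 2) x := rfl

theorem Bp_nd (m : ℕ) : (QuadraticMap.polarBilin (Bp m).toQuadraticMap).Nondegenerate := by
  classical
  have key : ∀ x : Fin m ⊕ Fin m → ZMod 2, (∀ y, Bp m x y + Bp m y x = 0) → x = 0 := by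
    intro x h
    funext s
    rcases s with i | i
    · have := h (Pi.single (Sum.inr i) 1)
      simp [Bp_apply, Pi.single_apply] at this
      exact this
    · have := h (Pi.single (Sum.inl i) 1)
      simp [Bp_apply, Pi.single_apply] at this
      exact this
  constructor
  · intro x hx
    apply key
    intro y
    have := hx y
    rwa [QuadraticMap.polarBilin_apply_apply, LinearMap.BilinMap.polar_toQuadraticMap] at this
  · intro y hy
    apply key
    intro x
    have := hy x
    rw [QuadraticMap.polarBilin_apply_apply, LinearMap.BilinMap.polar_toQuadraticMap] at this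
    rw [add_comm]
    exact this

/-- bilinear form whose diagonal is the minus-type quadratic form with a = b = 1 -/
noncomputable def Bm (k : ℕ) : LinearMap.BilinForm (ZMod 2) ((Fin k ⊕ Fin k) ⊕ Fin 2 → ZMod 2) :=
  LinearMap.mk₂ (ZMod 2) (fun x y => (∑ i : Fin k, x (Sum.inl (Sum.inl i)) * y (Sum.inl (Sum.inr i)))
      + (x (Sum.inr 0) * y (Sum.inr 0) + x (Sum.inr 0) * y (Sum.inr 1) + x (Sum.inr 1) * y (Sum.inr 1)))
    (by intros; simp [add_mul, Finset.sum_add_distrib]; ring)
    (by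
      intro c x y
      simp only [Pi.smul_apply, smul_eq_mul, mul_add, Finset.mul_sum]
      congr 1
      · exact Finset.sum_congr rfl (fun i _ => by ring)
      · ring)
    (by intros; simp [mul_add, Finset.sum_add_distrib]; ring)
    (by
      intro c x y
      simp only [Pi.smul_apply, smul_eq_mul, mul_add, Finset.mul_sum]
      congr 1
      · exact Finset.sum_congr rfl (fun i _ => by ring)
      · ring)

theorem Bm_apply (k : ℕ) (x y : (Fin k ⊕ Fin k) ⊕ Fin 2 → ZMod 2) :
    Bm k x y = (∑ i : Fin k, x (Sum.inl (Sum.inl i)) * y (Sum.inl (Sum.inr i)))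
      + (x (Sum.inr 0) * y (Sum.inr 0) + x (Sum.inr 0) * y (Sum.inr 1) + x (Sum.inr 1) * y (Sum.inr 1)) :=
  rfl

theorem Qm_apply (k : ℕ) (x : (Fin k ⊕ Fin k) ⊕ Fin 2 → ZMod 2) :
    (Bm k).toQuadraticMap x = Cfsg.quadFormMinus k (ZMod 2) 1 1 x := by
  rw [LinearMap.BilinMap.toQuadraticMap_apply, Bm_apply]
  unfold Cfsg.quadFormMinus
  ring

theorem z2a : ∀ a b : ZMod 2, a + (a + b) = 0 → b = 0 := by decide
theorem z2b : ∀ a b : ZMod 2, a + b + b = 0 → a = 0 := by decide
theorem z2c : ∀ a b : ZMod 2, a ^ 2 + 1 * a * b + 1 * b ^ 2 = 0 → a = 0 ∧ b = 0 := by decide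

theorem Bm_nd (k : ℕ) : (QuadraticMap.polarBilin (Bm k).toQuadraticMap).Nondegenerate := by
  classical
  have key : ∀ x : (Fin k ⊕ Fin k) ⊕ Fin 2 → ZMod 2, (∀ y, Bm k x y + Bm k y x = 0) → x = 0 := by
    intro x h
    funext s
    rcases s with (i | i) | r
    · have := h (Pi.single (Sum.inl (Sum.inr i)) 1)
      simp [Bm_apply, Pi.single_apply] at this
      exact this
    · have := h (Pi.single (Sum.inl (Sum.inl i)) 1)
      simp [Bm_apply, Pi.single_apply] at this
      exact this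
    · fin_cases r
      · have := h (Pi.single (Sum.inr 1) 1)
        simp [Bm_apply, Pi.single_apply] at this
        exact z2b _ _ this
      · have := h (Pi.single (Sum.inr 0) 1)
        simp [Bm_apply, Pi.single_apply] at this
        exact z2a _ _ this
  constructor
  · intro x hx
    apply key
    intro y
    have := hx y
    rwa [QuadraticMap.polarBilin_apply_apply, LinearMap.BilinMap.polar_toQuadraticMap] at this
  · intro y hy
    apply key
    intro x
    have := hy x
    rw [QuadraticMap.polarBilin_apply_apply, LinearMap.BilinMap.polar_toQuadraticMap] at this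
    rw [add_comm]
    exact this

/-- embedding of the first coordinates -/
noncomputable def Lp (m : ℕ) : (Fin m → ZMod 2) →ₗ[ZMod 2] (Fin m ⊕ Fin m → ZMod 2) :=
  LinearMap.pi (fun s => Sum.elim (fun i => LinearMap.proj i) (fun _ => 0) s)

noncomputable def Lm (k : ℕ) : (Fin k → ZMod 2) →ₗ[ZMod 2] ((Fin k ⊕ Fin k) ⊕ Fin 2 → ZMod 2) :=
  LinearMap.pi (fun s => Sum.elim (Sum.elim (fun i => LinearMap.proj i) (fun _ => 0)) (fun _ => 0) s)

theorem Lp_inj (m : ℕ) : Function.Injective (Lp m) := by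
  intro a b hab
  funext i
  have := congrFun hab (Sum.inl i)
  simpa [Lp] using this

theorem Lm_inj (k : ℕ) : Function.Injective (Lm k) := by
  intro a b hab
  funext i
  have := congrFun hab (Sum.inl (Sum.inl i))
  simpa [Lm] using this

theorem Lm_max (k : ℕ) (W : Submodule (ZMod 2) ((Fin k ⊕ Fin k) ⊕ Fin 2 → ZMod 2))
    (hle : LinearMap.range (Lm k) ≤ W) (hW : ∀ w ∈ W, (Bm k).toQuadraticMap w = 0) :
    W = LinearMap.range (Lm k) := by
  classical
  apply le_antisymm _ hle
  intro w hw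
  have hy : ∀ i, w (Sum.inl (Sum.inr i)) = 0 := by
    intro i
    have h1 : Lm k (Pi.single i 1) ∈ W := hle (LinearMap.mem_range_self _ _)
    have h2 := Cfsg.Agent.S0760.ts_polar _ W hW w hw _ h1
    rw [QuadraticMap.polarBilin_apply_apply, LinearMap.BilinMap.polar_toQuadraticMap] at h2
    simp [Bm_apply, Lm, Pi.single_apply] at h2
    exact h2
  have hz := hW w hw
  rw [Qm_apply] at hz
  unfold Cfsg.quadFormMinus at hz
  simp only [hy, mul_zero, Finset.sum_const_zero, zero_add] at hz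
  obtain ⟨hz0, hz1⟩ := z2c _ _ hz
  refine ⟨fun i => w (Sum.inl (Sum.inl i)), ?_⟩
  funext s
  rcases s with (i | i) | r
  · simp [Lm]
  · simp [Lm, hy]
  · fin_cases r
    · simp [Lm, hz0]
    · simp [Lm, hz1]

/-- Witt indices over the field of two elements, m ≥ 1: for the plus-type form Σ xᵢyᵢ in dimension 2m some m-dimensional subspace is totally singular and no totally singular subspace has larger dimension; for the minus-type form Σ xᵢyᵢ + (z₁² + z₁z₂ + z₂²) in dimension 2m the maximal dimension of a totally singular subspace is m − 1. -/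
theorem result (m : ℕ) (hm : 1 ≤ m) :
    (∃ U : Submodule (ZMod 2) (Fin m ⊕ Fin m → ZMod 2), (∀ u ∈ U, Cfsg.quadFormPlus m (ZMod 2) u = 0) ∧ Module.finrank (ZMod 2) ↥U = m) ∧
    (∀ U : Submodule (ZMod 2) (Fin m ⊕ Fin m → ZMod 2), (∀ u ∈ U, Cfsg.quadFormPlus m (ZMod 2) u = 0) → Module.finrank (ZMod 2) ↥U ≤ m) ∧
    (∃ U : Submodule (ZMod 2) ((Fin (m - 1) ⊕ Fin (m - 1)) ⊕ Fin 2 → ZMod 2), (∀ u ∈ U, Cfsg.quadFormMinus (m - 1) (ZMod 2) 1 1 u = 0) ∧ Module.finrank (ZMod 2) ↥U = m - 1) ∧
    (∀ U : Submodule (ZMod 2) ((Fin (m - 1) ⊕ Fin (m - 1)) ⊕ Fin 2 → ZMod 2), (∀ u ∈ U, Cfsg.quadFormMinus (m - 1) (ZMod 2) 1 1 u = 0) → Module.finrank (ZMod 2) ↥U ≤ m - 1) := by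
  classical
  refine ⟨⟨LinearMap.range (Lp m), ?_, ?_⟩, ?_, ⟨LinearMap.range (Lm (m - 1)), ?_, ?_⟩, ?_⟩
  · rintro _ ⟨c, rfl⟩
    unfold Cfsg.quadFormPlus
    simp [Lp]
  · rw [LinearMap.finrank_range_of_inj (Lp_inj m), Module.finrank_fin_fun]
  · intro U hU
    have := half (Bp m).toQuadraticMap (Bp_nd m) U (fun u hu => by rw [Qp_apply]; exact hU u hu)
    rw [Module.finrank_fintype_fun_eq_card] at this
    simp at this
    omega
  · rintro _ ⟨c, rfl⟩
    unfold Cfsg.quadFormMinus
    simp [Lm]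
  · rw [LinearMap.finrank_range_of_inj (Lm_inj (m - 1)), Module.finrank_fin_fun]
  · intro U hU
    have hmax : ∀ W : Submodule (ZMod 2) ((Fin (m - 1) ⊕ Fin (m - 1)) ⊕ Fin 2 → ZMod 2),
        LinearMap.range (Lm (m - 1)) ≤ W → (∀ w ∈ W, (Bm (m - 1)).toQuadraticMap w = 0) →
        W = LinearMap.range (Lm (m - 1)) := fun W h1 h2 => Lm_max (m - 1) W h1 h2
    have h0 : ∀ w ∈ LinearMap.range (Lm (m - 1)), (Bm (m - 1)).toQuadraticMap w = 0 := by
      rintro _ ⟨c, rfl⟩
      rw [Qm_apply]
      unfold Cfsg.quadFormMinus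
      simp [Lm]
    have := Cfsg.Agent.S0760.le_of_max (Bm (m - 1)).toQuadraticMap (Bm_nd (m - 1))
      (LinearMap.range (Lm (m - 1))) U h0 (fun u hu => by rw [Qm_apply]; exact hU u hu) hmax
    rw [LinearMap.finrank_range_of_inj (Lm_inj (m - 1)), Module.finrank_fin_fun] at this
    exact this

end Cfsg.Agent.S2562
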