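import Mathlib
import Cfsg.Statements.S2564
import Cfsg.Agent.S2562

set_option autoImplicit false
open Cfsg

namespace Cfsg.Agent.S2564

/-- the sign character of ZMod 2 -/
def chi (a : ZMod 2) : ℤ := if a = 0 then 1 else -1

theorem chi_add : ∀ a b : ZMod 2, chi (a + b) = chi a * chi b := by decide
theorem chi_zero : chi 0 = 1 := by decide
theorem chi_one : chi 1 = -1 := by decide
theorem z2_cases : ∀ c : ZMod 2, c = 0 ∨ c = 1 := by decide
theorem z2_add_self : ∀ c : ZMod 2, c + c = 0 := by decide

theorem orth (m : ℕ) (B : LinearMap.BilinForm (ZMod 2) (Fin m ⊕ Fin m → ZMod 2)) (hB : B.Nondegenerate)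
    (x : Fin m ⊕ Fin m → ZMod 2) :
    ∑ v : Fin m ⊕ Fin m → ZMod 2, chi (B x v) =
      if x = 0 then (Fintype.card (Fin m ⊕ Fin m → ZMod 2) : ℤ) else 0 := by
  classical
  by_cases hx : x = 0
  · subst hx
    simp [chi_zero]
  · rw [if_neg hx]
    obtain ⟨v0, hv0⟩ : ∃ v0, B x v0 ≠ 0 := by
      by_contra hcon
      push Not at hcon
      exact hx (hB.1 x hcon)
    have hv1 : B x v0 = 1 := by
      rcases z2_cases (B x v0) with h | h
      · exact absurd h hv0
      · exact h
    have h1 : ∑ v : Fin m ⊕ Fin m → ZMod 2, chi (B x v) =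
        ∑ v : Fin m ⊕ Fin m → ZMod 2, chi (B x (v + v0)) :=
      (Equiv.sum_comp (Equiv.addRight v0) (fun v => chi (B x v))).symm
    have h2 : ∑ v : Fin m ⊕ Fin m → ZMod 2, chi (B x (v + v0)) =
        - ∑ v : Fin m ⊕ Fin m → ZMod 2, chi (B x v) := by
      rw [← Finset.sum_neg_distrib]
      apply Finset.sum_congr rfl
      intro v _
      rw [map_add, chi_add, hv1, chi_one]
      ring
    omega

/-- On the 2m-dimensional space over the field of two elements (m ≥ 1) let f be the alternating form obtained by polarizing the plus-type form Σ xᵢyᵢ, and let q be any quadratic form polarizing to f. For a vector w, the function q + f(·, w) again polarizes to f, and it is equivalent to q under an invertible linear map (that is, has the same type) if and only if q(w) = 0. -/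
theorem result (m : ℕ) (hm : 1 ≤ m) (q : (Fin m ⊕ Fin m → ZMod 2) → ZMod 2) (hq : (∀ u v : (Fin m ⊕ Fin m → ZMod 2), q (u + v) = q u + q v + (Cfsg.quadFormPlus m (ZMod 2) (u + v) - Cfsg.quadFormPlus m (ZMod 2) u - Cfsg.quadFormPlus m (ZMod 2) v))) (w : (Fin m ⊕ Fin m → ZMod 2)) :
    (∀ u v : (Fin m ⊕ Fin m → ZMod 2), (q (u + v) + (Cfsg.quadFormPlus m (ZMod 2) (u + v + w) - Cfsg.quadFormPlus m (ZMod 2) (u + v) - Cfsg.quadFormPlus m (ZMod 2) w)) =
        (q u + (Cfsg.quadFormPlus m (ZMod 2) (u + w) - Cfsg.quadFormPlus m (ZMod 2) u - Cfsg.quadFormPlus m (ZMod 2) w)) + (q v + (Cfsg.quadFormPlus m (ZMod 2) (v + w) - Cfsg.quadFormPlus m (ZMod 2) v - Cfsg.quadFormPlus m (ZMod 2) w)) +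
        (Cfsg.quadFormPlus m (ZMod 2) (u + v) - Cfsg.quadFormPlus m (ZMod 2) u - Cfsg.quadFormPlus m (ZMod 2) v)) ∧
    ((∃ g : (Fin m ⊕ Fin m → ZMod 2) ≃ₗ[ZMod 2] (Fin m ⊕ Fin m → ZMod 2), ∀ v, q v + (Cfsg.quadFormPlus m (ZMod 2) (v + w) - Cfsg.quadFormPlus m (ZMod 2) v - Cfsg.quadFormPlus m (ZMod 2) w) = q (g v)) ↔ q w = 0) := by
  classical
  obtain ⟨B, hBdef⟩ : ∃ B : LinearMap.BilinForm (ZMod 2) (Fin m ⊕ Fin m → ZMod 2),
      B = QuadraticMap.polarBilin (Cfsg.Agent.S2562.Bp m).toQuadraticMap := ⟨_, rfl⟩
  have hB : ∀ u v : Fin m ⊕ Fin m → ZMod 2, Cfsg.quadFormPlus m (ZMod 2) (u + v) -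
      Cfsg.quadFormPlus m (ZMod 2) u - Cfsg.quadFormPlus m (ZMod 2) v = B u v := by
    intro u v
    rw [hBdef]
    rfl
  have hBnd : B.Nondegenerate := by
    rw [hBdef]; exact Cfsg.Agent.S2562.Bp_nd m
  have hBself : ∀ v, B v v = 0 := by
    intro v
    rw [hBdef, QuadraticMap.polarBilin_apply_apply, QuadraticMap.polar_self, two_smul]
    exact z2_add_self _
  have hBsymm : ∀ u v, B u v = B v u := by
    intro u v
    rw [hBdef, QuadraticMap.polarBilin_apply_apply, QuadraticMap.polarBilin_apply_apply,
      QuadraticMap.polar_comm]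
  simp only [hB] at hq ⊢
  have hq0 : q 0 = 0 := by
    have h := hq 0 0
    simp at h
    exact h
  refine ⟨fun u v => ?_, ?_⟩
  · rw [hq, map_add, LinearMap.add_apply]
    ring
  · constructor
    · rintro ⟨g, hg⟩
      by_contra hqw
      have hqw1 : q w = 1 := by
        rcases z2_cases (q w) with h | h
        · exact absurd h hqw
        · exact h
      have hS : ∑ v : Fin m ⊕ Fin m → ZMod 2, chi (q v + B v w) =
          ∑ v : Fin m ⊕ Fin m → ZMod 2, chi (q v) := by
        rw [← Equiv.sum_comp g.toEquiv (fun v => chi (q v))]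
        apply Finset.sum_congr rfl
        intro v _
        rw [hg v]
        rfl
      have hkey : (∑ u : Fin m ⊕ Fin m → ZMod 2, chi (q u)) *
          (∑ v : Fin m ⊕ Fin m → ZMod 2, chi (q v + B v w)) =
          chi (q w) * (Fintype.card (Fin m ⊕ Fin m → ZMod 2) : ℤ) := by
        rw [Finset.mul_sum]
        have h1 : ∀ v : Fin m ⊕ Fin m → ZMod 2,
            (∑ u : Fin m ⊕ Fin m → ZMod 2, chi (q u)) * chi (q v + B v w) =
            ∑ t : Fin m ⊕ Fin m → ZMod 2, chi (q t) * chi (B (t + w) v) := by
          intro v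
          rw [Finset.sum_mul, ← Equiv.sum_comp (Equiv.addRight v) (fun u => chi (q u) * chi (q v + B v w))]
          apply Finset.sum_congr rfl
          intro t _
          simp only [Equiv.coe_addRight]
          rw [hq t v, ← chi_add, ← chi_add, map_add, LinearMap.add_apply, hBsymm w v]
          congr 1
          have := z2_add_self (q v)
          linear_combination this
        rw [Finset.sum_congr rfl (fun v _ => h1 v), Finset.sum_comm]
        have h2 : ∀ t : Fin m ⊕ Fin m → ZMod 2,
            ∑ v : Fin m ⊕ Fin m → ZMod 2, chi (q t) * chi (B (t + w) v) =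
            if t = w then chi (q w) * (Fintype.card (Fin m ⊕ Fin m → ZMod 2) : ℤ) else 0 := by
          intro t
          rw [← Finset.mul_sum, orth m B hBnd (t + w)]
          have hiff : t + w = 0 ↔ t = w := by
            constructor
            · intro h
              have h3 : t = t + (w + w) := by
                have : w + w = 0 := by
                  funext s; exact z2_add_self _
                rw [this, add_zero]
              rw [h3, ← add_assoc, h, zero_add]
            · intro h
              rw [h]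
              funext s; exact z2_add_self _
          by_cases htw : t = w
          · rw [if_pos (hiff.2 htw), if_pos htw, htw]
          · rw [if_neg (fun h => htw (hiff.1 h)), if_neg htw, mul_zero]
        rw [Finset.sum_congr rfl (fun t _ => h2 t), Finset.sum_ite_eq' Finset.univ w]
        simp
      rw [hS, hqw1, chi_one] at hkey
      have hpos : (0 : ℤ) < (Fintype.card (Fin m ⊕ Fin m → ZMod 2) : ℤ) := by
        exact_mod_cast Fintype.card_pos
      nlinarith [mul_self_nonneg (∑ v : Fin m ⊕ Fin m → ZMod 2, chi (q v))]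
    · intro hqw
      have hinv : Function.Involutive (LinearMap.id + (B.flip w).smulRight w :
          (Fin m ⊕ Fin m → ZMod 2) →ₗ[ZMod 2] (Fin m ⊕ Fin m → ZMod 2)) := by
        intro v
        show (v + B v w • w) + B (v + B v w • w) w • w = v
        rw [map_add, LinearMap.add_apply, map_smul, LinearMap.smul_apply, hBself, smul_zero,
          add_zero, add_assoc, ← add_smul, z2_add_self, zero_smul, add_zero]
      refine ⟨LinearEquiv.ofInvolutive _ hinv, fun v => ?_⟩
      have hgv : (LinearEquiv.ofInvolutive _ hinv) v = v + B v w • w := rfl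
      rw [hgv]
      rcases z2_cases (B v w) with h | h
      · rw [h, zero_smul, add_zero, add_zero]
      · rw [h, one_smul, hq v w, hqw, h, add_zero]

end Cfsg.Agent.S2564
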