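import Cfsg.Statements.S2567
-- import your own Cfsg.Agent.* helpers here

set_option autoImplicit false
open Cfsg

namespace Cfsg.Agent.S2567


section

theorem lift_unique {G : Type*} [Group G] [Finite G] (Z : Subgroup G) [Z.Normal]
    (hZ : Z ≤ Subgroup.center G) (r : ℕ) (hr : r.Prime) (hdiv : ¬ r ∣ Nat.card Z)
    (x : G ⧸ Z) (hx : orderOf x = r) :
    ∃! g : G, (QuotientGroup.mk g : G ⧸ Z) = x ∧ orderOf g = r := by
  obtain ⟨g₀, rfl⟩ := QuotientGroup.mk_surjective x
  haveI : Fact r.Prime := ⟨hr⟩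
  have hcop : (Nat.card Z).Coprime r := (Nat.Prime.coprime_iff_not_dvd hr).mpr hdiv |>.symm
  have h1 : g₀ ^ r ∈ Z := by
    rw [← QuotientGroup.eq_one_iff, QuotientGroup.mk_pow, ← hx, pow_orderOf_eq_one]
  obtain ⟨w, hw⟩ := (powCoprime hcop).surjective ⟨(g₀ ^ r)⁻¹, Z.inv_mem h1⟩
  have hw' : (w : G) ^ r = (g₀ ^ r)⁻¹ := by
    have := congrArg Subtype.val hw
    simpa using this
  have hwc : Commute g₀ (w : G) := by
    have := Subgroup.mem_center_iff.mp (hZ w.2) g₀
    exact this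
  have hg : (g₀ * (w : G)) ^ r = 1 := by
    rw [hwc.mul_pow, hw', mul_inv_cancel]
  have hmk : (QuotientGroup.mk (g₀ * (w : G)) : G ⧸ Z) = QuotientGroup.mk g₀ := by
    rw [QuotientGroup.mk_mul, (QuotientGroup.eq_one_iff (w : G)).mpr w.2, mul_one]
  have hne : g₀ * (w : G) ≠ 1 := by
    intro h
    rw [h] at hmk
    have h2 : orderOf (QuotientGroup.mk g₀ : G ⧸ Z) = 1 := by
      rw [← hmk]; exact orderOf_one
    rw [hx] at h2
    exact hr.one_lt.ne' h2
  refine ⟨g₀ * (w : G), ⟨hmk, orderOf_eq_prime hg hne⟩, ?_⟩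
  rintro g' ⟨hg'1, hg'2⟩
  have h3 : (g₀ * (w : G))⁻¹ * g' ∈ Z := QuotientGroup.eq.mp (hmk.trans hg'1.symm)
  obtain ⟨z, hz⟩ : ∃ z : G, z = (g₀ * (w : G))⁻¹ * g' := ⟨_, rfl⟩
  rw [← hz] at h3
  have e : g' = (g₀ * (w : G)) * z := by rw [hz]; group
  have hzc : Commute (g₀ * (w : G)) z := Subgroup.mem_center_iff.mp (hZ h3) _
  have h4 : z ^ r = 1 := by
    have h5 : g' ^ r = 1 := by rw [← hg'2]; exact pow_orderOf_eq_one g'
    rw [e, hzc.mul_pow, hg, one_mul] at h5
    exact h5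
  have h6 : orderOf z ∣ Nat.card Z := by
    have := orderOf_dvd_natCard (⟨z, h3⟩ : Z)
    rwa [Subgroup.orderOf_mk] at this
  have h7 : orderOf z ∣ Nat.gcd (Nat.card Z) r := Nat.dvd_gcd h6 (orderOf_dvd_of_pow_eq_one h4)
  rw [Nat.Coprime.gcd_eq_one hcop] at h7
  have hz1 : z = 1 := orderOf_eq_one_iff.mp (Nat.dvd_one.mp h7)
  rw [e, hz1, mul_one]

end

/-- Lifting elements of prime order from PGL to GL: let F be a finite field with q elements, r a prime not dividing q − 1, and x an element of order r in GL_n(F) modulo its centre (the scalar matrices). Then x has exactly one preimage in GL_n(F) of order r. -/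
theorem result {F : Type*} [Field F] [Fintype F] {q n r : ℕ} (hF : Fintype.card F = q) (hr : r.Prime) (hdiv : ¬ r ∣ q - 1) (x : GL (Fin n) F ⧸ Subgroup.center (GL (Fin n) F)) (hx : orderOf x = r) : ∃! g : GL (Fin n) F, (QuotientGroup.mk g : GL (Fin n) F ⧸ Subgroup.center (GL (Fin n) F)) = x ∧ orderOf g = r := by
  classical
  apply lift_unique (Subgroup.center (GL (Fin n) F)) le_rfl r hr _ x hx
  intro h
  apply hdiv
  have h1 : Nat.card (Subgroup.center (GL (Fin n) F)) ∣ Nat.card Fˣ := by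
    rw [Matrix.GeneralLinearGroup.center_eq_range_scalar]
    exact Subgroup.card_range_dvd _
  have h2 : Nat.card Fˣ = q - 1 := by
    rw [Nat.card_eq_fintype_card, Fintype.card_units, hF]
  rw [h2] at h1
  exact h.trans h1

end Cfsg.Agent.S2567
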