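import Cfsg.Statements.S2569
import Mathlib
import Cfsg.Agent.S2580
-- import your own Cfsg.Agent.* helpers here

set_option autoImplicit false
open Cfsg

namespace Cfsg.Agent.S2569

open Polynomial in
theorem norm_surj {F : Type*} [Field F] [Finite F] (I : Ideal F[X]) (hI : I.IsMaximal) (c : F) :
    ∃ α : F[X] ⧸ I, Algebra.norm F α = c := by
  letI := Ideal.Quotient.field I
  haveI : Module.Finite F (F[X] ⧸ I) := by
    have hI0 : I ≠ ⊥ := Ring.ne_bot_of_isMaximal_of_not_isField hI (Polynomial.not_isField F)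
    obtain ⟨f, rfl⟩ : ∃ f, I = Ideal.span {f} :=
      ⟨Submodule.IsPrincipal.generator I, (Ideal.span_singleton_generator I).symm⟩
    have hf : f ≠ 0 := by
      rintro rfl; apply hI0; simp
    exact (AdjoinRoot.powerBasis hf).finite
  haveI : Finite (F[X] ⧸ I) := Module.finite_of_finite F
  exact FiniteField.norm_surjective F (F[X] ⧸ I) c

open Polynomial in
theorem cent_det {F : Type*} [Field F] [Finite F] {n : ℕ} (hn : 0 < n)
    (X₀ : Matrix (Fin n) (Fin n) F) (k : ℕ) (hk : (k : F) ≠ 0) (hXk : X₀ ^ k = 1) (c : F) :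
    ∃ z : Matrix (Fin n) (Fin n) F, z * X₀ = X₀ * z ∧ z.det = c := by
  classical
  obtain ⟨φ, hφ⟩ : ∃ φ : Module.End F (Fin n → F), φ = Matrix.toLin' X₀ := ⟨_, rfl⟩
  have htors : Module.IsTorsion F[X] (Module.AEval' φ) :=
    Module.AEval.isTorsion_of_finiteDimensional F (Fin n → F) φ
  obtain ⟨ι, _, p, hp, e, ⟨E⟩⟩ := Module.equiv_directSum_of_isTorsion htors
  obtain ⟨T, hT⟩ : ∃ T : (Fin n → F) ≃ₗ[F] (DirectSum ι fun i => F[X] ⧸ F[X] ∙ p i ^ e i),
      ∀ u, T u = E (Module.AEval'.of φ u) :=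
    ⟨(Module.AEval'.of φ).trans (E.restrictScalars F), fun u => rfl⟩
  have hTX : ∀ u, T (φ u) = (X : F[X]) • T u := by
    intro u; rw [hT, hT, ← map_smul E, Module.AEval'.X_smul_of]
  have hφk : φ ^ k = 1 := by
    rw [hφ, ← Matrix.toLin'_pow, hXk, Matrix.toLin'_one]; rfl
  have hann : ∀ y : DirectSum ι fun i => F[X] ⧸ F[X] ∙ p i ^ e i, (X ^ k - 1 : F[X]) • y = 0 := by
    intro y
    obtain ⟨u, rfl⟩ := T.surjective y
    rw [hT, ← map_smul E, sub_smul, one_smul, Module.AEval'.X_pow_smul_of, hφk, one_smul, sub_self,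
      map_zero]
  obtain ⟨i₀, q₀, hq₀⟩ : ∃ i₀, ∃ q : F[X] ⧸ F[X] ∙ p i₀ ^ e i₀, q ≠ 0 := by
    have hu : T (Pi.single ⟨0, hn⟩ 1) ≠ 0 := by
      intro h
      have h1 := T.injective (h.trans (map_zero T).symm)
      have h2 := congrFun h1 ⟨0, hn⟩
      simp at h2
    by_contra hcon
    push Not at hcon
    exact hu (DFinsupp.ext fun i => hcon i _)
  have hdvd : p i₀ ^ e i₀ ∣ X ^ k - 1 := by
    have h1 := hann (DirectSum.of (fun i => F[X] ⧸ F[X] ∙ p i ^ e i) i₀ 1)
    have h2 := congrArg (fun y => y i₀) h1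
    simp only [DirectSum.smul_apply, DirectSum.of_eq_same, DirectSum.zero_apply] at h2
    rw [Cfsg.Agent.S2580.smul_eq_mk_mul, mul_one, Submodule.Quotient.mk_eq_zero,
      Submodule.mem_span_singleton] at h2
    obtain ⟨c', hc'⟩ := h2
    exact ⟨c', by rw [← hc', smul_eq_mul, mul_comm]⟩
  have hall0 : e i₀ = 0 → ∀ q : F[X] ⧸ F[X] ∙ p i₀ ^ e i₀, q = 0 := by
    intro h0 q
    induction q using Submodule.Quotient.induction_on with
    | _ s =>
      rw [Submodule.Quotient.mk_eq_zero, h0, pow_zero]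
      exact Submodule.mem_span_singleton.mpr ⟨s, by simp⟩
  have he1 : e i₀ = 1 := by
    have hsq : Squarefree (X ^ k - 1 : F[X]) := by
      have := (Polynomial.separable_X_pow_sub_C (1 : F) hk one_ne_zero).squarefree
      simpa using this
    rcases Nat.lt_trichotomy (e i₀) 1 with h | h | h
    · exact absurd (hall0 (by omega) q₀) hq₀
    · exact h
    · exfalso
      have h2 : p i₀ * p i₀ ∣ X ^ k - 1 := by
        refine dvd_trans ?_ hdvd
        rw [← pow_two]; exact pow_dvd_pow _ h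
      exact (hp i₀).not_isUnit (hsq _ h2)
  have hmax : Ideal.IsMaximal (F[X] ∙ p i₀ ^ e i₀ : Ideal F[X]) := by
    rw [he1, pow_one]; exact PrincipalIdealRing.isMaximal_of_irreducible (hp i₀)
  obtain ⟨α, hα⟩ := Cfsg.Agent.S2569.norm_surj (F[X] ∙ p i₀ ^ e i₀) hmax c
  have hfinQ : Module.Finite F (F[X] ⧸ F[X] ∙ p i₀ ^ e i₀) := by
    haveI : Module.Finite F (DirectSum ι fun i => F[X] ⧸ F[X] ∙ p i ^ e i) := Module.Finite.equiv T
    exact Module.Finite.of_surjective (DirectSum.component F ι (fun i => F[X] ⧸ F[X] ∙ p i ^ e i) i₀)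
      (fun q => ⟨DirectSum.lof F ι _ i₀ q,
        DirectSum.component.lof_self F (M := fun i => F[X] ⧸ F[X] ∙ p i ^ e i) i₀ q⟩)
  obtain ⟨A', hA'⟩ : ∃ A' : (F[X] ⧸ F[X] ∙ p i₀ ^ e i₀) →ₗ[F] (Fin n → F),
      A' = (T.symm : _ →ₗ[F] _) ∘ₗ (DirectSum.lof F ι (fun i => F[X] ⧸ F[X] ∙ p i ^ e i) i₀) :=
    ⟨_, rfl⟩
  obtain ⟨B', hB'⟩ : ∃ B' : (Fin n → F) →ₗ[F] (F[X] ⧸ F[X] ∙ p i₀ ^ e i₀),
      B' = (Algebra.lmul F _ (α - 1)) ∘ₗ
        ((DirectSum.component F ι (fun i => F[X] ⧸ F[X] ∙ p i ^ e i) i₀) ∘ₗ (T : _ →ₗ[F] _)) :=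
    ⟨_, rfl⟩
  obtain ⟨z, hz⟩ : ∃ z : (Fin n → F) →ₗ[F] (Fin n → F), z = LinearMap.id + A' ∘ₗ B' := ⟨_, rfl⟩
  have hBA : (LinearMap.id + B' ∘ₗ A' :
      (F[X] ⧸ F[X] ∙ p i₀ ^ e i₀) →ₗ[F] (F[X] ⧸ F[X] ∙ p i₀ ^ e i₀)) = Algebra.lmul F _ α := by
    refine LinearMap.ext fun q => ?_
    rw [hA', hB']
    simp only [LinearMap.add_apply, LinearMap.id_apply, LinearMap.comp_apply, LinearEquiv.coe_coe,
      LinearEquiv.apply_symm_apply, DirectSum.component.lof_self]
    rw [map_sub, map_one, LinearMap.sub_apply, Module.End.one_apply, add_sub_cancel]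
  have hzdet : LinearMap.det z = c := by
    rw [← LinearMap.det_toMatrix (Pi.basisFun F (Fin n)), hz, map_add, LinearMap.toMatrix_id,
      LinearMap.toMatrix_comp _ (Module.Free.chooseBasis F (F[X] ⧸ F[X] ∙ p i₀ ^ e i₀)) _,
      Matrix.det_one_add_mul_comm, ← LinearMap.toMatrix_comp _ _ _,
      ← LinearMap.toMatrix_id (Module.Free.chooseBasis F (F[X] ⧸ F[X] ∙ p i₀ ^ e i₀)), ← map_add,
      LinearMap.det_toMatrix, hBA, ← Algebra.norm_apply]
    exact hα
  have hTz : ∀ w, T (z w) = T w + DirectSum.of (fun i => F[X] ⧸ F[X] ∙ p i ^ e i) i₀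
      ((α - 1) * (T w) i₀) := by
    intro w
    rw [hz, hA', hB']
    simp only [LinearMap.add_apply, LinearMap.id_apply, LinearMap.comp_apply, LinearEquiv.coe_coe,
      map_add, LinearEquiv.apply_symm_apply]
    rw [DirectSum.lof_eq_of, ← DirectSum.apply_eq_component, Algebra.coe_lmul_eq_mul,
      LinearMap.mul_apply']
  have hzφ : z ∘ₗ φ = φ ∘ₗ z := by
    refine LinearMap.ext fun u => ?_
    apply T.injective
    rw [LinearMap.comp_apply, LinearMap.comp_apply, hTX, hTz, hTz, hTX, smul_add]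
    congr 1
    rw [← DirectSum.lof_eq_of F[X], ← DirectSum.lof_eq_of F[X],
      ← (DirectSum.lof F[X] ι (fun i => F[X] ⧸ F[X] ∙ p i ^ e i) i₀).map_smul]
    congr 1
    rw [DirectSum.smul_apply, Cfsg.Agent.S2580.smul_eq_mk_mul, Cfsg.Agent.S2580.smul_eq_mk_mul]
    ring
  refine ⟨LinearMap.toMatrix' z, ?_, ?_⟩
  · have hX : X₀ = LinearMap.toMatrix' φ := by rw [hφ, LinearMap.toMatrix'_toLin']
    rw [hX, ← LinearMap.toMatrix'_comp, ← LinearMap.toMatrix'_comp, hzφ]
  · rw [LinearMap.det_toMatrix', hzdet]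

/-- In GL_n over a finite field of characteristic p, the conjugacy class of a semisimple element (an element of order prime to p) under the special linear group is its whole GL-conjugacy class: for every such x and every invertible g there is h of determinant one with h x h⁻¹ = g x g⁻¹. -/
theorem result {F : Type*} [Field F] [Fintype F] {p : ℕ} [Fact p.Prime] [CharP F p] {n : ℕ} (x g : GL (Fin n) F) (hx : (orderOf x).Coprime p) : ∃ h : GL (Fin n) F, (h : Matrix (Fin n) (Fin n) F).det = 1 ∧ h * x * h⁻¹ = g * x * g⁻¹ := by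
  classical
  rcases Nat.eq_zero_or_pos n with hn | hn
  · subst hn
    exact ⟨g, Matrix.det_isEmpty, rfl⟩
  · have hk : ((orderOf x : ℕ) : F) ≠ 0 := by
      rw [Ne, CharP.cast_eq_zero_iff F p]
      intro hd
      have := Nat.Coprime.eq_one_of_dvd hx.symm hd
      exact (Fact.out : p.Prime).one_lt.ne' this
    have hXk : (x : Matrix (Fin n) (Fin n) F) ^ orderOf x = 1 := by
      have h2 : ((x ^ orderOf x : GL (Fin n) F) : Matrix (Fin n) (Fin n) F) =
          ((1 : GL (Fin n) F) : Matrix (Fin n) (Fin n) F) := by rw [pow_orderOf_eq_one]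
      rw [Units.val_pow_eq_pow_val, Units.val_one] at h2
      exact h2
    have hg : (g : Matrix (Fin n) (Fin n) F).det ≠ 0 := by
      have h1 : (g : Matrix (Fin n) (Fin n) F) * ((g⁻¹ : GL (Fin n) F) : Matrix (Fin n) (Fin n) F) = 1 := by
        rw [← Units.val_mul, mul_inv_cancel]; rfl
      intro h0
      have h2 := congrArg Matrix.det h1
      rw [Matrix.det_mul, h0, zero_mul, Matrix.det_one] at h2
      exact zero_ne_one h2
    obtain ⟨z, hzc, hzd⟩ := Cfsg.Agent.S2569.cent_det hn (x : Matrix (Fin n) (Fin n) F) (orderOf x) hk hXk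
      ((g : Matrix (Fin n) (Fin n) F).det)⁻¹
    have hz0 : z.det ≠ 0 := by rw [hzd]; exact inv_ne_zero hg
    have hcomm : Matrix.GeneralLinearGroup.mkOfDetNeZero z hz0 * x =
        x * Matrix.GeneralLinearGroup.mkOfDetNeZero z hz0 := by
      apply Units.ext
      exact hzc
    refine ⟨g * Matrix.GeneralLinearGroup.mkOfDetNeZero z hz0, ?_, ?_⟩
    · show ((g : Matrix (Fin n) (Fin n) F) * z).det = 1
      rw [Matrix.det_mul, hzd, mul_inv_cancel₀ hg]
    · have h3 : Matrix.GeneralLinearGroup.mkOfDetNeZero z hz0 * x *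
          (Matrix.GeneralLinearGroup.mkOfDetNeZero z hz0)⁻¹ = x := by
        rw [hcomm, mul_inv_cancel_right]
      calc g * Matrix.GeneralLinearGroup.mkOfDetNeZero z hz0 * x *
            (g * Matrix.GeneralLinearGroup.mkOfDetNeZero z hz0)⁻¹
          = g * (Matrix.GeneralLinearGroup.mkOfDetNeZero z hz0 * x *
            (Matrix.GeneralLinearGroup.mkOfDetNeZero z hz0)⁻¹) * g⁻¹ := by group
        _ = g * x * g⁻¹ := by rw [h3]

end Cfsg.Agent.S2569
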