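import Mathlib
import Cfsg.Statements.S2573

set_option autoImplicit false
open Cfsg

namespace Cfsg.Agent.S2573

theorem finrank_ker_comp_le {F V : Type*} [Field F] [AddCommGroup V] [Module F V]
    [FiniteDimensional F V] (f g : V →ₗ[F] V) :
    Module.finrank F (LinearMap.ker (g ∘ₗ f)) ≤
      Module.finrank F (LinearMap.ker f) + Module.finrank F (LinearMap.ker g) := by
  have hmem : ∀ x : LinearMap.ker (g ∘ₗ f), (f ∘ₗ (LinearMap.ker (g ∘ₗ f)).subtype) x ∈ LinearMap.ker g := by
    intro x
    have := x.2
    rw [LinearMap.mem_ker] at this ⊢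
    exact this
  have h1 := LinearMap.finrank_range_add_finrank_ker
    (LinearMap.codRestrict (LinearMap.ker g) (f ∘ₗ (LinearMap.ker (g ∘ₗ f)).subtype) hmem)
  have h2 : Module.finrank F (LinearMap.range
      (LinearMap.codRestrict (LinearMap.ker g) (f ∘ₗ (LinearMap.ker (g ∘ₗ f)).subtype) hmem)) ≤
      Module.finrank F (LinearMap.ker g) := Submodule.finrank_le _
  have h3 : Module.finrank F (LinearMap.ker
      (LinearMap.codRestrict (LinearMap.ker g) (f ∘ₗ (LinearMap.ker (g ∘ₗ f)).subtype) hmem)) ≤
      Module.finrank F (LinearMap.ker f) := by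
    have hmem2 : ∀ x : LinearMap.ker
        (LinearMap.codRestrict (LinearMap.ker g) (f ∘ₗ (LinearMap.ker (g ∘ₗ f)).subtype) hmem),
        ((LinearMap.ker (g ∘ₗ f)).subtype ∘ₗ (LinearMap.ker
        (LinearMap.codRestrict (LinearMap.ker g) (f ∘ₗ (LinearMap.ker (g ∘ₗ f)).subtype) hmem)).subtype) x ∈
        LinearMap.ker f := by
      intro x
      have := x.2
      rw [LinearMap.mem_ker] at this ⊢
      exact congrArg Subtype.val this
    have hj : Function.Injective (LinearMap.codRestrict (LinearMap.ker f) _ hmem2) := by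
      intro a b hab
      apply Subtype.ext
      apply Subtype.ext
      have h5 := congrArg Subtype.val hab
      exact h5
    exact LinearMap.finrank_le_finrank_of_injective hj
  omega

theorem finrank_ker_pow_le {F V : Type*} [Field F] [AddCommGroup V] [Module F V]
    [FiniteDimensional F V] (N : Module.End F V) (h1 : Module.finrank F (LinearMap.ker N) ≤ 1) :
    ∀ k : ℕ, Module.finrank F (LinearMap.ker (N ^ k)) ≤ k := by
  intro k
  induction k with
  | zero =>
    rw [pow_zero, Module.End.one_eq_id, LinearMap.ker_id, finrank_bot]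
  | succ k ih =>
    rw [pow_succ, Module.End.mul_eq_comp]
    have := finrank_ker_comp_le N (N ^ k)
    omega

theorem core {F ι : Type*} [Field F] [Fintype ι] [DecidableEq ι] (u : Matrix ι ι F)
    (hnil : (u - 1) ^ Fintype.card ι = 0) (hreg : (u - 1).rank = Fintype.card ι - 1)
    (W : Submodule F (ι → F)) (hW : ∀ v ∈ W, u.mulVec v ∈ W) :
    W = LinearMap.ker (Matrix.mulVecLin ((u - 1) ^ Module.finrank F W)) := by
  have hpow : ∀ k, Matrix.mulVecLin ((u - 1) ^ k) = (Matrix.toLinAlgEquiv' (u - 1)) ^ k := by
    intro k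
    rw [← map_pow]
    rfl
  rw [hpow]
  obtain ⟨N, hN⟩ : ∃ N : Module.End F (ι → F), N = Matrix.toLinAlgEquiv' (u - 1) := ⟨_, rfl⟩
  rw [← hN]
  have hNv : ∀ v, N v = u.mulVec v - v := by
    intro v
    rw [hN, Matrix.toLinAlgEquiv'_apply, Matrix.sub_mulVec, Matrix.one_mulVec]
  have hNn : N ^ Fintype.card ι = 0 := by
    rw [hN, ← map_pow, hnil, map_zero]
  have hdimV : Module.finrank F (ι → F) = Fintype.card ι := Module.finrank_fintype_fun_eq_card F
  have hker1 : Module.finrank F (LinearMap.ker N) ≤ 1 := by
    have h1 := LinearMap.finrank_range_add_finrank_ker N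
    have h2 : Module.finrank F (LinearMap.range N) = Fintype.card ι - 1 := by
      rw [← hreg, hN]
      rfl
    rw [h2, hdimV] at h1
    omega
  have hNW : ∀ v ∈ W, N v ∈ W := by
    intro v hv
    rw [hNv]
    exact W.sub_mem (hW v hv) hv
  have hMn : (N.restrict hNW) ^ Fintype.card ι = 0 := by
    rw [Module.End.pow_restrict]
    ext x
    simp [hNn]
  have hdW : Module.finrank F W ≤ Fintype.card ι := by
    have := Submodule.finrank_le W
    rw [hdimV] at this
    exact this
  have hMd : LinearMap.ker ((N.restrict hNW) ^ Module.finrank F W) = ⊤ := by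
    rw [← Module.End.ker_pow_eq_ker_pow_finrank_of_le hdW, hMn, LinearMap.ker_zero]
  have hle : W ≤ LinearMap.ker (N ^ Module.finrank F W) := by
    intro v hv
    have h1 : (⟨v, hv⟩ : W) ∈ LinearMap.ker ((N.restrict hNW) ^ Module.finrank F W) := by
      rw [hMd]; trivial
    rw [LinearMap.mem_ker, Module.End.pow_restrict] at h1
    have h2 := congrArg Subtype.val h1
    rw [LinearMap.mem_ker]
    simpa using h2
  exact Submodule.eq_of_le_of_finrank_le hle (finrank_ker_pow_le N hker1 _)

/-- The invariant subspaces of a regular unipotent matrix form a chain: over a finite field, if u is an n × n matrix with (u − 1)^n = 0 and rank(u − 1) = n − 1, then every subspace W of F^n with u W ⊆ W is the kernel of (u − 1)^(dim W); so u has at most one invariant subspace of each dimension. -/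
theorem result {F : Type*} [Field F] [Finite F] {n : ℕ} (u : Matrix (Fin n) (Fin n) F) (hnil : (u - 1) ^ n = 0) (hreg : (u - 1).rank = n - 1) (W : Submodule F (Fin n → F)) (hW : ∀ v ∈ W, u.mulVec v ∈ W) : W = LinearMap.ker (Matrix.mulVecLin ((u - 1) ^ Module.finrank F W)) := by
  have h := core u (by simpa using hnil) (by simpa using hreg) W hW
  exact h

end Cfsg.Agent.S2573
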