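import Mathlib
import Cfsg.Statements.S2574
import Cfsg.Agent.S2573
import Cfsg.Agent.Lib.Helper5.Symp

set_option autoImplicit false
open Cfsg

namespace Cfsg.Agent.S2574

/-- A regular unipotent element of the symplectic group has totally isotropic small invariant subspaces: over a finite field, if u ∈ Sp_2m(F) satisfies (u − 1)^(2m) = 0 and rank(u − 1) = 2m − 1, and W is a u-invariant subspace with 2 dim W ≤ 2m, then the alternating form vanishes identically on W. -/
theorem result {F : Type*} [Field F] [Finite F] {m : ℕ} (u : Matrix.symplecticGroup (Fin m) F) (hnil : ((u : Matrix (Fin m ⊕ Fin m) (Fin m ⊕ Fin m) F) - 1) ^ (2 * m) = 0) (hreg : ((u : Matrix (Fin m ⊕ Fin m) (Fin m ⊕ Fin m) F) - 1).rank = 2 * m - 1) (W : Submodule F (Fin m ⊕ Fin m → F)) (hW : ∀ v ∈ W, (u : Matrix (Fin m ⊕ Fin m) (Fin m ⊕ Fin m) F).mulVec v ∈ W) (hdim : 2 * Module.finrank F W ≤ 2 * m) : ∀ v ∈ W, ∀ w ∈ W, Cfsg.sympForm m F v w = 0 := by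
-----
  classical
  obtain ⟨B, hBdef⟩ : ∃ B : LinearMap.BilinForm F (Fin m ⊕ Fin m → F),
      B = Matrix.toBilin' (Matrix.J (Fin m) F) := ⟨_, rfl⟩
  have hBapp : ∀ x y, B x y = Cfsg.sympForm m F x y := by
    intro x y
    rw [hBdef, Matrix.toBilin'_apply']
    rfl
  have hBnd : B.Nondegenerate := by
    rw [hBdef, LinearMap.BilinForm.nondegenerate_toBilin'_iff_det_ne_zero]
    intro h0
    have := Matrix.J_det_mul_J_det (Fin m) F
    rw [h0, zero_mul] at this
    exact zero_ne_one this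
  have hcard : Fintype.card (Fin m ⊕ Fin m) = 2 * m := by
    simp; omega
  have hdimV : Module.finrank F (Fin m ⊕ Fin m → F) = 2 * m := by
    rw [Module.finrank_fintype_fun_eq_card, hcard]
  have hinjW : Function.Injective ((Matrix.mulVecLin (u : Matrix (Fin m ⊕ Fin m) (Fin m ⊕ Fin m) F)).restrict hW) := by
    intro a b hab
    have h1 : (u : Matrix (Fin m ⊕ Fin m) (Fin m ⊕ Fin m) F).mulVec (a : Fin m ⊕ Fin m → F) =
        (u : Matrix (Fin m ⊕ Fin m) (Fin m ⊕ Fin m) F).mulVec (b : Fin m ⊕ Fin m → F) :=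
      congrArg Subtype.val hab
    have h2 := congrArg (fun z => ((u⁻¹ : Matrix.symplecticGroup (Fin m) F) :
      Matrix (Fin m ⊕ Fin m) (Fin m ⊕ Fin m) F).mulVec z) h1
    simp only [Matrix.mulVec_mulVec] at h2
    have h3 : ((u⁻¹ : Matrix.symplecticGroup (Fin m) F) : Matrix (Fin m ⊕ Fin m) (Fin m ⊕ Fin m) F) *
        (u : Matrix (Fin m ⊕ Fin m) (Fin m ⊕ Fin m) F) = 1 := by
      have := congrArg Subtype.val (inv_mul_cancel u); exact this
    rw [h3, Matrix.one_mulVec, Matrix.one_mulVec] at h2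
    exact Subtype.ext h2
  have hsurjW := LinearMap.injective_iff_surjective.1 hinjW
  have hWp : ∀ v ∈ B.orthogonal W, (u : Matrix (Fin m ⊕ Fin m) (Fin m ⊕ Fin m) F).mulVec v ∈ B.orthogonal W := by
    intro w hw x hx
    obtain ⟨y, hy⟩ := hsurjW ⟨x, hx⟩
    have hy' : (u : Matrix (Fin m ⊕ Fin m) (Fin m ⊕ Fin m) F).mulVec (y : Fin m ⊕ Fin m → F) = x :=
      congrArg Subtype.val hy
    rw [hBapp, ← hy', Cfsg.Agent.Lib.Helper5.sympForm_mulVec_of_mem m _ u.2, ← hBapp]
    exact hw y y.2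
  have e1 := Cfsg.Agent.S2573.core (u : Matrix (Fin m ⊕ Fin m) (Fin m ⊕ Fin m) F)
    (by rw [hcard]; exact hnil) (by rw [hcard]; exact hreg) W hW
  have e2 := Cfsg.Agent.S2573.core (u : Matrix (Fin m ⊕ Fin m) (Fin m ⊕ Fin m) F)
    (by rw [hcard]; exact hnil) (by rw [hcard]; exact hreg) (B.orthogonal W) hWp
  have e3 := LinearMap.BilinForm.finrank_orthogonal hBnd W
  rw [hdimV] at e3
  have hle : W ≤ B.orthogonal W := by
    have hd : Module.finrank F W ≤ Module.finrank F (B.orthogonal W) := by omega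
    obtain ⟨c, hc⟩ := Nat.exists_eq_add_of_le hd
    have h4 : LinearMap.ker (Matrix.mulVecLin (((u : Matrix (Fin m ⊕ Fin m) (Fin m ⊕ Fin m) F) - 1) ^
        Module.finrank F W)) ≤ LinearMap.ker (Matrix.mulVecLin
        (((u : Matrix (Fin m ⊕ Fin m) (Fin m ⊕ Fin m) F) - 1) ^ Module.finrank F (B.orthogonal W))) := by
      rw [hc, add_comm, pow_add, Matrix.mulVecLin_mul]
      exact LinearMap.ker_le_ker_comp _ _
    calc W = _ := e1
      _ ≤ _ := h4
      _ = B.orthogonal W := e2.symm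
  intro v hv w hw
  rw [← hBapp]
  exact hle hw v hv

end Cfsg.Agent.S2574
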