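import Cfsg.Statements.S2575
-- import your own Cfsg.Agent.* helpers here
import Cfsg.Agent.Lib.Helper7.TwoAdic

set_option autoImplicit false
open Cfsg

namespace Cfsg.Agent.S2575


open Cfsg.Agent.Lib.Helper7

/-- Which diagonal involutions of PGL_n(q) lie in PSL_n(q), q odd: for the diagonal matrix t with i entries −1 and n − i entries 1, some non-zero scalar multiple of t has determinant one if and only if i is even or the 2-part of q − 1 exceeds the 2-part of n (that is, −1 is an n-th power in the field exactly in the latter case). -/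
theorem result {F : Type*} [Field F] [Fintype F] {q : ℕ} (hF : Fintype.card F = q) (hq : Odd q) {n : ℕ} (hn : 1 ≤ n) (i : ℕ) (hi : i ≤ n) : (∃ c : F, c ≠ 0 ∧ (c • Matrix.diagonal (fun j : Fin n => if (j : ℕ) < i then (-1 : F) else 1)).det = 1) ↔ (Even i ∨ padicValNat 2 n < padicValNat 2 (q - 1)) := by
  subst hF
  have hdet : ∀ c : F, (c • Matrix.diagonal
      (fun j : Fin n => if (j : ℕ) < i then (-1 : F) else 1)).det = c ^ n * (-1) ^ i := by
    intro c
    rw [Matrix.det_smul, Matrix.det_diagonal, Fintype.card_fin]
    congr 1
    rw [Fin.prod_univ_eq_prod_range (fun j => if j < i then (-1 : F) else 1) n]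
    rw [Finset.prod_ite, Finset.prod_const, Finset.prod_const_one, mul_one]
    congr 1
    have e : (Finset.range n).filter (fun j => j < i) = Finset.range i := by
      ext j
      simp only [Finset.mem_filter, Finset.mem_range]
      omega
    rw [e, Finset.card_range]
  simp only [hdet]
  rw [← ta_exists_pow_eq_neg_one hq hn]
  rcases Nat.even_or_odd i with he | ho
  · rw [he.neg_one_pow]
    constructor
    · intro _
      exact Or.inl he
    · intro _
      exact ⟨1, one_ne_zero, by rw [one_pow, mul_one]⟩
  · rw [ho.neg_one_pow]
    constructor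
    · rintro ⟨c, hc0, hc⟩
      right
      refine ⟨c, hc0, ?_⟩
      linear_combination (-1 : F) * hc
    · rintro (he | ⟨c, hc0, hc⟩)
      · exact absurd he (Nat.not_even_iff_odd.mpr ho)
      · exact ⟨c, hc0, by rw [hc]; norm_num⟩

end Cfsg.Agent.S2575
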