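import Cfsg.Statements.S2576
-- import your own Cfsg.Agent.* helpers here
import Cfsg.Agent.Lib.Helper7.TwoAdic

set_option autoImplicit false
open Cfsg

namespace Cfsg.Agent.S2576


open Cfsg.Agent.Lib.Helper7

/-- Which involutions of PGL_2m(q) coming from a scalar of the quadratic extension field lie in PSL_2m(q), q odd: let μ generate the Sylow 2-subgroup of the multiplicative group of the field with q elements (μ has order the 2-part of q − 1) and let t be the block-diagonal matrix with m diagonal blocks [[0, 1], [μ, 0]] (so t² is the scalar μ and t is an involution modulo scalars). Then some non-zero scalar multiple of t has determinant one if and only if q ≡ 3 (mod 4) or the 2-part of q − 1 is less than the 2-part of 2m. -/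
theorem result {F : Type*} [Field F] [Fintype F] {q : ℕ} (hF : Fintype.card F = q) (hq : Odd q) {m : ℕ} (hm : 1 ≤ m) (μ : F) (hμ : orderOf μ = 2 ^ padicValNat 2 (q - 1)) : (∃ c : F, c ≠ 0 ∧ (c • Matrix.blockDiagonal (fun _ : Fin m => !![(0 : F), 1; μ, 0])).det = 1) ↔ (q % 4 = 3 ∨ padicValNat 2 (q - 1) < padicValNat 2 (2 * m)) := by
  subst hF
  have hdet : ∀ c : F, (c • Matrix.blockDiagonal
      (fun _ : Fin m => !![(0 : F), 1; μ, 0])).det = c ^ (2 * m) * (-μ) ^ m := by
    intro c
    rw [Matrix.det_smul, Matrix.det_blockDiagonal, Fintype.card_prod, Fintype.card_fin,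
      Fintype.card_fin]
    simp [Matrix.det_fin_two_of]
  simp only [hdet]
  obtain ⟨N, hNdef⟩ : ∃ N, N = Fintype.card F - 1 := ⟨_, rfl⟩
  rw [← hNdef] at hμ ⊢
  have hN : N ≠ 0 := hNdef ▸ ta_card_sub_one_ne_zero
  obtain ⟨s, N', hN'odd, hNeq⟩ := Nat.exists_eq_two_pow_mul_odd hN
  have hs : padicValNat 2 N = s := by rw [hNeq]; exact ta_val_two_pow_mul_odd s N' hN'odd
  rw [hs] at hμ ⊢
  have hcard1 : 1 ≤ Fintype.card F := Fintype.card_pos
  have hs1 : 1 ≤ s := by
    by_contra hcon
    have hs0 : s = 0 := by omega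
    rw [hs0, pow_zero, one_mul] at hNeq
    rw [hNeq] at hNdef
    obtain ⟨t, ht⟩ := hN'odd
    obtain ⟨u, hu⟩ := hq
    omega
  have hμ1 : μ ^ (2 ^ s) = 1 := by rw [← hμ]; exact pow_orderOf_eq_one μ
  have hμ2 : μ ^ (2 ^ (s - 1)) = -1 := by
    have h1 : (μ ^ (2 ^ (s - 1))) ^ 2 = 1 := by
      rw [← pow_mul, ← pow_succ, Nat.sub_add_cancel hs1, hμ1]
    rcases sq_eq_one_iff.mp h1 with h | h
    · exfalso
      have h2 := orderOf_dvd_of_pow_eq_one h
      rw [hμ] at h2
      have h3 := (Nat.pow_dvd_pow_iff_le_right (by norm_num)).mp h2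
      omega
    · exact h
  have hm0 : m ≠ 0 := by omega
  have hv2m : padicValNat 2 (2 * m) = padicValNat 2 m + 1 := ta_val_two_mul m hm0
  haveI : Fact (Nat.Prime 2) := ⟨Nat.prime_two⟩
  by_cases hs' : s = 1
  · subst hs'
    have hμ' : μ = -1 := by simpa using hμ2
    have hq4 : Fintype.card F % 4 = 3 := by
      obtain ⟨t, ht⟩ := hN'odd
      rw [ht] at hNeq
      omega
    constructor
    · intro _
      exact Or.inl hq4
    · intro _
      exact ⟨1, one_ne_zero, by rw [hμ']; simp⟩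
  · have hs2 : 2 ≤ s := by omega
    have hq4 : Fintype.card F % 4 ≠ 3 := by
      have h4 : 4 ∣ N := by
        rw [hNeq]
        exact Dvd.dvd.mul_right (pow_dvd_pow 2 hs2 : 2 ^ 2 ∣ 2 ^ s) N'
      obtain ⟨u, hu⟩ := h4
      omega
    have hev : Even (2 ^ (s - 1)) := (Nat.even_pow.mpr ⟨even_two, by omega⟩)
    have hnegμ : (-μ) ^ (2 ^ (s - 1)) = -1 := by
      rw [neg_pow, hμ2, hev.neg_one_pow, one_mul]
    have hNhalf : 2 * (2 ^ (s - 1) * N') = Fintype.card F - 1 := by
      rw [← hNdef, hNeq, ← mul_assoc, ← pow_succ', Nat.sub_add_cancel hs1]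
    constructor
    · rintro ⟨c, hc0, hc⟩
      right
      rw [hv2m]
      have hy : (c ^ 2 * (-μ)) ^ m = 1 := by
        rw [mul_pow, ← pow_mul]; exact hc
      have hμ0 : μ ≠ 0 := by
        rintro rfl
        rw [zero_pow (by positivity)] at hμ1
        exact zero_ne_one hμ1
      have hy0 : c ^ 2 * (-μ) ≠ 0 := mul_ne_zero (pow_ne_zero 2 hc0) (neg_ne_zero.mpr hμ0)
      have hyN : (c ^ 2 * (-μ)) ^ (2 * (2 ^ (s - 1) * N')) = 1 := by
        rw [hNhalf]; exact FiniteField.pow_card_sub_one_eq_one _ hy0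
      have hyh : (c ^ 2 * (-μ)) ^ (2 ^ (s - 1) * N') = -1 := by
        rw [mul_pow, ← pow_mul, pow_mul (-μ), hnegμ, hN'odd.neg_one_pow, hNhalf,
          FiniteField.pow_card_sub_one_eq_one c hc0, one_mul]
      have h3 : ¬ orderOf (c ^ 2 * (-μ)) ∣ 2 ^ (s - 1) * N' := by
        intro h
        rw [orderOf_dvd_iff_pow_eq_one, hyh] at h
        exact ta_neg_one_ne_one hq h
      have hk0 : 2 ^ (s - 1) * N' ≠ 0 := by
        intro h
        rw [h, mul_zero] at hNhalf
        omega
      have h4 := ta_val_lt_of_dvd_two_mul hk0 (orderOf_dvd_of_pow_eq_one hyN) h3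
      have h5 := ta_val_le_of_dvd hm0 (orderOf_dvd_of_pow_eq_one hy)
      have h6 : padicValNat 2 (2 ^ (s - 1) * N') = s - 1 := ta_val_two_pow_mul_odd (s - 1) N' hN'odd
      omega
    · rintro (h | h)
      · exact absurd h hq4
      · rw [hv2m] at h
        have h1 : 2 ^ s ∣ m := (padicValNat_dvd_iff_le hm0).mpr (by omega)
        obtain ⟨t, ht⟩ := h1
        have hev2 : Even (2 ^ s) := (Nat.even_pow.mpr ⟨even_two, by omega⟩)
        refine ⟨1, one_ne_zero, ?_⟩
        rw [one_pow, one_mul, ht, pow_mul, neg_pow, hμ1, hev2.neg_one_pow, one_mul, one_pow]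

end Cfsg.Agent.S2576
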