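import Cfsg.Statements.S2578
import Mathlib
-- import your own Cfsg.Agent.* helpers here

set_option autoImplicit false
open Cfsg

namespace Cfsg.Agent.S2578

theorem rank_step {F V : Type*} [Field F] [AddCommGroup V] [Module F V] [FiniteDimensional F V]
    (f g : V →ₗ[F] V) :
    Module.finrank F (LinearMap.range g) ≤
      Module.finrank F (LinearMap.range (f ∘ₗ g)) + Module.finrank F (LinearMap.ker f) := by
  have h1 := LinearMap.finrank_range_add_finrank_ker (f.domRestrict (LinearMap.range g))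
  have h2 : LinearMap.range (f.domRestrict (LinearMap.range g)) = LinearMap.range (f ∘ₗ g) := by
    ext x
    constructor
    · rintro ⟨⟨y, ⟨w, rfl⟩⟩, rfl⟩
      exact ⟨w, rfl⟩
    · rintro ⟨w, rfl⟩
      exact ⟨⟨g w, ⟨w, rfl⟩⟩, rfl⟩
  have h3 : Module.finrank F (LinearMap.ker (f.domRestrict (LinearMap.range g))) ≤
      Module.finrank F (LinearMap.ker f) := by
    let φ : LinearMap.ker (f.domRestrict (LinearMap.range g)) →ₗ[F] LinearMap.ker f :=
      { toFun := fun x => ⟨x.1.1, by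
          have := x.2
          rw [LinearMap.mem_ker] at this ⊢
          exact this⟩
        map_add' := fun x y => rfl
        map_smul' := fun c x => rfl }
    apply LinearMap.finrank_le_finrank_of_injective (f := φ)
    intro x y h
    have h' : ((φ x : LinearMap.ker f) : V) = ((φ y : LinearMap.ker f) : V) :=
      congrArg Subtype.val h
    exact Subtype.ext (Subtype.ext h')
  rw [h2] at h1
  omega

theorem cyc {F V : Type*} [Field F] [AddCommGroup V] [Module F V] [FiniteDimensional F V]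
    (f : V →ₗ[F] V) (n : ℕ) (hn : 1 ≤ n) (hV : Module.finrank F V = n)
    (hr : Module.finrank F (LinearMap.range f) = n - 1) : ∃ v, (f ^ (n - 1)) v ≠ 0 := by
  have hk : Module.finrank F (LinearMap.ker f) = 1 := by
    have := LinearMap.finrank_range_add_finrank_ker f
    omega
  have key : ∀ j : ℕ, n ≤ Module.finrank F (LinearMap.range (f ^ j)) + j := by
    intro j
    induction j with
    | zero =>
      have : LinearMap.range (f ^ 0) = ⊤ := by
        rw [pow_zero]
        exact LinearMap.range_eq_top.mpr (fun x => ⟨x, rfl⟩)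
      rw [this, finrank_top, hV]
      omega
    | succ j ih =>
      have := Cfsg.Agent.S2578.rank_step f (f ^ j)
      have e : f ^ (j + 1) = f ∘ₗ (f ^ j) := by rw [pow_succ']; rfl
      rw [e]
      omega
  by_contra hcon
  push_neg at hcon
  have h0 : f ^ (n - 1) = 0 := LinearMap.ext hcon
  have := key (n - 1)
  rw [h0] at this
  have h00 : Module.finrank F (LinearMap.range (0 : V →ₗ[F] V)) = 0 := by
    rw [LinearMap.range_zero]; simp
  omega

theorem indep {F V : Type*} [Field F] [AddCommGroup V] [Module F V] (f : V →ₗ[F] V) (n : ℕ)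
    (hf : f ^ n = 0) (v : V) (hv : (f ^ (n - 1)) v ≠ 0) :
    LinearIndependent F (fun i : Fin n => (f ^ (i : ℕ)) v) := by
  rw [Fintype.linearIndependent_iff]
  intro g hg
  have key : ∀ k : ℕ, ∀ i : Fin n, (i : ℕ) = k → g i = 0 := by
    intro k
    induction k using Nat.strong_induction_on with
    | _ k ih =>
      intro i hik
      have h1 := congrArg (f ^ (n - 1 - (i:ℕ))) hg
      rw [map_sum, map_zero] at h1
      rw [Finset.sum_eq_single i] at h1
      · rw [map_smul] at h1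
        have h2 : (f ^ (n - 1 - (i:ℕ))) ((f ^ (i:ℕ)) v) = (f ^ (n - 1)) v := by
          rw [← Module.End.mul_apply, ← pow_add]
          congr 2
          have := i.2
          omega
        rw [h2] at h1
        exact (smul_eq_zero.mp h1).resolve_right hv
      · intro j _ hji
        rw [map_smul]
        rcases lt_or_gt_of_ne (fun h => hji (Fin.ext h) : (j:ℕ) ≠ (i:ℕ)) with hlt | hgt
        · rw [ih (j:ℕ) (hik ▸ hlt) j rfl, zero_smul]
        · have h3 : (f ^ (n - 1 - (i:ℕ))) ((f ^ (j:ℕ)) v) = 0 := by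
            rw [← Module.End.mul_apply, ← pow_add]
            have hge : n ≤ n - 1 - (i:ℕ) + (j:ℕ) := by have := i.2; omega
            obtain ⟨d, hd⟩ := Nat.exists_eq_add_of_le hge
            rw [hd, pow_add, hf, zero_mul, LinearMap.zero_apply]
          rw [h3, smul_zero]
      · intro h
        exact absurd (Finset.mem_univ i) h
  intro i
  exact key i i rfl

theorem rank_of_cyc {F V : Type*} [Field F] [AddCommGroup V] [Module F V] [FiniteDimensional F V]
    (f : V →ₗ[F] V) (n : ℕ) (hn : 1 ≤ n) (hV : Module.finrank F V = n)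
    (hf : f ^ n = 0) (v : V) (hv : (f ^ (n - 1)) v ≠ 0) :
    Module.finrank F (LinearMap.range f) = n - 1 := by
  have hli := Cfsg.Agent.S2578.indep f n hf v hv
  have hlow : n - 1 ≤ Module.finrank F (LinearMap.range f) := by
    let w : Fin (n - 1) → LinearMap.range f := fun i =>
      ⟨(f ^ ((i:ℕ) + 1)) v, ⟨(f ^ (i:ℕ)) v, by rw [pow_succ', Module.End.mul_apply]⟩⟩
    have hw : LinearIndependent F w := by
      apply LinearIndependent.of_comp (LinearMap.range f).subtype
      have : (LinearMap.range f).subtype ∘ w = (fun i : Fin n => (f ^ (i:ℕ)) v) ∘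
          (fun i : Fin (n-1) => (⟨(i:ℕ) + 1, by have := i.2; omega⟩ : Fin n)) := by
        funext i; rfl
      rw [this]
      exact hli.comp _ (by
        intro a b h
        have := congrArg Fin.val h
        simp at this
        exact Fin.ext this)
    have := hw.fintype_card_le_finrank
    simpa using this
  have hker : 1 ≤ Module.finrank F (LinearMap.ker f) := by
    rw [Submodule.one_le_finrank_iff]
    intro h
    have hmem : (f ^ (n - 1)) v ∈ LinearMap.ker f := by
      rw [LinearMap.mem_ker, ← Module.End.mul_apply, ← pow_succ', show n - 1 + 1 = n by omega, hf,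
        LinearMap.zero_apply]
    rw [h] at hmem
    exact hv ((Submodule.mem_bot F).mp hmem)
  have := LinearMap.finrank_range_add_finrank_ker f
  omega

theorem conj_cyc {F V : Type*} [Field F] [AddCommGroup V] [Module F V] [FiniteDimensional F V]
    (f f' : V →ₗ[F] V) (n : ℕ) (hn : 1 ≤ n) (hV : Module.finrank F V = n) (hf : f ^ n = 0)
    (hf' : f' ^ n = 0)
    (v v' : V) (hv : (f ^ (n - 1)) v ≠ 0) (hv' : (f' ^ (n - 1)) v' ≠ 0) :
    ∃ P : V ≃ₗ[F] V, ∀ x, P (f x) = f' (P x) := by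
  haveI : Nonempty (Fin n) := ⟨⟨0, by omega⟩⟩
  have hli := Cfsg.Agent.S2578.indep f n hf v hv
  have hli' := Cfsg.Agent.S2578.indep f' n hf' v' hv'
  let b := basisOfLinearIndependentOfCardEqFinrank hli (by simp [hV])
  let b' := basisOfLinearIndependentOfCardEqFinrank hli' (by simp [hV])
  have hb : ∀ i, b i = (f ^ (i:ℕ)) v := fun i => by simp [b]
  have hb' : ∀ i, b' i = (f' ^ (i:ℕ)) v' := fun i => by simp [b']
  refine ⟨b.equiv b' (Equiv.refl _), ?_⟩
  have hcomp : (b.equiv b' (Equiv.refl _)).toLinearMap ∘ₗ f =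
      f' ∘ₗ (b.equiv b' (Equiv.refl _)).toLinearMap := by
    apply b.ext
    intro i
    simp only [LinearMap.comp_apply, LinearEquiv.coe_coe, Module.Basis.equiv_apply, Equiv.refl_apply]
    rw [hb' i, hb i]
    by_cases hi : (i:ℕ) + 1 < n
    · have e1 : f ((f ^ (i:ℕ)) v) = b ⟨(i:ℕ)+1, hi⟩ := by
        rw [hb]; simp [pow_succ', Module.End.mul_apply]
      rw [e1, Module.Basis.equiv_apply, Equiv.refl_apply, hb']
      simp [pow_succ', Module.End.mul_apply]
    · have hin : (i:ℕ) + 1 = n := by have := i.2; omega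
      have e1 : f ((f ^ (i:ℕ)) v) = 0 := by
        rw [← Module.End.mul_apply, ← pow_succ', hin, hf, LinearMap.zero_apply]
      have e2 : f' ((f' ^ (i:ℕ)) v') = 0 := by
        rw [← Module.End.mul_apply, ← pow_succ', hin, hf', LinearMap.zero_apply]
      rw [e1, e2, map_zero]
  intro x
  exact LinearMap.congr_fun hcomp x

theorem cent_nilp {F V : Type*} [Field F] [AddCommGroup V] [Module F V] [FiniteDimensional F V]
    (f z : V →ₗ[F] V) (n : ℕ) (hn : 1 ≤ n) (hV : Module.finrank F V = n) (hf : f ^ n = 0)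
    (v : V) (hv : (f ^ (n - 1)) v ≠ 0) (hz : z * f = f * z) :
    ∃ a : F, IsNilpotent (z - a • (1 : V →ₗ[F] V)) := by
  obtain ⟨m, rfl⟩ : ∃ m, n = m + 1 := ⟨n - 1, by omega⟩
  have hli := Cfsg.Agent.S2578.indep f (m+1) hf v hv
  let b := basisOfLinearIndependentOfCardEqFinrank hli (by simp [hV])
  have hb : ∀ i, b i = (f ^ (i:ℕ)) v := fun i => by simp [b]
  obtain ⟨c, hc⟩ : ∃ c : Fin (m+1) → F, ∑ i, c i • (f ^ (i:ℕ)) v = z v := by
    refine ⟨fun i => b.repr (z v) i, ?_⟩
    have := b.sum_repr (z v)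
    simp only [hb] at this
    exact this
  have hzk : ∀ k : ℕ, z * f ^ k = f ^ k * z := fun k => ((show Commute z f from hz).pow_right k)
  have hzp : z = ∑ i, c i • f ^ (i:ℕ) := by
    apply b.ext
    intro k
    rw [hb k]
    have e1 : z ((f ^ (k:ℕ)) v) = (f ^ (k:ℕ)) (z v) := by
      rw [← Module.End.mul_apply, hzk, Module.End.mul_apply]
    rw [e1, ← hc, map_sum, LinearMap.sum_apply]
    apply Finset.sum_congr rfl
    intro i _
    rw [map_smul, LinearMap.smul_apply, ← Module.End.mul_apply, ← Module.End.mul_apply, ← pow_add,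
      ← pow_add, add_comm]
  refine ⟨c 0, ?_⟩
  have hsplit : z - c 0 • (1 : V →ₗ[F] V) = f * ∑ i : Fin m, c i.succ • f ^ (i:ℕ) := by
    rw [hzp, Fin.sum_univ_succ]
    simp only [Fin.val_zero, pow_zero, Fin.val_succ]
    rw [add_sub_cancel_left, Finset.mul_sum]
    apply Finset.sum_congr rfl
    intro i _
    rw [mul_smul_comm, pow_succ']
  have hcomm : Commute f (∑ i : Fin m, c i.succ • f ^ (i:ℕ)) :=
    Commute.sum_right _ _ _ (fun i _ => ((Commute.refl f).pow_right _).smul_right _)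
  exact ⟨m + 1, by rw [hsplit, hcomm.mul_pow, hf, zero_mul]⟩

theorem det_smul_one_add_nilp {n : ℕ} {F : Type*} [Field F] (M : Matrix (Fin n) (Fin n) F)
    (hM : IsNilpotent M) (a : F) :
    (a • (1 : Matrix (Fin n) (Fin n) F) + M).det = a ^ n := by
  have h1 := Matrix.isNilpotent_charpoly_sub_pow_of_isNilpotent hM.neg
  have h2 : (-M).charpoly = Polynomial.X ^ n := by
    have := h1.eq_zero
    rw [sub_eq_zero] at this
    simpa using this
  have h3 := Matrix.eval_charpoly (-M) a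
  rw [h2] at h3
  simp only [Polynomial.eval_pow, Polynomial.eval_X] at h3
  rw [h3]
  congr 1
  rw [sub_neg_eq_add]
  congr 1
  ext i j
  by_cases h : i = j <;> simp [Matrix.one_apply, Matrix.diagonal_apply, h]

theorem exists_J (n : ℕ) (hn : 1 ≤ n) (F : Type*) [Field F] :
    ∃ J : Matrix (Fin n) (Fin n) F, J ^ n = 0 ∧ J ^ (n - 1) ≠ 0 := by
  obtain ⟨J, hJ⟩ : ∃ J : Matrix (Fin n) (Fin n) F,
      ∀ i j, J i j = if (j:ℕ) + 1 = (i:ℕ) then 1 else 0 :=
    ⟨fun i j => if (j:ℕ) + 1 = (i:ℕ) then 1 else 0, fun i j => rfl⟩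
  have hpow : ∀ k (i j : Fin n), (J ^ k) i j = if (j:ℕ) + k = (i:ℕ) then 1 else 0 := by
    intro k
    induction k with
    | zero =>
      intro i j
      rw [pow_zero, Matrix.one_apply]
      by_cases h : i = j
      · subst h; simp
      · have : ¬ ((j:ℕ) + 0 = (i:ℕ)) := fun h' => h (Fin.ext (by omega))
        rw [if_neg h, if_neg this]
    | succ k ih =>
      intro i j
      rw [pow_succ, Matrix.mul_apply]
      by_cases h : (j:ℕ) + (k + 1) = (i:ℕ)
      · rw [if_pos h]
        have hl : (j:ℕ) + 1 < n := by have := i.2; omega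
        rw [Finset.sum_eq_single (⟨(j:ℕ) + 1, hl⟩ : Fin n)]
        · rw [ih, hJ, if_pos (by simp; omega), if_pos (by simp), mul_one]
        · intro l _ hl'
          have : ¬ ((j:ℕ) + 1 = (l:ℕ)) := fun h' => hl' (Fin.ext h'.symm)
          rw [hJ, if_neg this, mul_zero]
        · intro h'
          exact absurd (Finset.mem_univ _) h'
      · rw [if_neg h]
        apply Finset.sum_eq_zero
        intro l _
        rw [ih, hJ]
        by_cases h1 : (l:ℕ) + k = (i:ℕ)
        · have : ¬ ((j:ℕ) + 1 = (l:ℕ)) := by omega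
          rw [if_neg this, mul_zero]
        · rw [if_neg h1, zero_mul]
  refine ⟨J, ?_, ?_⟩
  · ext i j
    rw [hpow]
    have := i.2
    rw [if_neg (by omega)]
    rfl
  · intro h
    have := hpow (n - 1) ⟨n - 1, by omega⟩ ⟨0, by omega⟩
    rw [h] at this
    simp at this

theorem toLin_rank {n : ℕ} {F : Type*} [Field F] (A : Matrix (Fin n) (Fin n) F) :
    Module.finrank F (LinearMap.range (Matrix.toLinAlgEquiv' A)) = A.rank := by
  have e : (Matrix.toLinAlgEquiv' A : (Fin n → F) →ₗ[F] (Fin n → F)) = A.mulVecLin :=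
    LinearMap.ext fun v => by simp [Matrix.toLinAlgEquiv'_apply, Matrix.mulVecLin_apply]
  rw [e]
  rfl

theorem exists_cyc_of_pow_ne {n : ℕ} {F : Type*} [Field F] (J : Matrix (Fin n) (Fin n) F)
    (hJn1 : J ^ (n - 1) ≠ 0) :
    ∃ v : Fin n → F, ((Matrix.toLinAlgEquiv' J : (Fin n → F) →ₗ[F] (Fin n → F)) ^ (n - 1)) v ≠ 0 := by
  by_contra hcon
  push_neg at hcon
  apply hJn1
  apply (Matrix.toLinAlgEquiv' (R := F) (n := Fin n)).injective
  rw [map_pow, map_zero]
  exact LinearMap.ext hcon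

theorem rank_J {n : ℕ} (hn : 1 ≤ n) {F : Type*} [Field F] (J : Matrix (Fin n) (Fin n) F)
    (hJn : J ^ n = 0) (hJn1 : J ^ (n - 1) ≠ 0) : J.rank = n - 1 := by
  obtain ⟨v, hv⟩ := Cfsg.Agent.S2578.exists_cyc_of_pow_ne J hJn1
  rw [← Cfsg.Agent.S2578.toLin_rank]
  exact Cfsg.Agent.S2578.rank_of_cyc _ n hn (Module.finrank_fin_fun F) (by rw [← map_pow, hJn, map_zero]) v hv

theorem normal_form {n : ℕ} (hn : 1 ≤ n) {F : Type*} [Field F] (J : Matrix (Fin n) (Fin n) F)
    (hJn : J ^ n = 0) (hJn1 : J ^ (n - 1) ≠ 0) (A : Matrix (Fin n) (Fin n) F)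
    (h1 : (A - 1) ^ n = 0) (h2 : (A - 1).rank = n - 1) :
    ∃ g : Matrix (Fin n) (Fin n) F, g.det ≠ 0 ∧ g * A = (1 + J) * g := by
  obtain ⟨v', hv'⟩ := Cfsg.Agent.S2578.exists_cyc_of_pow_ne J hJn1
  have hfn : (Matrix.toLinAlgEquiv' (A - 1) : (Fin n → F) →ₗ[F] (Fin n → F)) ^ n = 0 := by
    rw [← map_pow, h1, map_zero]
  have hfn' : (Matrix.toLinAlgEquiv' J : (Fin n → F) →ₗ[F] (Fin n → F)) ^ n = 0 := by
    rw [← map_pow, hJn, map_zero]
  obtain ⟨v, hv⟩ := Cfsg.Agent.S2578.cyc (Matrix.toLinAlgEquiv' (A - 1)) n hn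
    (Module.finrank_fin_fun F) (by rw [Cfsg.Agent.S2578.toLin_rank, h2])
  obtain ⟨P, hP⟩ := Cfsg.Agent.S2578.conj_cyc _ _ n hn (Module.finrank_fin_fun F) hfn hfn' v v' hv hv'
  let φ := (Matrix.toLinAlgEquiv' (R := F) (n := Fin n))
  refine ⟨φ.symm P.toLinearMap, ?_, ?_⟩
  · have hmul : φ.symm P.toLinearMap * φ.symm P.symm.toLinearMap = 1 := by
      rw [← map_mul]
      have : (P.toLinearMap * P.symm.toLinearMap : (Fin n → F) →ₗ[F] (Fin n → F)) = 1 := by
        apply LinearMap.ext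
        intro x
        simp [Module.End.mul_apply]
      rw [this, map_one]
    have hd := congrArg Matrix.det hmul
    rw [Matrix.det_mul, Matrix.det_one] at hd
    exact left_ne_zero_of_mul_eq_one hd
  · have hkey : φ.symm P.toLinearMap * (A - 1) = J * φ.symm P.toLinearMap := by
      apply φ.injective
      rw [map_mul, map_mul, AlgEquiv.apply_symm_apply]
      apply LinearMap.ext
      intro x
      rw [Module.End.mul_apply, Module.End.mul_apply]
      exact hP x
    rw [mul_sub, mul_one, sub_eq_iff_eq_add] at hkey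
    rw [hkey, add_mul, one_mul, add_comm]

theorem cent_det {n : ℕ} (hn : 1 ≤ n) {F : Type*} [Field F] (J : Matrix (Fin n) (Fin n) F)
    (hJn : J ^ n = 0) (hJn1 : J ^ (n - 1) ≠ 0) (z : Matrix (Fin n) (Fin n) F)
    (hz : z * (1 + J) = (1 + J) * z) : ∃ a : F, z.det = a ^ n := by
  have hzJ : z * J = J * z := by
    rw [mul_add, add_mul, mul_one, one_mul] at hz
    exact add_left_cancel hz
  obtain ⟨v, hv⟩ := Cfsg.Agent.S2578.exists_cyc_of_pow_ne J hJn1
  let φ := (Matrix.toLinAlgEquiv' (R := F) (n := Fin n))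
  obtain ⟨a, k, hk⟩ := Cfsg.Agent.S2578.cent_nilp (φ J) (φ z) n hn (Module.finrank_fin_fun F)
    (by rw [← map_pow, hJn, map_zero]) v hv (by rw [← map_mul, ← map_mul, hzJ])
  have hnil : IsNilpotent (z - a • (1 : Matrix (Fin n) (Fin n) F)) := by
    refine ⟨k, φ.injective ?_⟩
    rw [map_pow, map_sub, map_smul, map_one, hk, map_zero]
  have := Cfsg.Agent.S2578.det_smul_one_add_nilp _ hnil a
  rw [add_sub_cancel] at this
  exact ⟨a, this⟩

/-- Regular unipotent classes of SL_n(q): for n ≥ 2 over the field with q elements, the matrices u of determinant one with (u − 1)^n = 0 and rank(u − 1) = n − 1 form a single GL_n(q)-class which splits into exactly gcd(n, q − 1) conjugacy classes of SL_n(q). -/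
theorem result {F : Type*} [Field F] [Fintype F] {q : ℕ} (hF : Fintype.card F = q) {n : ℕ} (hn : 2 ≤ n) : Nat.card {C : ConjClasses (Matrix.SpecialLinearGroup (Fin n) F) // ∃ u : Matrix.SpecialLinearGroup (Fin n) F, ConjClasses.mk u = C ∧ ((u : Matrix (Fin n) (Fin n) F) - 1) ^ n = 0 ∧ ((u : Matrix (Fin n) (Fin n) F) - 1).rank = n - 1} = Nat.gcd n (q - 1) := by
  classical
  have hn1 : 1 ≤ n := by omega
  obtain ⟨J, hJn, hJn1⟩ := Cfsg.Agent.S2578.exists_J n hn1 F
  have hJrank : J.rank = n - 1 := Cfsg.Agent.S2578.rank_J hn1 J hJn hJn1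
  have hu₀det : (1 + J).det = 1 := by
    have := Cfsg.Agent.S2578.det_smul_one_add_nilp J ⟨n, hJn⟩ 1
    rw [one_smul, one_pow] at this
    exact this
  have hdetinv : ∀ g : (Matrix (Fin n) (Fin n) F)ˣ, (g : Matrix (Fin n) (Fin n) F).det *
      ((g⁻¹ : (Matrix (Fin n) (Fin n) F)ˣ) : Matrix (Fin n) (Fin n) F).det = 1 := by
    intro g
    rw [← Matrix.det_mul, Units.mul_inv, Matrix.det_one]
  have hUdet : ∀ g : (Matrix (Fin n) (Fin n) F)ˣ, ((g : Matrix (Fin n) (Fin n) F) * (1 + J) *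
      ((g⁻¹ : (Matrix (Fin n) (Fin n) F)ˣ) : Matrix (Fin n) (Fin n) F)).det = 1 := by
    intro g
    rw [Matrix.det_mul, Matrix.det_mul, hu₀det, mul_one, hdetinv]
  obtain ⟨U, hUcoe⟩ : ∃ U : (Matrix (Fin n) (Fin n) F)ˣ → Matrix.SpecialLinearGroup (Fin n) F,
      ∀ g, ((U g : Matrix.SpecialLinearGroup (Fin n) F) : Matrix (Fin n) (Fin n) F) =
        (g : Matrix (Fin n) (Fin n) F) * (1 + J) *
          ((g⁻¹ : (Matrix (Fin n) (Fin n) F)ˣ) : Matrix (Fin n) (Fin n) F) :=
    ⟨fun g => ⟨_, hUdet g⟩, fun g => rfl⟩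
  have hP : ∀ g, ((U g : Matrix (Fin n) (Fin n) F) - 1) ^ n = 0 ∧
      ((U g : Matrix (Fin n) (Fin n) F) - 1).rank = n - 1 := by
    intro g
    have e : ((U g : Matrix (Fin n) (Fin n) F) - 1) = (g : Matrix (Fin n) (Fin n) F) * J *
        ((g⁻¹ : (Matrix (Fin n) (Fin n) F)ˣ) : Matrix (Fin n) (Fin n) F) := by
      rw [hUcoe, mul_add, mul_one, add_mul, Units.mul_inv, add_sub_cancel_left]
    rw [e]
    constructor
    · rw [Units.conj_pow, hJn, mul_zero, zero_mul]
    · have h1 : IsUnit (g : Matrix (Fin n) (Fin n) F).det :=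
        isUnit_iff_ne_zero.mpr (left_ne_zero_of_mul_eq_one (hdetinv g))
      have h2 : IsUnit ((g⁻¹ : (Matrix (Fin n) (Fin n) F)ˣ) : Matrix (Fin n) (Fin n) F).det :=
        isUnit_iff_ne_zero.mpr (right_ne_zero_of_mul_eq_one (hdetinv g))
      rw [Matrix.rank_mul_eq_left_of_isUnit_det _ _ h2,
        Matrix.rank_mul_eq_right_of_isUnit_det _ _ h1, hJrank]
  have hnf : ∀ u : Matrix.SpecialLinearGroup (Fin n) F,
      ((u : Matrix (Fin n) (Fin n) F) - 1) ^ n = 0 →
      ((u : Matrix (Fin n) (Fin n) F) - 1).rank = n - 1 → ∃ g, u = U g := by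
    intro u h1 h2
    obtain ⟨g₀, hg₀, hg₀u⟩ := Cfsg.Agent.S2578.normal_form hn1 J hJn hJn1
      (u : Matrix (Fin n) (Fin n) F) h1 h2
    obtain ⟨G₀, hG₀⟩ : ∃ G₀ : (Matrix (Fin n) (Fin n) F)ˣ, (G₀ : Matrix (Fin n) (Fin n) F) = g₀ :=
      ⟨Matrix.nonsingInvUnit g₀ (isUnit_iff_ne_zero.mpr hg₀), rfl⟩
    refine ⟨G₀⁻¹, ?_⟩
    apply Subtype.ext
    show (u : Matrix (Fin n) (Fin n) F) = ((U G₀⁻¹ : Matrix.SpecialLinearGroup (Fin n) F) :
      Matrix (Fin n) (Fin n) F)
    rw [hUcoe, inv_inv, mul_assoc, hG₀, ← hg₀u, ← hG₀, ← mul_assoc, Units.inv_mul, one_mul]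
  have hconj : ∀ g h : (Matrix (Fin n) (Fin n) F)ˣ, IsConj (U g) (U h) ↔
      ∃ a : Fˣ, (g : Matrix (Fin n) (Fin n) F).det = (a:F) ^ n *
        (h : Matrix (Fin n) (Fin n) F).det := by
    intro g h
    rw [isConj_iff]
    have hh := hdetinv h
    have hg := hdetinv g
    constructor
    · rintro ⟨S, hS⟩
      have hS' : S * U g = U h * S := by rw [← hS]; group
      have hS'' : (S : Matrix (Fin n) (Fin n) F) * ((g : Matrix (Fin n) (Fin n) F) * (1 + J) *
          ((g⁻¹ : (Matrix (Fin n) (Fin n) F)ˣ) : Matrix (Fin n) (Fin n) F)) =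
          ((h : Matrix (Fin n) (Fin n) F) * (1 + J) *
          ((h⁻¹ : (Matrix (Fin n) (Fin n) F)ˣ) : Matrix (Fin n) (Fin n) F)) *
          (S : Matrix (Fin n) (Fin n) F) := by
        have := congrArg (fun X : Matrix.SpecialLinearGroup (Fin n) F =>
          (X : Matrix (Fin n) (Fin n) F)) hS'
        simp only [Matrix.SpecialLinearGroup.coe_mul, hUcoe] at this
        exact this
      obtain ⟨z, hz⟩ : ∃ z : Matrix (Fin n) (Fin n) F, z =
          ((h⁻¹ : (Matrix (Fin n) (Fin n) F)ˣ) : Matrix (Fin n) (Fin n) F) *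
          (S : Matrix (Fin n) (Fin n) F) * (g : Matrix (Fin n) (Fin n) F) := ⟨_, rfl⟩
      have hzc : z * (1 + J) = (1 + J) * z := by
        have e1 : z * (1 + J) = ((h⁻¹ : (Matrix (Fin n) (Fin n) F)ˣ) : Matrix (Fin n) (Fin n) F) *
            ((S : Matrix (Fin n) (Fin n) F) * ((g : Matrix (Fin n) (Fin n) F) * (1 + J) *
            ((g⁻¹ : (Matrix (Fin n) (Fin n) F)ˣ) : Matrix (Fin n) (Fin n) F))) *
            (g : Matrix (Fin n) (Fin n) F) := by
          rw [hz]
          simp only [mul_assoc, Units.inv_mul, mul_one]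
        rw [e1, hS'', hz]
        simp only [mul_assoc, Units.inv_mul_cancel_left]
      obtain ⟨a, ha⟩ := Cfsg.Agent.S2578.cent_det hn1 J hJn hJn1 z hzc
      have hzdet : z.det = ((h⁻¹ : (Matrix (Fin n) (Fin n) F)ˣ) : Matrix (Fin n) (Fin n) F).det *
          (g : Matrix (Fin n) (Fin n) F).det := by
        rw [hz, Matrix.det_mul, Matrix.det_mul, S.2, mul_one]
      have hgne : (g : Matrix (Fin n) (Fin n) F).det ≠ 0 := left_ne_zero_of_mul_eq_one hg
      have hhine : ((h⁻¹ : (Matrix (Fin n) (Fin n) F)ˣ) : Matrix (Fin n) (Fin n) F).det ≠ 0 :=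
        right_ne_zero_of_mul_eq_one hh
      have hane : a ≠ 0 := by
        rintro rfl
        rw [zero_pow (by omega)] at ha
        rw [ha] at hzdet
        exact (mul_ne_zero hhine hgne) hzdet.symm
      refine ⟨Units.mk0 a hane, ?_⟩
      rw [Units.val_mk0, ← ha, hzdet]
      calc (g : Matrix (Fin n) (Fin n) F).det
          = ((h : Matrix (Fin n) (Fin n) F).det *
            ((h⁻¹ : (Matrix (Fin n) (Fin n) F)ˣ) : Matrix (Fin n) (Fin n) F).det) *
            (g : Matrix (Fin n) (Fin n) F).det := by rw [hh, one_mul]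
        _ = _ := by ring
    · rintro ⟨a, ha⟩
      have hsdet : ((a:F) • ((h : Matrix (Fin n) (Fin n) F) *
          ((g⁻¹ : (Matrix (Fin n) (Fin n) F)ˣ) : Matrix (Fin n) (Fin n) F))).det = 1 := by
        rw [Matrix.det_smul, Matrix.det_mul, Fintype.card_fin]
        calc (a:F) ^ n * ((h : Matrix (Fin n) (Fin n) F).det *
              ((g⁻¹ : (Matrix (Fin n) (Fin n) F)ˣ) : Matrix (Fin n) (Fin n) F).det)
            = ((a:F) ^ n * (h : Matrix (Fin n) (Fin n) F).det) *
              ((g⁻¹ : (Matrix (Fin n) (Fin n) F)ˣ) : Matrix (Fin n) (Fin n) F).det := by ring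
          _ = 1 := by rw [← ha, hg]
      obtain ⟨s, hs⟩ : ∃ s : Matrix.SpecialLinearGroup (Fin n) F,
          (s : Matrix (Fin n) (Fin n) F) = (a:F) • ((h : Matrix (Fin n) (Fin n) F) *
          ((g⁻¹ : (Matrix (Fin n) (Fin n) F)ˣ) : Matrix (Fin n) (Fin n) F)) := ⟨⟨_, hsdet⟩, rfl⟩
      refine ⟨s, ?_⟩
      rw [mul_inv_eq_iff_eq_mul]
      apply Subtype.ext
      rw [Matrix.SpecialLinearGroup.coe_mul, Matrix.SpecialLinearGroup.coe_mul, hs, hUcoe, hUcoe,
        Matrix.smul_mul, Matrix.mul_smul]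
      congr 1
      simp only [mul_assoc, Units.inv_mul_cancel_left]
  have hdetsurj : ∀ c : Fˣ, ∃ g : (Matrix (Fin n) (Fin n) F)ˣ,
      (g : Matrix (Fin n) (Fin n) F).det = (c : F) := by
    intro c
    have hd : (Matrix.diagonal (Function.update (fun _ => (1:F)) (⟨0, by omega⟩ : Fin n)
        (c:F))).det = (c:F) := by
      rw [Matrix.det_diagonal, Finset.prod_update_of_mem (Finset.mem_univ _)]
      simp
    obtain ⟨d, hd'⟩ : ∃ d : Matrix (Fin n) (Fin n) F, d.det = (c:F) := ⟨_, hd⟩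
    exact ⟨Matrix.nonsingInvUnit d (by rw [hd']; exact c.isUnit), hd'⟩
  choose gc hgc using hdetsurj
  have hΦ : ∀ c c' : Fˣ, IsConj (U (gc c)) (U (gc c')) ↔
      c⁻¹ * c' ∈ (powMonoidHom n : Fˣ →* Fˣ).range := by
    intro c c'
    rw [hconj, hgc, hgc]
    constructor
    · rintro ⟨a, ha⟩
      have hc : c = a ^ n * c' := Units.ext (by rw [ha]; simp)
      refine ⟨a⁻¹, ?_⟩
      rw [powMonoidHom_apply, hc, inv_pow, mul_inv, mul_assoc, inv_mul_cancel, mul_one]
    · rintro ⟨b, hb⟩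
      rw [powMonoidHom_apply] at hb
      refine ⟨b⁻¹, ?_⟩
      have hc : c = (b⁻¹) ^ n * c' := by
        rw [inv_pow, hb, mul_inv, inv_inv, mul_assoc, inv_mul_cancel, mul_one]
      have := congrArg (fun x : Fˣ => (x : F)) hc
      simpa using this
  have hbij : Function.Bijective (Quotient.lift
      (fun c : Fˣ => (⟨ConjClasses.mk (U (gc c)), ⟨U (gc c), rfl, hP (gc c)⟩⟩ :
        {C : ConjClasses (Matrix.SpecialLinearGroup (Fin n) F) //
          ∃ u : Matrix.SpecialLinearGroup (Fin n) F, ConjClasses.mk u = C ∧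
          ((u : Matrix (Fin n) (Fin n) F) - 1) ^ n = 0 ∧
          ((u : Matrix (Fin n) (Fin n) F) - 1).rank = n - 1}))
      (fun c c' hcc' => Subtype.ext (ConjClasses.mk_eq_mk_iff_isConj.mpr
        ((hΦ c c').mpr (QuotientGroup.leftRel_apply.mp hcc')))) :
      Fˣ ⧸ (powMonoidHom n : Fˣ →* Fˣ).range → _) := by
    constructor
    · intro x y hxy
      obtain ⟨c, rfl⟩ := QuotientGroup.mk_surjective x
      obtain ⟨c', rfl⟩ := QuotientGroup.mk_surjective y
      have h1 : ConjClasses.mk (U (gc c)) = ConjClasses.mk (U (gc c')) :=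
        congrArg Subtype.val hxy
      exact QuotientGroup.eq.mpr ((hΦ c c').mp (ConjClasses.mk_eq_mk_iff_isConj.mp h1))
    · rintro ⟨C, u, rfl, h1, h2⟩
      obtain ⟨g, rfl⟩ := hnf u h1 h2
      have hgdet : (g : Matrix (Fin n) (Fin n) F).det ≠ 0 :=
        left_ne_zero_of_mul_eq_one (hdetinv g)
      refine ⟨((Units.mk0 _ hgdet : Fˣ) : Fˣ ⧸ (powMonoidHom n : Fˣ →* Fˣ).range), ?_⟩
      apply Subtype.ext
      show ConjClasses.mk (U (gc (Units.mk0 _ hgdet))) = ConjClasses.mk (U g)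
      rw [ConjClasses.mk_eq_mk_iff_isConj, hconj, hgc]
      exact ⟨1, by simp⟩
  rw [← Nat.card_congr (Equiv.ofBijective _ hbij)]
  have hidx := IsCyclic.index_powMonoidHom_range (G := Fˣ) n
  have hcardU : Nat.card Fˣ = q - 1 := by
    rw [Nat.card_eq_fintype_card, Fintype.card_units, hF]
  rw [hcardU] at hidx
  rw [Nat.gcd_comm]
  exact hidx

end Cfsg.Agent.S2578
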