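import Mathlib
import Cfsg.Statements.S2579
import Cfsg.Agent.S0839

set_option autoImplicit false
open Cfsg

namespace Cfsg.Agent.S2579

/-- In SL_n(F) with n ≥ 3, over a finite field F, any two transvections (matrices t with t − 1 of rank one and square zero) are conjugate by an element of SL_n(F). -/
theorem result {F : Type*} [Field F] [Finite F] {n : ℕ} (hn : 3 ≤ n) (s t : Matrix.SpecialLinearGroup (Fin n) F) (hs : Cfsg.IsTransvection (s : Matrix (Fin n) (Fin n) F)) (ht : Cfsg.IsTransvection (t : Matrix (Fin n) (Fin n) F)) : IsConj s t := by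
-----
  have h0 : (0 : ℕ) < n := by omega
  have h1 : (1 : ℕ) < n := by omega
  have h2 : (2 : ℕ) < n := by omega
  have h01 : (⟨1, h1⟩ : Fin n) ≠ ⟨0, h0⟩ := by
    intro h; simp [Fin.ext_iff] at h
  have h02 : (⟨2, h2⟩ : Fin n) ≠ ⟨0, h0⟩ := by
    intro h; simp [Fin.ext_iff] at h
  have h12 : (⟨1, h1⟩ : Fin n) ≠ ⟨2, h2⟩ := by
    intro h; simp [Fin.ext_iff] at h
  obtain ⟨gs, hgs⟩ := Cfsg.Agent.S0839.normal3 (⟨0, h0⟩ : Fin n) ⟨1, h1⟩ ⟨2, h2⟩ h01 h02 h12 s hs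
  obtain ⟨gt, hgt⟩ := Cfsg.Agent.S0839.normal3 (⟨0, h0⟩ : Fin n) ⟨1, h1⟩ ⟨2, h2⟩ h01 h02 h12 t ht
  have he : gs⁻¹ * s * gs = gt⁻¹ * t * gt := by
    apply Subtype.ext
    exact hgs.trans hgt.symm
  rw [isConj_iff]
  refine ⟨gt * gs⁻¹, ?_⟩
  have : gt * gs⁻¹ * s * (gt * gs⁻¹)⁻¹ = gt * (gs⁻¹ * s * gs) * gt⁻¹ := by group
  rw [this, he]
  group

end Cfsg.Agent.S2579
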