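import Cfsg.Statements.S2586
import Mathlib
import Cfsg.Agent.S2580
-- import your own Cfsg.Agent.* helpers here

set_option autoImplicit false
open Cfsg

namespace Cfsg.Agent.S2586

theorem conj_transpose {F : Type*} [Field F] [Finite F] {ι : Type*} [Fintype ι] [DecidableEq ι]
    (A : Matrix ι ι F) : IsConj A A.transpose := by
  have h := Cfsg.Agent.S2580.result (Matrix.reindex (Fintype.equivFin ι) (Fintype.equivFin ι) A)
  have h2 := ((Matrix.reindexAlgEquiv F F (Fintype.equivFin ι)).symm.toMulEquiv.toMonoidHom).map_isConj h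
  have e1 : ((Matrix.reindexAlgEquiv F F (Fintype.equivFin ι)).symm.toMulEquiv.toMonoidHom)
      (Matrix.reindex (Fintype.equivFin ι) (Fintype.equivFin ι) A) = A := by
    ext i j
    simp [Matrix.reindexAlgEquiv]
  have e2 : ((Matrix.reindexAlgEquiv F F (Fintype.equivFin ι)).symm.toMulEquiv.toMonoidHom)
      (Matrix.reindex (Fintype.equivFin ι) (Fintype.equivFin ι) A).transpose = A.transpose := by
    ext i j
    simp [Matrix.reindexAlgEquiv]
  rw [e1, e2] at h2
  exact h2

/-- Over a finite field, every element of the symplectic group Sp_2m(F) is conjugate by an invertible matrix to its inverse. -/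
theorem result {F : Type*} [Field F] [Finite F] {m : ℕ} (A : Matrix.symplecticGroup (Fin m) F) : IsConj (A : Matrix (Fin m ⊕ Fin m) (Fin m ⊕ Fin m) F) ((A⁻¹ : Matrix.symplecticGroup (Fin m) F) : Matrix (Fin m ⊕ Fin m) (Fin m ⊕ Fin m) F) := by
  classical
  have h1 := Cfsg.Agent.S2586.conj_transpose (A : Matrix (Fin m ⊕ Fin m) (Fin m ⊕ Fin m) F)
  refine h1.trans ?_
  have hJ1 : (-Matrix.J (Fin m) F) * Matrix.J (Fin m) F = 1 := by
    rw [Matrix.neg_mul, Matrix.J_squared, neg_neg]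
  have hJ2 : Matrix.J (Fin m) F * (-Matrix.J (Fin m) F) = 1 := by
    rw [Matrix.mul_neg, Matrix.J_squared, neg_neg]
  refine ⟨⟨-Matrix.J (Fin m) F, Matrix.J (Fin m) F, hJ1, hJ2⟩, ?_⟩
  show (-Matrix.J (Fin m) F) * (A : Matrix (Fin m ⊕ Fin m) (Fin m ⊕ Fin m) F).transpose
    = ((A⁻¹ : Matrix.symplecticGroup (Fin m) F) : Matrix (Fin m ⊕ Fin m) (Fin m ⊕ Fin m) F) * (-Matrix.J (Fin m) F)
  rw [SymplecticGroup.coe_inv, Matrix.mul_assoc, Matrix.mul_assoc, hJ2, Matrix.mul_one]

end Cfsg.Agent.S2586
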