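import Cfsg.Statements.S2592
import Mathlib
import Cfsg.Agent.S2578
-- import your own Cfsg.Agent.* helpers here

set_option autoImplicit false
open Cfsg

namespace Cfsg.Agent.S2592

theorem repr_comm {F V : Type*} [Field F] [AddCommGroup V] [Module F V] [FiniteDimensional F V]
    (f z : V →ₗ[F] V) (n : ℕ) (hn : 1 ≤ n) (hV : Module.finrank F V = n) (hf : f ^ n = 0)
    (v : V) (hv : (f ^ (n - 1)) v ≠ 0) (hz : z * f = f * z) :
    ∃ c : Fin n → F, z = ∑ i, c i • f ^ (i:ℕ) := by
  haveI : Nonempty (Fin n) := ⟨⟨0, by omega⟩⟩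
  have hli := Cfsg.Agent.S2578.indep f n hf v hv
  let b := basisOfLinearIndependentOfCardEqFinrank hli (by simp [hV])
  have hb : ∀ i, b i = (f ^ (i:ℕ)) v := fun i => by simp [b]
  obtain ⟨c, hc⟩ : ∃ c : Fin n → F, ∑ i, c i • (f ^ (i:ℕ)) v = z v := by
    refine ⟨fun i => b.repr (z v) i, ?_⟩
    have := b.sum_repr (z v)
    simp only [hb] at this
    exact this
  have hzk : ∀ k : ℕ, z * f ^ k = f ^ k * z := fun k => ((show Commute z f from hz).pow_right k)
  refine ⟨c, ?_⟩
  apply b.ext
  intro k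
  rw [hb k]
  have e1 : z ((f ^ (k:ℕ)) v) = (f ^ (k:ℕ)) (z v) := by
    rw [← Module.End.mul_apply, hzk, Module.End.mul_apply]
  rw [e1, ← hc, map_sum, LinearMap.sum_apply]
  apply Finset.sum_congr rfl
  intro i _
  rw [map_smul, LinearMap.smul_apply, ← Module.End.mul_apply, ← Module.End.mul_apply, ← pow_add,
    ← pow_add, add_comm]

theorem exists_cyc_mat {ι : Type*} [Fintype ι] [DecidableEq ι] {F : Type*} [Field F] (n : ℕ)
    (y : Matrix ι ι F) (hy1 : y ^ (n - 1) ≠ 0) :
    ∃ v : ι → F, ((Matrix.toLinAlgEquiv' y : (ι → F) →ₗ[F] (ι → F)) ^ (n - 1)) v ≠ 0 := by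
  by_contra hcon
  push_neg at hcon
  apply hy1
  apply (Matrix.toLinAlgEquiv' (R := F) (n := ι)).injective
  rw [map_pow, map_zero]
  exact LinearMap.ext hcon

theorem repr_comm_mat {ι : Type*} [Fintype ι] [DecidableEq ι] {F : Type*} [Field F] (n : ℕ)
    (hn : 1 ≤ n) (hcard : Fintype.card ι = n)
    (y z : Matrix ι ι F) (hy : y ^ n = 0) (hy1 : y ^ (n - 1) ≠ 0) (hz : z * y = y * z) :
    ∃ c : Fin n → F, z = ∑ i, c i • y ^ (i:ℕ) := by
  obtain ⟨v, hv⟩ := Cfsg.Agent.S2592.exists_cyc_mat n y hy1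
  obtain ⟨c, hc⟩ := Cfsg.Agent.S2592.repr_comm (Matrix.toLinAlgEquiv' y) (Matrix.toLinAlgEquiv' z)
    n hn (by rw [Module.finrank_fintype_fun_eq_card, hcard]) (by rw [← map_pow, hy, map_zero]) v hv
    (by rw [← map_mul, ← map_mul, hz])
  refine ⟨c, (Matrix.toLinAlgEquiv' (R := F) (n := ι)).injective ?_⟩
  rw [hc, map_sum]
  apply Finset.sum_congr rfl
  intro i _
  rw [map_smul, map_pow]

theorem coeff_unique {ι : Type*} [Fintype ι] [DecidableEq ι] {F : Type*} [Field F] (n : ℕ)
    (y : Matrix ι ι F) (hy : y ^ n = 0) (hy1 : y ^ (n - 1) ≠ 0) (c : Fin n → F)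
    (h : ∑ i, c i • y ^ (i:ℕ) = 0) : ∀ i, c i = 0 := by
  obtain ⟨v, hv⟩ := Cfsg.Agent.S2592.exists_cyc_mat n y hy1
  have hli := Cfsg.Agent.S2578.indep (Matrix.toLinAlgEquiv' y) n (by rw [← map_pow, hy, map_zero]) v hv
  rw [Fintype.linearIndependent_iff] at hli
  apply hli
  have := congrArg (fun w : Matrix ι ι F =>
    (Matrix.toLinAlgEquiv' w : (ι → F) →ₗ[F] (ι → F)) v) h
  simp only [map_sum, map_smul, map_pow, map_zero, LinearMap.sum_apply, LinearMap.smul_apply,
    LinearMap.zero_apply] at this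
  exact this

theorem det_smul_one_add_nilp' {ι : Type*} [Fintype ι] [DecidableEq ι] {F : Type*} [Field F]
    (M : Matrix ι ι F) (hM : IsNilpotent M) (a : F) :
    (a • (1 : Matrix ι ι F) + M).det = a ^ Fintype.card ι := by
  have h1 := Matrix.isNilpotent_charpoly_sub_pow_of_isNilpotent hM.neg
  have h2 : (-M).charpoly = Polynomial.X ^ Fintype.card ι := by
    have := h1.eq_zero
    rw [sub_eq_zero] at this
    exact this
  have h3 := Matrix.eval_charpoly (-M) a
  rw [h2] at h3
  simp only [Polynomial.eval_pow, Polynomial.eval_X] at h3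
  rw [h3]
  congr 1
  rw [sub_neg_eq_add]
  congr 1
  ext i j
  by_cases h : i = j <;> simp [Matrix.one_apply, Matrix.diagonal_apply, h]

theorem toLin_rank' {ι : Type*} [Fintype ι] [DecidableEq ι] {F : Type*} [Field F]
    (A : Matrix ι ι F) :
    Module.finrank F (LinearMap.range (Matrix.toLinAlgEquiv' A)) = A.rank := by
  have e : (Matrix.toLinAlgEquiv' A : (ι → F) →ₗ[F] (ι → F)) = A.mulVecLin :=
    LinearMap.ext fun v => by simp [Matrix.toLinAlgEquiv'_apply]
  rw [e]
  rfl

theorem cayley_count {F S : Type*} [Field F] [CommRing S] [Algebra F S] [Nontrivial S]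
    (σ : S →ₐ[F] S) (h2 : (2 : F) ≠ 0)
    (hloc : ∀ z : S, ∃ a : F, IsNilpotent (z - algebraMap F S a)) :
    Nat.card {z : S // z * σ z = 1} = 2 * Nat.card {x : S // σ x = -x} := by
  have hone : ¬ IsNilpotent (1 : S) := by
    rintro ⟨k, hk⟩
    rw [one_pow] at hk
    exact one_ne_zero hk
  have hskew : ∀ x : S, σ x = -x → IsNilpotent x := by
    intro x hx
    obtain ⟨a, ha⟩ := hloc x
    have ha' : IsNilpotent (σ (x - algebraMap F S a)) := ha.map σ
    rw [map_sub, hx, AlgHom.commutes] at ha'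
    have hsum : IsNilpotent ((x - algebraMap F S a) + (-x - algebraMap F S a)) :=
      Commute.isNilpotent_add (Commute.all _ _) ha ha'
    have e : (x - algebraMap F S a) + (-x - algebraMap F S a) = algebraMap F S (-2 * a) := by
      rw [map_mul, map_neg, map_ofNat]; ring
    rw [e] at hsum
    obtain ⟨k, hk⟩ := hsum
    rw [← map_pow] at hk
    have hk0 : (-2 * a) ^ k = 0 := (algebraMap F S).injective (by rw [hk, map_zero])
    have h3 : -2 * a = 0 := IsNilpotent.eq_zero ⟨k, hk0⟩
    have ha0 : a = 0 := by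
      rcases mul_eq_zero.mp h3 with h | h
      · exact absurd (neg_eq_zero.mp h) h2
      · exact h
    rw [ha0, map_zero, sub_zero] at ha
    exact ha
  have h2S : IsUnit (2 : S) := by
    have : (2 : S) = algebraMap F S 2 := by rw [map_ofNat]
    rw [this]
    exact (IsUnit.mk0 _ h2).map (algebraMap F S)
  have hinv : ∀ x : {x : S // σ x = -x}, ∃ w : S, (1 - x.1) * w = 1 := fun x =>
    (hskew x.1 x.2).isUnit_one_sub.exists_right_inv
  choose w hw using hinv
  have hσw : ∀ x : {x : S // σ x = -x}, (1 + x.1) * σ (w x) = 1 := by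
    intro x
    have := congrArg σ (hw x)
    rw [map_mul, map_sub, map_one, x.2, sub_neg_eq_add] at this
    exact this
  have hK : ∀ (b : Bool) (x : {x : S // σ x = -x}),
      ((if b then (1:S) else -1) * ((1 + x.1) * w x)) *
        σ ((if b then (1:S) else -1) * ((1 + x.1) * w x)) = 1 := by
    intro b x
    have h1 := hw x
    have h3 := hσw x
    have hx := x.2
    cases b
    · simp only [Bool.false_eq_true, if_false, map_mul, map_neg, map_one, map_add, hx]
      linear_combination ((1 + x.1) * σ (w x)) * h1 + h3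
    · simp only [if_true, map_mul, map_one, map_add, hx, one_mul]
      linear_combination ((1 + x.1) * σ (w x)) * h1 + h3
  have key1 : ∀ x : {x : S // σ x = -x}, (1 + x.1) * w x + 1 = 2 * w x := by
    intro x; linear_combination (-1 : S) * hw x
  have key2 : ∀ x : {x : S // σ x = -x}, (1 + x.1) * w x - 1 = 2 * (x.1 * w x) := by
    intro x; linear_combination hw x
  have hopp : ∀ x x' : {x : S // σ x = -x},
      (1 + x.1) * w x + (1 + x'.1) * w x' = 0 → False := by
    intro x x' h''
    have hz : w x + x'.1 * w x' = 0 := by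
      apply h2S.mul_left_cancel
      rw [mul_zero]
      linear_combination h'' - key1 x - key2 x'
    have hnil : IsNilpotent (x'.1 * (-(1 - x.1) * w x')) :=
      Commute.isNilpotent_mul_right (Commute.all _ _) (hskew x'.1 x'.2)
    have : x'.1 * (-(1 - x.1) * w x') = 1 := by
      linear_combination hw x - (1 - x.1) * hz
    rw [this] at hnil
    exact hone hnil
  have hsame : ∀ x x' : {x : S // σ x = -x},
      (1 + x.1) * w x = (1 + x'.1) * w x' → x = x' := by
    intro x x' h'
    have hww : w x = w x' := by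
      apply h2S.mul_left_cancel
      rw [← key1 x, ← key1 x', h']
    have : (1 - x.1) = (1 - x'.1) := by
      linear_combination (-(1 - x.1)) * hw x' + ((1 - x.1) * (1 - x'.1)) * hww.symm +
        (1 - x'.1) * hw x
    exact Subtype.ext (by linear_combination (-1 : S) * this)
  have splus : ∀ z : S, z * σ z = 1 → IsUnit (z + 1) →
      ∃ x : {x : S // σ x = -x}, (1 + x.1) * w x = z := by
    intro z hz hu
    obtain ⟨t, ht⟩ := hu.exists_right_inv
    have hσt : (σ z + 1) * σ t = 1 := by
      have := congrArg σ ht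
      rwa [map_mul, map_add, map_one] at this
    have hx : σ ((z - 1) * t) = -((z - 1) * t) := by
      rw [map_mul, map_sub, map_one]
      linear_combination (-(σ z - 1) * σ t) * ht + (-(z - 1) * t) * hσt + (2 * t * σ t) * hz
    refine ⟨⟨(z - 1) * t, hx⟩, ?_⟩
    have := hw ⟨(z - 1) * t, hx⟩
    linear_combination z * this + (w ⟨(z - 1) * t, hx⟩ * (z - 1)) * ht
  have hbij : Function.Bijective (fun p : Bool × {x : S // σ x = -x} =>
      (⟨_, hK p.1 p.2⟩ : {z : S // z * σ z = 1})) := by
    constructor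
    · rintro ⟨b, x⟩ ⟨b', x'⟩ h
      have h' : (if b then (1:S) else -1) * ((1 + x.1) * w x) =
          (if b' then (1:S) else -1) * ((1 + x'.1) * w x') := congrArg Subtype.val h
      cases b <;> cases b'
      · simp only [Bool.false_eq_true, if_false] at h'
        have := hsame x x' (by linear_combination (-1 : S) * h')
        rw [this]
      · simp only [Bool.false_eq_true, if_false, if_true] at h'
        exact (hopp x x' (by linear_combination (-1 : S) * h')).elim
      · simp only [Bool.false_eq_true, if_false, if_true] at h'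
        exact (hopp x x' (by linear_combination h')).elim
      · simp only [if_true, one_mul] at h'
        have := hsame x x' h'
        rw [this]
    · rintro ⟨z, hz⟩
      obtain ⟨a, ha⟩ := hloc z
      by_cases ha1 : a + 1 = 0
      · have hu : IsUnit (-z + 1) := by
          have e : -z + 1 = algebraMap F S (1 - a) + -(z - algebraMap F S a) := by
            rw [map_sub, map_one]; ring
          rw [e]
          refine IsNilpotent.isUnit_add_left_of_commute ha.neg ?_ (Commute.all _ _)
          refine (IsUnit.mk0 _ ?_).map (algebraMap F S)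
          intro h
          apply h2
          linear_combination ha1 + h
        obtain ⟨x, hx⟩ := splus (-z) (by rw [map_neg]; linear_combination hz) hu
        refine ⟨(false, x), Subtype.ext ?_⟩
        show (if false then (1:S) else -1) * ((1 + x.1) * w x) = z
        rw [hx]; simp
      · have hu : IsUnit (z + 1) := by
          have e : z + 1 = algebraMap F S (a + 1) + (z - algebraMap F S a) := by
            rw [map_add, map_one]; ring
          rw [e]
          exact IsNilpotent.isUnit_add_left_of_commute ha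
            ((IsUnit.mk0 _ ha1).map (algebraMap F S)) (Commute.all _ _)
        obtain ⟨x, hx⟩ := splus z hz hu
        refine ⟨(true, x), Subtype.ext ?_⟩
        show (if true then (1:S) else -1) * ((1 + x.1) * w x) = z
        rw [hx]; simp
  rw [← Nat.card_congr (Equiv.ofBijective _ hbij), Nat.card_prod, Nat.card_eq_fintype_card,
    Fintype.card_bool]

/-- Over a finite field with q elements, q odd, the centraliser in Sp_2m(F) (m ≥ 1) of a regular unipotent element (u − 1 nilpotent of rank 2m − 1) has order 2 q^m. -/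
theorem result {F : Type*} [Field F] [Fintype F] {q : ℕ} (hF : Fintype.card F = q) (hq : Odd q) {m : ℕ} (hm : 1 ≤ m) (u : Matrix.symplecticGroup (Fin m) F) (hnil : ((u : Matrix (Fin m ⊕ Fin m) (Fin m ⊕ Fin m) F) - 1) ^ (2 * m) = 0) (hreg : ((u : Matrix (Fin m ⊕ Fin m) (Fin m ⊕ Fin m) F) - 1).rank = 2 * m - 1) : Nat.card ↥(Subgroup.centralizer ({u} : Set ↥(Matrix.symplecticGroup (Fin m) F))) = 2 * q ^ m := by
  classical
  have hm1 : 1 ≤ 2 * m := by omega
  have hcard : Fintype.card (Fin m ⊕ Fin m) = 2 * m := by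
    rw [Fintype.card_sum, Fintype.card_fin]; ring
  have h2F : (2 : F) ≠ 0 := by
    apply Ring.two_ne_zero
    intro hchar
    have := FiniteField.even_card_iff_char_two.mp hchar
    rw [hF] at this
    rcases hq with ⟨k, hk⟩
    omega
  haveI : Nonempty (Fin m) := ⟨⟨0, by omega⟩⟩
  obtain ⟨J, hJdef⟩ : ∃ J : Matrix (Fin m ⊕ Fin m) (Fin m ⊕ Fin m) F, J = Matrix.J (Fin m) F :=
    ⟨_, rfl⟩
  have hJJ : J * J = -1 := by rw [hJdef]; exact Matrix.J_squared (Fin m) F
  obtain ⟨τ, hτ⟩ : ∃ τ : Matrix (Fin m ⊕ Fin m) (Fin m ⊕ Fin m) F →ₗ[F]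
      Matrix (Fin m ⊕ Fin m) (Fin m ⊕ Fin m) F, ∀ A, τ A = -J * A.transpose * J :=
    ⟨{ toFun := fun A => -J * A.transpose * J
       map_add' := by
         intro A B
         show -J * (A + B).transpose * J = -J * A.transpose * J + -J * B.transpose * J
         rw [Matrix.transpose_add, Matrix.mul_add, Matrix.add_mul]
       map_smul' := by
         intro c A
         show -J * (c • A).transpose * J = c • (-J * A.transpose * J)
         rw [Matrix.transpose_smul, Matrix.mul_smul, Matrix.smul_mul] }, fun A => rfl⟩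
  have hτone : τ 1 = 1 := by
    rw [hτ, Matrix.transpose_one, Matrix.mul_one, Matrix.neg_mul, hJJ, neg_neg]
  have hτmul : ∀ A B, τ (A * B) = τ B * τ A := by
    intro A B
    rw [hτ, hτ, hτ, Matrix.transpose_mul]
    have key : ∀ X Y : Matrix (Fin m ⊕ Fin m) (Fin m ⊕ Fin m) F, X * J * (-J * Y) = X * Y := by
      intro X Y
      rw [Matrix.mul_assoc X J, ← Matrix.mul_assoc J, Matrix.mul_neg, hJJ, neg_neg, Matrix.one_mul]
    calc -J * (B.transpose * A.transpose) * J = (-J * B.transpose) * (A.transpose * J) := by simp only [Matrix.mul_assoc]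
      _ = (-J * B.transpose) * J * (-J * (A.transpose * J)) := (key _ _).symm
      _ = -J * B.transpose * J * (-J * A.transpose * J) := by simp only [Matrix.mul_assoc]
  have hSp : ∀ A : Matrix (Fin m ⊕ Fin m) (Fin m ⊕ Fin m) F,
      A ∈ Matrix.symplecticGroup (Fin m) F ↔ A * τ A = 1 := by
    intro A
    rw [SymplecticGroup.mem_iff, hτ, ← hJdef]
    constructor
    · intro h
      calc A * (-J * A.transpose * J) = -(A * J * A.transpose) * J := by
            simp only [Matrix.mul_assoc, Matrix.neg_mul, Matrix.mul_neg]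
        _ = 1 := by rw [h, Matrix.neg_mul, hJJ, neg_neg]
    · intro h
      have e : A * J * A.transpose = (A * (-J * A.transpose * J)) * J := by
        have : (A * (-J * A.transpose * J)) * J = -(A * J * A.transpose * (J * J)) := by
          simp only [Matrix.mul_assoc, Matrix.neg_mul, Matrix.mul_neg]
        rw [this, hJJ, Matrix.mul_neg, Matrix.mul_one, neg_neg]
      rw [e, h, Matrix.one_mul]
  obtain ⟨U, hUdef⟩ : ∃ U : Matrix (Fin m ⊕ Fin m) (Fin m ⊕ Fin m) F,
      U = (u : Matrix (Fin m ⊕ Fin m) (Fin m ⊕ Fin m) F) := ⟨_, rfl⟩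
  rw [← hUdef] at hnil hreg
  have hU : U * τ U = 1 := (hSp U).mp (by rw [hUdef]; exact u.2)
  have hU' : τ U * U = 1 := mul_eq_one_comm.mp hU
  have hττU : τ (τ U) = U := by
    have h1 : τ (τ U) * τ U = 1 := by rw [← hτmul, hU, hτone]
    calc τ (τ U) = τ (τ U) * (τ U * U) := by rw [hU', Matrix.mul_one]
      _ = (τ (τ U) * τ U) * U := by rw [Matrix.mul_assoc]
      _ = U := by rw [h1, Matrix.one_mul]
  obtain ⟨y, hy⟩ : ∃ y, y = U - τ U := ⟨_, rfl⟩
  have hτy : τ y = -y := by rw [hy, map_sub, hττU]; abel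
  have hN1 : (U - 1) * (1 + τ U) = U - τ U := by
    rw [sub_mul, mul_add, mul_one, one_mul, hU]; abel
  have hN2 : (1 + τ U) * (U - 1) = U - τ U := by
    rw [add_mul, one_mul, mul_sub, mul_one, hU']; abel
  have hyN : y = (U - 1) * (1 + τ U) := by rw [hN1, hy]
  have hdetτU : (τ U).det ≠ 0 := by
    have := congrArg Matrix.det hU
    rw [Matrix.det_mul, Matrix.det_one] at this
    exact right_ne_zero_of_mul_eq_one this
  have hdet1 : (1 + τ U).det ≠ 0 := by
    have e : 1 + τ U = τ U * ((2:F) • (1 : Matrix (Fin m ⊕ Fin m) (Fin m ⊕ Fin m) F) + (U - 1)) := by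
      rw [mul_add, mul_sub, hU', mul_one, Matrix.mul_smul, mul_one, two_smul]; abel
    rw [e, Matrix.det_mul, Cfsg.Agent.S2592.det_smul_one_add_nilp' _ ⟨2 * m, hnil⟩]
    exact mul_ne_zero hdetτU (pow_ne_zero _ h2F)
  have hyrank : y.rank = 2 * m - 1 := by
    rw [hyN, Matrix.rank_mul_eq_left_of_isUnit_det _ _ (isUnit_iff_ne_zero.mpr hdet1), hreg]
  have hNcomm : Commute (U - 1) (1 + τ U) := by
    show (U - 1) * (1 + τ U) = (1 + τ U) * (U - 1)
    rw [hN1, hN2]
  have hyn : y ^ (2 * m) = 0 := by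
    rw [hyN, hNcomm.mul_pow, hnil, zero_mul]
  have hyn1 : y ^ (2 * m - 1) ≠ 0 := by
    intro h0
    obtain ⟨v, hv⟩ := Cfsg.Agent.S2578.cyc (Matrix.toLinAlgEquiv' y) (2 * m) hm1
      (by rw [Module.finrank_fintype_fun_eq_card, hcard])
      (by rw [Cfsg.Agent.S2592.toLin_rank', hyrank])
    apply hv
    rw [← map_pow, h0, map_zero, LinearMap.zero_apply]
  have hyU : y * U = U * y := by rw [hy, sub_mul, mul_sub, hU, hU']
  have hcτ : ∀ a : Matrix (Fin m ⊕ Fin m) (Fin m ⊕ Fin m) F, a * U = U * a →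
      a * τ U = τ U * a := by
    intro a ha
    calc a * τ U = (τ U * U) * (a * τ U) := by rw [hU', Matrix.one_mul]
      _ = τ U * (U * a) * τ U := by simp only [Matrix.mul_assoc]
      _ = τ U * (a * U) * τ U := by rw [ha]
      _ = τ U * a * (U * τ U) := by simp only [Matrix.mul_assoc]
      _ = τ U * a := by rw [hU, Matrix.mul_one]
  have hcy : ∀ a : Matrix (Fin m ⊕ Fin m) (Fin m ⊕ Fin m) F, a * U = U * a → a * y = y * a := by
    intro a ha
    rw [hy, mul_sub, sub_mul, ha, hcτ a ha]
  have hrep : ∀ z : Matrix (Fin m ⊕ Fin m) (Fin m ⊕ Fin m) F, z * y = y * z →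
      ∃ c : Fin (2 * m) → F, z = ∑ i, c i • y ^ (i:ℕ) :=
    fun z hz => Cfsg.Agent.S2592.repr_comm_mat (2 * m) hm1 hcard y z hyn hyn1 hz
  have huniq := Cfsg.Agent.S2592.coeff_unique (2 * m) y hyn hyn1
  have hcomm : ∀ a b : Matrix (Fin m ⊕ Fin m) (Fin m ⊕ Fin m) F, a * U = U * a → b * U = U * b →
      a * b = b * a := by
    intro a b ha hb
    obtain ⟨c, hc⟩ := hrep a (hcy a ha)
    have hby : Commute y b := (hcy b hb).symm
    rw [hc]
    exact (Commute.sum_left _ _ _ (fun i _ => ((hby.pow_left _).smul_left _))).eq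
  have hτmem : ∀ a : Matrix (Fin m ⊕ Fin m) (Fin m ⊕ Fin m) F, a * U = U * a →
      τ a * U = U * τ a := by
    intro a ha
    have h1 := congrArg τ (hcτ a ha)
    rw [hτmul, hτmul, hττU] at h1
    exact h1.symm
  have hτpow : ∀ k : ℕ, τ (y ^ k) = (-y) ^ k := by
    intro k
    induction k with
    | zero => rw [pow_zero, pow_zero, hτone]
    | succ k ih => rw [pow_succ, hτmul, ih, hτy, pow_succ']
  have hnegpow : ∀ i : ℕ, (-y) ^ i = ((-1:F) ^ i) • y ^ i := fun i => by
    rw [← neg_one_smul F y, smul_pow]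
  let S : Subalgebra F (Matrix (Fin m ⊕ Fin m) (Fin m ⊕ Fin m) F) :=
    Subalgebra.centralizer F ({U} : Set (Matrix (Fin m ⊕ Fin m) (Fin m ⊕ Fin m) F))
  have hSmem : ∀ z : Matrix (Fin m ⊕ Fin m) (Fin m ⊕ Fin m) F, z ∈ S ↔ z * U = U * z := by
    intro z
    show z ∈ Subalgebra.centralizer F ({U} : Set _) ↔ _
    rw [Subalgebra.mem_centralizer_iff]
    constructor
    · intro h; exact (h U rfl).symm
    · intro h g hg; rw [Set.mem_singleton_iff.mp hg]; exact h.symm
  letI instS : CommRing ↥S := { (inferInstance : Ring ↥S) with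
    mul_comm := fun a b => Subtype.ext (hcomm a.1 b.1 ((hSmem _).mp a.2) ((hSmem _).mp b.2)) }
  haveI : Nontrivial ↥S := ⟨⟨0, 1, fun h => zero_ne_one (congrArg Subtype.val h)⟩⟩
  let σ : ↥S →ₐ[F] ↥S :=
    { toFun := fun z => ⟨τ z.1, (hSmem _).mpr (hτmem z.1 ((hSmem _).mp z.2))⟩
      map_one' := Subtype.ext hτone
      map_mul' := fun a b => Subtype.ext (by
        show τ (a.1 * b.1) = τ a.1 * τ b.1
        rw [hτmul]
        exact hcomm _ _ (hτmem b.1 ((hSmem _).mp b.2)) (hτmem a.1 ((hSmem _).mp a.2)))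
      map_zero' := Subtype.ext (map_zero τ)
      map_add' := fun a b => Subtype.ext (map_add τ a.1 b.1)
      commutes' := fun c => Subtype.ext (by
        show τ (algebraMap F (Matrix (Fin m ⊕ Fin m) (Fin m ⊕ Fin m) F) c) =
          algebraMap F (Matrix (Fin m ⊕ Fin m) (Fin m ⊕ Fin m) F) c
        rw [Algebra.algebraMap_eq_smul_one, map_smul, hτone]) }
  have hloc : ∀ z : ↥S, ∃ a : F, IsNilpotent (z - algebraMap F ↥S a) := by
    intro z
    obtain ⟨v, hv⟩ := Cfsg.Agent.S2592.exists_cyc_mat (2 * m) y hyn1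
    obtain ⟨a, k, hk⟩ := Cfsg.Agent.S2578.cent_nilp (Matrix.toLinAlgEquiv' y)
      (Matrix.toLinAlgEquiv' z.1) (2 * m) hm1
      (by rw [Module.finrank_fintype_fun_eq_card, hcard]) (by rw [← map_pow, hyn, map_zero]) v hv
      (by rw [← map_mul, ← map_mul, hcy z.1 ((hSmem _).mp z.2)])
    have hk' : (z.1 - a • (1 : Matrix (Fin m ⊕ Fin m) (Fin m ⊕ Fin m) F)) ^ k = 0 := by
      apply (Matrix.toLinAlgEquiv' (R := F) (n := Fin m ⊕ Fin m)).injective
      rw [map_pow, map_sub, map_smul, map_one, hk, map_zero]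
    refine ⟨a, k, Subtype.ext ?_⟩
    show (z.1 - algebraMap F (Matrix (Fin m ⊕ Fin m) (Fin m ⊕ Fin m) F) a) ^ k = 0
    rw [Algebra.algebraMap_eq_smul_one]
    exact hk'
  have hcay := Cfsg.Agent.S2592.cayley_count σ h2F hloc
  obtain ⟨v, hv⟩ := Cfsg.Agent.S2592.exists_cyc_mat (2 * m) y hyn1
  have hli := Cfsg.Agent.S2578.indep (Matrix.toLinAlgEquiv' y) (2 * m)
    (by rw [← map_pow, hyn, map_zero]) v hv
  have he : Function.Injective (fun j : Fin m =>
      (⟨2 * (j:ℕ) + 1, by have := j.2; omega⟩ : Fin (2 * m))) := by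
    intro a b h
    have := congrArg Fin.val h
    simp only at this
    exact Fin.ext (by omega)
  have hliodd := hli.comp _ he
  have hrange : ∀ i : Fin (2 * m), i ∉ Set.range (fun j : Fin m =>
      (⟨2 * (j:ℕ) + 1, by have := j.2; omega⟩ : Fin (2 * m))) → (i:ℕ) % 2 = 0 := by
    intro i hi
    by_contra hodd
    apply hi
    refine ⟨⟨(i:ℕ) / 2, by have := i.2; omega⟩, Fin.ext ?_⟩
    show 2 * ((i:ℕ) / 2) + 1 = (i:ℕ)
    omega
  have hX1 : ∀ d : Fin m → F, (∑ j : Fin m, d j • y ^ (2 * (j:ℕ) + 1)) * U =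
      U * (∑ j : Fin m, d j • y ^ (2 * (j:ℕ) + 1)) := by
    intro d
    exact (Commute.sum_left _ _ _ (fun j _ =>
      (((show Commute y U from hyU).pow_left _).smul_left _))).eq
  have hX2 : ∀ d : Fin m → F, τ (∑ j : Fin m, d j • y ^ (2 * (j:ℕ) + 1)) =
      -(∑ j : Fin m, d j • y ^ (2 * (j:ℕ) + 1)) := by
    intro d
    rw [map_sum, ← Finset.sum_neg_distrib]
    apply Finset.sum_congr rfl
    intro j _
    rw [map_smul, hτpow, Odd.neg_pow ⟨(j:ℕ), rfl⟩, smul_neg]
  have hskewcard : Nat.card {x : ↥S // σ x = -x} = q ^ m := by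
    have hbij : Function.Bijective (fun d : Fin m → F =>
        (⟨⟨∑ j : Fin m, d j • y ^ (2 * (j:ℕ) + 1), (hSmem _).mpr (hX1 d)⟩,
          Subtype.ext (hX2 d)⟩ : {x : ↥S // σ x = -x})) := by
      constructor
      · intro d d' h
        have h' : ∑ j : Fin m, d j • y ^ (2 * (j:ℕ) + 1) =
            ∑ j : Fin m, d' j • y ^ (2 * (j:ℕ) + 1) :=
          congrArg (fun x : {x : ↥S // σ x = -x} =>
            (x.1.1 : Matrix (Fin m ⊕ Fin m) (Fin m ⊕ Fin m) F)) h
        have h'' := congrArg (fun w : Matrix (Fin m ⊕ Fin m) (Fin m ⊕ Fin m) F =>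
          (Matrix.toLinAlgEquiv' w : ((Fin m ⊕ Fin m) → F) →ₗ[F] ((Fin m ⊕ Fin m) → F)) v) h'
        simp only [map_sum, map_smul, map_pow, LinearMap.sum_apply, LinearMap.smul_apply] at h''
        have h3 : ∑ j : Fin m, (d j - d' j) •
            ((Matrix.toLinAlgEquiv' y : ((Fin m ⊕ Fin m) → F) →ₗ[F] ((Fin m ⊕ Fin m) → F)) ^
              (2 * (j:ℕ) + 1)) v = 0 := by
          simp only [sub_smul, Finset.sum_sub_distrib]
          rw [h'', sub_self]
        have h4 := (Fintype.linearIndependent_iff.mp hliodd) (fun j => d j - d' j) h3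
        funext j
        exact sub_eq_zero.mp (h4 j)
      · rintro ⟨⟨x, hxS⟩, hxσ⟩
        have hxU : x * U = U * x := (hSmem x).mp hxS
        have hxτ : τ x = -x := congrArg Subtype.val hxσ
        obtain ⟨c, hc⟩ := hrep x (hcy x hxU)
        have hc0 : ∀ i : Fin (2 * m), (i:ℕ) % 2 = 0 → c i = 0 := by
          have e1 : τ x + x = 0 := by rw [hxτ, neg_add_cancel]
          have e2 : τ x + x = ∑ i : Fin (2 * m), (c i * ((-1) ^ (i:ℕ) + 1)) • y ^ (i:ℕ) := by
            conv_lhs => rw [hc]
            rw [map_sum, ← Finset.sum_add_distrib]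
            apply Finset.sum_congr rfl
            intro i _
            rw [map_smul, hτpow, hnegpow, smul_smul, ← add_smul]
            congr 1; ring
          have h5 := huniq _ (e2.symm.trans e1)
          intro i hi
          have h6 := h5 i
          have hev : ((-1 : F)) ^ (i:ℕ) = 1 := Even.neg_one_pow (Nat.even_iff.mpr hi)
          rw [hev] at h6
          rcases mul_eq_zero.mp h6 with h | h
          · exact h
          · exact absurd (by rw [← one_add_one_eq_two]; exact h) h2F
        refine ⟨fun j => c ⟨2 * (j:ℕ) + 1, by have := j.2; omega⟩, ?_⟩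
        refine Subtype.ext (Subtype.ext ?_)
        exact (Fintype.sum_of_injective _ he _ (fun i : Fin (2 * m) => c i • y ^ (i:ℕ))
          (fun i hi => by rw [hc0 i (hrange i hi), zero_smul]) (fun j => rfl)).trans hc.symm
    rw [← Nat.card_congr (Equiv.ofBijective _ hbij), Nat.card_eq_fintype_card, Fintype.card_fun,
      Fintype.card_fin, hF]
  have hfin : Nat.card ↥(Subgroup.centralizer ({u} : Set ↥(Matrix.symplecticGroup (Fin m) F))) =
      Nat.card {z : ↥S // z * σ z = 1} := by
    have hb : Function.Bijective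
        (fun g : ↥(Subgroup.centralizer ({u} : Set ↥(Matrix.symplecticGroup (Fin m) F))) =>
        (⟨⟨(g.1 : Matrix (Fin m ⊕ Fin m) (Fin m ⊕ Fin m) F), (hSmem _).mpr (by
            have h1 := Subgroup.mem_centralizer_iff.mp g.2 u rfl
            have h2 := congrArg (fun w : ↥(Matrix.symplecticGroup (Fin m) F) =>
              (w : Matrix (Fin m ⊕ Fin m) (Fin m ⊕ Fin m) F)) h1
            rw [hUdef]
            exact h2.symm)⟩,
          Subtype.ext ((hSp _).mp g.1.2)⟩ : {z : ↥S // z * σ z = 1})) := by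
      constructor
      · intro g g' h
        have h' : (g.1 : Matrix (Fin m ⊕ Fin m) (Fin m ⊕ Fin m) F) = g'.1 :=
          congrArg (fun x : {z : ↥S // z * σ z = 1} =>
            (x.1.1 : Matrix (Fin m ⊕ Fin m) (Fin m ⊕ Fin m) F)) h
        exact Subtype.ext (Subtype.ext h')
      · rintro ⟨⟨z, hzS⟩, hzK⟩
        have hzU : z * U = U * z := (hSmem z).mp hzS
        have hzτ : z * τ z = 1 := congrArg Subtype.val hzK
        refine ⟨⟨⟨z, (hSp z).mpr hzτ⟩, ?_⟩, rfl⟩
        rw [Subgroup.mem_centralizer_iff]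
        intro h hh
        rw [Set.mem_singleton_iff.mp hh]
        apply Subtype.ext
        show (u : Matrix (Fin m ⊕ Fin m) (Fin m ⊕ Fin m) F) * z =
          z * (u : Matrix (Fin m ⊕ Fin m) (Fin m ⊕ Fin m) F)
        rw [← hUdef]
        exact hzU.symm
    exact Nat.card_congr (Equiv.ofBijective _ hb)
  exact hfin.trans (hcay.trans (congrArg (2 * ·) hskewcard))

end Cfsg.Agent.S2592
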