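import Cfsg.Statements.S2591
import Mathlib
import Cfsg.Agent.S2578
import Cfsg.Agent.S2592
-- import your own Cfsg.Agent.* helpers here

set_option autoImplicit false
open Cfsg

namespace Cfsg.Agent.S2591

theorem exists_shift (n : ℕ) (F : Type*) [Field F] :
    ∃ J : Matrix (Fin n) (Fin n) F,
      ∀ k (i j : Fin n), (J ^ k) i j = if (j:ℕ) + k = (i:ℕ) then 1 else 0 := by
  obtain ⟨J, hJ⟩ : ∃ J : Matrix (Fin n) (Fin n) F,
      ∀ i j, J i j = if (j:ℕ) + 1 = (i:ℕ) then 1 else 0 :=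
    ⟨fun i j => if (j:ℕ) + 1 = (i:ℕ) then 1 else 0, fun i j => rfl⟩
  refine ⟨J, ?_⟩
  intro k
  induction k with
  | zero =>
    intro i j
    rw [pow_zero, Matrix.one_apply]
    by_cases h : i = j
    · subst h; simp
    · have : ¬ ((j:ℕ) + 0 = (i:ℕ)) := fun h' => h (Fin.ext (by omega))
      rw [if_neg h, if_neg this]
  | succ k ih =>
    intro i j
    rw [pow_succ, Matrix.mul_apply]
    by_cases h : (j:ℕ) + (k + 1) = (i:ℕ)
    · rw [if_pos h]
      have hl : (j:ℕ) + 1 < n := by have := i.2; omega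
      rw [Finset.sum_eq_single (⟨(j:ℕ) + 1, hl⟩ : Fin n)]
      · rw [ih, hJ, if_pos (by simp; omega), if_pos (by simp), mul_one]
      · intro l _ hl'
        have : ¬ ((j:ℕ) + 1 = (l:ℕ)) := fun h' => hl' (Fin.ext h'.symm)
        rw [hJ, if_neg this, mul_zero]
      · intro h'
        exact absurd (Finset.mem_univ _) h'
    · rw [if_neg h]
      apply Finset.sum_eq_zero
      intro l _
      rw [ih, hJ]
      by_cases h1 : (l:ℕ) + k = (i:ℕ)
      · have : ¬ ((j:ℕ) + 1 = (l:ℕ)) := by omega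
        rw [if_neg this, mul_zero]
      · rw [if_neg h1, zero_mul]

theorem exists_skew_regular (m : ℕ) (hm : 1 ≤ m) (F : Type*) [Field F] :
    ∃ X : Matrix (Fin m ⊕ Fin m) (Fin m ⊕ Fin m) F,
      -(Matrix.J (Fin m) F) * X.transpose * (Matrix.J (Fin m) F) = -X ∧
      X ^ (2 * m) = 0 ∧ X ^ (2 * m - 1) ≠ 0 := by
  obtain ⟨A, hA⟩ := Cfsg.Agent.S2591.exists_shift m F
  have hAm : A ^ m = 0 := by
    ext i j
    rw [hA]
    have := i.2
    rw [if_neg (by omega)]
    rfl
  have hDm : (-A.transpose) ^ m = 0 := by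
    rw [neg_pow, ← Matrix.transpose_pow, hAm, Matrix.transpose_zero, mul_zero]
  have hblock : ∀ k : ℕ, ∃ P : Matrix (Fin m) (Fin m) F,
      (Matrix.fromBlocks A 1 0 (-A.transpose)) ^ k =
        Matrix.fromBlocks (A ^ k) P 0 ((-A.transpose) ^ k) := by
    intro k
    induction k with
    | zero => exact ⟨0, by rw [pow_zero, pow_zero, pow_zero, Matrix.fromBlocks_one]⟩
    | succ k ih =>
      obtain ⟨P, hP⟩ := ih
      refine ⟨A ^ k * 1 + P * (-A.transpose), ?_⟩
      rw [pow_succ, hP, Matrix.fromBlocks_multiply]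
      congr 1
      · rw [Matrix.mul_zero, add_zero, pow_succ]
      · rw [Matrix.zero_mul, Matrix.mul_zero, add_zero]
      · rw [Matrix.zero_mul, zero_add, pow_succ]
  refine ⟨Matrix.fromBlocks A 1 0 (-A.transpose), ?_, ?_, ?_⟩
  · rw [Matrix.J, Matrix.fromBlocks_transpose, Matrix.fromBlocks_neg, Matrix.fromBlocks_multiply,
      Matrix.fromBlocks_multiply, Matrix.fromBlocks_neg]
    congr 1 <;> simp
  · obtain ⟨P, hP⟩ := hblock m
    rw [two_mul, pow_add, hP, hAm, hDm, Matrix.fromBlocks_multiply]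
    simp
  · obtain ⟨P, hP⟩ := hblock (m - 1)
    intro h0
    have e : (Matrix.fromBlocks A 1 0 (-A.transpose)) ^ (2 * m - 1) =
        Matrix.fromBlocks 0 (A ^ (m - 1) * (-A.transpose) ^ (m - 1)) 0 0 := by
      have h1 : 2 * m - 1 = (m - 1) + 1 + (m - 1) := by omega
      have hA1 : A ^ (m - 1) * A = 0 := by rw [← pow_succ, show m - 1 + 1 = m by omega, hAm]
      have hD1 : (-A.transpose) ^ (m - 1) * (-A.transpose) = 0 := by
        rw [← pow_succ, show m - 1 + 1 = m by omega, hDm]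
      have hD2 : (-A.transpose) * (-A.transpose) ^ (m - 1) = 0 := by
        rw [← pow_succ', show m - 1 + 1 = m by omega, hDm]
      rw [h1, pow_add, pow_add, pow_one, hP, Matrix.fromBlocks_multiply, Matrix.fromBlocks_multiply]
      simp only [Matrix.mul_zero, Matrix.zero_mul, add_zero, zero_add, hA1, hD1, Matrix.mul_one,
        Matrix.add_mul, Matrix.mul_assoc, hD2]
    rw [e] at h0
    have h2 := congrArg (fun M : Matrix (Fin m ⊕ Fin m) (Fin m ⊕ Fin m) F =>
      M (Sum.inl ⟨m - 1, by omega⟩) (Sum.inr ⟨m - 1, by omega⟩)) h0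
    simp only [Matrix.fromBlocks_apply₁₂, Matrix.zero_apply] at h2
    have hD' : (-A.transpose) ^ (m - 1) = ((-1:F) ^ (m - 1)) • (A ^ (m - 1)).transpose := by
      rw [← neg_one_smul F A.transpose, smul_pow, Matrix.transpose_pow]
    rw [hD', Matrix.mul_smul] at h2
    simp only [Matrix.smul_apply, Matrix.mul_apply, Matrix.transpose_apply, hA, Fin.val_mk] at h2
    rw [Finset.sum_eq_single (⟨0, by omega⟩ : Fin m)] at h2
    · simp at h2
    · intro l _ hl
      have : ¬ ((l:ℕ) + (m - 1) = m - 1) := by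
        intro h
        apply hl
        exact Fin.ext (by simp; omega)
      rw [if_neg this, zero_mul]
    · intro h'
      exact absurd (Finset.mem_univ _) h'

theorem sqrt_one_add {S : Type*} [CommRing S] (σ : S →+* S) (h2 : IsUnit (2:S)) :
    ∀ k : ℕ, ∀ n : S, n ^ k = 0 → σ n = n → ∃ s : S, σ s = s ∧ s * s = 1 + n := by
  obtain ⟨t, ht⟩ := h2.exists_right_inv
  have hσt : σ t = t := by
    have h1 : 2 * σ t = 1 := by
      have := congrArg σ ht
      rwa [map_mul, map_ofNat, map_one] at this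
    linear_combination t * h1 - σ t * ht
  intro k
  induction k using Nat.strong_induction_on with
  | _ k ih =>
    intro n hn hσn
    rcases Nat.lt_or_ge k 2 with hk | hk
    · interval_cases k
      · rw [pow_zero] at hn
        refine ⟨0, map_zero σ, ?_⟩
        have : ∀ a : S, a = 0 := fun a => by rw [← mul_one a, hn, mul_zero]
        rw [this (0 * 0), this (1 + n)]
      · rw [pow_one] at hn
        exact ⟨1, map_one σ, by rw [hn]; ring⟩
    · have hu : IsUnit (1 + t * n) :=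
        IsNilpotent.isUnit_one_add ⟨k, by rw [mul_pow, hn, mul_zero]⟩
      obtain ⟨v, hv⟩ := hu.exists_right_inv
      have hσv : σ v = v := by
        have h1 : (1 + t * n) * σ v = 1 := by
          have := congrArg σ hv
          rwa [map_mul, map_add, map_one, map_mul, hσt, hσn] at this
        linear_combination v * h1 - σ v * hv
      have hk' : (k + 1) / 2 < k := by omega
      have hn' : (-(t * t * (n * n) * (v * v))) ^ ((k + 1) / 2) = 0 := by
        have e : (-(t * t * (n * n) * (v * v))) ^ ((k + 1) / 2) =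
            (-(t * t * (v * v))) ^ ((k + 1) / 2) * n ^ (2 * ((k + 1) / 2)) := by
          rw [pow_mul, ← mul_pow]; congr 1; ring
        rw [e]
        obtain ⟨d, hd⟩ := Nat.exists_eq_add_of_le (show k ≤ 2 * ((k + 1) / 2) by omega)
        rw [hd, pow_add, hn, zero_mul, mul_zero]
      have hσn' : σ (-(t * t * (n * n) * (v * v))) = -(t * t * (n * n) * (v * v)) := by
        simp only [map_neg, map_mul, hσt, hσn, hσv]
      obtain ⟨s', hσs', hs'⟩ := ih _ hk' _ hn' hσn'
      refine ⟨(1 + t * n) * s', by rw [map_mul, map_add, map_one, map_mul, hσt, hσn, hσs'], ?_⟩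
      linear_combination ((1 + t * n) * (1 + t * n)) * hs' +
        (-(t * t * n * n) * (1 + (1 + t * n) * v)) * hv + n * ht

theorem norm_scalar_sq {F S : Type*} [Field F] [CommRing S] [Algebra F S] [Nontrivial S]
    (σ : S →ₐ[F] S) (hloc : ∀ z : S, ∃ a : F, IsNilpotent (z - algebraMap F S a))
    (r : S) (lam : F) (h : r * σ r = algebraMap F S lam) : ∃ c : F, lam = c * c := by
  obtain ⟨a, ha⟩ := hloc r
  have ha' : IsNilpotent (σ (r - algebraMap F S a)) := ha.map σ
  rw [map_sub, AlgHom.commutes] at ha'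
  have e : algebraMap F S (lam - a * a) =
      (r - algebraMap F S a) * σ r + algebraMap F S a * (σ r - algebraMap F S a) := by
    rw [map_sub, map_mul, ← h]; ring
  have hnil : IsNilpotent (algebraMap F S (lam - a * a)) := by
    rw [e]
    exact Commute.isNilpotent_add (Commute.all _ _)
      (Commute.isNilpotent_mul_right (Commute.all _ _) ha)
      (Commute.isNilpotent_mul_left (Commute.all _ _) ha')
  obtain ⟨k, hk⟩ := hnil
  rw [← map_pow] at hk
  have hk0 : (lam - a * a) ^ k = 0 := (algebraMap F S).injective (by rw [hk, map_zero])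
  have h3 : lam - a * a = 0 := IsNilpotent.eq_zero ⟨k, hk0⟩
  exact ⟨a, sub_eq_zero.mp h3⟩

theorem norm_adjust {F S : Type*} [Field F] [CommRing S] [Algebra F S] [Nontrivial S]
    (σ : S →ₐ[F] S) (h2 : (2 : F) ≠ 0)
    (hloc : ∀ z : S, ∃ a : F, IsNilpotent (z - algebraMap F S a))
    (a : S) (hσa : σ a = a) (hau : IsUnit a) :
    ∃ (r : S) (a₀ : F), a₀ ≠ 0 ∧ r * a * σ r = algebraMap F S a₀ := by
  obtain ⟨a₀, k, hk⟩ := hloc a
  have ha₀ : a₀ ≠ 0 := by
    rintro rfl
    rw [map_zero, sub_zero] at hk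
    obtain ⟨b, hb⟩ := hau.exists_right_inv
    have : (1 : S) = 0 := by
      calc (1 : S) = (a * b) ^ k := by rw [hb, one_pow]
        _ = a ^ k * b ^ k := mul_pow _ _ _
        _ = 0 := by rw [hk, zero_mul]
    exact one_ne_zero this
  have hinv : algebraMap F S a₀ * algebraMap F S a₀⁻¹ = 1 := by
    rw [← map_mul, mul_inv_cancel₀ ha₀, map_one]
  have h2S : IsUnit (2 : S) := by
    have : (2 : S) = algebraMap F S 2 := by rw [map_ofNat]
    rw [this]
    exact (IsUnit.mk0 _ h2).map (algebraMap F S)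
  have hn1 : (algebraMap F S a₀⁻¹ * (a - algebraMap F S a₀)) ^ k = 0 := by
    rw [mul_pow, hk, mul_zero]
  have hσn1 : σ.toRingHom (algebraMap F S a₀⁻¹ * (a - algebraMap F S a₀)) =
      algebraMap F S a₀⁻¹ * (a - algebraMap F S a₀) := by
    show σ (algebraMap F S a₀⁻¹ * (a - algebraMap F S a₀)) = _
    rw [map_mul, map_sub, AlgHom.commutes, AlgHom.commutes, hσa]
  obtain ⟨s, hσs, hs⟩ := Cfsg.Agent.S2591.sqrt_one_add σ.toRingHom h2S k _ hn1 hσn1
  have hσs' : σ s = s := hσs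
  have hsu : IsUnit s := by
    have h1 : s * s = algebraMap F S a₀⁻¹ * a := by
      rw [hs]; linear_combination (-1 : S) * hinv
    have h3 : IsUnit (s * s) := by
      rw [h1]
      exact ((IsUnit.mk0 _ (inv_ne_zero ha₀)).map (algebraMap F S)).mul hau
    exact isUnit_of_mul_isUnit_left h3
  obtain ⟨r, hr⟩ := hsu.exists_right_inv
  have hσr : σ r = r := by
    have h1 : s * σ r = 1 := by
      have := congrArg σ hr
      rwa [map_mul, hσs', map_one] at this
    linear_combination r * h1 - σ r * hr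
  refine ⟨r, a₀, ha₀, ?_⟩
  rw [hσr]
  linear_combination (algebraMap F S a₀ * (s * r + 1)) * hr - (r * r * algebraMap F S a₀) * hs -
    (r * r * (a - algebraMap F S a₀)) * hinv

theorem normal_form2 {ι : Type*} [Fintype ι] [DecidableEq ι] {F : Type*} [Field F] (n : ℕ)
    (hn : 1 ≤ n) (hcard : Fintype.card ι = n) (A A' : Matrix ι ι F)
    (h1 : (A - 1) ^ n = 0) (h2 : (A - 1).rank = n - 1)
    (h1' : (A' - 1) ^ n = 0) (h2' : (A' - 1).rank = n - 1) :
    ∃ g ginv : Matrix ι ι F, g * ginv = 1 ∧ ginv * g = 1 ∧ g * A = A' * g := by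
  have hV : Module.finrank F (ι → F) = n := by rw [Module.finrank_fintype_fun_eq_card, hcard]
  have hfn : (Matrix.toLinAlgEquiv' (A - 1) : (ι → F) →ₗ[F] (ι → F)) ^ n = 0 := by
    rw [← map_pow, h1, map_zero]
  have hfn' : (Matrix.toLinAlgEquiv' (A' - 1) : (ι → F) →ₗ[F] (ι → F)) ^ n = 0 := by
    rw [← map_pow, h1', map_zero]
  obtain ⟨v, hv⟩ := Cfsg.Agent.S2578.cyc (Matrix.toLinAlgEquiv' (A - 1)) n hn hV
    (by rw [Cfsg.Agent.S2592.toLin_rank', h2])
  obtain ⟨v', hv'⟩ := Cfsg.Agent.S2578.cyc (Matrix.toLinAlgEquiv' (A' - 1)) n hn hV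
    (by rw [Cfsg.Agent.S2592.toLin_rank', h2'])
  obtain ⟨P, hP⟩ := Cfsg.Agent.S2578.conj_cyc _ _ n hn hV hfn hfn' v v' hv hv'
  let φ := (Matrix.toLinAlgEquiv' (R := F) (n := ι))
  refine ⟨φ.symm P.toLinearMap, φ.symm P.symm.toLinearMap, ?_, ?_, ?_⟩
  · rw [← map_mul]
    have : (P.toLinearMap * P.symm.toLinearMap : (ι → F) →ₗ[F] (ι → F)) = 1 := by
      apply LinearMap.ext
      intro x
      simp [Module.End.mul_apply]
    rw [this, map_one]
  · rw [← map_mul]
    have : (P.symm.toLinearMap * P.toLinearMap : (ι → F) →ₗ[F] (ι → F)) = 1 := by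
      apply LinearMap.ext
      intro x
      simp [Module.End.mul_apply]
    rw [this, map_one]
  · have hkey : φ.symm P.toLinearMap * (A - 1) = (A' - 1) * φ.symm P.toLinearMap := by
      apply φ.injective
      rw [map_mul, map_mul, AlgEquiv.apply_symm_apply]
      apply LinearMap.ext
      intro x
      rw [Module.End.mul_apply, Module.End.mul_apply]
      exact hP x
    rw [mul_sub, mul_one, sub_mul, one_mul] at hkey
    exact sub_left_injective hkey

theorem exists_scal (m : ℕ) (F : Type*) [Field F] (lam : F) (hlam : lam ≠ 0) :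
    ∃ d dinv : Matrix (Fin m ⊕ Fin m) (Fin m ⊕ Fin m) F, d * dinv = 1 ∧ dinv * d = 1 ∧
      d * (-(Matrix.J (Fin m) F) * d.transpose * (Matrix.J (Fin m) F)) = lam • 1 ∧
      dinv * (-(Matrix.J (Fin m) F) * dinv.transpose * (Matrix.J (Fin m) F)) = lam⁻¹ • 1 := by
  refine ⟨Matrix.fromBlocks (lam • 1) 0 0 1, Matrix.fromBlocks (lam⁻¹ • 1) 0 0 1, ?_, ?_, ?_, ?_⟩
  · rw [Matrix.fromBlocks_multiply, ← Matrix.fromBlocks_one]
    congr 1 <;> simp [hlam]
  · rw [Matrix.fromBlocks_multiply, ← Matrix.fromBlocks_one]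
    congr 1 <;> simp [hlam]
  · rw [Matrix.J, Matrix.fromBlocks_transpose, Matrix.fromBlocks_neg, Matrix.fromBlocks_multiply,
      Matrix.fromBlocks_multiply, Matrix.fromBlocks_multiply, ← Matrix.fromBlocks_one,
      Matrix.fromBlocks_smul]
    congr 1 <;> simp
  · rw [Matrix.J, Matrix.fromBlocks_transpose, Matrix.fromBlocks_neg, Matrix.fromBlocks_multiply,
      Matrix.fromBlocks_multiply, Matrix.fromBlocks_multiply, ← Matrix.fromBlocks_one,
      Matrix.fromBlocks_smul]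
    congr 1 <;> simp

/-- Over a finite field of odd order and for m ≥ 1, the regular unipotent elements of Sp_2m(F) (u − 1 nilpotent of rank 2m − 1, a single Jordan block) form exactly two conjugacy classes of Sp_2m(F) (one class under the similarity group, which splits in two). -/
theorem result {F : Type*} [Field F] [Fintype F] {q : ℕ} (hF : Fintype.card F = q) (hq : Odd q) {m : ℕ} (hm : 1 ≤ m) : Nat.card {C : ConjClasses ↥(Matrix.symplecticGroup (Fin m) F) // ∃ u : Matrix.symplecticGroup (Fin m) F, ConjClasses.mk u = C ∧ ((u : Matrix (Fin m ⊕ Fin m) (Fin m ⊕ Fin m) F) - 1) ^ (2 * m) = 0 ∧ ((u : Matrix (Fin m ⊕ Fin m) (Fin m ⊕ Fin m) F) - 1).rank = 2 * m - 1} = 2 := by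
  classical
  have hm1 : 1 ≤ 2 * m := by omega
  have hcard : Fintype.card (Fin m ⊕ Fin m) = 2 * m := by
    rw [Fintype.card_sum, Fintype.card_fin]; ring
  have h2F : (2 : F) ≠ 0 := by
    apply Ring.two_ne_zero
    intro hchar
    have := FiniteField.even_card_iff_char_two.mp hchar
    rw [hF] at this
    rcases hq with ⟨k, hk⟩
    omega
  haveI : Nonempty (Fin m) := ⟨⟨0, by omega⟩⟩
  obtain ⟨J, hJdef⟩ : ∃ J : Matrix (Fin m ⊕ Fin m) (Fin m ⊕ Fin m) F, J = Matrix.J (Fin m) F :=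
    ⟨_, rfl⟩
  have hJJ : J * J = -1 := by rw [hJdef]; exact Matrix.J_squared (Fin m) F
  obtain ⟨τ, hτ⟩ : ∃ τ : Matrix (Fin m ⊕ Fin m) (Fin m ⊕ Fin m) F →ₗ[F]
      Matrix (Fin m ⊕ Fin m) (Fin m ⊕ Fin m) F, ∀ A, τ A = -J * A.transpose * J :=
    ⟨{ toFun := fun A => -J * A.transpose * J
       map_add' := by
         intro A B
         show -J * (A + B).transpose * J = -J * A.transpose * J + -J * B.transpose * J
         rw [Matrix.transpose_add, Matrix.mul_add, Matrix.add_mul]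
       map_smul' := by
         intro c A
         show -J * (c • A).transpose * J = c • (-J * A.transpose * J)
         rw [Matrix.transpose_smul, Matrix.mul_smul, Matrix.smul_mul] }, fun A => rfl⟩
  have hτone : τ 1 = 1 := by
    rw [hτ, Matrix.transpose_one, Matrix.mul_one, Matrix.neg_mul, hJJ, neg_neg]
  have hτmul : ∀ A B, τ (A * B) = τ B * τ A := by
    intro A B
    rw [hτ, hτ, hτ, Matrix.transpose_mul]
    have key : ∀ X Y : Matrix (Fin m ⊕ Fin m) (Fin m ⊕ Fin m) F, X * J * (-J * Y) = X * Y := by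
      intro X Y
      rw [Matrix.mul_assoc X J, ← Matrix.mul_assoc J, Matrix.mul_neg, hJJ, neg_neg, Matrix.one_mul]
    calc -J * (B.transpose * A.transpose) * J = (-J * B.transpose) * (A.transpose * J) := by simp only [Matrix.mul_assoc]
      _ = (-J * B.transpose) * J * (-J * (A.transpose * J)) := (key _ _).symm
      _ = -J * B.transpose * J * (-J * A.transpose * J) := by simp only [Matrix.mul_assoc]
  have hSp : ∀ A : Matrix (Fin m ⊕ Fin m) (Fin m ⊕ Fin m) F,
      A ∈ Matrix.symplecticGroup (Fin m) F ↔ A * τ A = 1 := by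
    intro A
    rw [SymplecticGroup.mem_iff, hτ, ← hJdef]
    constructor
    · intro h
      calc A * (-J * A.transpose * J) = -(A * J * A.transpose) * J := by
            simp only [Matrix.mul_assoc, Matrix.neg_mul, Matrix.mul_neg]
        _ = 1 := by rw [h, Matrix.neg_mul, hJJ, neg_neg]
    · intro h
      have e : A * J * A.transpose = (A * (-J * A.transpose * J)) * J := by
        have : (A * (-J * A.transpose * J)) * J = -(A * J * A.transpose * (J * J)) := by
          simp only [Matrix.mul_assoc, Matrix.neg_mul, Matrix.mul_neg]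
        rw [this, hJJ, Matrix.mul_neg, Matrix.mul_one, neg_neg]
      rw [e, h, Matrix.one_mul]
  have hJt : J.transpose = -J := by rw [hJdef]; exact Matrix.J_transpose (Fin m) F
  have hττ : ∀ A : Matrix (Fin m ⊕ Fin m) (Fin m ⊕ Fin m) F, τ (τ A) = A := by
    intro A
    rw [hτ, hτ, Matrix.transpose_mul, Matrix.transpose_mul, Matrix.transpose_transpose,
      Matrix.transpose_neg, hJt]
    have e : -J * (-J * (A * - -J)) * J = (J * J) * A * (J * J) := by
      simp only [Matrix.mul_assoc, Matrix.neg_mul, Matrix.mul_neg, neg_neg]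
    rw [e, hJJ]
    simp
  obtain ⟨X, hX1, hX2, hX3⟩ := Cfsg.Agent.S2591.exists_skew_regular m hm F
  have hτX : τ X = -X := by rw [hτ, hJdef]; exact hX1
  obtain ⟨W, hW1, hW2⟩ : ∃ W : Matrix (Fin m ⊕ Fin m) (Fin m ⊕ Fin m) F,
      (1 - X) * W = 1 ∧ W * (1 - X) = 1 := by
    have hu : IsUnit (1 - X) := IsNilpotent.isUnit_one_sub ⟨2 * m, hX2⟩
    obtain ⟨u, hu⟩ := hu
    exact ⟨↑u⁻¹, by rw [← hu]; exact u.mul_inv, by rw [← hu]; exact u.inv_mul⟩
  have hτ1X' : τ (1 + X) = 1 - X := by rw [map_add, hτone, hτX, sub_eq_add_neg]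
  have hτ1X : τ (1 - X) = 1 + X := by rw [map_sub, hτone, hτX, sub_neg_eq_add]
  have hW'2 : (1 + X) * τ W = 1 := by rw [← hτ1X, ← hτmul, hW2, hτone]
  obtain ⟨U, hUdef⟩ : ∃ U : Matrix (Fin m ⊕ Fin m) (Fin m ⊕ Fin m) F, U = W * (1 + X) :=
    ⟨_, rfl⟩
  have hτU0 : τ U = (1 - X) * τ W := by rw [hUdef, hτmul, hτ1X']
  have hXX : (1 + X) * (1 - X) = (1 - X) * (1 + X) := by noncomm_ring
  have hU : U * τ U = 1 := by
    rw [hτU0, hUdef]
    calc W * (1 + X) * ((1 - X) * τ W) = W * ((1 + X) * (1 - X)) * τ W := by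
          simp only [Matrix.mul_assoc]
      _ = (W * (1 - X)) * ((1 + X) * τ W) := by rw [hXX]; simp only [Matrix.mul_assoc]
      _ = 1 := by rw [hW2, hW'2, Matrix.one_mul]
  have hNW : U - 1 = W * ((2:F) • X) := by
    rw [hUdef, two_smul]
    calc W * (1 + X) - 1 = W * (1 + X) - W * (1 - X) := by rw [hW2]
      _ = W * (X + X) := by rw [← mul_sub]; congr 1; abel
  have hWX : Commute W X := by
    have h : (1 - X) * W = W * (1 - X) := by rw [hW1, hW2]
    rw [sub_mul, mul_sub, one_mul, mul_one] at h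
    exact (sub_right_injective h).symm
  have hWX2 : Commute W ((2:F) • X) := hWX.smul_right _
  have hnil : (U - 1) ^ (2 * m) = 0 := by
    rw [hNW, hWX2.mul_pow, smul_pow, hX2, smul_zero, mul_zero]
  have hNne : (U - 1) ^ (2 * m - 1) ≠ 0 := by
    rw [hNW, hWX2.mul_pow, smul_pow]
    intro h0
    have h1 : (1 - X) ^ (2 * m - 1) *
        (W ^ (2 * m - 1) * ((2:F) ^ (2 * m - 1) • X ^ (2 * m - 1))) = 0 := by rw [h0, mul_zero]
    have hc : Commute (1 - X) W := by
      show (1 - X) * W = W * (1 - X)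
      rw [hW1, hW2]
    rw [← mul_assoc, ← hc.mul_pow, hW1, one_pow, one_mul] at h1
    exact hX3 ((smul_eq_zero.mp h1).resolve_left (pow_ne_zero _ h2F))
  have hreg : (U - 1).rank = 2 * m - 1 := by
    obtain ⟨v, hv⟩ := Cfsg.Agent.S2592.exists_cyc_mat (2 * m) (U - 1) hNne
    have h := Cfsg.Agent.S2578.rank_of_cyc (Matrix.toLinAlgEquiv' (U - 1)) (2 * m) hm1
      (by rw [Module.finrank_fintype_fun_eq_card, hcard]) (by rw [← map_pow, hnil, map_zero]) v hv
    rw [Cfsg.Agent.S2592.toLin_rank'] at h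
    exact h
  have hττU : τ (τ U) = U := hττ U
  have hU' : τ U * U = 1 := mul_eq_one_comm.mp hU
  obtain ⟨y, hy⟩ : ∃ y, y = U - τ U := ⟨_, rfl⟩
  have hτy : τ y = -y := by rw [hy, map_sub, hττU]; abel
  have hN1 : (U - 1) * (1 + τ U) = U - τ U := by
    rw [sub_mul, mul_add, mul_one, one_mul, hU]; abel
  have hN2 : (1 + τ U) * (U - 1) = U - τ U := by
    rw [add_mul, one_mul, mul_sub, mul_one, hU']; abel
  have hyN : y = (U - 1) * (1 + τ U) := by rw [hN1, hy]
  have hdetτU : (τ U).det ≠ 0 := by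
    have := congrArg Matrix.det hU
    rw [Matrix.det_mul, Matrix.det_one] at this
    exact right_ne_zero_of_mul_eq_one this
  have hdet1 : (1 + τ U).det ≠ 0 := by
    have e : 1 + τ U = τ U * ((2:F) • (1 : Matrix (Fin m ⊕ Fin m) (Fin m ⊕ Fin m) F) + (U - 1)) := by
      rw [mul_add, mul_sub, hU', mul_one, Matrix.mul_smul, mul_one, two_smul]; abel
    rw [e, Matrix.det_mul, Cfsg.Agent.S2592.det_smul_one_add_nilp' _ ⟨2 * m, hnil⟩]
    exact mul_ne_zero hdetτU (pow_ne_zero _ h2F)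
  have hyrank : y.rank = 2 * m - 1 := by
    rw [hyN, Matrix.rank_mul_eq_left_of_isUnit_det _ _ (isUnit_iff_ne_zero.mpr hdet1), hreg]
  have hNcomm : Commute (U - 1) (1 + τ U) := by
    show (U - 1) * (1 + τ U) = (1 + τ U) * (U - 1)
    rw [hN1, hN2]
  have hyn : y ^ (2 * m) = 0 := by
    rw [hyN, hNcomm.mul_pow, hnil, zero_mul]
  have hyn1 : y ^ (2 * m - 1) ≠ 0 := by
    intro h0
    obtain ⟨v, hv⟩ := Cfsg.Agent.S2578.cyc (Matrix.toLinAlgEquiv' y) (2 * m) hm1
      (by rw [Module.finrank_fintype_fun_eq_card, hcard])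
      (by rw [Cfsg.Agent.S2592.toLin_rank', hyrank])
    apply hv
    rw [← map_pow, h0, map_zero, LinearMap.zero_apply]
  have hyU : y * U = U * y := by rw [hy, sub_mul, mul_sub, hU, hU']
  have hcτ : ∀ a : Matrix (Fin m ⊕ Fin m) (Fin m ⊕ Fin m) F, a * U = U * a →
      a * τ U = τ U * a := by
    intro a ha
    calc a * τ U = (τ U * U) * (a * τ U) := by rw [hU', Matrix.one_mul]
      _ = τ U * (U * a) * τ U := by simp only [Matrix.mul_assoc]
      _ = τ U * (a * U) * τ U := by rw [ha]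
      _ = τ U * a * (U * τ U) := by simp only [Matrix.mul_assoc]
      _ = τ U * a := by rw [hU, Matrix.mul_one]
  have hcy : ∀ a : Matrix (Fin m ⊕ Fin m) (Fin m ⊕ Fin m) F, a * U = U * a → a * y = y * a := by
    intro a ha
    rw [hy, mul_sub, sub_mul, ha, hcτ a ha]
  have hrep : ∀ z : Matrix (Fin m ⊕ Fin m) (Fin m ⊕ Fin m) F, z * y = y * z →
      ∃ c : Fin (2 * m) → F, z = ∑ i, c i • y ^ (i:ℕ) :=
    fun z hz => Cfsg.Agent.S2592.repr_comm_mat (2 * m) hm1 hcard y z hyn hyn1 hz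
  have huniq := Cfsg.Agent.S2592.coeff_unique (2 * m) y hyn hyn1
  have hcomm : ∀ a b : Matrix (Fin m ⊕ Fin m) (Fin m ⊕ Fin m) F, a * U = U * a → b * U = U * b →
      a * b = b * a := by
    intro a b ha hb
    obtain ⟨c, hc⟩ := hrep a (hcy a ha)
    have hby : Commute y b := (hcy b hb).symm
    rw [hc]
    exact (Commute.sum_left _ _ _ (fun i _ => ((hby.pow_left _).smul_left _))).eq
  have hτmem : ∀ a : Matrix (Fin m ⊕ Fin m) (Fin m ⊕ Fin m) F, a * U = U * a →
      τ a * U = U * τ a := by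
    intro a ha
    have h1 := congrArg τ (hcτ a ha)
    rw [hτmul, hτmul, hττU] at h1
    exact h1.symm
  have hτpow : ∀ k : ℕ, τ (y ^ k) = (-y) ^ k := by
    intro k
    induction k with
    | zero => rw [pow_zero, pow_zero, hτone]
    | succ k ih => rw [pow_succ, hτmul, ih, hτy, pow_succ']
  have hnegpow : ∀ i : ℕ, (-y) ^ i = ((-1:F) ^ i) • y ^ i := fun i => by
    rw [← neg_one_smul F y, smul_pow]
  let S : Subalgebra F (Matrix (Fin m ⊕ Fin m) (Fin m ⊕ Fin m) F) :=
    Subalgebra.centralizer F ({U} : Set (Matrix (Fin m ⊕ Fin m) (Fin m ⊕ Fin m) F))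
  have hSmem : ∀ z : Matrix (Fin m ⊕ Fin m) (Fin m ⊕ Fin m) F, z ∈ S ↔ z * U = U * z := by
    intro z
    show z ∈ Subalgebra.centralizer F ({U} : Set _) ↔ _
    rw [Subalgebra.mem_centralizer_iff]
    constructor
    · intro h; exact (h U rfl).symm
    · intro h g hg; rw [Set.mem_singleton_iff.mp hg]; exact h.symm
  letI instS : CommRing ↥S := { (inferInstance : Ring ↥S) with
    mul_comm := fun a b => Subtype.ext (hcomm a.1 b.1 ((hSmem _).mp a.2) ((hSmem _).mp b.2)) }
  haveI : Nontrivial ↥S := ⟨⟨0, 1, fun h => zero_ne_one (congrArg Subtype.val h)⟩⟩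
  let σ : ↥S →ₐ[F] ↥S :=
    { toFun := fun z => ⟨τ z.1, (hSmem _).mpr (hτmem z.1 ((hSmem _).mp z.2))⟩
      map_one' := Subtype.ext hτone
      map_mul' := fun a b => Subtype.ext (by
        show τ (a.1 * b.1) = τ a.1 * τ b.1
        rw [hτmul]
        exact hcomm _ _ (hτmem b.1 ((hSmem _).mp b.2)) (hτmem a.1 ((hSmem _).mp a.2)))
      map_zero' := Subtype.ext (map_zero τ)
      map_add' := fun a b => Subtype.ext (map_add τ a.1 b.1)
      commutes' := fun c => Subtype.ext (by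
        show τ (algebraMap F (Matrix (Fin m ⊕ Fin m) (Fin m ⊕ Fin m) F) c) =
          algebraMap F (Matrix (Fin m ⊕ Fin m) (Fin m ⊕ Fin m) F) c
        rw [Algebra.algebraMap_eq_smul_one, map_smul, hτone]) }
  have hloc : ∀ z : ↥S, ∃ a : F, IsNilpotent (z - algebraMap F ↥S a) := by
    intro z
    obtain ⟨v, hv⟩ := Cfsg.Agent.S2592.exists_cyc_mat (2 * m) y hyn1
    obtain ⟨a, k, hk⟩ := Cfsg.Agent.S2578.cent_nilp (Matrix.toLinAlgEquiv' y)
      (Matrix.toLinAlgEquiv' z.1) (2 * m) hm1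
      (by rw [Module.finrank_fintype_fun_eq_card, hcard]) (by rw [← map_pow, hyn, map_zero]) v hv
      (by rw [← map_mul, ← map_mul, hcy z.1 ((hSmem _).mp z.2)])
    have hk' : (z.1 - a • (1 : Matrix (Fin m ⊕ Fin m) (Fin m ⊕ Fin m) F)) ^ k = 0 := by
      apply (Matrix.toLinAlgEquiv' (R := F) (n := Fin m ⊕ Fin m)).injective
      rw [map_pow, map_sub, map_smul, map_one, hk, map_zero]
    refine ⟨a, k, Subtype.ext ?_⟩
    show (z.1 - algebraMap F (Matrix (Fin m ⊕ Fin m) (Fin m ⊕ Fin m) F) a) ^ k = 0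
    rw [Algebra.algebraMap_eq_smul_one]
    exact hk'
  have hkey : ∀ V : Matrix (Fin m ⊕ Fin m) (Fin m ⊕ Fin m) F, V * τ V = 1 →
      (V - 1) ^ (2 * m) = 0 → (V - 1).rank = 2 * m - 1 →
      ∃ (g : Matrix (Fin m ⊕ Fin m) (Fin m ⊕ Fin m) F) (a₀ : F), a₀ ≠ 0 ∧ g * V = U * g ∧
        g * τ g = a₀ • (1 : Matrix (Fin m ⊕ Fin m) (Fin m ⊕ Fin m) F) := by
    intro V hV hVn hVr
    obtain ⟨g, ginv, hg1, hg2, hgV⟩ :=
      Cfsg.Agent.S2591.normal_form2 (2 * m) hm1 hcard V U hVn hVr hnil hreg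
    have hτgV : τ V * τ g = τ g * τ U := by rw [← hτmul, ← hτmul, hgV]
    have hτgU : τ g * U = V * τ g := by
      calc τ g * U = (V * τ V) * τ g * U := by rw [hV, Matrix.one_mul]
        _ = V * (τ V * τ g) * U := by simp only [Matrix.mul_assoc]
        _ = V * (τ g * τ U) * U := by rw [hτgV]
        _ = V * τ g * (τ U * U) := by simp only [Matrix.mul_assoc]
        _ = V * τ g := by rw [hU', Matrix.mul_one]
    have haU : (g * τ g) * U = U * (g * τ g) := by
      rw [Matrix.mul_assoc, hτgU, ← Matrix.mul_assoc, hgV, Matrix.mul_assoc]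
    have hτa : τ (g * τ g) = g * τ g := by rw [hτmul, hττ]
    have hτgi1 : τ ginv * τ g = 1 := by rw [← hτmul, hg1, hτone]
    have hτgi2 : τ g * τ ginv = 1 := by rw [← hτmul, hg2, hτone]
    have hab : (g * τ g) * (τ ginv * ginv) = 1 := by
      calc (g * τ g) * (τ ginv * ginv) = g * (τ g * τ ginv) * ginv := by
            simp only [Matrix.mul_assoc]
        _ = 1 := by rw [hτgi2, Matrix.mul_one, hg1]
    have hba : (τ ginv * ginv) * (g * τ g) = 1 := by
      calc (τ ginv * ginv) * (g * τ g) = τ ginv * (ginv * g) * τ g := by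
            simp only [Matrix.mul_assoc]
        _ = 1 := by rw [hg2, Matrix.mul_one, hτgi1]
    have hbU : (τ ginv * ginv) * U = U * (τ ginv * ginv) := by
      calc (τ ginv * ginv) * U = (τ ginv * ginv) * U * ((g * τ g) * (τ ginv * ginv)) := by
            rw [hab, Matrix.mul_one]
        _ = (τ ginv * ginv) * (U * (g * τ g)) * (τ ginv * ginv) := by
            simp only [Matrix.mul_assoc]
        _ = (τ ginv * ginv) * ((g * τ g) * U) * (τ ginv * ginv) := by rw [haU]
        _ = ((τ ginv * ginv) * (g * τ g)) * U * (τ ginv * ginv) := by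
            simp only [Matrix.mul_assoc]
        _ = U * (τ ginv * ginv) := by rw [hba, Matrix.one_mul]
    obtain ⟨aS, haS⟩ : ∃ aS : ↥S, aS.1 = g * τ g := ⟨⟨g * τ g, (hSmem _).mpr haU⟩, rfl⟩
    obtain ⟨bS, hbS⟩ : ∃ bS : ↥S, bS.1 = τ ginv * ginv :=
      ⟨⟨τ ginv * ginv, (hSmem _).mpr hbU⟩, rfl⟩
    have hσa : σ aS = aS := Subtype.ext (by
      show τ aS.1 = aS.1
      rw [haS]; exact hτa)
    have hau : IsUnit aS := isUnit_iff_exists_inv.mpr ⟨bS, Subtype.ext (by
      show aS.1 * bS.1 = 1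
      rw [haS, hbS]; exact hab)⟩
    obtain ⟨r, a₀, ha₀, hr⟩ := Cfsg.Agent.S2591.norm_adjust σ h2F hloc aS hσa hau
    have hr' : r.1 * (g * τ g) * τ r.1 =
        a₀ • (1 : Matrix (Fin m ⊕ Fin m) (Fin m ⊕ Fin m) F) := by
      have h := congrArg Subtype.val hr
      rw [← haS, ← Algebra.algebraMap_eq_smul_one]
      exact h
    have hrU : r.1 * U = U * r.1 := (hSmem _).mp r.2
    refine ⟨r.1 * g, a₀, ha₀, ?_, ?_⟩
    · rw [Matrix.mul_assoc, hgV, ← Matrix.mul_assoc, hrU, Matrix.mul_assoc]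
    · rw [hτmul, ← hr']
      simp only [Matrix.mul_assoc]
  have htrans : ∀ (V g d dinv : Matrix (Fin m ⊕ Fin m) (Fin m ⊕ Fin m) F) (a₀ lam c : F),
      g * V = U * g → g * τ g = a₀ • (1 : Matrix (Fin m ⊕ Fin m) (Fin m ⊕ Fin m) F) →
      d * dinv = 1 →
      dinv * τ dinv = lam⁻¹ • (1 : Matrix (Fin m ⊕ Fin m) (Fin m ⊕ Fin m) F) →
      c ≠ 0 → lam ≠ 0 → a₀ = lam * (c * c) →
      (c⁻¹ • (dinv * g)) * τ (c⁻¹ • (dinv * g)) = 1 ∧
        (c⁻¹ • (dinv * g)) * V = (dinv * U * d) * (c⁻¹ • (dinv * g)) := by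
    intro V g d dinv a₀ lam c hgV hgg hdd hdi hc hlam ha
    constructor
    · rw [map_smul, hτmul, Matrix.smul_mul, Matrix.mul_smul, smul_smul]
      have e : dinv * g * (τ g * τ dinv) = dinv * (g * τ g) * τ dinv := by
        simp only [Matrix.mul_assoc]
      rw [e, hgg, Matrix.mul_smul, Matrix.mul_one, Matrix.smul_mul, hdi, smul_smul, smul_smul, ha]
      have : c⁻¹ * c⁻¹ * (lam * (c * c)) * lam⁻¹ = 1 := by field_simp
      rw [this, one_smul]
    · rw [Matrix.smul_mul, Matrix.mul_smul]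
      congr 1
      calc dinv * g * V = dinv * (g * V) := by rw [Matrix.mul_assoc]
        _ = dinv * U * (1 * g) := by rw [hgV, Matrix.one_mul, Matrix.mul_assoc]
        _ = dinv * U * (d * dinv * g) := by rw [hdd]
        _ = dinv * U * d * (dinv * g) := by simp only [Matrix.mul_assoc]
  have hchar2 : ringChar F ≠ 2 := by
    intro hchar
    have := FiniteField.even_card_iff_char_two.mp hchar
    rw [hF] at this
    rcases hq with ⟨k, hk⟩
    omega
  obtain ⟨lam, hlamns⟩ := FiniteField.exists_nonsquare hchar2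
  have hlam0 : lam ≠ 0 := by
    rintro rfl
    exact hlamns ⟨0, by rw [mul_zero]⟩
  obtain ⟨d, dinv, hd1, hd2, hd3, hd4⟩ := Cfsg.Agent.S2591.exists_scal m F lam hlam0
  rw [← hJdef, ← hτ] at hd3 hd4
  obtain ⟨U₁, hU₁def⟩ : ∃ U₁ : Matrix (Fin m ⊕ Fin m) (Fin m ⊕ Fin m) F, U₁ = dinv * U * d :=
    ⟨_, rfl⟩
  have hU₁ : U₁ * τ U₁ = 1 := by
    rw [hU₁def, hτmul, hτmul]
    calc dinv * U * d * (τ d * (τ U * τ dinv)) = dinv * U * (d * τ d) * τ U * τ dinv := by
          simp only [Matrix.mul_assoc]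
      _ = lam • (dinv * (U * τ U) * τ dinv) := by
          rw [hd3, Matrix.mul_smul, Matrix.mul_one, Matrix.smul_mul, Matrix.smul_mul]
          simp only [Matrix.mul_assoc]
      _ = 1 := by
          rw [hU, Matrix.mul_one, hd4, smul_smul, mul_inv_cancel₀ hlam0, one_smul]
  have hconjpow : ∀ (N : Matrix (Fin m ⊕ Fin m) (Fin m ⊕ Fin m) F) (k : ℕ),
      (dinv * N * d) ^ k = dinv * N ^ k * d := by
    intro N k
    induction k with
    | zero => rw [pow_zero, pow_zero, Matrix.mul_one, hd2]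
    | succ k ih =>
      rw [pow_succ, ih, pow_succ]
      calc dinv * N ^ k * d * (dinv * N * d) = dinv * N ^ k * (d * dinv) * N * d := by
            simp only [Matrix.mul_assoc]
        _ = dinv * (N ^ k * N) * d := by rw [hd1, Matrix.mul_one]; simp only [Matrix.mul_assoc]
  have hU₁N : U₁ - 1 = dinv * (U - 1) * d := by
    rw [hU₁def, mul_sub, sub_mul, Matrix.mul_one, hd2]
  have hnil₁ : (U₁ - 1) ^ (2 * m) = 0 := by
    rw [hU₁N, hconjpow, hnil, Matrix.mul_zero, Matrix.zero_mul]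
  have hdetd : IsUnit d.det := by
    have h := congrArg Matrix.det hd1
    rw [Matrix.det_mul, Matrix.det_one] at h
    exact isUnit_iff_ne_zero.mpr (left_ne_zero_of_mul_eq_one h)
  have hdetdi : IsUnit dinv.det := by
    have h := congrArg Matrix.det hd2
    rw [Matrix.det_mul, Matrix.det_one] at h
    exact isUnit_iff_ne_zero.mpr (left_ne_zero_of_mul_eq_one h)
  have hreg₁ : (U₁ - 1).rank = 2 * m - 1 := by
    rw [hU₁N, Matrix.rank_mul_eq_left_of_isUnit_det _ _ hdetd,
      Matrix.rank_mul_eq_right_of_isUnit_det _ _ hdetdi, hreg]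
  have hU₁mem : U₁ ∈ Matrix.symplecticGroup (Fin m) F := (hSp U₁).mpr hU₁
  have hUmem : U ∈ Matrix.symplecticGroup (Fin m) F := (hSp U).mpr hU
  rw [Nat.card_eq_two_iff]
  refine ⟨⟨ConjClasses.mk ⟨U, hUmem⟩, ⟨U, hUmem⟩, rfl, hnil, hreg⟩,
    ⟨ConjClasses.mk ⟨U₁, hU₁mem⟩, ⟨U₁, hU₁mem⟩, rfl, hnil₁, hreg₁⟩, ?_, ?_⟩
  · intro heq
    have h1 : ConjClasses.mk (⟨U, hUmem⟩ : ↥(Matrix.symplecticGroup (Fin m) F)) =
        ConjClasses.mk ⟨U₁, hU₁mem⟩ := congrArg Subtype.val heq
    rw [ConjClasses.mk_eq_mk_iff_isConj, isConj_iff] at h1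
    obtain ⟨s, hs⟩ := h1
    rw [mul_inv_eq_iff_eq_mul] at hs
    have hs' : (s : Matrix (Fin m ⊕ Fin m) (Fin m ⊕ Fin m) F) * U = U₁ * s :=
      congrArg (fun w : ↥(Matrix.symplecticGroup (Fin m) F) =>
        (w : Matrix (Fin m ⊕ Fin m) (Fin m ⊕ Fin m) F)) hs
    have hsτ : (s : Matrix (Fin m ⊕ Fin m) (Fin m ⊕ Fin m) F) * τ s = 1 := (hSp _).mp s.2
    have hrU : (d * (s : Matrix (Fin m ⊕ Fin m) (Fin m ⊕ Fin m) F)) * U =
        U * (d * (s : Matrix (Fin m ⊕ Fin m) (Fin m ⊕ Fin m) F)) := by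
      rw [Matrix.mul_assoc, hs', hU₁def]
      calc d * (dinv * U * d * (s : Matrix (Fin m ⊕ Fin m) (Fin m ⊕ Fin m) F)) =
            (d * dinv) * U * (d * s) := by simp only [Matrix.mul_assoc]
        _ = U * (d * s) := by rw [hd1, Matrix.one_mul]
    have hrr : (d * (s : Matrix (Fin m ⊕ Fin m) (Fin m ⊕ Fin m) F)) *
        τ (d * (s : Matrix (Fin m ⊕ Fin m) (Fin m ⊕ Fin m) F)) =
        lam • (1 : Matrix (Fin m ⊕ Fin m) (Fin m ⊕ Fin m) F) := by
      rw [hτmul]
      calc d * (s : Matrix (Fin m ⊕ Fin m) (Fin m ⊕ Fin m) F) * (τ s * τ d) =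
            d * ((s : Matrix (Fin m ⊕ Fin m) (Fin m ⊕ Fin m) F) * τ s) * τ d := by
            simp only [Matrix.mul_assoc]
        _ = lam • 1 := by rw [hsτ, Matrix.mul_one, hd3]
    obtain ⟨rS, hrS⟩ : ∃ rS : ↥S, rS.1 = d * (s : Matrix (Fin m ⊕ Fin m) (Fin m ⊕ Fin m) F) :=
      ⟨⟨_, (hSmem _).mpr hrU⟩, rfl⟩
    obtain ⟨c, hc⟩ := Cfsg.Agent.S2591.norm_scalar_sq σ hloc rS lam (Subtype.ext (by
      show rS.1 * τ rS.1 = algebraMap F (Matrix (Fin m ⊕ Fin m) (Fin m ⊕ Fin m) F) lam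
      rw [hrS, Algebra.algebraMap_eq_smul_one]
      exact hrr))
    exact hlamns ⟨c, hc⟩
  · rw [Set.eq_univ_iff_forall]
    rintro ⟨C, v, rfl, hvn, hvr⟩
    obtain ⟨g, a₀, ha₀, hgV, hgg⟩ := hkey v ((hSp _).mp v.2) hvn hvr
    by_cases hsq : IsSquare a₀
    · left
      obtain ⟨c, hc⟩ := hsq
      have hc0 : c ≠ 0 := by
        rintro rfl
        rw [mul_zero] at hc
        exact ha₀ hc
      obtain ⟨hs1, hs2⟩ := htrans v g 1 1 a₀ 1 c hgV hgg (Matrix.mul_one _)
        (by rw [hτone, Matrix.mul_one, inv_one, one_smul]) hc0 one_ne_zero (by rw [one_mul, hc])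
      have h1U : (1 : Matrix (Fin m ⊕ Fin m) (Fin m ⊕ Fin m) F) * U * 1 = U := by
        rw [Matrix.mul_one, Matrix.one_mul]
      rw [h1U] at hs2
      apply Subtype.ext
      show ConjClasses.mk v = ConjClasses.mk ⟨U, hUmem⟩
      rw [ConjClasses.mk_eq_mk_iff_isConj, isConj_iff]
      refine ⟨⟨_, (hSp _).mpr hs1⟩, ?_⟩
      rw [mul_inv_eq_iff_eq_mul]
      exact Subtype.ext hs2
    · right
      have hχ : quadraticChar F (a₀ * lam) = 1 := by
        rw [map_mul, quadraticChar_neg_one_iff_not_isSquare.mpr hsq,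
          quadraticChar_neg_one_iff_not_isSquare.mpr hlamns]
        norm_num
      obtain ⟨e, he⟩ := (quadraticChar_one_iff_isSquare (mul_ne_zero ha₀ hlam0)).mp hχ
      have he0 : e ≠ 0 := by
        rintro rfl
        rw [mul_zero] at he
        exact (mul_ne_zero ha₀ hlam0) he
      obtain ⟨hs1, hs2⟩ := htrans v g d dinv a₀ lam (e * lam⁻¹) hgV hgg hd1 hd4
        (mul_ne_zero he0 (inv_ne_zero hlam0)) hlam0 (by
          have : lam * (e * lam⁻¹ * (e * lam⁻¹)) = (e * e) * lam⁻¹ := by field_simp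
          rw [this, ← he, mul_assoc, mul_inv_cancel₀ hlam0, mul_one])
      rw [← hU₁def] at hs2
      show (⟨ConjClasses.mk v, _⟩ : {C : ConjClasses ↥(Matrix.symplecticGroup (Fin m) F) // _}) =
        ⟨ConjClasses.mk ⟨U₁, hU₁mem⟩, _⟩
      apply Subtype.ext
      show ConjClasses.mk v = ConjClasses.mk ⟨U₁, hU₁mem⟩
      rw [ConjClasses.mk_eq_mk_iff_isConj, isConj_iff]
      refine ⟨⟨_, (hSp _).mpr hs1⟩, ?_⟩
      rw [mul_inv_eq_iff_eq_mul]
      exact Subtype.ext hs2

end Cfsg.Agent.S2591
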