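import Mathlib
import Cfsg.Statements.S2599

set_option autoImplicit false
open Cfsg

namespace Cfsg.Agent.S2599

open Matrix

/-- An irreducible invariant subspace of a semisimple isometry is non-degenerate or totally singular: let Q be a quadratic form on F^n (F finite of characteristic p) with non-degenerate polar form f, x an isometry of Q of order prime to p, and U a non-zero x-invariant subspace containing no x-invariant subspace other than 0 and U. Then U meets its f-orthogonal trivially, or Q vanishes on U, or p = 2, U is a line spanned by a non-singular vector and x fixes U pointwise. -/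
theorem result {F : Type*} [Field F] [Fintype F] {p : ℕ} [Fact p.Prime] [CharP F p] {n : ℕ} (Q : QuadraticForm F (Fin n → F)) (hQ : (QuadraticMap.polarBilin Q).Nondegenerate) (x : ↥(Cfsg.isometryGroup F ⇑Q)) (hx : (orderOf x).Coprime p) (U : Submodule F (Fin n → F)) (hU0 : U ≠ ⊥) (hUx : ∀ u ∈ U, ((x : Matrix.GeneralLinearGroup (Fin n) F) : Matrix (Fin n) (Fin n) F).mulVec u ∈ U) (hirr : ∀ W : Submodule F (Fin n → F), W ≤ U → (∀ w ∈ W, ((x : Matrix.GeneralLinearGroup (Fin n) F) : Matrix (Fin n) (Fin n) F).mulVec w ∈ W) → W = ⊥ ∨ W = U) : U ⊓ LinearMap.BilinForm.orthogonal (QuadraticMap.polarBilin Q) U = ⊥ ∨ (∀ u ∈ U, Q u = 0) ∨ (p = 2 ∧ Module.finrank F U = 1 ∧ (∃ u ∈ U, Q u ≠ 0) ∧ ∀ u ∈ U, ((x : Matrix.GeneralLinearGroup (Fin n) F) : Matrix (Fin n) (Fin n) F).mulVec u = u) := by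
  classical
  obtain ⟨M, hM⟩ : ∃ M : Matrix (Fin n) (Fin n) F,
      M = ((x : Matrix.GeneralLinearGroup (Fin n) F) : Matrix (Fin n) (Fin n) F) := ⟨_, rfl⟩
  rw [← hM] at hUx hirr ⊢
  have hQM : ∀ v, Q (M *ᵥ v) = Q v := by
    intro v
    rw [hM]
    exact x.2 v v
  obtain ⟨B, hB⟩ : ∃ B : LinearMap.BilinForm F (Fin n → F), B = QuadraticMap.polarBilin Q :=
    ⟨_, rfl⟩
  rw [← hB]
  have hBdef : ∀ u v, B u v = Q (u + v) - Q u - Q v := by
    intro u v; rw [hB]; rfl
  have hBM : ∀ u v, B (M *ᵥ u) (M *ᵥ v) = B u v := by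
    intro u v
    rw [hBdef, hBdef, ← Matrix.mulVec_add, hQM, hQM, hQM]
  have hBsymm : ∀ u v, B u v = B v u := by
    intro u v
    rw [hBdef, hBdef, add_comm]; ring
  have hinj : Function.Injective M.mulVecLin := by
    intro a b hab
    have h1 : ((x⁻¹ : Matrix.GeneralLinearGroup (Fin n) F) : Matrix (Fin n) (Fin n) F) * M = 1 := by
      rw [hM, ← Units.val_mul, inv_mul_cancel, Units.val_one]
    have : ∀ v, ((x⁻¹ : Matrix.GeneralLinearGroup (Fin n) F) : Matrix (Fin n) (Fin n) F) *ᵥ
        (M *ᵥ v) = v := fun v => by rw [Matrix.mulVec_mulVec, h1, Matrix.one_mulVec]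
    rw [← this a, ← this b]
    exact congrArg _ hab
  have hmap : U.map M.mulVecLin = U := by
    apply Submodule.eq_of_le_of_finrank_eq
    · rintro _ ⟨u, hu, rfl⟩
      exact hUx u hu
    · exact (Submodule.equivMapOfInjective M.mulVecLin hinj U).finrank_eq.symm
  have hsurj : ∀ u ∈ U, ∃ u' ∈ U, M *ᵥ u' = u := by
    intro u hu
    rw [← hmap] at hu
    obtain ⟨u', hu', rfl⟩ := hu
    exact ⟨u', hu', rfl⟩
  -- Step 1
  have hR : ∀ w ∈ U ⊓ LinearMap.BilinForm.orthogonal B U, M *ᵥ w ∈ U ⊓ LinearMap.BilinForm.orthogonal B U := by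
    rintro w ⟨hw1, hw2⟩
    refine ⟨hUx w hw1, ?_⟩
    intro u hu
    obtain ⟨u', hu', rfl⟩ := hsurj u hu
    show B (M *ᵥ u') (M *ᵥ w) = 0
    rw [hBM]
    exact hw2 u' hu'
  rcases hirr _ inf_le_left hR with h | h
  · exact Or.inl h
  right
  have hUB : ∀ u ∈ U, ∀ v ∈ U, B u v = 0 := by
    intro u hu v hv
    have : v ∈ U ⊓ LinearMap.BilinForm.orthogonal B U := by rw [h]; exact hv
    exact this.2 u hu
  have hadd : ∀ u ∈ U, ∀ v ∈ U, Q (u + v) = Q u + Q v := by
    intro u hu v hv
    have := hBdef u v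
    rw [hUB u hu v hv] at this
    linear_combination -this
  have hsmul : ∀ (a : F) (u : Fin n → F), Q (a • u) = a * a * Q u := by
    intro a u
    rw [QuadraticMap.map_smul, smul_eq_mul]
  obtain ⟨U₀, hU₀⟩ : ∃ U₀ : Submodule F (Fin n → F), ∀ u, u ∈ U₀ ↔ u ∈ U ∧ Q u = 0 := by
    refine ⟨{ carrier := {u | u ∈ U ∧ Q u = 0}
              add_mem' := ?_
              zero_mem' := ?_
              smul_mem' := ?_ }, fun u => Iff.rfl⟩
    · rintro a b ⟨ha, ha'⟩ ⟨hb, hb'⟩
      exact ⟨U.add_mem ha hb, by rw [hadd a ha b hb, ha', hb', add_zero]⟩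
    · exact ⟨U.zero_mem, by simp⟩
    · rintro c a ⟨ha, ha'⟩
      exact ⟨U.smul_mem c ha, by rw [hsmul, ha', mul_zero]⟩
  have hU₀inv : ∀ w ∈ U₀, M *ᵥ w ∈ U₀ := by
    intro w hw
    rw [hU₀] at hw ⊢
    exact ⟨hUx w hw.1, by rw [hQM]; exact hw.2⟩
  rcases hirr U₀ (fun u hu => ((hU₀ u).1 hu).1) hU₀inv with h0 | h0
  · right
    have haniso : ∀ u ∈ U, Q u = 0 → u = 0 := by
      intro u hu hq
      have : u ∈ U₀ := (hU₀ u).2 ⟨hu, hq⟩
      rw [h0] at this
      exact (Submodule.mem_bot F).1 this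
    have h2 : (2 : F) = 0 := by
      by_contra h2
      apply hU0
      rw [eq_bot_iff]
      intro u hu
      rw [Submodule.mem_bot]
      apply haniso u hu
      have h1 := hBdef u u
      rw [hUB u hu u hu] at h1
      have h3 : Q (u + u) = 4 * Q u := by
        have : u + u = (2 : F) • u := by rw [two_smul]
        rw [this, hsmul]; ring
      rw [h3] at h1
      have : 2 * Q u = 0 := by linear_combination -h1
      rcases mul_eq_zero.1 this with h | h
      · exact absurd h h2
      · exact h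
    have hp2 : p = 2 := by
      have : ((2 : ℕ) : F) = 0 := by exact_mod_cast h2
      have hdvd := (CharP.cast_eq_zero_iff F p 2).1 this
      exact (Nat.prime_dvd_prime_iff_eq (Fact.out) Nat.prime_two).1 hdvd
    have hchar : ringChar F = 2 := by
      have := ringChar.eq F p
      rw [this, hp2]
    have hneg : ∀ a : F, -a = a := by
      intro a
      have : a + a = 0 := by
        have : a + a = 2 * a := by ring
        rw [this, h2, zero_mul]
      linear_combination -this
    obtain ⟨u₀, hu₀, hu₀0⟩ : ∃ u ∈ U, u ≠ 0 := by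
      by_contra hcon
      push Not at hcon
      apply hU0
      rw [eq_bot_iff]
      intro u hu
      rw [Submodule.mem_bot]
      exact hcon u hu
    have hQu₀ : Q u₀ ≠ 0 := fun hq => hu₀0 (haniso u₀ hu₀ hq)
    refine ⟨hp2, ?_, ⟨u₀, hu₀, hQu₀⟩, ?_⟩
    · have hspan : U = Submodule.span F {u₀} := by
        apply le_antisymm
        · intro v hv
          obtain ⟨a, ha⟩ := FiniteField.isSquare_of_char_two hchar (Q v / Q u₀)
          have hz : a • u₀ + v = 0 := by
            apply haniso _ (U.add_mem (U.smul_mem a hu₀) hv)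
            rw [hadd _ (U.smul_mem a hu₀) _ hv, hsmul, ← ha, div_mul_cancel₀ _ hQu₀]
            have : Q v + Q v = 2 * Q v := by ring
            rw [this, h2, zero_mul]
          rw [Submodule.mem_span_singleton]
          refine ⟨-a, ?_⟩
          rw [neg_smul]
          exact (neg_eq_of_add_eq_zero_right hz)
        · rw [Submodule.span_singleton_le_iff_mem]; exact hu₀
      rw [hspan, finrank_span_singleton hu₀0]
    · intro u hu
      have hz : M *ᵥ u + u = 0 := by
        apply haniso _ (U.add_mem (hUx u hu) hu)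
        rw [hadd _ (hUx u hu) _ hu, hQM]
        have : Q u + Q u = 2 * Q u := by ring
        rw [this, h2, zero_mul]
      have h3 := eq_neg_of_add_eq_zero_left hz
      rw [h3]
      funext i
      exact hneg (u i)
  · left
    intro u hu
    have : u ∈ U₀ := h0 ▸ hu
    exact ((hU₀ u).1 this).2

end Cfsg.Agent.S2599
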