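import Mathlib
import Cfsg.Statements.S2616
import Cfsg.Agent.Lib.Helper5.QSpace

set_option autoImplicit false
open Cfsg

namespace Cfsg.Agent.S2616

open Cfsg.Agent.Lib.Helper5

universe u

/-- prepend a hyperbolic pair to a hyperbolic family of its orthogonal complement -/
theorem cons_rel {F V : Type*} [Field F] [AddCommGroup V] [Module F V] (Q : QuadraticForm F V)
    (e₀ f₀ : V) (hQe₀ : Q e₀ = 0) (hQf₀ : Q f₀ = 0) (hef₀ : QuadraticMap.polar Q e₀ f₀ = 1)
    (W : Submodule F V)
    (hW1 : ∀ w ∈ W, QuadraticMap.polar Q e₀ w = 0 ∧ QuadraticMap.polar Q f₀ w = 0) {n : ℕ}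
    (e f : Fin n → W)
    (h3 : ∀ i, (Q.comp W.subtype) (e i) = 0 ∧ (Q.comp W.subtype) (f i) = 0)
    (h4 : ∀ i j, QuadraticMap.polar (Q.comp W.subtype) (e i) (f j) = if i = j then 1 else 0)
    (h5 : ∀ i j, QuadraticMap.polar (Q.comp W.subtype) (e i) (e j) = 0 ∧
      QuadraticMap.polar (Q.comp W.subtype) (f i) (f j) = 0) :
    (∀ i, Q ((Fin.cons e₀ (fun i => (e i : V)) : Fin (n + 1) → V) i) = 0 ∧
      Q ((Fin.cons f₀ (fun i => (f i : V)) : Fin (n + 1) → V) i) = 0) ∧
    (∀ i j, QuadraticMap.polar Q ((Fin.cons e₀ (fun i => (e i : V)) : Fin (n + 1) → V) i)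
      ((Fin.cons f₀ (fun i => (f i : V)) : Fin (n + 1) → V) j) = if i = j then 1 else 0) ∧
    (∀ i j, QuadraticMap.polar Q ((Fin.cons e₀ (fun i => (e i : V)) : Fin (n + 1) → V) i)
      ((Fin.cons e₀ (fun i => (e i : V)) : Fin (n + 1) → V) j) = 0 ∧
      QuadraticMap.polar Q ((Fin.cons f₀ (fun i => (f i : V)) : Fin (n + 1) → V) i)
      ((Fin.cons f₀ (fun i => (f i : V)) : Fin (n + 1) → V) j) = 0) := by
  have hc : ∀ w : W, QuadraticMap.polar Q (w : V) e₀ = 0 ∧ QuadraticMap.polar Q (w : V) f₀ = 0 := by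
    intro w
    rw [QuadraticMap.polar_comm (⇑Q) (w : V) e₀, QuadraticMap.polar_comm (⇑Q) (w : V) f₀]
    exact hW1 w w.2
  have hee : QuadraticMap.polar Q e₀ e₀ = 0 := by rw [QuadraticMap.polar_self, hQe₀, smul_zero]
  have hff : QuadraticMap.polar Q f₀ f₀ = 0 := by rw [QuadraticMap.polar_self, hQf₀, smul_zero]
  refine ⟨?_, ?_, ?_⟩
  · intro i
    refine Fin.cases ?_ (fun i => ?_) i
    · simp only [Fin.cons_zero]
      exact ⟨hQe₀, hQf₀⟩
    · simp only [Fin.cons_succ]
      exact h3 i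
  · intro i j
    refine Fin.cases ?_ (fun i => ?_) i <;> refine Fin.cases ?_ (fun j => ?_) j
    · simp only [Fin.cons_zero]
      simpa using hef₀
    · simp only [Fin.cons_zero, Fin.cons_succ]
      rw [(hW1 _ (f j).2).1, if_neg (Fin.succ_ne_zero j).symm]
    · simp only [Fin.cons_zero, Fin.cons_succ]
      rw [(hc (e i)).2, if_neg (Fin.succ_ne_zero i)]
    · simp only [Fin.cons_succ]
      have := h4 i j
      simp only [Fin.succ_inj]
      exact this
  · intro i j
    refine Fin.cases ?_ (fun i => ?_) i <;> refine Fin.cases ?_ (fun j => ?_) j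
    · simp only [Fin.cons_zero]
      exact ⟨hee, hff⟩
    · simp only [Fin.cons_zero, Fin.cons_succ]
      exact ⟨(hW1 _ (e j).2).1, (hW1 _ (f j).2).2⟩
    · simp only [Fin.cons_zero, Fin.cons_succ]
      exact ⟨(hc (e i)).1, (hc (f i)).2⟩
    · simp only [Fin.cons_succ]
      exact h5 i j

/-- a non-degenerate anisotropic plane over a finite field has an elliptic pair -/
theorem aniso_plane {F V : Type*} [Field F] [Finite F] [AddCommGroup V] [Module F V]
    [FiniteDimensional F V] (Q : QuadraticForm F V)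
    (hQ : (QuadraticMap.polarBilin Q).Nondegenerate) (hV : Module.finrank F V = 2)
    (han : ∀ v : V, v ≠ 0 → Q v ≠ 0) :
    ∃ (x y : V) (ζ : F), (∀ t : F, t ^ 2 + t + ζ ≠ 0) ∧ Q x = 1 ∧
      QuadraticMap.polar Q x y = 1 ∧ Q y = ζ := by
  obtain ⟨g, hg⟩ := exists_linearIndependent_of_le_finrank (R := F) (M := V) (n := 2) (by omega)
  obtain ⟨a, b, c, hne, h0⟩ := cw3 (Q (g 0)) (Q (g 1)) (-1) (QuadraticMap.polar Q (g 0) (g 1)) 0 0
  have hQab : Q (a • g 0 + b • g 1) = c * c := by
    rw [Q_add3, QuadraticMap.map_smul, QuadraticMap.map_smul, QuadraticMap.polar_smul_left,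
      QuadraticMap.polar_smul_right]
    simp only [smul_eq_mul]
    linear_combination h0
  have hc : c ≠ 0 := by
    intro hc0
    rw [hc0, mul_zero] at hQab
    have hz : a • g 0 + b • g 1 = 0 := by
      by_contra hz
      exact han _ hz hQab
    have := Fintype.linearIndependent_iff.1 hg ![a, b] (by simpa [Fin.sum_univ_two] using hz)
    have h0' := this 0
    have h1' := this 1
    simp at h0' h1'
    rcases hne with h | h | h
    · exact h h0'
    · exact h h1'
    · exact h hc0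
  obtain ⟨x, hx⟩ : ∃ x : V, Q x = 1 := by
    refine ⟨c⁻¹ • (a • g 0 + b • g 1), ?_⟩
    rw [QuadraticMap.map_smul, hQab, smul_eq_mul]
    field_simp
  have hx0 : x ≠ 0 := by
    intro h
    rw [h, QuadraticMap.map_zero] at hx
    exact zero_ne_one hx
  have hne' : QuadraticMap.polarBilin Q x ≠ 0 := by
    intro h
    apply hx0
    apply hQ.1 x
    intro y
    rw [h]; rfl
  obtain ⟨y₁, hy₁⟩ : ∃ y₁, QuadraticMap.polar Q x y₁ = 1 := by
    obtain ⟨z, hz⟩ : ∃ z, QuadraticMap.polar Q x z ≠ 0 := by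
      by_contra hcon
      push Not at hcon
      exact hx0 (hQ.1 x hcon)
    exact ⟨(QuadraticMap.polar Q x z)⁻¹ • z, by
      rw [QuadraticMap.polar_smul_right, smul_eq_mul, inv_mul_cancel₀ hz]⟩
  obtain ⟨u, hu0, hu⟩ : ∃ u : V, u ≠ 0 ∧ QuadraticMap.polar Q x u = 0 := by
    have h1 := Module.Dual.finrank_ker_add_one_of_ne_zero hne'
    have : Nontrivial (LinearMap.ker (QuadraticMap.polarBilin Q x)) :=
      Module.nontrivial_of_finrank_pos (R := F) (by omega)
    obtain ⟨u, hu⟩ := exists_ne (0 : LinearMap.ker (QuadraticMap.polarBilin Q x))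
    exact ⟨u.1, fun h => hu (Subtype.ext h), LinearMap.mem_ker.1 u.2⟩
  -- a point `y` of the line `polar x y = 1` outside `span {x}`
  obtain ⟨y, hy, hyx⟩ : ∃ y, QuadraticMap.polar Q x y = 1 ∧ ∀ s : F, y ≠ s • x := by
    by_cases h1 : ∃ s : F, y₁ = s • x
    · obtain ⟨s₁, hs₁⟩ := h1
      refine ⟨y₁ + u, by rw [QuadraticMap.polar_add_right, hy₁, hu, add_zero], ?_⟩
      intro s hs
      have hu' : u = (s - s₁) • x := by
        rw [sub_smul, ← hs, ← hs₁]; abel
      have hxx : QuadraticMap.polar Q x x = 0 := by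
        have h3 : s - s₁ ≠ 0 := by
          intro h; rw [h, zero_smul] at hu'; exact hu0 hu'
        have h4 := hu
        rw [hu', QuadraticMap.polar_smul_right, smul_eq_mul] at h4
        exact (mul_eq_zero.1 h4).resolve_left h3
      rw [hs₁, QuadraticMap.polar_smul_right, hxx, smul_zero] at hy₁
      exact zero_ne_one hy₁
    · push Not at h1
      exact ⟨y₁, hy₁, h1⟩
  refine ⟨x, y, Q y, ?_, hx, hy, rfl⟩
  intro t ht
  have h5 : Q (t • x + y) = t ^ 2 + t + Q y := by
    rw [Q_add3, QuadraticMap.map_smul, QuadraticMap.polar_smul_left, hx, hy]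
    simp only [smul_eq_mul]
    ring
  rw [ht] at h5
  have h6 : t • x + y = 0 := by
    by_contra h
    exact han _ h h5
  exact hyx (-t) (by rw [neg_smul]; exact eq_neg_of_add_eq_zero_right h6)

theorem even_fam {F : Type*} [Field F] [Finite F] : ∀ (k : ℕ) (V : Type u) [AddCommGroup V]
    [Module F V] [FiniteDimensional F V] (Q : QuadraticForm F V),
    (QuadraticMap.polarBilin Q).Nondegenerate → Module.finrank F V = 2 * (k + 1) →
    (∃ (e f : Fin (k + 1) → V), (∀ i, Q (e i) = 0 ∧ Q (f i) = 0) ∧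
      (∀ i j, QuadraticMap.polar Q (e i) (f j) = if i = j then 1 else 0) ∧
      (∀ i j, QuadraticMap.polar Q (e i) (e j) = 0 ∧ QuadraticMap.polar Q (f i) (f j) = 0)) ∨
    (∃ (e f : Fin k → V) (x y : V) (ζ : F), (∀ t : F, t ^ 2 + t + ζ ≠ 0) ∧
      (∀ i, Q (e i) = 0 ∧ Q (f i) = 0) ∧
      (∀ i j, QuadraticMap.polar Q (e i) (f j) = if i = j then 1 else 0) ∧
      (∀ i j, QuadraticMap.polar Q (e i) (e j) = 0 ∧ QuadraticMap.polar Q (f i) (f j) = 0) ∧
      (∀ i, (QuadraticMap.polar Q (e i) x = 0 ∧ QuadraticMap.polar Q (f i) x = 0) ∧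
        (QuadraticMap.polar Q (e i) y = 0 ∧ QuadraticMap.polar Q (f i) y = 0)) ∧
      Q x = 1 ∧ QuadraticMap.polar Q x y = 1 ∧ Q y = ζ) := by
  intro k
  induction k with
  | zero =>
    intro V _ _ _ Q hQ hV
    by_cases hs : ∃ v : V, v ≠ 0 ∧ Q v = 0
    · obtain ⟨e₀, he₀, hQe₀⟩ := hs
      obtain ⟨f₀, hQf₀, hef₀⟩ := hyp_pair Q hQ e₀ he₀ hQe₀
      left
      refine ⟨fun _ => e₀, fun _ => f₀, fun _ => ⟨hQe₀, hQf₀⟩, fun i j => ?_, fun i j => ⟨?_, ?_⟩⟩
      · have hij : i = j := by
          apply Fin.ext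
          have := i.isLt
          have := j.isLt
          omega
        rw [if_pos hij]; exact hef₀
      · rw [QuadraticMap.polar_self, hQe₀, smul_zero]
      · rw [QuadraticMap.polar_self, hQf₀, smul_zero]
    · push Not at hs
      obtain ⟨x, y, ζ, h1, h2, h3, h4⟩ := aniso_plane Q hQ (by omega) hs
      right
      exact ⟨Fin.elim0, Fin.elim0, x, y, ζ, h1, fun i => i.elim0, fun i => i.elim0,
        fun i => i.elim0, fun i => i.elim0, h2, h3, h4⟩
  | succ k ih =>
    intro V _ _ _ Q hQ hV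
    obtain ⟨e₀, he₀, hQe₀⟩ := exists_sing3 Q (by omega)
    obtain ⟨f₀, hQf₀, hef₀⟩ := hyp_pair Q hQ e₀ he₀ hQe₀
    obtain ⟨W, hW1, hW2, hW3⟩ := peel_pair Q hQ e₀ f₀ hQe₀ hQf₀ hef₀
    rcases ih W (Q.comp W.subtype) hW3 (by omega) with
      ⟨e, f, h3, h4, h5⟩ | ⟨e, f, x, y, ζ, hζ, h3, h4, h5, h6, h7, h8, h9⟩
    · left
      obtain ⟨c1, c2, c3⟩ := cons_rel Q e₀ f₀ hQe₀ hQf₀ hef₀ W hW1 e f h3 h4 h5
      exact ⟨_, _, c1, c2, c3⟩
    · right
      obtain ⟨c1, c2, c3⟩ := cons_rel Q e₀ f₀ hQe₀ hQf₀ hef₀ W hW1 e f h3 h4 h5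
      refine ⟨_, _, (x : V), (y : V), ζ, hζ, c1, c2, c3, ?_, h7, h8, h9⟩
      intro i
      refine Fin.cases ?_ (fun i => ?_) i
      · simp only [Fin.cons_zero]
        exact ⟨⟨(hW1 _ x.2).1, (hW1 _ x.2).2⟩, ⟨(hW1 _ y.2).1, (hW1 _ y.2).2⟩⟩
      · simp only [Fin.cons_succ]
        exact h6 i

/-- Standard bases of a non-degenerate quadratic space of even dimension 2m over a finite field: either there is a hyperbolic basis e_i, f_i (Q(e_i) = Q(f_i) = 0, B(e_i, f_j) = δ_ij, the e's pairwise orthogonal and the f's pairwise orthogonal, B the polar form), or there is an elliptic basis: hyperbolic pairs e_i, f_i for i < m − 1 together with x, y orthogonal to them with Q(x) = 1, B(x, y) = 1, Q(y) = ζ where t² + t + ζ has no root in the field. -/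
theorem result {F V : Type*} [Field F] [Finite F] [AddCommGroup V] [Module F V] [FiniteDimensional F V] {m : ℕ} (hm : 1 ≤ m) (hV : Module.finrank F V = 2 * m) (Q : QuadraticForm F V) (hQ : (QuadraticMap.polarBilin Q).Nondegenerate) : (∃ b : Module.Basis (Fin m ⊕ Fin m) F V, (∀ i, Q (b (Sum.inl i)) = 0 ∧ Q (b (Sum.inr i)) = 0) ∧ (∀ i j, QuadraticMap.polar ⇑Q (b (Sum.inl i)) (b (Sum.inr j)) = if i = j then 1 else 0) ∧ (∀ i j, QuadraticMap.polar ⇑Q (b (Sum.inl i)) (b (Sum.inl j)) = 0 ∧ QuadraticMap.polar ⇑Q (b (Sum.inr i)) (b (Sum.inr j)) = 0)) ∨ (∃ (b : Module.Basis ((Fin (m - 1) ⊕ Fin (m - 1)) ⊕ Fin 2) F V) (ζ : F), (∀ t : F, t ^ 2 + t + ζ ≠ 0) ∧ (∀ i, Q (b (Sum.inl (Sum.inl i))) = 0 ∧ Q (b (Sum.inl (Sum.inr i))) = 0) ∧ (∀ i j, QuadraticMap.polar ⇑Q (b (Sum.inl (Sum.inl i))) (b (Sum.inl (Sum.inr j))) = if i = j then 1 else 0) ∧ (∀ i j, QuadraticMap.polar ⇑Q (b (Sum.inl (Sum.inl i))) (b (Sum.inl (Sum.inl j))) = 0 ∧ QuadraticMap.polar ⇑Q (b (Sum.inl (Sum.inr i))) (b (Sum.inl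 (Sum.inr j))) = 0) ∧ (∀ i (k : Fin 2), QuadraticMap.polar ⇑Q (b (Sum.inl (Sum.inl i))) (b (Sum.inr k)) = 0 ∧ QuadraticMap.polar ⇑Q (b (Sum.inl (Sum.inr i))) (b (Sum.inr k)) = 0) ∧ Q (b (Sum.inr 0)) = 1 ∧ QuadraticMap.polar ⇑Q (b (Sum.inr 0)) (b (Sum.inr 1)) = 1 ∧ Q (b (Sum.inr 1)) = ζ) := by
  classical
  obtain ⟨k, rfl⟩ : ∃ k, m = k + 1 := ⟨m - 1, by omega⟩
  rcases even_fam k V Q hQ hV with
    ⟨e, f, h3, h4, h5⟩ | ⟨e, f, x, y, ζ, hζ, h3, h4, h5, h6, h7, h8, h9⟩
  · left
    have hfe : ∀ i j, QuadraticMap.polar Q (f i) (e j) = if i = j then 1 else 0 := by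
      intro i j
      rw [QuadraticMap.polar_comm (⇑Q) (f i) (e j), h4 j i]
      simp [eq_comm]
    have hli : LinearIndependent F (Sum.elim e f) := by
      refine li_of_dual Q _ (Sum.elim f e) ?_ ?_
      · rintro (i | i) (j | j) hij
        · show QuadraticMap.polar Q (e i) (f j) = 0
          rw [h4 i j, if_neg (fun h => hij (by rw [h]))]
        · exact (h5 i j).1
        · exact (h5 i j).2
        · show QuadraticMap.polar Q (f i) (e j) = 0
          rw [hfe i j, if_neg (fun h => hij (by rw [h]))]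
      · rintro (i | i)
        · show QuadraticMap.polar Q (e i) (f i) ≠ 0
          rw [h4 i i, if_pos rfl]; exact one_ne_zero
        · show QuadraticMap.polar Q (f i) (e i) ≠ 0
          rw [hfe i i, if_pos rfl]; exact one_ne_zero
    have hcard : Fintype.card (Fin (k + 1) ⊕ Fin (k + 1)) = Module.finrank F V := by
      rw [hV]; simp; omega
    refine ⟨basisOfLinearIndependentOfCardEqFinrank hli hcard, ?_⟩
    rw [coe_basisOfLinearIndependentOfCardEqFinrank]
    exact ⟨h3, h4, h5⟩
  · right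
    have hfe : ∀ i j, QuadraticMap.polar Q (f i) (e j) = if i = j then 1 else 0 := by
      intro i j
      rw [QuadraticMap.polar_comm (⇑Q) (f i) (e j), h4 j i]
      simp [eq_comm]
    have hxx : QuadraticMap.polar Q x x = 2 := by
      rw [QuadraticMap.polar_self, h7]; simp
    have hyy : QuadraticMap.polar Q y y = 2 * ζ := by
      rw [QuadraticMap.polar_self, h9]; simp [two_mul]
    have hyx : QuadraticMap.polar Q y x = 1 := by
      rw [QuadraticMap.polar_comm (⇑Q) y x]; exact h8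
    have hδ : 4 * ζ - 1 ≠ 0 := by
      intro h
      by_cases h2 : (2 : F) = 0
      · have : (4 : F) = 0 := by
          have : (4 : F) = 2 * 2 := by norm_num
          rw [this, h2, mul_zero]
        rw [this, zero_mul, zero_sub] at h
        exact one_ne_zero (neg_eq_zero.1 h)
      · apply hζ (-(1 / 2))
        field_simp
        linear_combination h
    have hxe : ∀ i, QuadraticMap.polar Q x (e i) = 0 ∧ QuadraticMap.polar Q x (f i) = 0 := by
      intro i
      rw [QuadraticMap.polar_comm (⇑Q) x (e i), QuadraticMap.polar_comm (⇑Q) x (f i)]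
      exact ⟨(h6 i).1.1, (h6 i).1.2⟩
    have hye : ∀ i, QuadraticMap.polar Q y (e i) = 0 ∧ QuadraticMap.polar Q y (f i) = 0 := by
      intro i
      rw [QuadraticMap.polar_comm (⇑Q) y (e i), QuadraticMap.polar_comm (⇑Q) y (f i)]
      exact ⟨(h6 i).2.1, (h6 i).2.2⟩
    have hli : LinearIndependent F (Sum.elim (Sum.elim e f) ![x, y]) := by
      refine li_of_dual Q _ (Sum.elim (Sum.elim f e) ![(2 * ζ) • x - y, (2 : F) • y - x]) ?_ ?_
      · rintro ((i | i) | i) ((j | j) | j) hij
        · show QuadraticMap.polar Q (e i) (f j) = 0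
          rw [h4 i j, if_neg (fun h => hij (by rw [h]))]
        · exact (h5 i j).1
        · fin_cases j
          · show QuadraticMap.polar Q (e i) ((2 * ζ) • x - y) = 0
            rw [QuadraticMap.polar_sub_right, QuadraticMap.polar_smul_right, (h6 i).1.1,
              (h6 i).2.1]
            simp
          · show QuadraticMap.polar Q (e i) ((2 : F) • y - x) = 0
            rw [QuadraticMap.polar_sub_right, QuadraticMap.polar_smul_right, (h6 i).1.1,
              (h6 i).2.1]
            simp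
        · exact (h5 i j).2
        · show QuadraticMap.polar Q (f i) (e j) = 0
          rw [hfe i j, if_neg (fun h => hij (by rw [h]))]
        · fin_cases j
          · show QuadraticMap.polar Q (f i) ((2 * ζ) • x - y) = 0
            rw [QuadraticMap.polar_sub_right, QuadraticMap.polar_smul_right, (h6 i).1.2,
              (h6 i).2.2]
            simp
          · show QuadraticMap.polar Q (f i) ((2 : F) • y - x) = 0
            rw [QuadraticMap.polar_sub_right, QuadraticMap.polar_smul_right, (h6 i).1.2,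
              (h6 i).2.2]
            simp
        · fin_cases i
          · exact (hxe j).2
          · exact (hye j).2
        · fin_cases i
          · exact (hxe j).1
          · exact (hye j).1
        · fin_cases i <;> fin_cases j
          · exact absurd rfl hij
          · show QuadraticMap.polar Q x ((2 : F) • y - x) = 0
            rw [QuadraticMap.polar_sub_right, QuadraticMap.polar_smul_right, h8, hxx]
            simp
          · show QuadraticMap.polar Q y ((2 * ζ) • x - y) = 0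
            rw [QuadraticMap.polar_sub_right, QuadraticMap.polar_smul_right, hyx, hyy]
            simp
          · exact absurd rfl hij
      · rintro ((i | i) | i)
        · show QuadraticMap.polar Q (e i) (f i) ≠ 0
          rw [h4 i i, if_pos rfl]; exact one_ne_zero
        · show QuadraticMap.polar Q (f i) (e i) ≠ 0
          rw [hfe i i, if_pos rfl]; exact one_ne_zero
        · fin_cases i
          · show QuadraticMap.polar Q x ((2 * ζ) • x - y) ≠ 0
            rw [QuadraticMap.polar_sub_right, QuadraticMap.polar_smul_right, h8, hxx]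
            intro h; apply hδ; simp only [smul_eq_mul] at h; linear_combination h
          · show QuadraticMap.polar Q y ((2 : F) • y - x) ≠ 0
            rw [QuadraticMap.polar_sub_right, QuadraticMap.polar_smul_right, hyx, hyy]
            intro h; apply hδ; simp only [smul_eq_mul] at h; linear_combination h
    have hcard : Fintype.card ((Fin k ⊕ Fin k) ⊕ Fin 2) = Module.finrank F V := by
      rw [hV]; simp; omega
    refine ⟨basisOfLinearIndependentOfCardEqFinrank hli hcard, ζ, hζ, ?_⟩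
    rw [coe_basisOfLinearIndependentOfCardEqFinrank]
    refine ⟨h3, h4, h5, ?_, h7, h8, h9⟩
    intro i j
    fin_cases j
    · exact (h6 i).1
    · exact (h6 i).2

end Cfsg.Agent.S2616
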