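import Mathlib
import Cfsg.Statements.S2617
import Cfsg.Agent.S0832

set_option autoImplicit false
open Cfsg

namespace Cfsg.Agent.S2617

/-- The two standard quadratic forms of even dimension 2m over a finite field are not isometric: there is no linear isomorphism carrying the elliptic form Σ_(i<m−1) x_i y_i + z₁² + z₁z₂ + ζ z₂² (t² + t + ζ without roots) to the hyperbolic form Σ_(i<m) x_i y_i (they have different Witt index). -/
theorem result {F : Type*} [Field F] [Finite F] {m : ℕ} (hm : 1 ≤ m) (ζ : F) (hζ : ∀ t : F, t ^ 2 + t + ζ ≠ 0) (g : (Fin m ⊕ Fin m → F) ≃ₗ[F] ((Fin (m - 1) ⊕ Fin (m - 1)) ⊕ Fin 2 → F)) : ¬ (∀ v : Fin m ⊕ Fin m → F, Cfsg.quadFormMinus (m - 1) F 1 ζ (g v) = Cfsg.quadFormPlus m F v) := by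
  classical
  intro hg
  have haniso : ∀ z₁ z₂ : F, z₁ ^ 2 + 1 * z₁ * z₂ + ζ * z₂ ^ 2 = 0 → z₁ = 0 ∧ z₂ = 0 := by
    intro z₁ z₂ h
    by_cases hz : z₂ = 0
    · subst hz
      refine ⟨?_, rfl⟩
      have : z₁ ^ 2 = 0 := by linear_combination h
      exact pow_eq_zero_iff (by norm_num) |>.1 this
    · exfalso
      apply hζ (z₁ / z₂)
      field_simp
      linear_combination h
  obtain ⟨π, hπ⟩ : ∃ π : ((Fin (m - 1) ⊕ Fin (m - 1)) ⊕ Fin 2 → F) →ₗ[F]
      (Fin (m - 1) ⊕ Fin 2 → F), π = LinearMap.funLeft F F (Sum.map Sum.inr id) := ⟨_, rfl⟩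
  have hπl : ∀ w i, π w (Sum.inl i) = w (Sum.inl (Sum.inr i)) := by
    intro w i; rw [hπ]; rfl
  have hπr : ∀ w j, π w (Sum.inr j) = w (Sum.inr j) := by
    intro w j; rw [hπ]; rfl
  have hsurj : LinearMap.range π = ⊤ := by
    rw [LinearMap.range_eq_top]
    intro x
    refine ⟨Sum.elim (Sum.elim 0 (fun i => x (Sum.inl i))) (fun j => x (Sum.inr j)), ?_⟩
    funext k
    rcases k with i | j
    · rw [hπl]; rfl
    · rw [hπr]; rfl
  have hV' : Module.finrank F ((Fin (m - 1) ⊕ Fin (m - 1)) ⊕ Fin 2 → F) = 2 * m := by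
    rw [Module.finrank_fintype_fun_eq_card]
    simp only [Fintype.card_sum, Fintype.card_fin]
    omega
  have hU₀ : Module.finrank F (LinearMap.ker π) + 1 = m := by
    have := LinearMap.finrank_range_add_finrank_ker π
    rw [hsurj, finrank_top, Module.finrank_fintype_fun_eq_card, hV'] at this
    simp only [Fintype.card_sum, Fintype.card_fin] at this
    omega
  obtain ⟨U, hUdef⟩ : ∃ U : Submodule F (Fin m ⊕ Fin m → F),
      U = (LinearMap.ker π).map g.symm.toLinearMap := ⟨_, rfl⟩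
  have hUf : Module.finrank F U + 1 = m := by
    rw [hUdef, LinearEquiv.finrank_map_eq]; exact hU₀
  have hmemU : ∀ v, v ∈ U ↔ g v ∈ LinearMap.ker π := by
    intro v
    rw [hUdef]
    constructor
    · rintro ⟨w, hw, rfl⟩
      simpa using hw
    · intro hv
      exact ⟨g v, hv, by simp⟩
  have hQ0 : ∀ w ∈ LinearMap.ker π, ∀ w' : (Fin (m - 1) ⊕ Fin (m - 1)) ⊕ Fin 2 → F,
      Cfsg.quadFormMinus (m - 1) F 1 ζ (w' + w) = Cfsg.quadFormMinus (m - 1) F 1 ζ w' +
        ∑ i, w (Sum.inl (Sum.inl i)) * w' (Sum.inl (Sum.inr i)) := by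
    intro w hw w'
    rw [LinearMap.mem_ker] at hw
    have h1 : ∀ i, w (Sum.inl (Sum.inr i)) = 0 := fun i => by rw [← hπl w i, hw]; rfl
    have h2 : ∀ j, w (Sum.inr j) = 0 := fun j => by rw [← hπr w j, hw]; rfl
    simp only [Cfsg.quadFormMinus, Pi.add_apply, h1, h2, add_zero]
    have : ∑ i, (w' (Sum.inl (Sum.inl i)) + w (Sum.inl (Sum.inl i))) * w' (Sum.inl (Sum.inr i)) =
        ∑ i, w' (Sum.inl (Sum.inl i)) * w' (Sum.inl (Sum.inr i)) +
          ∑ i, w (Sum.inl (Sum.inl i)) * w' (Sum.inl (Sum.inr i)) := by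
      rw [← Finset.sum_add_distrib]
      exact Finset.sum_congr rfl (fun i _ => by ring)
    rw [this]; ring
  have hUs : ∀ u ∈ U, Cfsg.quadFormPlus m F u = 0 := by
    intro u hu
    rw [← hg]
    have hk := (hmemU u).1 hu
    have := hQ0 (g u) hk 0
    rw [zero_add] at this
    rw [this]
    simp [Cfsg.quadFormMinus]
  have hcard := Cfsg.Agent.S0832.result m hm U ⟨hUf, hUs⟩
  have hne : Nonempty {W : Submodule F (Fin m ⊕ Fin m → F) // Module.finrank F W = m ∧
      (∀ w ∈ W, Cfsg.quadFormPlus m F w = 0) ∧ U ≤ W} := by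
    by_contra hcon
    rw [not_nonempty_iff] at hcon
    rw [Nat.card_of_isEmpty] at hcard
    omega
  obtain ⟨⟨W, hWf, hWs, hUW⟩⟩ := hne
  obtain ⟨v, hvW, hvU⟩ : ∃ v ∈ W, v ∉ U := by
    by_contra hcon
    push Not at hcon
    have : W ≤ U := hcon
    have := Submodule.finrank_mono this
    omega
  apply hvU
  rw [hmemU]
  have hQv : Cfsg.quadFormMinus (m - 1) F 1 ζ (g v) = 0 := by rw [hg]; exact hWs v hvW
  have hy : ∀ i, (g v) (Sum.inl (Sum.inr i)) = 0 := by
    intro i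
    have hw : (Pi.single (Sum.inl (Sum.inl i)) 1 : (Fin (m - 1) ⊕ Fin (m - 1)) ⊕ Fin 2 → F) ∈
        LinearMap.ker π := by
      rw [LinearMap.mem_ker]
      funext k
      rcases k with k | k
      · rw [hπl]; simp
      · rw [hπr]; simp
    have hU' : g.symm (Pi.single (Sum.inl (Sum.inl i)) 1) ∈ U := by
      rw [hmemU]; simpa using hw
    have h0 := hWs _ (W.add_mem hvW (hUW hU'))
    rw [← hg, map_add, LinearEquiv.apply_symm_apply, hQ0 _ hw, hQv, zero_add] at h0
    simpa [Pi.single_apply] using h0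
  have hz : (g v) (Sum.inr 0) = 0 ∧ (g v) (Sum.inr 1) = 0 := by
    apply haniso
    have := hQv
    simp only [Cfsg.quadFormMinus, hy, mul_zero, Finset.sum_const_zero, zero_add] at this
    exact this
  rw [LinearMap.mem_ker]
  funext k
  rcases k with k | k
  · rw [hπl]; exact hy k
  · rw [hπr]
    fin_cases k
    · exact hz.1
    · exact hz.2

end Cfsg.Agent.S2617
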