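import Mathlib
import Cfsg.Statements.S2618
import Cfsg.Agent.Lib.Helper5.QSpace

set_option autoImplicit false
open Cfsg

namespace Cfsg.Agent.S2618

open Cfsg.Agent.Lib.Helper5

universe u

theorem odd_fam {F : Type*} [Field F] [Finite F] : ∀ (m : ℕ) (V : Type u) [AddCommGroup V]
    [Module F V] [FiniteDimensional F V] (Q : QuadraticForm F V),
    (QuadraticMap.polarBilin Q).Nondegenerate → Module.finrank F V = 2 * m + 1 →
    ∃ (x : V) (e f : Fin m → V), QuadraticMap.polar Q x x ≠ 0 ∧
      (∀ i, QuadraticMap.polar Q x (e i) = 0 ∧ QuadraticMap.polar Q x (f i) = 0) ∧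
      (∀ i, Q (e i) = 0 ∧ Q (f i) = 0) ∧
      (∀ i j, QuadraticMap.polar Q (e i) (f j) = if i = j then 1 else 0) ∧
      (∀ i j, QuadraticMap.polar Q (e i) (e j) = 0 ∧ QuadraticMap.polar Q (f i) (f j) = 0) := by
  intro m
  induction m with
  | zero =>
    intro V _ _ _ Q hQ hV
    have : Nontrivial V := Module.nontrivial_of_finrank_pos (R := F) (by omega)
    obtain ⟨x, hx⟩ := exists_ne (0 : V)
    refine ⟨x, Fin.elim0, Fin.elim0, ?_, fun i => i.elim0, fun i => i.elim0, fun i => i.elim0,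
      fun i => i.elim0⟩
    intro h0
    apply hx
    apply hQ.1 x
    intro y
    obtain ⟨c, rfl⟩ := (finrank_eq_one_iff_of_nonzero' x hx).1 (by omega) y
    show QuadraticMap.polar Q x (c • x) = 0
    rw [QuadraticMap.polar_smul_right, h0, smul_zero]
  | succ m ih =>
    intro V _ _ _ Q hQ hV
    obtain ⟨e₀, he₀, hQe₀⟩ := exists_sing3 Q (by omega)
    obtain ⟨f₀, hQf₀, hef₀⟩ := hyp_pair Q hQ e₀ he₀ hQe₀
    obtain ⟨W, hW1, hW2, hW3⟩ := peel_pair Q hQ e₀ f₀ hQe₀ hQf₀ hef₀
    obtain ⟨x, e, f, h1, h2, h3, h4, h5⟩ := ih W (Q.comp W.subtype) hW3 (by omega)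
    have hc : ∀ w : W, QuadraticMap.polar Q (w : V) e₀ = 0 ∧ QuadraticMap.polar Q (w : V) f₀ = 0 := by
      intro w
      rw [QuadraticMap.polar_comm (⇑Q) (w : V) e₀, QuadraticMap.polar_comm (⇑Q) (w : V) f₀]
      exact hW1 w w.2
    have hee : QuadraticMap.polar Q e₀ e₀ = 0 := by rw [QuadraticMap.polar_self, hQe₀, smul_zero]
    have hff : QuadraticMap.polar Q f₀ f₀ = 0 := by rw [QuadraticMap.polar_self, hQf₀, smul_zero]
    refine ⟨(x : V), Fin.cons e₀ (fun i => (e i : V)), Fin.cons f₀ (fun i => (f i : V)), h1,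
      ?_, ?_, ?_, ?_⟩
    · intro i
      refine Fin.cases ?_ (fun i => ?_) i
      · simp only [Fin.cons_zero]
        exact hc x
      · simp only [Fin.cons_succ]
        exact h2 i
    · intro i
      refine Fin.cases ?_ (fun i => ?_) i
      · simp only [Fin.cons_zero]
        exact ⟨hQe₀, hQf₀⟩
      · simp only [Fin.cons_succ]
        exact h3 i
    · intro i j
      refine Fin.cases ?_ (fun i => ?_) i <;> refine Fin.cases ?_ (fun j => ?_) j
      · simp only [Fin.cons_zero]
        simpa using hef₀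
      · simp only [Fin.cons_zero, Fin.cons_succ]
        rw [(hW1 _ (f j).2).1, if_neg (Fin.succ_ne_zero j).symm]
      · simp only [Fin.cons_zero, Fin.cons_succ]
        rw [(hc (e i)).2, if_neg (Fin.succ_ne_zero i)]
      · simp only [Fin.cons_succ]
        have := h4 i j
        simp only [Fin.succ_inj]
        exact this
    · intro i j
      refine Fin.cases ?_ (fun i => ?_) i <;> refine Fin.cases ?_ (fun j => ?_) j
      · simp only [Fin.cons_zero]
        exact ⟨hee, hff⟩
      · simp only [Fin.cons_zero, Fin.cons_succ]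
        exact ⟨(hW1 _ (e j).2).1, (hW1 _ (f j).2).2⟩
      · simp only [Fin.cons_zero, Fin.cons_succ]
        exact ⟨(hc (e i)).1, (hc (f i)).2⟩
      · simp only [Fin.cons_succ]
        exact h5 i j

/-- Standard (parabolic) basis of a non-degenerate quadratic space of odd dimension 2m + 1 over a finite field (the non-degeneracy of the polar form forces the characteristic to be odd): there is a basis e_i, f_i (i < m), x with Q(e_i) = Q(f_i) = 0, B(e_i, f_j) = δ_ij (B the polar form), the e's pairwise orthogonal and the f's pairwise orthogonal, x orthogonal to all of them and Q(x) ≠ 0. -/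
theorem result {F V : Type*} [Field F] [Finite F] [AddCommGroup V] [Module F V] [FiniteDimensional F V] {m : ℕ} (hV : Module.finrank F V = 2 * m + 1) (Q : QuadraticForm F V) (hQ : (QuadraticMap.polarBilin Q).Nondegenerate) : ∃ b : Module.Basis (Unit ⊕ (Fin m ⊕ Fin m)) F V, Q (b (Sum.inl ())) ≠ 0 ∧ (∀ i, QuadraticMap.polar ⇑Q (b (Sum.inl ())) (b (Sum.inr (Sum.inl i))) = 0 ∧ QuadraticMap.polar ⇑Q (b (Sum.inl ())) (b (Sum.inr (Sum.inr i))) = 0) ∧ (∀ i, Q (b (Sum.inr (Sum.inl i))) = 0 ∧ Q (b (Sum.inr (Sum.inr i))) = 0) ∧ (∀ i j, QuadraticMap.polar ⇑Q (b (Sum.inr (Sum.inl i))) (b (Sum.inr (Sum.inr j))) = if i = j then 1 else 0) ∧ (∀ i j, QuadraticMap.polar ⇑Q (b (Sum.inr (Sum.inl i))) (b (Sum.inr (Sum.inl j))) = 0 ∧ QuadraticMap.polar ⇑Q (b (Sum.inr (Sum.inr i))) (b (Sum.inr (Sum.inr j))) = 0) := by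
  classical
  obtain ⟨x, e, f, h1, h2, h3, h4, h5⟩ := odd_fam m V Q hQ hV
  have hfe : ∀ i j, QuadraticMap.polar Q (f i) (e j) = if i = j then 1 else 0 := by
    intro i j
    rw [QuadraticMap.polar_comm (⇑Q) (f i) (e j), h4 j i]
    simp [eq_comm]
  have hli : LinearIndependent F (Sum.elim (fun _ : Unit => x) (Sum.elim e f)) := by
    refine li_of_dual Q _ (Sum.elim (fun _ : Unit => x) (Sum.elim f e)) ?_ ?_
    · rintro (i | i | i) (j | j | j) hij
      · exact absurd rfl hij
      · exact (h2 j).2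
      · exact (h2 j).1
      · show QuadraticMap.polar Q (e i) x = 0
        rw [QuadraticMap.polar_comm (⇑Q) (e i) x]; exact (h2 i).1
      · show QuadraticMap.polar Q (e i) (f j) = 0
        rw [h4 i j, if_neg (fun h => hij (by rw [h]))]
      · exact (h5 i j).1
      · show QuadraticMap.polar Q (f i) x = 0
        rw [QuadraticMap.polar_comm (⇑Q) (f i) x]; exact (h2 i).2
      · exact (h5 i j).2
      · show QuadraticMap.polar Q (f i) (e j) = 0
        rw [hfe i j, if_neg (fun h => hij (by rw [h]))]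
    · rintro (i | i | i)
      · exact h1
      · show QuadraticMap.polar Q (e i) (f i) ≠ 0
        rw [h4 i i, if_pos rfl]; exact one_ne_zero
      · show QuadraticMap.polar Q (f i) (e i) ≠ 0
        rw [hfe i i, if_pos rfl]; exact one_ne_zero
  have hcard : Fintype.card (Unit ⊕ (Fin m ⊕ Fin m)) = Module.finrank F V := by
    rw [hV]; simp; omega
  refine ⟨basisOfLinearIndependentOfCardEqFinrank hli hcard, ?_⟩
  rw [coe_basisOfLinearIndependentOfCardEqFinrank]
  refine ⟨?_, h2, h3, h4, h5⟩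
  show Q x ≠ 0
  intro h0
  apply h1
  rw [QuadraticMap.polar_self, h0, smul_zero]

end Cfsg.Agent.S2618
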