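import Cfsg.Statements.S2619
-- import your own Cfsg.Agent.* helpers here

set_option autoImplicit false
open Cfsg

namespace Cfsg.Agent.S2619

/-- Over a finite field of characteristic two, given an alternating bilinear form B on a finite-dimensional space, a basis (v_i) and scalars (λ_i), there is exactly one quadratic form whose polar form is B and whose value at each v_i is λ_i. -/
theorem result {F V ι : Type*} [Field F] [Finite F] [CharP F 2] [AddCommGroup V] [Module F V] [Fintype ι] (b : Module.Basis ι F V) (B : LinearMap.BilinForm F V) (hB : B.IsAlt) (c : ι → F) : ∃! Q : QuadraticForm F V, QuadraticMap.polarBilin Q = B ∧ ∀ i, Q (b i) = c i := by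
  classical
  have hneg : ∀ x : F, -x = x := fun x => CharTwo.neg_eq x
  have hadd : ∀ x : F, x + x = 0 := fun x => CharTwo.add_self_eq_zero x
  obtain ⟨e⟩ : Nonempty (ι ≃ Fin (Fintype.card ι)) := ⟨Fintype.equivFin ι⟩
  obtain ⟨M, hM⟩ : ∃ M : Matrix ι ι F, M = fun i j =>
      if e i < e j then B (b i) (b j) else if i = j then c i else 0 := ⟨_, rfl⟩
  obtain ⟨A, hAdef⟩ : ∃ A : LinearMap.BilinForm F V, A = Matrix.toBilin b M := ⟨_, rfl⟩
  have hA : ∀ i j, A (b i) (b j) = M i j := by
    intro i j
    have h0 := LinearMap.BilinForm.toMatrix_toBilin b M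
    have h := congrFun (congrFun h0 i) j
    rw [LinearMap.BilinForm.toMatrix_apply] at h
    rw [hAdef]
    exact h
  have hQ1 : QuadraticMap.polarBilin A.toQuadraticMap = B := by
    rw [LinearMap.BilinMap.polarBilin_toQuadraticMap]
    apply LinearMap.BilinForm.ext_basis b
    intro i j
    rw [LinearMap.add_apply, LinearMap.add_apply, LinearMap.flip_apply, hA, hA, hM]
    show (if e i < e j then B (b i) (b j) else if i = j then c i else 0) +
      (if e j < e i then B (b j) (b i) else if j = i then c j else 0) = B (b i) (b j)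
    rcases lt_trichotomy (e i) (e j) with h | h | h
    · have hne : j ≠ i := by rintro rfl; exact lt_irrefl _ h
      rw [if_pos h, if_neg (not_lt.mpr h.le), if_neg hne, add_zero]
    · have hij : i = j := e.injective h
      subst hij
      rw [if_neg (lt_irrefl _), if_pos rfl, hadd, hB]
    · have hne : i ≠ j := by rintro rfl; exact lt_irrefl _ h
      rw [if_neg (not_lt.mpr h.le), if_neg hne, zero_add, if_pos h]
      have h3 := LinearMap.BilinForm.IsAlt.neg_eq hB (b j) (b i)
      rw [← h3, hneg]
  have hQ2 : ∀ i, A.toQuadraticMap (b i) = c i := by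
    intro i
    rw [LinearMap.BilinMap.toQuadraticMap_apply, hA, hM]
    show (if e i < e i then B (b i) (b i) else if i = i then c i else 0) = c i
    rw [if_neg (lt_irrefl _), if_pos rfl]
  have huniq : ∀ Q Q' : QuadraticForm F V, QuadraticMap.polarBilin Q = B →
      (∀ i, Q (b i) = c i) → QuadraticMap.polarBilin Q' = B → (∀ i, Q' (b i) = c i) →
      Q = Q' := by
    intro Q Q' h1 h2 h1' h2'
    have key : ∀ (s : Finset ι) (a : ι → F),
        Q (∑ i ∈ s, a i • b i) = Q' (∑ i ∈ s, a i • b i) := by
      intro s a
      induction s using Finset.induction_on with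
      | empty => simp
      | insert i s hi ih =>
        rw [Finset.sum_insert hi, QuadraticMap.map_add ⇑Q, QuadraticMap.map_add ⇑Q', ih,
          QuadraticMap.map_smul, QuadraticMap.map_smul, h2, h2']
        congr 1
        rw [← QuadraticMap.polarBilin_apply_apply, ← QuadraticMap.polarBilin_apply_apply, h1, h1']
    ext v
    have h3 := key Finset.univ (fun i => b.repr v i)
    rw [b.sum_repr] at h3
    exact h3
  refine ⟨A.toQuadraticMap, ⟨hQ1, hQ2⟩, ?_⟩
  rintro Q' ⟨hQ'1, hQ'2⟩
  exact huniq Q' A.toQuadraticMap hQ'1 hQ'2 hQ1 hQ2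

end Cfsg.Agent.S2619
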