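import Cfsg.Statements.S2620
-- import your own Cfsg.Agent.* helpers here

set_option autoImplicit false
open Cfsg

namespace Cfsg.Agent.S2620

/-- Discriminant of the hyperbolic quadratic form Σ_(i<m) x_i y_i over a field with q elements, q odd, m ≥ 1: the determinant of the Gram matrix of its polar form in any basis is a square if and only if m(q − 1)/2 is even (equivalently q^m ≡ 1 (mod 4)). -/
theorem result {F : Type*} [Field F] [Fintype F] {q : ℕ} (hF : Fintype.card F = q) (hq : Odd q) {m : ℕ} (hm : 1 ≤ m) {ι : Type*} [Fintype ι] [DecidableEq ι] (b : Module.Basis ι F (Fin m ⊕ Fin m → F)) : IsSquare (Matrix.of (fun i j : ι => QuadraticMap.polar (Cfsg.quadFormPlus m F) (b i) (b j))).det ↔ Even (m * (q - 1) / 2) := by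
  classical
  subst hF
  obtain ⟨G₀, hG₀⟩ : ∃ G₀ : Matrix (Fin m ⊕ Fin m) (Fin m ⊕ Fin m) F,
      G₀ = Matrix.fromBlocks 0 1 1 0 := ⟨_, rfl⟩
  have hpolar : ∀ u v : Fin m ⊕ Fin m → F,
      QuadraticMap.polar (Cfsg.quadFormPlus m F) u v = ∑ x, ∑ y, u x * G₀ x y * v y := by
    intro u v
    unfold QuadraticMap.polar Cfsg.quadFormPlus
    simp only [Fintype.sum_sum_type, hG₀, Matrix.fromBlocks_apply₁₁, Matrix.fromBlocks_apply₁₂,
      Matrix.fromBlocks_apply₂₁, Matrix.fromBlocks_apply₂₂, Matrix.zero_apply, Matrix.one_apply,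
      Pi.add_apply]
    simp only [mul_zero, zero_mul, Finset.sum_const_zero, zero_add, add_zero, mul_ite, mul_one,
      ite_mul, Finset.sum_ite_eq, Finset.mem_univ, if_true]
    rw [← Finset.sum_add_distrib, ← Finset.sum_sub_distrib, ← Finset.sum_sub_distrib]
    apply Finset.sum_congr rfl
    intro k _
    ring
  obtain ⟨e⟩ : Nonempty (ι ≃ Fin m ⊕ Fin m) :=
    ⟨b.indexEquiv (Pi.basisFun F (Fin m ⊕ Fin m))⟩
  obtain ⟨P, hP⟩ : ∃ P : Matrix (Fin m ⊕ Fin m) (Fin m ⊕ Fin m) F,
      P = Matrix.of (fun x y => b (e.symm x) y) := ⟨_, rfl⟩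
  have hGram : (Matrix.of (fun i j : ι =>
      QuadraticMap.polar (Cfsg.quadFormPlus m F) (b i) (b j))).submatrix e.symm e.symm
      = P * G₀ * P.transpose := by
    ext x y
    rw [Matrix.submatrix_apply, Matrix.of_apply, hpolar, Matrix.mul_apply]
    simp only [Matrix.mul_apply, Matrix.transpose_apply, hP, Matrix.of_apply, Finset.sum_mul]
    rw [Finset.sum_comm]
  have hdet : (Matrix.of (fun i j : ι =>
      QuadraticMap.polar (Cfsg.quadFormPlus m F) (b i) (b j))).det = P.det * G₀.det * P.det := by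
    rw [← Matrix.det_submatrix_equiv_self e.symm, hGram, Matrix.det_mul, Matrix.det_mul,
      Matrix.det_transpose]
  have hPdet : P.det ≠ 0 := by
    have h1 : LinearIndependent F P.row := by
      have h0 := b.linearIndependent.comp e.symm e.symm.injective
      rw [hP]
      exact h0
    exact ((Matrix.isUnit_iff_isUnit_det P).mp
      (Matrix.linearIndependent_rows_iff_isUnit.mp h1)).ne_zero
  have hG₀det : G₀.det = (-1) ^ m := by
    have h1 : Matrix.fromBlocks (1 : Matrix (Fin m) (Fin m) F) 1 0 1 * G₀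
        = Matrix.fromBlocks 1 1 1 0 := by
      rw [hG₀, Matrix.fromBlocks_multiply]
      simp
    have h2 := congrArg Matrix.det h1
    rw [Matrix.det_mul, Matrix.det_fromBlocks_zero₂₁, Matrix.det_one, one_mul, one_mul,
      Matrix.det_fromBlocks_one₁₁] at h2
    rw [h2]
    simp [Matrix.det_neg]
  rw [hdet, hG₀det]
  have hsq : IsSquare (P.det * (-1) ^ m * P.det) ↔ IsSquare ((-1 : F) ^ m) := by
    constructor
    · rintro ⟨r, hr⟩
      refine ⟨r / P.det, ?_⟩
      field_simp
      linear_combination hr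
    · rintro ⟨r, hr⟩
      exact ⟨r * P.det, by rw [hr]; ring⟩
  rw [hsq]
  obtain ⟨t, ht⟩ := hq
  have hdiv : m * (Fintype.card F - 1) / 2 = m * t := by
    rw [ht, Nat.add_sub_cancel, ← mul_assoc, mul_comm m 2, mul_assoc,
      Nat.mul_div_cancel_left _ (by norm_num : 0 < 2)]
  rw [hdiv]
  rcases Nat.even_or_odd m with hme | hmo
  · rw [hme.neg_one_pow]
    constructor
    · intro _
      exact Nat.even_mul.mpr (Or.inl hme)
    · intro _
      exact ⟨1, by rw [mul_one]⟩
  · rw [hmo.neg_one_pow, FiniteField.isSquare_neg_one_iff, Nat.even_mul]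
    constructor
    · intro h
      right
      rw [Nat.even_iff]
      omega
    · rintro (h | h)
      · exact absurd h (Nat.not_even_iff_odd.mpr hmo)
      · rw [Nat.even_iff] at h
        omega

end Cfsg.Agent.S2620
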