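import Cfsg.Statements.S2621
-- import your own Cfsg.Agent.* helpers here
import Cfsg.Agent.Lib.Helper7.GramDet

set_option autoImplicit false
open Cfsg

namespace Cfsg.Agent.S2621


open Cfsg.Agent.Lib.Helper7

/-- Discriminant of an elliptic quadratic form Σ_(i<m−1) x_i y_i + z₁² + a z₁z₂ + c z₂² (binary part anisotropic) in dimension 2m over a field with q elements, q odd, m ≥ 1: the determinant of the Gram matrix of its polar form in any basis is a square if and only if m(q − 1)/2 is odd (equivalently q^m ≡ 3 (mod 4)). -/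
theorem result {F : Type*} [Field F] [Fintype F] {q : ℕ} (hF : Fintype.card F = q) (hq : Odd q) {m : ℕ} (hm : 1 ≤ m) (a c : F) (hac : ∀ z₁ z₂ : F, z₁ ^ 2 + a * z₁ * z₂ + c * z₂ ^ 2 = 0 → z₁ = 0 ∧ z₂ = 0) {ι : Type*} [Fintype ι] [DecidableEq ι] (b : Module.Basis ι F ((Fin (m - 1) ⊕ Fin (m - 1)) ⊕ Fin 2 → F)) : IsSquare (Matrix.of (fun i j : ι => QuadraticMap.polar (Cfsg.quadFormMinus (m - 1) F a c) (b i) (b j))).det ↔ ¬ Even (m * (q - 1) / 2) := by
  classical
  subst hF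
  obtain ⟨k, hk⟩ : ∃ k, k + 1 = m := ⟨m - 1, by omega⟩
  subst hk
  have key : ∀ (b : Module.Basis ι F ((Fin k ⊕ Fin k) ⊕ Fin 2 → F)),
      IsSquare (Matrix.of (fun i j : ι =>
        QuadraticMap.polar (Cfsg.quadFormMinus k F a c) (b i) (b j))).det ↔
      ¬ Even ((k + 1) * (Fintype.card F - 1) / 2) := by
    intro b
    obtain ⟨H, hH⟩ : ∃ H : Matrix (Fin k ⊕ Fin k) (Fin k ⊕ Fin k) F,
        H = Matrix.fromBlocks (0 : Matrix (Fin k) (Fin k) F) (1 : Matrix (Fin k) (Fin k) F)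
          (1 : Matrix (Fin k) (Fin k) F) (0 : Matrix (Fin k) (Fin k) F) := ⟨_, rfl⟩
    obtain ⟨G₀, hG₀⟩ : ∃ G₀ : Matrix ((Fin k ⊕ Fin k) ⊕ Fin 2) ((Fin k ⊕ Fin k) ⊕ Fin 2) F,
        G₀ = Matrix.fromBlocks H 0 0 !![2, a; a, 2 * c] := ⟨_, rfl⟩
    have hpolar : ∀ u v : (Fin k ⊕ Fin k) ⊕ Fin 2 → F,
        QuadraticMap.polar (Cfsg.quadFormMinus k F a c) u v = ∑ x, ∑ y, u x * G₀ x y * v y := by
      intro u v
      unfold QuadraticMap.polar Cfsg.quadFormMinus
      simp only [Fintype.sum_sum_type, Fin.sum_univ_two, hG₀, hH, Matrix.fromBlocks_apply₁₁,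
        Matrix.fromBlocks_apply₁₂, Matrix.fromBlocks_apply₂₁, Matrix.fromBlocks_apply₂₂,
        Matrix.zero_apply, Matrix.one_apply, Pi.add_apply]
      simp only [mul_zero, zero_mul, Finset.sum_const_zero, zero_add, add_zero, mul_ite, mul_one,
        ite_mul, Finset.sum_ite_eq, Finset.mem_univ, if_true]
      simp only [Matrix.of_apply, Matrix.cons_val', Matrix.cons_val_zero, Matrix.cons_val_one,
        Matrix.cons_val_fin_one]
      have hs : ∑ i : Fin k, (u (Sum.inl (Sum.inl i)) + v (Sum.inl (Sum.inl i))) *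
          (u (Sum.inl (Sum.inr i)) + v (Sum.inl (Sum.inr i))) =
          ∑ i : Fin k, u (Sum.inl (Sum.inl i)) * u (Sum.inl (Sum.inr i)) +
          ∑ i : Fin k, v (Sum.inl (Sum.inl i)) * v (Sum.inl (Sum.inr i)) +
          ∑ i : Fin k, u (Sum.inl (Sum.inl i)) * v (Sum.inl (Sum.inr i)) +
          ∑ i : Fin k, u (Sum.inl (Sum.inr i)) * v (Sum.inl (Sum.inl i)) := by
        rw [← Finset.sum_add_distrib, ← Finset.sum_add_distrib, ← Finset.sum_add_distrib]
        apply Finset.sum_congr rfl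
        intro i _
        ring
      rw [hs]
      ring
    obtain ⟨d, hd0, hdet⟩ := gd_gram_det (Cfsg.quadFormMinus k F a c) G₀ hpolar b
    have hG₀det : G₀.det = (-1) ^ k * (2 * (2 * c) - a * a) := by
      rw [hG₀, Matrix.det_fromBlocks_zero₂₁, hH, gd_det_hyp, Matrix.det_fin_two_of]
    rw [hdet, gd_isSquare_conj d _ hd0, hG₀det, ← gd_neg_one_pow hq (k + 1)]
    have h2 : (2 : F) ≠ 0 := by
      apply Ring.two_ne_zero
      intro h
      have h3 := FiniteField.even_card_iff_char_two.mp h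
      rw [Nat.odd_iff] at hq
      omega
    have hD : ¬ IsSquare (a ^ 2 - 4 * c) := by
      rintro ⟨s, hs⟩
      have h4 := hac ((-a + s) / 2) 1 (by
        field_simp
        linear_combination (-1 : F) * hs)
      exact one_ne_zero h4.2
    have e : (-1 : F) ^ k * (2 * (2 * c) - a * a) = (-1) ^ (k + 1) * (a ^ 2 - 4 * c) := by ring
    rw [e, gd_isSquare_mul_nonsquare _ _ (pow_ne_zero _ (neg_ne_zero.mpr one_ne_zero)) hD]
  exact key b

end Cfsg.Agent.S2621
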