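import Mathlib
import Cfsg.Statements.S2624
import Cfsg.Agent.S2616

set_option autoImplicit false
open Cfsg

namespace Cfsg.Agent.S2624

open Cfsg.Agent.Lib.Helper5

/-- two quadratic forms agreeing on a basis (values and polar values) are equal -/
theorem qext {ι R M : Type*} [CommRing R] [AddCommGroup M] [Module R M] (bm : Module.Basis ι R M)
    (Q₁ Q₂ : QuadraticForm R M) (h1 : ∀ i, Q₁ (bm i) = Q₂ (bm i))
    (h2 : ∀ i j, i ≠ j → QuadraticMap.polar Q₁ (bm i) (bm j) = QuadraticMap.polar Q₂ (bm i) (bm j)) :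
    Q₁ = Q₂ := by
  classical
  let : LinearOrder ι := IsWellOrder.linearOrder WellOrderingRel
  rw [← QuadraticMap.toQuadraticMap_toBilin Q₁ bm, ← QuadraticMap.toQuadraticMap_toBilin Q₂ bm]
  congr 1
  refine bm.ext fun i => bm.ext fun j => ?_
  rw [QuadraticMap.toBilin_apply, QuadraticMap.toBilin_apply]
  by_cases hij : i = j
  · rw [if_pos hij, if_pos hij, h1]
  · rw [if_neg hij, if_neg hij, h2 i j hij]

theorem sim_of_basis {F V ι : Type*} [Field F] [AddCommGroup V] [Module F V]
    [FiniteDimensional F V] (Q : QuadraticForm F V)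
    (hQ : (QuadraticMap.polarBilin Q).Nondegenerate) (c : F) (hc : c ≠ 0)
    (b : Module.Basis ι F V) (φ : ι → V) (h1 : ∀ i, Q (φ i) = c * Q (b i))
    (h2 : ∀ i j, i ≠ j → QuadraticMap.polar Q (φ i) (φ j) = c * QuadraticMap.polar Q (b i) (b j)) :
    ∃ g : V ≃ₗ[F] V, ∀ v, Q (g v) = c * Q v := by
  obtain ⟨g, hg⟩ : ∃ g : V →ₗ[F] V, ∀ i, g (b i) = φ i :=
    ⟨b.constr F φ, fun i => b.constr_basis F φ i⟩
  have hQg : Q.comp g = c • Q := by
    refine qext b _ _ (fun i => ?_) (fun i j hij => ?_)
    · show Q (g (b i)) = c • Q (b i)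
      rw [hg, h1]; rfl
    · have e1 : QuadraticMap.polar (⇑(Q.comp g)) (b i) (b j) =
          QuadraticMap.polar Q (g (b i)) (g (b j)) := by
        unfold QuadraticMap.polar; simp [map_add]
      have e2 : QuadraticMap.polar (⇑(c • Q)) (b i) (b j) =
          c * QuadraticMap.polar Q (b i) (b j) := by
        unfold QuadraticMap.polar; simp; ring
      rw [e1, e2, hg, hg, h2 i j hij]
  have hgv : ∀ v, Q (g v) = c * Q v := fun v => by
    have := congrArg (fun q : QuadraticForm F V => q v) hQg
    simpa using this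
  have hinj : Function.Injective g := by
    rw [← LinearMap.ker_eq_bot, LinearMap.ker_eq_bot']
    intro v hv
    apply hQ.1 v
    intro w
    show QuadraticMap.polar Q v w = 0
    have e : QuadraticMap.polar Q (g v) (g w) = c * QuadraticMap.polar Q v w := by
      unfold QuadraticMap.polar; rw [← map_add, hgv, hgv, hgv]; ring
    rw [hv, QuadraticMap.polar_zero_left] at e
    exact (mul_eq_zero.1 e.symm).resolve_left hc
  exact ⟨LinearEquiv.ofInjectiveEndo g hinj, fun v => by simpa using hgv v⟩

/-- For a quadratic form Q on F^n with non-degenerate polar form, F finite and n ≥ 2 even, every non-zero scalar c is the multiplier of some similarity: there is an invertible linear map g with Q(g v) = c·Q(v) for all v. -/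
theorem result {F : Type*} [Field F] [Fintype F] {n : ℕ} (hn : 2 ≤ n) (he : Even n) (Q : QuadraticForm F (Fin n → F)) (hQ : (QuadraticMap.polarBilin Q).Nondegenerate) (c : F) (hc : c ≠ 0) : ∃ g : (Fin n → F) ≃ₗ[F] (Fin n → F), ∀ v, Q (g v) = c * Q v := by
  classical
  obtain ⟨m, hm⟩ := he
  have hfr : Module.finrank F (Fin n → F) = 2 * m := by
    rw [Module.finrank_fin_fun]; omega
  rcases Cfsg.Agent.S2616.result (m := m) (by omega) hfr Q hQ with
    ⟨b, h3, h4, h5⟩ | ⟨b, ζ, hζ, h3, h4, h5, h6, h7, h8, h9⟩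
  · refine sim_of_basis Q hQ c hc b
      (Sum.elim (fun i => c • b (Sum.inl i)) (fun i => b (Sum.inr i))) ?_ ?_
    · rintro (i | i)
      · show Q (c • b (Sum.inl i)) = c * Q (b (Sum.inl i))
        rw [QuadraticMap.map_smul, (h3 i).1]; simp
      · show Q (b (Sum.inr i)) = c * Q (b (Sum.inr i))
        rw [(h3 i).2, mul_zero]
    · rintro (i | i) (j | j) hij
      · show QuadraticMap.polar Q (c • b (Sum.inl i)) (c • b (Sum.inl j)) = _
        rw [QuadraticMap.polar_smul_left, QuadraticMap.polar_smul_right, (h5 i j).1]; simp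
      · show QuadraticMap.polar Q (c • b (Sum.inl i)) (b (Sum.inr j)) = _
        rw [QuadraticMap.polar_smul_left]; rfl
      · show QuadraticMap.polar Q (b (Sum.inr i)) (c • b (Sum.inl j)) = _
        rw [QuadraticMap.polar_smul_right]; rfl
      · show QuadraticMap.polar Q (b (Sum.inr i)) (b (Sum.inr j)) = _
        rw [(h5 i j).2, mul_zero]
  · -- elliptic case
    obtain ⟨a, b', d, hne, h0⟩ := cw3 (1 : F) ζ (-c) 1 0 0
    have hd : d ≠ 0 := by
      intro hd0
      rw [hd0] at h0
      by_cases hb : b' = 0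
      · rw [hb] at h0
        have ha : a = 0 := by
          have : a * a = 0 := by linear_combination h0
          exact mul_self_eq_zero.1 this
        rcases hne with h | h | h
        · exact h ha
        · exact h hb
        · exact h hd0
      · apply hζ (a / b')
        field_simp
        linear_combination h0
    obtain ⟨α, hα⟩ : ∃ α, α = a / d := ⟨_, rfl⟩
    obtain ⟨β, hβ⟩ : ∃ β, β = b' / d := ⟨_, rfl⟩
    have hab : α * α + α * β + ζ * β * β = c := by
      rw [hα, hβ]
      field_simp
      linear_combination h0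
    obtain ⟨x, hx⟩ : ∃ x, x = b (Sum.inr 0) := ⟨_, rfl⟩
    obtain ⟨y, hy⟩ : ∃ y, y = b (Sum.inr 1) := ⟨_, rfl⟩
    rw [← hx] at h7 h8
    rw [← hy] at h8 h9
    have hxx : QuadraticMap.polar Q x x = 2 := by
      rw [QuadraticMap.polar_self, h7]; simp
    have hyy : QuadraticMap.polar Q y y = 2 * ζ := by
      rw [QuadraticMap.polar_self, h9]; simp [two_mul]
    have hyx : QuadraticMap.polar Q y x = 1 := by
      rw [QuadraticMap.polar_comm (⇑Q) y x]; exact h8
    have P : ∀ a1 a2 a3 a4 : F, QuadraticMap.polar Q (a1 • x + a2 • y) (a3 • x + a4 • y) =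
        2 * a1 * a3 + a1 * a4 + a2 * a3 + 2 * ζ * a2 * a4 := by
      intro a1 a2 a3 a4
      rw [QuadraticMap.polar_add_left, QuadraticMap.polar_add_right, QuadraticMap.polar_add_right,
        QuadraticMap.polar_smul_left, QuadraticMap.polar_smul_left, QuadraticMap.polar_smul_left,
        QuadraticMap.polar_smul_left, QuadraticMap.polar_smul_right, QuadraticMap.polar_smul_right,
        QuadraticMap.polar_smul_right, QuadraticMap.polar_smul_right, hxx, h8, hyx, hyy]
      simp only [smul_eq_mul]
      ring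
    have hex : ∀ i, (QuadraticMap.polar Q (b (Sum.inl (Sum.inl i))) x = 0 ∧
        QuadraticMap.polar Q (b (Sum.inl (Sum.inr i))) x = 0) ∧
        (QuadraticMap.polar Q (b (Sum.inl (Sum.inl i))) y = 0 ∧
        QuadraticMap.polar Q (b (Sum.inl (Sum.inr i))) y = 0) := by
      intro i
      rw [hx, hy]
      exact ⟨h6 i 0, h6 i 1⟩
    have Pe : ∀ (v : Fin n → F), QuadraticMap.polar Q v x = 0 → QuadraticMap.polar Q v y = 0 →
        ∀ a3 a4 : F, QuadraticMap.polar Q v (a3 • x + a4 • y) = 0 ∧
          QuadraticMap.polar Q (a3 • x + a4 • y) v = 0 := by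
      intro v hvx hvy a3 a4
      have e1 : QuadraticMap.polar Q v (a3 • x + a4 • y) = 0 := by
        rw [QuadraticMap.polar_add_right, QuadraticMap.polar_smul_right,
          QuadraticMap.polar_smul_right, hvx, hvy]
        simp
      exact ⟨e1, by rw [QuadraticMap.polar_comm (⇑Q) _ v]; exact e1⟩
    have Pc : ∀ (v w : Fin n → F), QuadraticMap.polar Q v w = 0 → QuadraticMap.polar Q w v = 0 := by
      intro v w h
      rw [QuadraticMap.polar_comm (⇑Q) w v]; exact h
    have Qxy : ∀ a1 a2 : F, Q (a1 • x + a2 • y) = a1 * a1 + a1 * a2 + ζ * a2 * a2 := by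
      intro a1 a2
      rw [Q_add3, QuadraticMap.map_smul, QuadraticMap.map_smul, QuadraticMap.polar_smul_left,
        QuadraticMap.polar_smul_right, h7, h8, h9]
      simp only [smul_eq_mul]
      ring
    refine sim_of_basis Q hQ c hc b
      (Sum.elim (Sum.elim (fun i => c • b (Sum.inl (Sum.inl i))) (fun i => b (Sum.inl (Sum.inr i))))
        ![α • x + β • y, (-(ζ * β)) • x + (α + β) • y]) ?_ ?_
    · rintro ((i | i) | i)
      · show Q (c • b (Sum.inl (Sum.inl i))) = c * Q (b (Sum.inl (Sum.inl i)))
        rw [QuadraticMap.map_smul, (h3 i).1]; simp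
      · show Q (b (Sum.inl (Sum.inr i))) = c * Q (b (Sum.inl (Sum.inr i)))
        rw [(h3 i).2, mul_zero]
      · fin_cases i
        · show Q (α • x + β • y) = c * Q (b (Sum.inr 0))
          rw [← hx, h7, Qxy]
          linear_combination hab
        · show Q ((-(ζ * β)) • x + (α + β) • y) = c * Q (b (Sum.inr 1))
          rw [← hy, h9, Qxy]
          linear_combination ζ * hab
    · rintro ((i | i) | i) ((j | j) | j) hij
      · show QuadraticMap.polar Q (c • b (Sum.inl (Sum.inl i))) (c • b (Sum.inl (Sum.inl j))) = _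
        rw [QuadraticMap.polar_smul_left, QuadraticMap.polar_smul_right, (h5 i j).1]; simp
      · show QuadraticMap.polar Q (c • b (Sum.inl (Sum.inl i))) (b (Sum.inl (Sum.inr j))) = _
        rw [QuadraticMap.polar_smul_left]; rfl
      · fin_cases j
        · show QuadraticMap.polar Q (c • b (Sum.inl (Sum.inl i))) (α • x + β • y) =
            c * QuadraticMap.polar Q (b (Sum.inl (Sum.inl i))) (b (Sum.inr 0))
          rw [QuadraticMap.polar_smul_left, (Pe _ (hex i).1.1 (hex i).2.1 _ _).1, ← hx,
            (hex i).1.1]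
          simp
        · show QuadraticMap.polar Q (c • b (Sum.inl (Sum.inl i))) ((-(ζ * β)) • x + (α + β) • y) =
            c * QuadraticMap.polar Q (b (Sum.inl (Sum.inl i))) (b (Sum.inr 1))
          rw [QuadraticMap.polar_smul_left, (Pe _ (hex i).1.1 (hex i).2.1 _ _).1, ← hy,
            (hex i).2.1]
          simp
      · show QuadraticMap.polar Q (b (Sum.inl (Sum.inr i))) (c • b (Sum.inl (Sum.inl j))) = _
        rw [QuadraticMap.polar_smul_right]; rfl
      · show QuadraticMap.polar Q (b (Sum.inl (Sum.inr i))) (b (Sum.inl (Sum.inr j))) = _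
        rw [(h5 i j).2, mul_zero]
      · fin_cases j
        · show QuadraticMap.polar Q (b (Sum.inl (Sum.inr i))) (α • x + β • y) =
            c * QuadraticMap.polar Q (b (Sum.inl (Sum.inr i))) (b (Sum.inr 0))
          rw [(Pe _ (hex i).1.2 (hex i).2.2 _ _).1, ← hx, (hex i).1.2, mul_zero]
        · show QuadraticMap.polar Q (b (Sum.inl (Sum.inr i))) ((-(ζ * β)) • x + (α + β) • y) =
            c * QuadraticMap.polar Q (b (Sum.inl (Sum.inr i))) (b (Sum.inr 1))
          rw [(Pe _ (hex i).1.2 (hex i).2.2 _ _).1, ← hy, (hex i).2.2, mul_zero]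
      · fin_cases i
        · show QuadraticMap.polar Q (α • x + β • y) (c • b (Sum.inl (Sum.inl j))) =
            c * QuadraticMap.polar Q (b (Sum.inr 0)) (b (Sum.inl (Sum.inl j)))
          rw [QuadraticMap.polar_smul_right, (Pe _ (hex j).1.1 (hex j).2.1 _ _).2, ← hx,
            Pc _ _ (hex j).1.1]
          simp
        · show QuadraticMap.polar Q ((-(ζ * β)) • x + (α + β) • y) (c • b (Sum.inl (Sum.inl j))) =
            c * QuadraticMap.polar Q (b (Sum.inr 1)) (b (Sum.inl (Sum.inl j)))
          rw [QuadraticMap.polar_smul_right, (Pe _ (hex j).1.1 (hex j).2.1 _ _).2, ← hy,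
            Pc _ _ (hex j).2.1]
          simp
      · fin_cases i
        · show QuadraticMap.polar Q (α • x + β • y) (b (Sum.inl (Sum.inr j))) =
            c * QuadraticMap.polar Q (b (Sum.inr 0)) (b (Sum.inl (Sum.inr j)))
          rw [(Pe _ (hex j).1.2 (hex j).2.2 _ _).2, ← hx, Pc _ _ (hex j).1.2, mul_zero]
        · show QuadraticMap.polar Q ((-(ζ * β)) • x + (α + β) • y) (b (Sum.inl (Sum.inr j))) =
            c * QuadraticMap.polar Q (b (Sum.inr 1)) (b (Sum.inl (Sum.inr j)))
          rw [(Pe _ (hex j).1.2 (hex j).2.2 _ _).2, ← hy, Pc _ _ (hex j).2.2, mul_zero]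
      · fin_cases i <;> fin_cases j
        · exact absurd rfl hij
        · show QuadraticMap.polar Q (α • x + β • y) ((-(ζ * β)) • x + (α + β) • y) =
            c * QuadraticMap.polar Q (b (Sum.inr 0)) (b (Sum.inr 1))
          rw [P, ← hx, ← hy, h8]
          linear_combination hab
        · show QuadraticMap.polar Q ((-(ζ * β)) • x + (α + β) • y) (α • x + β • y) =
            c * QuadraticMap.polar Q (b (Sum.inr 1)) (b (Sum.inr 0))
          rw [P, ← hx, ← hy, hyx]
          linear_combination hab
        · exact absurd rfl hij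

end Cfsg.Agent.S2624
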