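import Mathlib
import Cfsg.Statements.S2623
import Cfsg.Agent.S2624

set_option autoImplicit false
open Cfsg

namespace Cfsg.Agent.S2623

open Cfsg.Agent.Lib.Helper5

universe u

section abs
variable {F : Type*} [Field F]

theorem iso_of_basis {V ι : Type*} [AddCommGroup V] [Module F V] [FiniteDimensional F V]
    (Q₁ Q₂ : QuadraticForm F V) (hQ : (QuadraticMap.polarBilin Q₁).Nondegenerate)
    (b : Module.Basis ι F V) (φ : ι → V) (h1 : ∀ i, Q₂ (φ i) = Q₁ (b i))
    (h2 : ∀ i j, i ≠ j → QuadraticMap.polar Q₂ (φ i) (φ j) = QuadraticMap.polar Q₁ (b i) (b j)) :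
    ∃ g : V ≃ₗ[F] V, ∀ v, Q₂ (g v) = Q₁ v := by
  obtain ⟨g, hg⟩ : ∃ g : V →ₗ[F] V, ∀ i, g (b i) = φ i :=
    ⟨b.constr F φ, fun i => b.constr_basis F φ i⟩
  have hQg : Q₂.comp g = Q₁ := by
    refine Cfsg.Agent.S2624.qext b _ _ (fun i => ?_) (fun i j hij => ?_)
    · show Q₂ (g (b i)) = Q₁ (b i)
      rw [hg, h1]
    · have e1 : QuadraticMap.polar (⇑(Q₂.comp g)) (b i) (b j) =
          QuadraticMap.polar Q₂ (g (b i)) (g (b j)) := by
        unfold QuadraticMap.polar; simp [map_add]
      rw [e1, hg, hg, h2 i j hij]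
  have hgv : ∀ v, Q₂ (g v) = Q₁ v := fun v => by
    have := congrArg (fun q : QuadraticForm F V => q v) hQg
    simpa using this
  have hinj : Function.Injective g := by
    rw [← LinearMap.ker_eq_bot, LinearMap.ker_eq_bot']
    intro v hv
    apply hQ.1 v
    intro w
    show QuadraticMap.polar Q₁ v w = 0
    have e : QuadraticMap.polar Q₂ (g v) (g w) = QuadraticMap.polar Q₁ v w := by
      unfold QuadraticMap.polar; rw [← map_add, hgv, hgv, hgv]
    rw [hv, QuadraticMap.polar_zero_left] at e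
    exact e.symm
  exact ⟨LinearEquiv.ofInjectiveEndo g hinj, fun v => by simpa using hgv v⟩

/-- a non-degenerate quadratic form in dimension at least two over a finite field represents 1 -/
theorem rep_one [Finite F] {V : Type*} [AddCommGroup V] [Module F V] (Q : QuadraticForm F V)
    (hQ : (QuadraticMap.polarBilin Q).Nondegenerate) (h2 : 2 ≤ Module.finrank F V) :
    ∃ v, Q v = 1 := by
  obtain ⟨g, hg⟩ := exists_linearIndependent_of_le_finrank (R := F) (M := V) (n := 2) h2
  obtain ⟨a, b, c, hne, h0⟩ := cw3 (Q (g 0)) (Q (g 1)) (-1) (QuadraticMap.polar Q (g 0) (g 1)) 0 0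
  have hQab : Q (a • g 0 + b • g 1) = c * c := by
    rw [Q_add3, QuadraticMap.map_smul, QuadraticMap.map_smul, QuadraticMap.polar_smul_left,
      QuadraticMap.polar_smul_right]
    simp only [smul_eq_mul]
    linear_combination h0
  by_cases hc : c = 0
  · rw [hc, mul_zero] at hQab
    have hz : a • g 0 + b • g 1 ≠ 0 := by
      intro hz
      have := Fintype.linearIndependent_iff.1 hg ![a, b] (by simpa [Fin.sum_univ_two] using hz)
      have h0' := this 0
      have h1' := this 1
      simp at h0' h1'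
      rcases hne with h | h | h
      · exact h h0'
      · exact h h1'
      · exact h hc
    obtain ⟨f, hQf, hwf⟩ := hyp_pair Q hQ _ hz hQab
    exact ⟨a • g 0 + b • g 1 + f, by rw [Q_add3, hQab, hQf, hwf]; simp⟩
  · refine ⟨c⁻¹ • (a • g 0 + b • g 1), ?_⟩
    rw [QuadraticMap.map_smul, hQab, smul_eq_mul]
    field_simp

/-- orthogonal complement of a non-isotropic vector -/
theorem perp_vec {V : Type*} [AddCommGroup V] [Module F V] [FiniteDimensional F V]
    (Q : QuadraticForm F V) (hQ : (QuadraticMap.polarBilin Q).Nondegenerate) (v : V)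
    (hvv0 : QuadraticMap.polar Q v v ≠ 0) :
    ∃ W : Submodule F V, (∀ w ∈ W, QuadraticMap.polar Q v w = 0) ∧
      Module.finrank F W + 1 = Module.finrank F V ∧
      (QuadraticMap.polarBilin (Q.comp W.subtype)).Nondegenerate := by
  obtain ⟨W, hW⟩ : ∃ W : Submodule F V, W = LinearMap.ker (QuadraticMap.polarBilin Q v) :=
    ⟨_, rfl⟩
  have hWmem : ∀ x, x ∈ W ↔ QuadraticMap.polar Q v x = 0 := by
    intro x; rw [hW, LinearMap.mem_ker]; rfl
  have hne : QuadraticMap.polarBilin Q v ≠ 0 := by
    intro h0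
    apply hvv0
    have := LinearMap.congr_fun h0 v
    exact this
  have hfr : Module.finrank F W + 1 = Module.finrank F V := by
    have := Module.Dual.finrank_ker_add_one_of_ne_zero hne
    rw [← hW] at this
    exact this
  have hdec : ∀ x, x - (QuadraticMap.polar Q v x / QuadraticMap.polar Q v v) • v ∈ W := by
    intro x
    rw [hWmem, QuadraticMap.polar_sub_right, QuadraticMap.polar_smul_right, smul_eq_mul]
    field_simp
    ring
  have hsep : ∀ w : W, (∀ w' : W, QuadraticMap.polar Q (w : V) (w' : V) = 0) → w = 0 := by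
    intro w hw
    apply Subtype.ext
    apply hQ.1 (w : V)
    intro x
    show QuadraticMap.polar Q (w : V) x = 0
    have e : x = (x - (QuadraticMap.polar Q v x / QuadraticMap.polar Q v v) • v) +
        (QuadraticMap.polar Q v x / QuadraticMap.polar Q v v) • v := by abel
    rw [e, QuadraticMap.polar_add_right, QuadraticMap.polar_smul_right]
    have e1 := hw ⟨_, hdec x⟩
    have e2 : QuadraticMap.polar Q (w : V) v = 0 := by
      rw [QuadraticMap.polar_comm (⇑Q) (w : V) v]; exact (hWmem _).1 w.2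
    rw [e1, e2, smul_zero, add_zero]
  refine ⟨W, fun w hw => (hWmem w).1 hw, hfr, ⟨fun w hw => hsep w (fun w' => hw w'),
    fun w hw => hsep w (fun w' => ?_)⟩⟩
  rw [QuadraticMap.polar_comm (⇑Q) (w : V) (w' : V)]; exact hw w'

theorem normal_form [Finite F] (h2 : (2 : F) ≠ 0) : ∀ (k : ℕ) (V : Type u) [AddCommGroup V]
    [Module F V] [FiniteDimensional F V] (Q : QuadraticForm F V),
    (QuadraticMap.polarBilin Q).Nondegenerate → Module.finrank F V = k + 1 →
    ∃ (b : Fin (k + 1) → V) (d : F), d ≠ 0 ∧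
      (∀ i j, i ≠ j → QuadraticMap.polar Q (b i) (b j) = 0) ∧
      (∀ i, i ≠ Fin.last k → Q (b i) = 1) ∧ Q (b (Fin.last k)) = d := by
  intro k
  induction k with
  | zero =>
    intro V _ _ _ Q hQ hV
    have : Nontrivial V := Module.nontrivial_of_finrank_pos (R := F) (by omega)
    obtain ⟨x, hx⟩ := exists_ne (0 : V)
    have hQx : Q x ≠ 0 := by
      intro h0
      apply hx
      apply hQ.1 x
      intro y
      obtain ⟨c, rfl⟩ := (finrank_eq_one_iff_of_nonzero' x hx).1 (by omega) y
      show QuadraticMap.polar Q x (c • x) = 0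
      rw [QuadraticMap.polar_smul_right, QuadraticMap.polar_self, h0]; simp
    have hsub : ∀ i j : Fin (0 + 1), i = j := by
      intro i j
      apply Fin.ext
      have := i.isLt
      have := j.isLt
      omega
    exact ⟨fun _ => x, Q x, hQx, fun i j hij => absurd (hsub i j) hij,
      fun i hi => absurd (hsub i _) hi, rfl⟩
  | succ k ih =>
    intro V _ _ _ Q hQ hV
    obtain ⟨v, hv⟩ := rep_one Q hQ (by omega)
    have hvv : QuadraticMap.polar Q v v ≠ 0 := by
      rw [QuadraticMap.polar_self, hv]; simpa using h2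
    obtain ⟨W, hW1, hW2, hW3⟩ := perp_vec Q hQ v hvv
    obtain ⟨b', d, hd, hb1, hb2, hb3⟩ := ih W (Q.comp W.subtype) hW3 (by omega)
    refine ⟨Fin.cons v (fun i => (b' i : V)), d, hd, ?_, ?_, ?_⟩
    · intro i j
      refine Fin.cases ?_ (fun i => ?_) i <;> refine Fin.cases ?_ (fun j => ?_) j
      · intro h; exact absurd rfl h
      · intro _
        simp only [Fin.cons_zero, Fin.cons_succ]
        exact hW1 _ (b' j).2
      · intro _
        simp only [Fin.cons_zero, Fin.cons_succ]
        rw [QuadraticMap.polar_comm (⇑Q) _ v]; exact hW1 _ (b' i).2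
      · intro h
        simp only [Fin.cons_succ]
        exact hb1 i j (fun h' => h (by rw [h']))
    · intro i
      refine Fin.cases ?_ (fun i => ?_) i
      · intro _
        simp only [Fin.cons_zero]
        exact hv
      · intro h
        simp only [Fin.cons_succ]
        exact hb2 i (fun h' => h (by rw [h', Fin.succ_last]))
    · rw [← Fin.succ_last]
      simp only [Fin.cons_succ]
      exact hb3

theorem gram_eq {n : ℕ} (Q : QuadraticForm F (Fin n → F)) :
    Matrix.of (fun i j : Fin n => QuadraticMap.polar ⇑Q (Pi.single i 1) (Pi.single j 1)) =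
      LinearMap.BilinForm.toMatrix' (QuadraticMap.polarBilin Q) := by
  ext i j
  rw [LinearMap.BilinForm.toMatrix'_apply]; rfl

theorem gram_det {n : ℕ} (Q : QuadraticForm F (Fin n → F)) (b : Fin n → (Fin n → F))
    (hb : ∀ i j, i ≠ j → QuadraticMap.polar Q (b i) (b j) = 0) :
    ∃ p : F, (Matrix.of (fun i j : Fin n =>
      QuadraticMap.polar ⇑Q (Pi.single i 1) (Pi.single j 1))).det * (p * p) =
      ∏ i, (2 * Q (b i)) := by
  classical
  obtain ⟨L, hL⟩ : ∃ L : (Fin n → F) →ₗ[F] (Fin n → F), ∀ i, L (Pi.single i 1) = b i :=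
    ⟨(Pi.basisFun F (Fin n)).constr F b, fun i => by simp⟩
  have hD : LinearMap.BilinForm.toMatrix' (LinearMap.BilinForm.comp (QuadraticMap.polarBilin Q) L L) =
      Matrix.diagonal (fun i => 2 * Q (b i)) := by
    ext i j
    rw [LinearMap.BilinForm.toMatrix'_apply, LinearMap.BilinForm.comp_apply, hL, hL]
    show QuadraticMap.polar Q (b i) (b j) = _
    by_cases hij : i = j
    · subst hij
      rw [Matrix.diagonal_apply_eq, QuadraticMap.polar_self]; simp [two_mul]
    · rw [Matrix.diagonal_apply_ne _ hij, hb i j hij]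
  refine ⟨(LinearMap.toMatrix' L).det, ?_⟩
  have := congrArg Matrix.det hD
  rw [LinearMap.BilinForm.toMatrix'_comp, Matrix.det_mul, Matrix.det_mul, Matrix.det_transpose,
    Matrix.det_diagonal] at this
  rw [gram_eq, ← this]; ring

end abs

/-- Over a finite field of odd order, two quadratic forms on F^n with non-degenerate polar forms are isometric (related by an invertible linear change of variables) if and only if their discriminants (determinants of the Gram matrices of their polar forms) lie in the same square class. -/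
theorem result {F : Type*} [Field F] [Fintype F] (h2 : (2 : F) ≠ 0) {n : ℕ} (Q₁ Q₂ : QuadraticForm F (Fin n → F)) (h₁ : (QuadraticMap.polarBilin Q₁).Nondegenerate) (h₂ : (QuadraticMap.polarBilin Q₂).Nondegenerate) : (∃ g : (Fin n → F) ≃ₗ[F] (Fin n → F), ∀ v, Q₂ (g v) = Q₁ v) ↔ IsSquare ((Matrix.of (fun i j : Fin n => QuadraticMap.polar ⇑Q₁ (Pi.single i 1) (Pi.single j 1))).det * (Matrix.of (fun i j : Fin n => QuadraticMap.polar ⇑Q₂ (Pi.single i 1) (Pi.single j 1))).det) := by
  classical
  constructor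
  · rintro ⟨g, hg⟩
    have hcomp : LinearMap.BilinForm.comp (QuadraticMap.polarBilin Q₂) g.toLinearMap g.toLinearMap =
        QuadraticMap.polarBilin Q₁ := by
      apply LinearMap.ext; intro x; apply LinearMap.ext; intro y
      rw [LinearMap.BilinForm.comp_apply]
      show QuadraticMap.polar Q₂ (g x) (g y) = QuadraticMap.polar Q₁ x y
      unfold QuadraticMap.polar; rw [← map_add, hg, hg, hg]
    rw [gram_eq, gram_eq, ← hcomp, LinearMap.BilinForm.toMatrix'_comp, Matrix.det_mul,
      Matrix.det_mul, Matrix.det_transpose]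
    exact ⟨(LinearMap.toMatrix' g.toLinearMap).det *
      (LinearMap.BilinForm.toMatrix' (QuadraticMap.polarBilin Q₂)).det, by ring⟩
  · intro hsq
    rcases Nat.eq_zero_or_pos n with hn | hn
    · subst hn
      exact ⟨LinearEquiv.refl F _, fun v => by
        have h1 : v = 0 := Subsingleton.elim _ _
        rw [h1, map_zero, QuadraticMap.map_zero, QuadraticMap.map_zero]⟩
    · obtain ⟨k, rfl⟩ : ∃ k, n = k + 1 := ⟨n - 1, by omega⟩
      have hfr : Module.finrank F (Fin (k + 1) → F) = k + 1 := by simp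
      obtain ⟨b₁, d₁, hd₁, ho₁, hq₁, hl₁⟩ := normal_form h2 k _ Q₁ h₁ hfr
      obtain ⟨b₂, d₂, hd₂, ho₂, hq₂, hl₂⟩ := normal_form h2 k _ Q₂ h₂ hfr
      obtain ⟨p₁, hp₁⟩ := gram_det Q₁ b₁ ho₁
      obtain ⟨p₂, hp₂⟩ := gram_det Q₂ b₂ ho₂
      obtain ⟨r, hr⟩ := hsq
      have hprod : ∀ (Q : QuadraticForm F (Fin (k + 1) → F)) (b : Fin (k + 1) → (Fin (k + 1) → F))
          (d : F), (∀ i, i ≠ Fin.last k → Q (b i) = 1) → Q (b (Fin.last k)) = d →
          ∏ i, (2 * Q (b i)) = 2 ^ (k + 1) * d := by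
        intro Q b d hq hl
        rw [Fin.prod_univ_castSucc, hl]
        have : ∀ i : Fin k, 2 * Q (b (Fin.castSucc i)) = 2 := fun i => by
          rw [hq _ (Fin.castSucc_lt_last i).ne, mul_one]
        simp only [this, Finset.prod_const, Finset.card_univ, Fintype.card_fin]
        ring
      rw [hprod Q₁ b₁ d₁ hq₁ hl₁] at hp₁
      rw [hprod Q₂ b₂ d₂ hq₂ hl₂] at hp₂
      obtain ⟨D₁, hD₁⟩ : ∃ D₁ : F, D₁ = (Matrix.of (fun i j : Fin (k + 1) =>
        QuadraticMap.polar ⇑Q₁ (Pi.single i 1) (Pi.single j 1))).det := ⟨_, rfl⟩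
      obtain ⟨D₂, hD₂⟩ : ∃ D₂ : F, D₂ = (Matrix.of (fun i j : Fin (k + 1) =>
        QuadraticMap.polar ⇑Q₂ (Pi.single i 1) (Pi.single j 1))).det := ⟨_, rfl⟩
      rw [← hD₁] at hp₁ hr
      rw [← hD₂] at hp₂ hr
      obtain ⟨T, hT⟩ : ∃ T : F, T = 2 ^ (k + 1) := ⟨_, rfl⟩
      rw [← hT] at hp₁ hp₂
      have hT0 : T ≠ 0 := by rw [hT]; exact pow_ne_zero _ h2
      have hkey : (r * p₁ * p₂) * (r * p₁ * p₂) = T * T * d₁ * d₂ := by
        linear_combination (-(p₁ * p₁ * p₂ * p₂)) * hr + (D₂ * p₂ * p₂) * hp₁ + (T * d₁) * hp₂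
      obtain ⟨s, hs⟩ : ∃ s : F, d₂ = d₁ * (s * s) := by
        refine ⟨r * p₁ * p₂ / (T * d₁), ?_⟩
        rw [div_mul_div_comm, hkey]
        field_simp
      have hs0 : s ≠ 0 := by
        intro h
        rw [h, mul_zero, mul_zero] at hs
        exact hd₂ hs
      have hQb₁ : ∀ i, Q₁ (b₁ i) ≠ 0 := by
        intro i
        by_cases hi : i = Fin.last k
        · rw [hi, hl₁]; exact hd₁
        · rw [hq₁ i hi]; exact one_ne_zero
      have hli : LinearIndependent F b₁ := by
        refine li_of_dual Q₁ b₁ b₁ ho₁ (fun i => ?_)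
        rw [QuadraticMap.polar_self]
        intro h
        have h3 : (2 : F) * Q₁ (b₁ i) = 0 := by
          rw [← h]; simp [two_mul]
        rcases mul_eq_zero.1 h3 with h4 | h4
        · exact h2 h4
        · exact hQb₁ i h4
      have hcard : Fintype.card (Fin (k + 1)) = Module.finrank F (Fin (k + 1) → F) := by
        rw [hfr]; simp
      obtain ⟨B₁, hB₁⟩ : ∃ B₁ : Module.Basis (Fin (k + 1)) F (Fin (k + 1) → F), ⇑B₁ = b₁ :=
        ⟨basisOfLinearIndependentOfCardEqFinrank hli hcard,
          coe_basisOfLinearIndependentOfCardEqFinrank hli hcard⟩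
      obtain ⟨cf, hcf⟩ : ∃ cf : Fin (k + 1) → F, ∀ i, cf i = if i = Fin.last k then s⁻¹ else 1 :=
        ⟨fun i => if i = Fin.last k then s⁻¹ else 1, fun i => rfl⟩
      refine iso_of_basis Q₁ Q₂ h₁ B₁ (fun i => cf i • b₂ i) ?_ ?_
      · intro i
        rw [hB₁]
        show Q₂ (cf i • b₂ i) = Q₁ (b₁ i)
        rw [QuadraticMap.map_smul, hcf]
        by_cases hi : i = Fin.last k
        · rw [if_pos hi, hi, hl₂, hl₁, hs, smul_eq_mul]
          field_simp
        · rw [if_neg hi, hq₂ i hi, hq₁ i hi]; simp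
      · intro i j hij
        rw [hB₁]
        show QuadraticMap.polar Q₂ (cf i • b₂ i) (cf j • b₂ j) = QuadraticMap.polar Q₁ (b₁ i) (b₁ j)
        rw [QuadraticMap.polar_smul_left, QuadraticMap.polar_smul_right, ho₂ i j hij, ho₁ i j hij]
        simp

end Cfsg.Agent.S2623
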