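import Cfsg.Statements.S2625
-- import your own Cfsg.Agent.* helpers here

set_option autoImplicit false
open Cfsg

namespace Cfsg.Agent.S2625

/-- For a quadratic form Q on F^n with non-degenerate polar form, F finite and n odd (so |F| is odd), the multiplier of any similarity is a square: if g is an invertible linear map with Q(g v) = c·Q(v) for all v then c is a square. -/
theorem result {F : Type*} [Field F] [Fintype F] {n : ℕ} (hn : Odd n) (Q : QuadraticForm F (Fin n → F)) (hQ : (QuadraticMap.polarBilin Q).Nondegenerate) (g : (Fin n → F) ≃ₗ[F] (Fin n → F)) (c : F) (hg : ∀ v, Q (g v) = c * Q v) : IsSquare c := by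
  classical
  obtain ⟨B, hB⟩ : ∃ B : LinearMap.BilinForm F (Fin n → F), B = QuadraticMap.polarBilin Q :=
    ⟨_, rfl⟩
  rw [← hB] at hQ
  have h1 : B.comp (g : (Fin n → F) →ₗ[F] (Fin n → F)) (g : (Fin n → F) →ₗ[F] (Fin n → F))
      = c • B := by
    apply LinearMap.ext₂
    intro u v
    rw [LinearMap.BilinForm.comp_apply, hB]
    simp only [LinearMap.smul_apply, QuadraticMap.polarBilin_apply_apply, QuadraticMap.polar,
      LinearEquiv.coe_coe, smul_eq_mul]
    rw [← map_add, hg, hg, hg]
    ring
  have h2 := congrArg LinearMap.BilinForm.toMatrix' h1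
  rw [LinearMap.BilinForm.toMatrix'_comp, map_smul] at h2
  have h3 := congrArg Matrix.det h2
  rw [Matrix.det_mul, Matrix.det_mul, Matrix.det_transpose, Matrix.det_smul, Fintype.card_fin]
    at h3
  have hdet : (LinearMap.BilinForm.toMatrix' B).det ≠ 0 :=
    Matrix.nondegenerate_iff_det_ne_zero.mp
      (LinearMap.BilinForm.nondegenerate_toMatrix'_iff.mpr hQ)
  obtain ⟨d, hd⟩ : ∃ d : F, d = (LinearMap.toMatrix' (g : (Fin n → F) →ₗ[F] (Fin n → F))).det :=
    ⟨_, rfl⟩
  rw [← hd] at h3
  have h4 : c ^ n = d * d := by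
    have h5 : (c ^ n - d * d) * (LinearMap.BilinForm.toMatrix' B).det = 0 := by
      linear_combination -h3
    rcases mul_eq_zero.mp h5 with h | h
    · exact sub_eq_zero.mp h
    · exact absurd h hdet
  obtain ⟨k, hk⟩ := hn
  by_cases hc : c = 0
  · exact ⟨0, by rw [hc, mul_zero]⟩
  · refine ⟨d / c ^ k, ?_⟩
    have hck : c ^ k ≠ 0 := pow_ne_zero k hc
    field_simp
    rw [hk] at h4
    linear_combination h4

end Cfsg.Agent.S2625
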