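import Cfsg.Statements.S2638
import Cfsg.Agent.Lib.Helper6.IrrLin2

set_option autoImplicit false
open Cfsg

namespace Cfsg.Agent.S2638

/-- If an element x of GL_n(q), n ≥ 1, has prime order r and the multiplicative order of q modulo r is n (r is a primitive prime divisor of q^n − 1, so x acts irreducibly), then the centraliser of x in GL_n(q) is cyclic of order q^n − 1 (the multiplicative group of the field with q^n elements, a Singer cycle). -/
theorem result {F : Type*} [Field F] [Fintype F] {p q : ℕ} [Fact p.Prime] [CharP F p] (hF : Fintype.card F = q) {n r : ℕ} (hn : 1 ≤ n) (hr : r.Prime) (hrp : r ≠ p) (hi : orderOf (q : ZMod r) = n) (x : GL (Fin n) F) (hx : orderOf x = r) : IsCyclic ↥(Subgroup.centralizer ({x} : Set (GL (Fin n) F))) ∧ Nat.card ↥(Subgroup.centralizer ({x} : Set (GL (Fin n) F))) = q ^ n - 1 := by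
  classical
  have hV : Nat.card (Fin n → F) = q ^ n := by
    rw [Nat.card_fun, Nat.card_eq_fintype_card, Nat.card_eq_fintype_card, hF, Fintype.card_fin]
  obtain ⟨e, he⟩ : ∃ e : GL (Fin n) F ≃* (Module.End F (Fin n → F))ˣ, e = Matrix.GeneralLinearGroup.toLin :=
    ⟨_, rfl⟩
  have hx' : orderOf (e x) = r := by rw [MulEquiv.orderOf_eq]; exact hx
  have key := Cfsg.Agent.Lib.Helper6.il_singer hF hV hn hr hrp hi (e x) hx'
  have hmap : (Subgroup.centralizer ({x} : Set (GL (Fin n) F))).map
      (e : GL (Fin n) F →* (Module.End F (Fin n → F))ˣ) =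
      Subgroup.centralizer ({e x} : Set (Module.End F (Fin n → F))ˣ) := by
    ext y
    constructor
    · rintro ⟨g, hg, rfl⟩
      have hg' := Subgroup.mem_centralizer_iff.mp hg
      apply Subgroup.mem_centralizer_iff.mpr
      intro h hh
      rw [Set.mem_singleton_iff] at hh
      subst hh
      have h1 := hg' x rfl
      show e x * e g = e g * e x
      rw [← map_mul, ← map_mul, h1]
    · intro hy
      have hy' := Subgroup.mem_centralizer_iff.mp hy
      refine ⟨e.symm y, ?_, by simp⟩
      apply Subgroup.mem_centralizer_iff.mpr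
      intro h hh
      rw [Set.mem_singleton_iff] at hh
      subst hh
      have h1 := hy' (e h) rfl
      apply e.injective
      rw [map_mul, map_mul, MulEquiv.apply_symm_apply]
      exact h1
  have e' := e.subgroupMap (Subgroup.centralizer ({x} : Set (GL (Fin n) F)))
  have key' : IsCyclic ↥((Subgroup.centralizer ({x} : Set (GL (Fin n) F))).map
      (e : GL (Fin n) F →* (Module.End F (Fin n → F))ˣ)) ∧
      Nat.card ↥((Subgroup.centralizer ({x} : Set (GL (Fin n) F))).map
      (e : GL (Fin n) F →* (Module.End F (Fin n → F))ˣ)) = q ^ n - 1 := by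
    rw [hmap]; exact key
  exact ⟨(MulEquiv.isCyclic e').mpr key'.1, by rw [Nat.card_congr e'.toEquiv]; exact key'.2⟩

end Cfsg.Agent.S2638
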