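import Cfsg.Statements.S2639
import Mathlib
-- import your own Cfsg.Agent.* helpers here

set_option autoImplicit false
open Cfsg

namespace Cfsg.Agent.S2639

theorem exists_emb {F K : Type*} [Field F] [Fintype F] [Field K] [Fintype K] (m : ℕ)
    (hK : Fintype.card K ^ m = Fintype.card F) : Nonempty (K →+* F) := by
  classical
  obtain ⟨p, hp⟩ := CharP.exists K
  obtain ⟨a, hpp, ha⟩ := FiniteField.card K p
  obtain ⟨p', hp'⟩ := CharP.exists F
  obtain ⟨b, hpp', hb⟩ := FiniteField.card F p'
  have hpe : p' = p := by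
    have h1 : p' ∣ p ^ ((a : ℕ) * m) := by
      rw [pow_mul, ← ha, hK, hb]
      exact dvd_pow_self _ b.ne_zero
    exact (Nat.prime_dvd_prime_iff_eq hpp' hpp).1 (hpp'.dvd_of_dvd_pow h1)
  subst hpe
  have : Fact p'.Prime := ⟨hpp⟩
  let _i1 : Algebra (ZMod p') K := ZMod.algebra K p'
  let _i2 : Algebra (ZMod p') F := ZMod.algebra F p'
  have h1 : Module.finrank (ZMod p') K = a := by
    have := Module.card_eq_pow_finrank (K := ZMod p') (V := K)
    rw [ZMod.card, ha] at this
    exact (Nat.pow_right_injective hpp.two_le this).symm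
  have h2 : Module.finrank (ZMod p') F = (a : ℕ) * m := by
    have := Module.card_eq_pow_finrank (K := ZMod p') (V := F)
    rw [ZMod.card, ← hK, ha, ← pow_mul] at this
    exact (Nat.pow_right_injective hpp.two_le this).symm
  obtain ⟨f⟩ := FiniteField.nonempty_algHom_of_finrank_dvd (F := ZMod p') (K := K) (L := F)
    (by rw [h1, h2]; exact dvd_mul_right _ _)
  exact ⟨f.toRingHom⟩

theorem two_id {F : Type*} [Field F] (M N : Matrix (Fin 2) (Fin 2) F) :
    M.transpose * !![0, 1; -1, 0] * N =
      ((N.trace • (1 : Matrix (Fin 2) (Fin 2) F) - N) * M).transpose * !![0, 1; -1, 0] := by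
  ext i j
  fin_cases i <;> fin_cases j <;>
    simp [Matrix.mul_apply, Fin.sum_univ_two, Matrix.trace_fin_two, Matrix.one_apply] <;> ring

theorem emb_core {F K : Type*} [Field F] [Field K] (ρ : K →+* Matrix (Fin 2) (Fin 2) F)
    (hρ : Function.Injective ρ) (q : ℕ) (hq : q ≠ 0)
    (hρq : ∀ k, ρ (k ^ q) = (ρ k).trace • (1 : Matrix (Fin 2) (Fin 2) F) - ρ k) (m : ℕ) :
    ∃ φ : ↥(Cfsg.GU m K q) →* ↥(Matrix.symplecticGroup (Fin m) F), Function.Injective φ := by
  classical
  obtain ⟨Ω, hΩ⟩ : ∃ Ω : Matrix (Fin 2) (Fin 2) F, Ω = !![0, 1; -1, 0] := ⟨_, rfl⟩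
  have hΩΩ : Ω * Ω = -1 := by
    rw [hΩ]
    ext i j
    fin_cases i <;> fin_cases j <;> simp [Matrix.mul_apply, Fin.sum_univ_two]
  have hR3 : ∀ k₁ k₂ : K, (ρ k₁).transpose * Ω * ρ k₂ = (ρ (k₁ * k₂ ^ q)).transpose * Ω := by
    intro k₁ k₂
    rw [hΩ, Cfsg.Agent.S2639.two_id, ← hρq, ← map_mul, mul_comm]
  have hGU : ∀ g : ↥(Cfsg.GU m K q), ∀ x y : Fin m,
      ∑ z, (g.1 : Matrix (Fin m) (Fin m) K) z x * ((g.1 : Matrix (Fin m) (Fin m) K) z y) ^ q =
        if x = y then 1 else 0 := by
    intro g x y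
    have h : ∀ u v, Cfsg.hermForm m K q ((g.1 : Matrix (Fin m) (Fin m) K).mulVec u)
        ((g.1 : Matrix (Fin m) (Fin m) K).mulVec v) = Cfsg.hermForm m K q u v := g.2
    have hv : ∀ x : Fin m, (g.1 : Matrix (Fin m) (Fin m) K).mulVec (Pi.single x 1) =
        fun z => (g.1 : Matrix (Fin m) (Fin m) K) z x := by
      intro x
      funext z
      simp [Matrix.mulVec, dotProduct, Pi.single_apply]
    have hr : Cfsg.hermForm m K q (Pi.single x 1) (Pi.single y 1) = if x = y then 1 else 0 := by
      unfold Cfsg.hermForm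
      rw [Finset.sum_eq_single x]
      · rw [Pi.single_eq_same, one_mul]
        by_cases hxy : x = y
        · subst hxy
          rw [Pi.single_eq_same, one_pow, if_pos rfl]
        · rw [Pi.single_eq_of_ne hxy, zero_pow hq, if_neg hxy]
      · intro i _ hi
        rw [Pi.single_eq_of_ne hi, zero_mul]
      · intro h'
        exact absurd (Finset.mem_univ _) h'
    have h' := h (Pi.single x 1) (Pi.single y 1)
    rw [hv, hv, hr] at h'
    exact h'
  let c := Matrix.compRingEquiv (Fin m) (Fin 2) F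
  obtain ⟨OO, hOO⟩ : ∃ OO : Matrix (Fin m) (Fin m) (Matrix (Fin 2) (Fin 2) F),
      OO = Matrix.diagonal (fun _ => Ω) := ⟨_, rfl⟩
  have hOO2 : c OO * c OO = -1 := by
    rw [← map_mul, hOO, Matrix.diagonal_mul_diagonal]
    simp only [hΩΩ]
    have : (Matrix.diagonal fun _ : Fin m => (-1 : Matrix (Fin 2) (Fin 2) F)) = -1 := by
      ext i j : 1
      by_cases hij : i = j
      · subst hij
        rw [Matrix.diagonal_apply_eq, Matrix.neg_apply, Matrix.one_apply_eq]
      · rw [Matrix.diagonal_apply_ne _ hij, Matrix.neg_apply, Matrix.one_apply_ne hij, neg_zero]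
    rw [this, map_neg, map_one]
  have hblock : ∀ g : ↥(Cfsg.GU m K q),
      ((g.1 : Matrix (Fin m) (Fin m) K).map ρ).transpose.map Matrix.transpose * OO *
        (g.1 : Matrix (Fin m) (Fin m) K).map ρ = OO := by
    intro g
    rw [hOO]
    ext x y : 1
    rw [Matrix.mul_apply]
    simp_rw [Matrix.mul_diagonal]
    have hz : ∀ z, (((g.1 : Matrix (Fin m) (Fin m) K).map ρ).transpose.map Matrix.transpose) x z * Ω *
        ((g.1 : Matrix (Fin m) (Fin m) K).map ρ) z y =
        (ρ ((g.1 : Matrix (Fin m) (Fin m) K) z x * ((g.1 : Matrix (Fin m) (Fin m) K) z y) ^ q)).transpose * Ω :=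
      fun z => hR3 _ _
    rw [Finset.sum_congr rfl (fun z _ => hz z), ← Finset.sum_mul, ← Matrix.transpose_sum, ← map_sum,
      hGU g x y]
    by_cases hxy : x = y
    · subst hxy
      rw [if_pos rfl, map_one, Matrix.transpose_one, Matrix.one_mul, Matrix.diagonal_apply_eq]
    · rw [if_neg hxy, map_zero, Matrix.transpose_zero, Matrix.zero_mul, Matrix.diagonal_apply_ne _ hxy]
  have hcore : ∀ g : ↥(Cfsg.GU m K q),
      c ((g.1 : Matrix (Fin m) (Fin m) K).map ρ) * (-(c OO)) *
        (c ((g.1 : Matrix (Fin m) (Fin m) K).map ρ)).transpose = -(c OO) := by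
    intro g
    obtain ⟨M, hM⟩ : ∃ M, M = c ((g.1 : Matrix (Fin m) (Fin m) K).map ρ) := ⟨_, rfl⟩
    have hMt : M.transpose * c OO * M = c OO := by
      have e1 : M.transpose = c (((g.1 : Matrix (Fin m) (Fin m) K).map ρ).transpose.map
          Matrix.transpose) := by rw [hM]; rfl
      rw [e1, hM, ← map_mul, ← map_mul, hblock g]
    rw [← hM]
    have h1 : (-(c OO) * M.transpose * c OO) * M = 1 := by
      have : (-(c OO) * M.transpose * c OO) * M = -(c OO * (M.transpose * c OO * M)) := by
        simp only [Matrix.mul_assoc, Matrix.neg_mul]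
      rw [this, hMt, hOO2, neg_neg]
    have h2 : M * (-(c OO) * M.transpose * c OO) = 1 := mul_eq_one_comm.mp h1
    have h3 : c OO * (-(c OO)) = 1 := by rw [Matrix.mul_neg, hOO2, neg_neg]
    calc M * (-(c OO)) * M.transpose = M * (-(c OO)) * M.transpose * (c OO * (-(c OO))) := by
          rw [h3, Matrix.mul_one]
      _ = (M * (-(c OO) * M.transpose * c OO)) * (-(c OO)) := by simp only [Matrix.mul_assoc]
      _ = -(c OO) := by rw [h2, Matrix.one_mul]
  let E : Fin m × Fin 2 ≃ Fin m ⊕ Fin m :=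
    { toFun := fun p => if p.2 = 0 then Sum.inl p.1 else Sum.inr p.1
      invFun := fun s => Sum.elim (fun i => (i, 0)) (fun i => (i, 1)) s
      left_inv := by
        rintro ⟨i, s⟩
        fin_cases s <;> rfl
      right_inv := by
        rintro (i | i) <;> rfl }
  have hJE : ∀ p r : Fin m × Fin 2, Matrix.J (Fin m) F (E p) (E r) = (-(c OO)) p r := by
    rintro ⟨i, s⟩ ⟨j, t⟩
    have hc : (-(c OO)) (i, s) (j, t) = -(OO i j s t) := rfl
    rw [hc, hOO]
    fin_cases s <;> fin_cases t
    · show Matrix.J (Fin m) F (Sum.inl i) (Sum.inl j) = _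
      by_cases hij : i = j <;> simp [hij, Matrix.J, Matrix.diagonal_apply, hΩ]
    · show Matrix.J (Fin m) F (Sum.inl i) (Sum.inr j) = _
      by_cases hij : i = j <;> simp [hij, Matrix.J, Matrix.diagonal_apply, hΩ, Matrix.one_apply]
    · show Matrix.J (Fin m) F (Sum.inr i) (Sum.inl j) = _
      by_cases hij : i = j <;> simp [hij, Matrix.J, Matrix.diagonal_apply, hΩ, Matrix.one_apply]
    · show Matrix.J (Fin m) F (Sum.inr i) (Sum.inr j) = _
      by_cases hij : i = j <;> simp [hij, Matrix.J, Matrix.diagonal_apply, hΩ]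
  have hJE' : Matrix.J (Fin m) F = (-(c OO)).submatrix E.symm E.symm := by
    ext u v
    have h := hJE (E.symm u) (E.symm v)
    rw [E.apply_symm_apply, E.apply_symm_apply] at h
    exact h
  have hsymp : ∀ g : ↥(Cfsg.GU m K q),
      (c ((g.1 : Matrix (Fin m) (Fin m) K).map ρ)).submatrix E.symm E.symm ∈
        Matrix.symplecticGroup (Fin m) F := by
    intro g
    rw [SymplecticGroup.mem_iff, hJE', Matrix.transpose_submatrix, Matrix.submatrix_mul_equiv,
      Matrix.submatrix_mul_equiv, hcore g]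
  have hmul : ∀ A B : Matrix (Fin m) (Fin m) K,
      (c ((A * B).map ρ)).submatrix E.symm E.symm =
        (c (A.map ρ)).submatrix E.symm E.symm * (c (B.map ρ)).submatrix E.symm E.symm := by
    intro A B
    rw [Matrix.submatrix_mul_equiv, ← map_mul, Matrix.map_mul]
  have hone : (c ((1 : Matrix (Fin m) (Fin m) K).map ρ)).submatrix E.symm E.symm = 1 := by
    have e1 : (1 : Matrix (Fin m) (Fin m) K).map ρ = 1 := map_one ρ.mapMatrix
    rw [e1, map_one, Matrix.submatrix_one_equiv]
  have hinj : ∀ A B : Matrix (Fin m) (Fin m) K,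
      (c (A.map ρ)).submatrix E.symm E.symm = (c (B.map ρ)).submatrix E.symm E.symm → A = B := by
    intro A B h
    have h1 : c (A.map ρ) = c (B.map ρ) := by
      ext p r
      have := congrFun (congrFun h (E p)) (E r)
      simpa using this
    have h3 : A.map ρ = B.map ρ := c.injective h1
    ext x y
    exact hρ (congrFun (congrFun h3 x) y)
  refine ⟨{ toFun := fun g => ⟨(c ((g.1 : Matrix (Fin m) (Fin m) K).map ρ)).submatrix
      E.symm E.symm, hsymp g⟩
            map_one' := Subtype.ext hone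
            map_mul' := fun A B => Subtype.ext (hmul _ _) }, ?_⟩
  intro A B h
  exact Subtype.ext (Units.ext (hinj _ _ (congrArg Subtype.val h)))

/-- The unitary group embeds in the symplectic group of twice the dimension over the subfield: for a field K with q² elements and a field F with q elements (isomorphic to the subfield of K of order q), there is an injective homomorphism GU_m(q) → Sp_2m(F). -/
theorem result {K F : Type*} [Field K] [Fintype K] [Field F] [Fintype F] {q : ℕ} (hK : Fintype.card K = q ^ 2) (hF : Fintype.card F = q) (m : ℕ) : ∃ φ : ↥(Cfsg.GU m K q) →* ↥(Matrix.symplecticGroup (Fin m) F), Function.Injective φ := by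
  classical
  obtain ⟨ι⟩ := Cfsg.Agent.S2639.exists_emb (F := K) (K := F) 2 (by rw [hF, hK])
  letI : Algebra F K := ι.toAlgebra
  have hq2 : 2 ≤ q := by rw [← hF]; exact Fintype.one_lt_card
  have hfr : Module.finrank F K = 2 := by
    have h := Module.card_eq_pow_finrank (K := F) (V := K)
    rw [hK, hF] at h
    exact (Nat.pow_right_injective hq2 h).symm
  obtain ⟨b⟩ : Nonempty (Module.Basis (Fin 2) F K) := ⟨Module.finBasisOfFinrankEq F K hfr⟩
  have hρq : ∀ k : K, Algebra.leftMulMatrix b (k ^ q) =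
      (Algebra.leftMulMatrix b k).trace • (1 : Matrix (Fin 2) (Fin 2) F) -
        Algebra.leftMulMatrix b k := by
    intro k
    have h1 := FiniteField.algebraMap_trace_eq_sum_pow (K := F) (L := K) (x := k)
    rw [hfr, Finset.sum_range_succ, Finset.sum_range_one, pow_zero, pow_one, pow_one,
      Nat.card_eq_fintype_card, hF] at h1
    have h2 : k ^ q = algebraMap F K (Algebra.trace F K k) - k := by rw [h1]; ring
    rw [h2, map_sub, AlgHom.commutes, Algebra.algebraMap_eq_smul_one,
      Algebra.trace_eq_matrix_trace b]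
  exact Cfsg.Agent.S2639.emb_core (Algebra.leftMulMatrix b).toRingHom
    (Algebra.leftMulMatrix_injective b) q (by omega) hρq m

end Cfsg.Agent.S2639
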