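import Cfsg.Statements.S2678
import Mathlib
-- import your own Cfsg.Agent.* helpers here

set_option autoImplicit false
open Cfsg

namespace Cfsg.Agent.S2678

theorem exists_emb {F K : Type*} [Field F] [Fintype F] [Field K] [Fintype K] (m : ℕ)
    (hK : Fintype.card K ^ m = Fintype.card F) : Nonempty (K →+* F) := by
  classical
  obtain ⟨p, hp⟩ := CharP.exists K
  obtain ⟨a, hpp, ha⟩ := FiniteField.card K p
  obtain ⟨p', hp'⟩ := CharP.exists F
  obtain ⟨b, hpp', hb⟩ := FiniteField.card F p'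
  have hpe : p' = p := by
    have h1 : p' ∣ p ^ ((a : ℕ) * m) := by
      rw [pow_mul, ← ha, hK, hb]
      exact dvd_pow_self _ b.ne_zero
    exact (Nat.prime_dvd_prime_iff_eq hpp' hpp).1 (hpp'.dvd_of_dvd_pow h1)
  subst hpe
  have : Fact p'.Prime := ⟨hpp⟩
  let _i1 : Algebra (ZMod p') K := ZMod.algebra K p'
  let _i2 : Algebra (ZMod p') F := ZMod.algebra F p'
  have h1 : Module.finrank (ZMod p') K = a := by
    have := Module.card_eq_pow_finrank (K := ZMod p') (V := K)
    rw [ZMod.card, ha] at this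
    exact (Nat.pow_right_injective hpp.two_le this).symm
  have h2 : Module.finrank (ZMod p') F = (a : ℕ) * m := by
    have := Module.card_eq_pow_finrank (K := ZMod p') (V := F)
    rw [ZMod.card, ← hK, ha, ← pow_mul] at this
    exact (Nat.pow_right_injective hpp.two_le this).symm
  obtain ⟨f⟩ := FiniteField.nonempty_algHom_of_finrank_dvd (F := ZMod p') (K := K) (L := F)
    (by rw [h1, h2]; exact dvd_mul_right _ _)
  exact ⟨f.toRingHom⟩

theorem exists_T {F K : Type*} [Field F] [Field K] [Algebra F K] (b : Module.Basis (Fin 2) F K) :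
    ∃ T Tinv : Matrix (Fin 2) (Fin 2) F, T * Tinv = 1 ∧ Tinv * T = 1 ∧ T.transpose = T ∧
      ∀ k : K, (Algebra.leftMulMatrix b k).transpose * T = T * Algebra.leftMulMatrix b k := by
  classical
  obtain ⟨ℓ, hℓ⟩ : ∃ ℓ : K →ₗ[F] F, ℓ (b 0) = 1 := ⟨b.coord 0, by simp⟩
  obtain ⟨T, hTdef⟩ : ∃ T : Matrix (Fin 2) (Fin 2) F, ∀ s t, T s t = ℓ (b s * b t) :=
    ⟨fun s t => ℓ (b s * b t), fun s t => rfl⟩
  have hsym : T.transpose = T := by
    ext s t
    rw [Matrix.transpose_apply, hTdef, hTdef, mul_comm]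
  have hkey : ∀ (k : K) (t : Fin 2), ∑ r, Algebra.leftMulMatrix b k r t • b r = k * b t := by
    intro k t
    simp_rw [Algebra.leftMulMatrix_eq_repr_mul]
    exact b.sum_repr (k * b t)
  have h1 : ∀ (k : K) (s t : Fin 2), (T * Algebra.leftMulMatrix b k) s t = ℓ (b s * (k * b t)) := by
    intro k s t
    rw [Matrix.mul_apply, ← hkey k t, Finset.mul_sum, map_sum]
    apply Finset.sum_congr rfl
    intro r _
    rw [hTdef, mul_smul_comm, map_smul, smul_eq_mul, mul_comm]
  have h2 : ∀ (k : K) (s t : Fin 2),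
      ((Algebra.leftMulMatrix b k).transpose * T) s t = ℓ ((k * b s) * b t) := by
    intro k s t
    rw [Matrix.mul_apply, ← hkey k s, Finset.sum_mul, map_sum]
    apply Finset.sum_congr rfl
    intro r _
    rw [Matrix.transpose_apply, hTdef, smul_mul_assoc, map_smul, smul_eq_mul]
  have hcomm : ∀ k : K, (Algebra.leftMulMatrix b k).transpose * T =
      T * Algebra.leftMulMatrix b k := by
    intro k
    ext s t
    rw [h1, h2]
    congr 1
    ring
  have hdet : T.det ≠ 0 := by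
    intro h0
    obtain ⟨v, hv0, hv⟩ := Matrix.exists_mulVec_eq_zero_iff.mpr h0
    have hx : ∀ s, ℓ (b s * ∑ t, v t • b t) = 0 := by
      intro s
      rw [Finset.mul_sum, map_sum]
      have h : ∑ t, T s t * v t = 0 := congrFun hv s
      refine Eq.trans (Finset.sum_congr rfl ?_) h
      intro t _
      rw [hTdef, mul_smul_comm, map_smul, smul_eq_mul, mul_comm]
    have hx0 : (∑ t, v t • b t) ≠ 0 := by
      intro h
      apply hv0
      exact funext ((Fintype.linearIndependent_iff.mp b.linearIndependent) v h)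
    have hall : ∀ y : K, ℓ (y * ∑ t, v t • b t) = 0 := by
      intro y
      conv_lhs => rw [← b.sum_repr y]
      rw [Finset.sum_mul, map_sum]
      apply Finset.sum_eq_zero
      intro s _
      rw [smul_mul_assoc, map_smul, hx, smul_zero]
    have h3 := hall (b 0 * (∑ t, v t • b t)⁻¹)
    rw [mul_assoc, inv_mul_cancel₀ hx0, mul_one, hℓ] at h3
    exact one_ne_zero h3
  exact ⟨T, T⁻¹, Matrix.mul_nonsing_inv _ (isUnit_iff_ne_zero.mpr hdet),
    Matrix.nonsing_inv_mul _ (isUnit_iff_ne_zero.mpr hdet), hsym, hcomm⟩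

theorem emb_of_rep {F K : Type*} [Field F] [Field K] (ρ : K →+* Matrix (Fin 2) (Fin 2) F)
    (hρ : Function.Injective ρ) (T Tinv : Matrix (Fin 2) (Fin 2) F) (hT1 : T * Tinv = 1)
    (hT2 : Tinv * T = 1) (hTt : T.transpose = T)
    (hρT : ∀ k, (ρ k).transpose * T = T * ρ k) (a : ℕ) :
    ∃ φ : ↥(Matrix.symplecticGroup (Fin a) K) →* ↥(Matrix.symplecticGroup (Fin (2 * a)) F),
      Function.Injective φ := by
  classical
  have hTit : Tinv.transpose = Tinv := by
    have h := congrArg Matrix.transpose hT1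
    rw [Matrix.transpose_mul, Matrix.transpose_one, hTt] at h
    calc Tinv.transpose = Tinv.transpose * (T * Tinv) := by rw [hT1, Matrix.mul_one]
      _ = (Tinv.transpose * T) * Tinv := by rw [Matrix.mul_assoc]
      _ = Tinv := by rw [h, Matrix.one_mul]
  have hρt : ∀ k, (ρ k).transpose = T * ρ k * Tinv := by
    intro k
    rw [← hρT, Matrix.mul_assoc, hT1, Matrix.mul_one]
  obtain ⟨dT, hdT⟩ : ∃ dT : Matrix (Fin a) (Fin a) (Matrix (Fin 2) (Fin 2) F),
      dT = Matrix.diagonal (fun _ => T) := ⟨_, rfl⟩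
  obtain ⟨dTi, hdTi⟩ : ∃ dTi : Matrix (Fin a) (Fin a) (Matrix (Fin 2) (Fin 2) F),
      dTi = Matrix.diagonal (fun _ => Tinv) := ⟨_, rfl⟩
  have hd1 : dT * dTi = 1 := by
    rw [hdT, hdTi, Matrix.diagonal_mul_diagonal]
    simp only [hT1]
    exact Matrix.diagonal_one
  have hd2 : dTi * dT = 1 := by
    rw [hdT, hdTi, Matrix.diagonal_mul_diagonal]
    simp only [hT2]
    exact Matrix.diagonal_one
  have hθd : ∀ X : Matrix (Fin 2) (Fin 2) F,
      (Matrix.diagonal (fun _ : Fin a => X)).transpose.map Matrix.transpose =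
        Matrix.diagonal (fun _ : Fin a => X.transpose) := by
    intro X
    rw [Matrix.diagonal_transpose, Matrix.diagonal_map (Matrix.transpose_zero)]
  have hθ1 : (1 : Matrix (Fin a) (Fin a) (Matrix (Fin 2) (Fin 2) F)).transpose.map
      Matrix.transpose = 1 := by
    rw [Matrix.transpose_one, Matrix.map_one _ Matrix.transpose_zero Matrix.transpose_one]
  have hθ0 : (0 : Matrix (Fin a) (Fin a) (Matrix (Fin 2) (Fin 2) F)).transpose.map
      Matrix.transpose = 0 := by
    rw [Matrix.transpose_zero, Matrix.map_zero _ Matrix.transpose_zero]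
  obtain ⟨Pd, hPd⟩ : ∃ Pd : Matrix (Fin a ⊕ Fin a) (Fin a ⊕ Fin a) (Matrix (Fin 2) (Fin 2) F),
      Pd = Matrix.fromBlocks 1 0 0 dT := ⟨_, rfl⟩
  obtain ⟨Pi, hPi⟩ : ∃ Pi : Matrix (Fin a ⊕ Fin a) (Fin a ⊕ Fin a) (Matrix (Fin 2) (Fin 2) F),
      Pi = Matrix.fromBlocks 1 0 0 dTi := ⟨_, rfl⟩
  obtain ⟨TT, hTT⟩ : ∃ TT : Matrix (Fin a ⊕ Fin a) (Fin a ⊕ Fin a) (Matrix (Fin 2) (Fin 2) F),
      TT = Matrix.fromBlocks dT 0 0 dT := ⟨_, rfl⟩
  obtain ⟨TTi, hTTi⟩ : ∃ TTi : Matrix (Fin a ⊕ Fin a) (Fin a ⊕ Fin a) (Matrix (Fin 2) (Fin 2) F),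
      TTi = Matrix.fromBlocks dTi 0 0 dTi := ⟨_, rfl⟩
  obtain ⟨JJ, hJJ⟩ : ∃ JJ : Matrix (Fin a ⊕ Fin a) (Fin a ⊕ Fin a) (Matrix (Fin 2) (Fin 2) F),
      JJ = Matrix.fromBlocks 0 (-1) 1 0 := ⟨_, rfl⟩
  have hPP : Pd * Pi = 1 := by
    rw [hPd, hPi, Matrix.fromBlocks_multiply]
    simp only [Matrix.mul_zero, Matrix.zero_mul, Matrix.mul_one, add_zero, zero_add, hd1]
    exact Matrix.fromBlocks_one
  have hPP' : Pi * Pd = 1 := by
    rw [hPd, hPi, Matrix.fromBlocks_multiply]
    simp only [Matrix.mul_zero, Matrix.zero_mul, Matrix.mul_one, add_zero, zero_add, hd2]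
    exact Matrix.fromBlocks_one
  have hJ1 : Pi * JJ * (Pi * TT) = JJ := by
    rw [hPi, hJJ, hTT, Matrix.fromBlocks_multiply, Matrix.fromBlocks_multiply,
      Matrix.fromBlocks_multiply]
    simp only [Matrix.mul_zero, Matrix.zero_mul, Matrix.mul_one, Matrix.one_mul, add_zero,
      zero_add, hd2, Matrix.mul_neg, Matrix.neg_mul, neg_zero]
  have hJ2 : Pd * JJ * (TTi * Pd) = JJ := by
    rw [hPd, hJJ, hTTi, Matrix.fromBlocks_multiply, Matrix.fromBlocks_multiply,
      Matrix.fromBlocks_multiply]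
    simp only [Matrix.mul_zero, Matrix.zero_mul, Matrix.mul_one, Matrix.one_mul, add_zero,
      zero_add, hd1, hd2, Matrix.mul_neg, Matrix.neg_mul, neg_zero]
  have hθPd : Pd.transpose.map Matrix.transpose = Pd := by
    rw [hPd, Matrix.fromBlocks_transpose, Matrix.fromBlocks_map, hθ1, hθ0, hdT, hθd, hTt]
  have hθPi : Pi.transpose.map Matrix.transpose = Pi := by
    rw [hPi, Matrix.fromBlocks_transpose, Matrix.fromBlocks_map, hθ1, hθ0, hdTi, hθd, hTit]
  have hTT' : TT = Matrix.diagonal (fun _ => T) := by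
    rw [hTT, hdT, Matrix.fromBlocks_diagonal]
    congr 1
    funext x
    cases x <;> rfl
  have hTTi' : TTi = Matrix.diagonal (fun _ => Tinv) := by
    rw [hTTi, hdTi, Matrix.fromBlocks_diagonal]
    congr 1
    funext x
    cases x <;> rfl
  have hθA : ∀ A : Matrix (Fin a ⊕ Fin a) (Fin a ⊕ Fin a) K,
      (A.map ρ).transpose.map Matrix.transpose = TT * A.transpose.map ρ * TTi := by
    intro A
    rw [hTT', hTTi']
    ext x y : 1
    rw [Matrix.mul_diagonal, Matrix.diagonal_mul]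
    exact hρt (A y x)
  have hJρ : (Matrix.J (Fin a) K).map ρ = JJ := by
    rw [hJJ, Matrix.J, Matrix.fromBlocks_map]
    have e0 : (0 : Matrix (Fin a) (Fin a) K).map ρ = 0 := map_zero ρ.mapMatrix
    have e1 : (1 : Matrix (Fin a) (Fin a) K).map ρ = 1 := map_one ρ.mapMatrix
    have e2 : (-1 : Matrix (Fin a) (Fin a) K).map ρ = -1 := by
      have := map_neg ρ.mapMatrix (1 : Matrix (Fin a) (Fin a) K)
      rw [map_one] at this
      exact this
    rw [e0, e1, e2]
  -- the composition equivalence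
  let c := Matrix.compRingEquiv (Fin a ⊕ Fin a) (Fin 2) F
  have hct : ∀ M : Matrix (Fin a ⊕ Fin a) (Fin a ⊕ Fin a) (Matrix (Fin 2) (Fin 2) F),
      (c M).transpose = c (M.transpose.map Matrix.transpose) := fun M => rfl
  have hcore : ∀ A : Matrix (Fin a ⊕ Fin a) (Fin a ⊕ Fin a) K,
      A * Matrix.J (Fin a) K * A.transpose = Matrix.J (Fin a) K →
      c (Pd * A.map ρ * Pi) * c JJ * (c (Pd * A.map ρ * Pi)).transpose = c JJ := by
    intro A hA
    have e1 : (c (Pd * A.map ρ * Pi)).transpose =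
        c (Pi * (TT * A.transpose.map ρ * TTi) * Pd) := by
      rw [map_mul, map_mul, Matrix.transpose_mul, Matrix.transpose_mul, hct, hct, hct, hθPd,
        hθPi, hθA]
      simp only [map_mul, Matrix.mul_assoc]
    rw [e1, ← map_mul, ← map_mul]
    congr 1
    have e2 : A.map ρ * JJ * A.transpose.map ρ = JJ := by
      rw [← hJρ, ← Matrix.map_mul, ← Matrix.map_mul, hA]
    calc Pd * A.map ρ * Pi * JJ * (Pi * (TT * A.transpose.map ρ * TTi) * Pd) =
          Pd * A.map ρ * (Pi * JJ * (Pi * TT)) * A.transpose.map ρ * (TTi * Pd) := by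
          simp only [Matrix.mul_assoc]
      _ = Pd * (A.map ρ * JJ * A.transpose.map ρ) * (TTi * Pd) := by
          rw [hJ1]; simp only [Matrix.mul_assoc]
      _ = JJ := by rw [e2, hJ2]
  -- reindexing
  let e : Fin a × Fin 2 ≃ Fin (2 * a) := (Equiv.prodComm (Fin a) (Fin 2)).trans finProdFinEquiv
  let E : (Fin a ⊕ Fin a) × Fin 2 ≃ Fin (2 * a) ⊕ Fin (2 * a) :=
    (Equiv.sumProdDistrib (Fin a) (Fin a) (Fin 2)).trans (Equiv.sumCongr e e)
  have hJE : ∀ p q : (Fin a ⊕ Fin a) × Fin 2,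
      Matrix.J (Fin (2 * a)) F (E p) (E q) = c JJ p q := by
    rintro ⟨x | x, s⟩ ⟨y | y, t⟩
    · show Matrix.J (Fin (2 * a)) F (Sum.inl (e (x, s))) (Sum.inl (e (y, t))) =
        JJ (Sum.inl x) (Sum.inl y) s t
      rw [hJJ, Matrix.J, Matrix.fromBlocks_apply₁₁, Matrix.fromBlocks_apply₁₁]
      rfl
    · show Matrix.J (Fin (2 * a)) F (Sum.inl (e (x, s))) (Sum.inr (e (y, t))) =
        JJ (Sum.inl x) (Sum.inr y) s t
      rw [hJJ, Matrix.J, Matrix.fromBlocks_apply₁₂, Matrix.fromBlocks_apply₁₂]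
      simp only [Matrix.neg_apply, Matrix.one_apply, e.apply_eq_iff_eq, Prod.mk.injEq]
      by_cases h1 : x = y
      · subst h1
        by_cases h2 : s = t
        · subst h2
          simp [Matrix.one_apply_eq]
        · simp [h2, Matrix.one_apply_ne h2]
      · simp [h1]
    · show Matrix.J (Fin (2 * a)) F (Sum.inr (e (x, s))) (Sum.inl (e (y, t))) =
        JJ (Sum.inr x) (Sum.inl y) s t
      rw [hJJ, Matrix.J, Matrix.fromBlocks_apply₂₁, Matrix.fromBlocks_apply₂₁]
      simp only [Matrix.one_apply, e.apply_eq_iff_eq, Prod.mk.injEq]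
      by_cases h1 : x = y
      · subst h1
        by_cases h2 : s = t
        · subst h2
          simp [Matrix.one_apply_eq]
        · simp [h2, Matrix.one_apply_ne h2]
      · simp [h1]
    · show Matrix.J (Fin (2 * a)) F (Sum.inr (e (x, s))) (Sum.inr (e (y, t))) =
        JJ (Sum.inr x) (Sum.inr y) s t
      rw [hJJ, Matrix.J, Matrix.fromBlocks_apply₂₂, Matrix.fromBlocks_apply₂₂]
      rfl
  have hJE' : Matrix.J (Fin (2 * a)) F = (c JJ).submatrix E.symm E.symm := by
    ext u v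
    have h := hJE (E.symm u) (E.symm v)
    rw [E.apply_symm_apply, E.apply_symm_apply] at h
    exact h
  have hsymp : ∀ A : Matrix (Fin a ⊕ Fin a) (Fin a ⊕ Fin a) K,
      A ∈ Matrix.symplecticGroup (Fin a) K →
      (c (Pd * A.map ρ * Pi)).submatrix E.symm E.symm ∈ Matrix.symplecticGroup (Fin (2 * a)) F := by
    intro A hA
    rw [SymplecticGroup.mem_iff] at hA ⊢
    rw [hJE', Matrix.transpose_submatrix, Matrix.submatrix_mul_equiv, Matrix.submatrix_mul_equiv,
      hcore A hA]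
  have hmul : ∀ A B : Matrix (Fin a ⊕ Fin a) (Fin a ⊕ Fin a) K,
      (c (Pd * (A * B).map ρ * Pi)).submatrix E.symm E.symm =
        (c (Pd * A.map ρ * Pi)).submatrix E.symm E.symm *
          (c (Pd * B.map ρ * Pi)).submatrix E.symm E.symm := by
    intro A B
    rw [Matrix.submatrix_mul_equiv, ← map_mul]
    congr 2
    rw [Matrix.map_mul]
    calc Pd * (A.map ρ * B.map ρ) * Pi = Pd * A.map ρ * 1 * B.map ρ * Pi := by
          rw [Matrix.mul_one]; simp only [Matrix.mul_assoc]
      _ = Pd * A.map ρ * Pi * (Pd * B.map ρ * Pi) := by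
          rw [← hPP']; simp only [Matrix.mul_assoc]
  have hone : (c (Pd * (1 : Matrix (Fin a ⊕ Fin a) (Fin a ⊕ Fin a) K).map ρ * Pi)).submatrix
      E.symm E.symm = 1 := by
    have e1 : (1 : Matrix (Fin a ⊕ Fin a) (Fin a ⊕ Fin a) K).map ρ = 1 := map_one ρ.mapMatrix
    rw [e1, Matrix.mul_one, hPP, map_one, Matrix.submatrix_one_equiv]
  have hinj : ∀ A B : Matrix (Fin a ⊕ Fin a) (Fin a ⊕ Fin a) K,
      (c (Pd * A.map ρ * Pi)).submatrix E.symm E.symm =
        (c (Pd * B.map ρ * Pi)).submatrix E.symm E.symm → A = B := by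
    intro A B h
    have h1 : c (Pd * A.map ρ * Pi) = c (Pd * B.map ρ * Pi) := by
      ext p q
      have := congrFun (congrFun h (E p)) (E q)
      simpa using this
    have h2 : Pd * A.map ρ * Pi = Pd * B.map ρ * Pi := c.injective h1
    have h3 : A.map ρ = B.map ρ := by
      calc A.map ρ = Pi * (Pd * A.map ρ * Pi) * Pd := by
            have : Pi * (Pd * A.map ρ * Pi) * Pd = (Pi * Pd) * A.map ρ * (Pi * Pd) := by
              simp only [Matrix.mul_assoc]
            rw [this, hPP', Matrix.one_mul, Matrix.mul_one]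
        _ = Pi * (Pd * B.map ρ * Pi) * Pd := by rw [h2]
        _ = B.map ρ := by
            have : Pi * (Pd * B.map ρ * Pi) * Pd = (Pi * Pd) * B.map ρ * (Pi * Pd) := by
              simp only [Matrix.mul_assoc]
            rw [this, hPP', Matrix.one_mul, Matrix.mul_one]
    ext x y
    exact hρ (congrFun (congrFun h3 x) y)
  refine ⟨{ toFun := fun A => ⟨(c (Pd * (A : Matrix (Fin a ⊕ Fin a) (Fin a ⊕ Fin a) K).map ρ *
      Pi)).submatrix E.symm E.symm, hsymp _ A.2⟩
            map_one' := Subtype.ext hone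
            map_mul' := fun A B => Subtype.ext (hmul _ _) }, ?_⟩
  intro A B h
  exact Subtype.ext (hinj _ _ (congrArg Subtype.val h))

/-- Field-extension embedding of symplectic groups: for a field K with q² elements and a field F with q elements there is an injective homomorphism Sp_2a(K) → Sp_4a(F). -/
theorem result {K F : Type*} [Field K] [Fintype K] [Field F] [Fintype F] {q : ℕ} (hK : Fintype.card K = q ^ 2) (hF : Fintype.card F = q) (a : ℕ) : ∃ φ : ↥(Matrix.symplecticGroup (Fin a) K) →* ↥(Matrix.symplecticGroup (Fin (2 * a)) F), Function.Injective φ := by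
  classical
  obtain ⟨ι⟩ := Cfsg.Agent.S2678.exists_emb (F := K) (K := F) 2 (by rw [hF, hK])
  letI : Algebra F K := ι.toAlgebra
  have hfr : Module.finrank F K = 2 := by
    have h := Module.card_eq_pow_finrank (K := F) (V := K)
    rw [hK, hF] at h
    have hq : 2 ≤ q := by rw [← hF]; exact Fintype.one_lt_card
    exact (Nat.pow_right_injective hq h).symm
  obtain ⟨b⟩ : Nonempty (Module.Basis (Fin 2) F K) := ⟨Module.finBasisOfFinrankEq F K hfr⟩
  obtain ⟨T, Tinv, hT1, hT2, hTt, hρT⟩ := Cfsg.Agent.S2678.exists_T b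
  exact Cfsg.Agent.S2678.emb_of_rep (Algebra.leftMulMatrix b).toRingHom
    (Algebra.leftMulMatrix_injective b) T Tinv hT1 hT2 hTt hρT a

end Cfsg.Agent.S2678
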