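import Cfsg.Statements.S2640
import Mathlib
import Cfsg.Agent.S2678
-- import your own Cfsg.Agent.* helpers here

set_option autoImplicit false
open Cfsg

namespace Cfsg.Agent.S2640

theorem cayley2 {F : Type*} [Field F] (M : Matrix (Fin 2) (Fin 2) F) :
    M.det • (1 : Matrix (Fin 2) (Fin 2) F) =
      M * (M.trace • (1 : Matrix (Fin 2) (Fin 2) F) - M) := by
  ext i j
  fin_cases i <;> fin_cases j <;>
    simp [Matrix.det_fin_two, Matrix.trace_fin_two, Matrix.mul_apply, Fin.sum_univ_two,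
      Matrix.one_apply] <;> ring

theorem det_add2 {F : Type*} [Field F] (A B : Matrix (Fin 2) (Fin 2) F) :
    (A + B).det = A.det + B.det +
      ((A.trace • (1 : Matrix (Fin 2) (Fin 2) F) - A) * B).trace := by
  simp [Matrix.det_fin_two, Matrix.trace_fin_two, Matrix.mul_apply, Fin.sum_univ_two,
    Matrix.one_apply]
  ring

theorem emb_of_lin {F K : Type*} [Field F] [Field K] [Algebra F K] (m q : ℕ)
    (Λ : (Fin m → K) ≃ₗ[F] (Fin m ⊕ Fin m → F))
    (hΛ : ∀ u, algebraMap F K (Cfsg.quadFormPlus m F (Λ u)) = ∑ i, u i * (u i) ^ q) :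
    ∃ φ : ↥(Cfsg.GU m K q) →* ↥(Cfsg.isometryGroup F (Cfsg.quadFormPlus m F)),
      Function.Injective φ := by
  classical
  obtain ⟨L, hL⟩ : ∃ L : Matrix (Fin m) (Fin m) K →
      ((Fin m ⊕ Fin m → F) →ₗ[F] (Fin m ⊕ Fin m → F)),
      ∀ A v, L A v = Λ (A.mulVec (Λ.symm v)) :=
    ⟨fun A => (Λ : (Fin m → K) →ₗ[F] (Fin m ⊕ Fin m → F)) ∘ₗ
      ((Matrix.toLin' A).restrictScalars F) ∘ₗ
      (Λ.symm : (Fin m ⊕ Fin m → F) →ₗ[F] (Fin m → K)), fun A v => rfl⟩
  have hLmul : ∀ A B, L (A * B) = L A ∘ₗ L B := by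
    intro A B
    apply LinearMap.ext
    intro v
    rw [LinearMap.comp_apply, hL, hL, hL, Λ.symm_apply_apply, Matrix.mulVec_mulVec]
  have hLone : L 1 = LinearMap.id := by
    apply LinearMap.ext
    intro v
    rw [hL, Matrix.one_mulVec, Λ.apply_symm_apply, LinearMap.id_apply]
  let Ψ : Matrix (Fin m) (Fin m) K →* Matrix (Fin m ⊕ Fin m) (Fin m ⊕ Fin m) F :=
    { toFun := fun A => LinearMap.toMatrix' (L A)
      map_one' := by rw [hLone, LinearMap.toMatrix'_id]
      map_mul' := fun A B => by rw [hLmul, LinearMap.toMatrix'_comp] }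
  have hΨv : ∀ A v, (Ψ A).mulVec v = Λ (A.mulVec (Λ.symm v)) := by
    intro A v
    show (LinearMap.toMatrix' (L A)).mulVec v = _
    rw [← Matrix.toLin'_apply, Matrix.toLin'_toMatrix', hL]
  have hΨinj : Function.Injective Ψ := by
    intro A B h
    apply Matrix.toLin'.injective
    apply LinearMap.ext
    intro w
    have h1 := congrArg (fun M : Matrix (Fin m ⊕ Fin m) (Fin m ⊕ Fin m) F => M.mulVec (Λ w)) h
    simp only [hΨv, Λ.symm_apply_apply] at h1
    rw [Matrix.toLin'_apply, Matrix.toLin'_apply]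
    exact Λ.injective h1
  have hmem : ∀ g : ↥(Cfsg.GU m K q),
      Units.map Ψ g.1 ∈ Cfsg.isometryGroup F (Cfsg.quadFormPlus m F) := by
    intro g
    have hg : ∀ u v, Cfsg.hermForm m K q ((g.1 : Matrix (Fin m) (Fin m) K).mulVec u)
        ((g.1 : Matrix (Fin m) (Fin m) K).mulVec v) = Cfsg.hermForm m K q u v := g.2
    have key : ∀ u v : Fin m ⊕ Fin m → F,
        Cfsg.quadFormPlus m F ((Ψ (g.1 : Matrix (Fin m) (Fin m) K)).mulVec u) =
          Cfsg.quadFormPlus m F u := by
      intro u v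
      apply (algebraMap F K).injective
      rw [hΨv, hΛ]
      conv_rhs => rw [← Λ.apply_symm_apply u, hΛ]
      exact hg (Λ.symm u) (Λ.symm u)
    exact key
  refine ⟨{ toFun := fun g => ⟨Units.map Ψ g.1, hmem g⟩
            map_one' := Subtype.ext (map_one _)
            map_mul' := fun a b => Subtype.ext (map_mul _ _ _) }, ?_⟩
  intro a b h
  have h1 : Units.map Ψ a.1 = Units.map Ψ b.1 := congrArg Subtype.val h
  have h2 : Ψ (a.1 : Matrix (Fin m) (Fin m) K) = Ψ (b.1 : Matrix (Fin m) (Fin m) K) :=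
    congrArg Units.val h1
  exact Subtype.ext (Units.ext (hΨinj h2))

theorem exists_Lam {F K : Type*} [Field F] [Field K] [Algebra F K] [Module.Finite F K]
    (hfr : Module.finrank F K = 2)
    (ρ : K →ₐ[F] Matrix (Fin 2) (Fin 2) F)
    (q : ℕ) (hρq : ∀ k, ρ (k ^ q) = (ρ k).trace • (1 : Matrix (Fin 2) (Fin 2) F) - ρ k)
    (X : Matrix (Fin 2) (Fin 2) F) (hX1 : X.det = 1) (hX2 : ∀ k, (ρ k * X).trace = 0)
    (k₀ : K) (hk₀ : (ρ k₀).trace ≠ 0) (k : ℕ) :
    ∃ Λ : (Fin (k + k) → K) ≃ₗ[F] (Fin (k + k) ⊕ Fin (k + k) → F),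
      ∀ u, Cfsg.quadFormPlus (k + k) F (Λ u) = ∑ i, (ρ (u i)).det := by
  classical
  have hdet : ∀ a c : K, (ρ a + X * ρ c).det = (ρ a).det + (ρ c).det := by
    intro a c
    rw [Cfsg.Agent.S2640.det_add2, Matrix.det_mul, hX1, one_mul, ← hρq]
    have : (ρ (a ^ q) * (X * ρ c)).trace = 0 := by
      rw [← Matrix.mul_assoc, Matrix.trace_mul_comm, ← Matrix.mul_assoc, ← map_mul]
      exact hX2 _
    rw [this, add_zero]
  have hinj2 : ∀ a c : K, ρ a + X * ρ c = 0 → a = 0 ∧ c = 0 := by
    intro a c h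
    have ha : a = 0 := by
      by_contra ha
      have h1 : (ρ (k₀ * a⁻¹) * (ρ a + X * ρ c)).trace = 0 := by
        rw [h, Matrix.mul_zero, Matrix.trace_zero]
      rw [Matrix.mul_add, Matrix.trace_add, ← map_mul, mul_assoc, inv_mul_cancel₀ ha,
        mul_one] at h1
      have h2 : (ρ (k₀ * a⁻¹) * (X * ρ c)).trace = 0 := by
        rw [← Matrix.mul_assoc, Matrix.trace_mul_comm, ← Matrix.mul_assoc, ← map_mul]
        exact hX2 _
      rw [h2, add_zero] at h1
      exact hk₀ h1
    refine ⟨ha, ?_⟩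
    by_contra hc
    rw [ha, map_zero, zero_add] at h
    have h3 := congrArg Matrix.det h
    have hz : (0 : Matrix (Fin 2) (Fin 2) F).det = 0 := by simp [Matrix.det_fin_two]
    rw [Matrix.det_mul, hX1, one_mul, hz] at h3
    have h4 : ρ c * ρ c⁻¹ = 1 := by rw [← map_mul, mul_inv_cancel₀ hc, map_one]
    have h5 := congrArg Matrix.det h4
    rw [Matrix.det_mul, h3, zero_mul, Matrix.det_one] at h5
    exact zero_ne_one h5
  let e : Fin k ⊕ Fin k ≃ Fin (k + k) := finSumFinEquiv
  obtain ⟨A, hA⟩ : ∃ A : (Fin (k + k) → K) → Fin k → Matrix (Fin 2) (Fin 2) F,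
      ∀ u i, A u i = ρ (u (e (Sum.inl i))) + X * ρ (u (e (Sum.inr i))) :=
    ⟨fun u i => ρ (u (e (Sum.inl i))) + X * ρ (u (e (Sum.inr i))), fun u i => rfl⟩
  have hAadd : ∀ u v i, A (u + v) i = A u i + A v i := by
    intro u v i
    rw [hA, hA, hA, Pi.add_apply, Pi.add_apply, map_add, map_add, Matrix.mul_add]
    abel
  have hAsmul : ∀ (c : F) u i, A (c • u) i = c • A u i := by
    intro c u i
    rw [hA, hA, Pi.smul_apply, Pi.smul_apply, map_smul, map_smul, Matrix.mul_smul, smul_add]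
  let Λ' : (Fin (k + k) → K) →ₗ[F] ((Fin k ⊕ Fin k) ⊕ (Fin k ⊕ Fin k) → F) :=
    { toFun := fun u => Sum.elim (Sum.elim (fun i => A u i 0 0) (fun i => -(A u i 0 1)))
        (Sum.elim (fun i => A u i 1 1) (fun i => A u i 1 0))
      map_add' := by
        intro u v
        funext t
        rcases t with (i | i) | (i | i)
        · simp [hAadd]
        · simp [hAadd]; ring
        · simp [hAadd]
        · simp [hAadd]
      map_smul' := by
        intro c u
        funext t
        rcases t with (i | i) | (i | i) <;> simp [hAsmul] }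
  have hΛ'inj : Function.Injective Λ' := by
    rw [← LinearMap.ker_eq_bot, LinearMap.ker_eq_bot']
    intro u hu
    have hAz : ∀ i, A u i = 0 := by
      intro i
      have h00 : A u i 0 0 = 0 := congrFun hu (Sum.inl (Sum.inl i))
      have h01 : -(A u i 0 1) = 0 := congrFun hu (Sum.inl (Sum.inr i))
      have h11 : A u i 1 1 = 0 := congrFun hu (Sum.inr (Sum.inl i))
      have h10 : A u i 1 0 = 0 := congrFun hu (Sum.inr (Sum.inr i))
      ext s t
      fin_cases s <;> fin_cases t
      · exact h00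
      · exact neg_eq_zero.mp h01
      · exact h10
      · exact h11
    funext j
    obtain ⟨s, rfl⟩ := e.surjective j
    rcases s with i | i
    · exact (hinj2 _ _ ((hA u i).symm.trans (hAz i))).1
    · exact (hinj2 _ _ ((hA u i).symm.trans (hAz i))).2
  have hdim : Module.finrank F (Fin (k + k) → K) =
      Module.finrank F ((Fin k ⊕ Fin k) ⊕ (Fin k ⊕ Fin k) → F) := by
    rw [Module.finrank_pi_fintype, Module.finrank_fintype_fun_eq_card]
    simp only [hfr, Finset.sum_const, Finset.card_univ, Fintype.card_fin, Fintype.card_sum,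
      smul_eq_mul]
    ring
  let Λ : (Fin (k + k) → K) ≃ₗ[F] (Fin (k + k) ⊕ Fin (k + k) → F) :=
    (Λ'.linearEquivOfInjective hΛ'inj hdim).trans
      (LinearEquiv.funCongrLeft F F (Equiv.sumCongr e e).symm)
  refine ⟨Λ, ?_⟩
  intro u
  have hl : ∀ j, Λ u (Sum.inl j) = Λ' u (Sum.inl (e.symm j)) := fun j => rfl
  have hr : ∀ j, Λ u (Sum.inr j) = Λ' u (Sum.inr (e.symm j)) := fun j => rfl
  unfold Cfsg.quadFormPlus
  simp_rw [hl, hr]
  rw [Equiv.sum_comp e.symm (fun s => Λ' u (Sum.inl s) * Λ' u (Sum.inr s)),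
    Fintype.sum_sum_type]
  rw [← Equiv.sum_comp e (fun j => (ρ (u j)).det), Fintype.sum_sum_type,
    ← Finset.sum_add_distrib, ← Finset.sum_add_distrib]
  apply Finset.sum_congr rfl
  intro i _
  rw [← hdet, ← hA]
  show A u i 0 0 * A u i 1 1 + -(A u i 0 1) * A u i 1 0 = (A u i).det
  rw [Matrix.det_fin_two]
  ring

/-- For m even, the unitary group GU_m(q) (over the field with q² elements) embeds in the orthogonal group O⁺_2m(q) of the hyperbolic form Σ x_i y_i over the field with q elements (there is an injective homomorphism). -/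
theorem result {K F : Type*} [Field K] [Fintype K] [Field F] [Fintype F] {q : ℕ} (hK : Fintype.card K = q ^ 2) (hF : Fintype.card F = q) (m : ℕ) (hm : Even m) : ∃ φ : ↥(Cfsg.GU m K q) →* ↥(Cfsg.isometryGroup F (Cfsg.quadFormPlus m F)), Function.Injective φ := by
  classical
  obtain ⟨k, hk⟩ := hm
  subst hk
  obtain ⟨ι⟩ := Cfsg.Agent.S2678.exists_emb (F := K) (K := F) 2 (by rw [hF, hK])
  letI : Algebra F K := ι.toAlgebra
  have hq2 : 2 ≤ q := by rw [← hF]; exact Fintype.one_lt_card
  have hfr : Module.finrank F K = 2 := by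
    have h := Module.card_eq_pow_finrank (K := F) (V := K)
    rw [hK, hF] at h
    exact (Nat.pow_right_injective hq2 h).symm
  obtain ⟨b⟩ : Nonempty (Module.Basis (Fin 2) F K) := ⟨Module.finBasisOfFinrankEq F K hfr⟩
  have hρq : ∀ x : K, Algebra.leftMulMatrix b (x ^ q) =
      (Algebra.leftMulMatrix b x).trace • (1 : Matrix (Fin 2) (Fin 2) F) -
        Algebra.leftMulMatrix b x := by
    intro x
    have h1 := FiniteField.algebraMap_trace_eq_sum_pow (K := F) (L := K) (x := x)
    rw [hfr, Finset.sum_range_succ, Finset.sum_range_one, pow_zero, pow_one, pow_one,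
      Nat.card_eq_fintype_card, hF] at h1
    have h2 : x ^ q = algebraMap F K (Algebra.trace F K x) - x := by rw [h1]; ring
    rw [h2, map_sub, AlgHom.commutes, Algebra.algebraMap_eq_smul_one,
      Algebra.trace_eq_matrix_trace b]
  have hinj := Algebra.leftMulMatrix_injective b
  have hk₀ : ∃ k₀ : K, (Algebra.leftMulMatrix b k₀).trace ≠ 0 := by
    by_contra hcon
    push_neg at hcon
    have h1 : ∀ x : K, x ^ q = -x := by
      intro x
      apply hinj
      rw [hρq, hcon, zero_smul, zero_sub, map_neg]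
    have h2 : (1 : K) = -1 := by
      have := h1 1
      rwa [one_pow] at this
    have h3 : ∀ x : K, x ^ q = x := by
      intro x
      rw [h1 x]
      calc -x = (-1) * x := by ring
        _ = 1 * x := by rw [← h2]
        _ = x := one_mul x
    have hne : (Polynomial.X ^ q - Polynomial.X : Polynomial K) ≠ 0 :=
      FiniteField.X_pow_card_sub_X_ne_zero K (by omega)
    have hsub : (Finset.univ : Finset K).val ⊆
        (Polynomial.X ^ q - Polynomial.X : Polynomial K).roots := by
      intro x _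
      rw [Polynomial.mem_roots hne, Polynomial.IsRoot.def]
      simp [h3 x]
    have hle := Polynomial.card_le_degree_of_subset_roots hsub
    rw [Finset.card_univ, hK, FiniteField.X_pow_card_sub_X_natDegree_eq K (by omega)] at hle
    nlinarith
  obtain ⟨k₀, hk₀⟩ := hk₀
  obtain ⟨T, Tinv, hT1, hT2, hTt, hρT⟩ := Cfsg.Agent.S2678.exists_T b
  have hdetT : T.det ≠ 0 := by
    have h := congrArg Matrix.det hT1
    rw [Matrix.det_mul, Matrix.det_one] at h
    exact left_ne_zero_of_mul_eq_one h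
  obtain ⟨e₀, he₀⟩ := FiniteField.norm_surjective F K (T.det)⁻¹
  rw [Algebra.norm_eq_matrix_det b] at he₀
  have hΩS : ∀ S : Matrix (Fin 2) (Fin 2) F, S.transpose = S →
      ((!![0, 1; -1, 0] : Matrix (Fin 2) (Fin 2) F) * S).trace = 0 := by
    intro S hS
    have h01 : S 1 0 = S 0 1 := by
      have := congrFun (congrFun hS 0) 1
      simpa [Matrix.transpose_apply] using this
    rw [Matrix.trace_fin_two, Matrix.mul_apply, Matrix.mul_apply, Fin.sum_univ_two,
      Fin.sum_univ_two]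
    simp [h01]
  have hX2 : ∀ k' : K, (Algebra.leftMulMatrix b k' *
      (!![0, 1; -1, 0] * T * Algebra.leftMulMatrix b e₀)).trace = 0 := by
    intro k'
    rw [Matrix.trace_mul_comm, Matrix.mul_assoc, Matrix.mul_assoc, ← map_mul]
    apply hΩS
    rw [Matrix.transpose_mul, hTt, hρT]
  have hX1 : (!![0, 1; -1, 0] * T * Algebra.leftMulMatrix b e₀).det = 1 := by
    rw [Matrix.det_mul, Matrix.det_mul, he₀]
    have : (!![0, 1; -1, 0] : Matrix (Fin 2) (Fin 2) F).det = 1 := by simp [Matrix.det_fin_two]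
    rw [this, one_mul, mul_inv_cancel₀ hdetT]
  obtain ⟨Λ, hΛ⟩ := Cfsg.Agent.S2640.exists_Lam hfr (Algebra.leftMulMatrix b) q hρq _ hX1 hX2
    k₀ hk₀ k
  have hN : ∀ x : K, algebraMap F K (Algebra.leftMulMatrix b x).det = x * x ^ q := by
    intro x
    apply hinj
    rw [map_mul, hρq, AlgHom.commutes, Algebra.algebraMap_eq_smul_one]
    exact Cfsg.Agent.S2640.cayley2 _
  exact Cfsg.Agent.S2640.emb_of_lin (k + k) q Λ (fun u => by
    rw [hΛ, map_sum]
    exact Finset.sum_congr rfl (fun i _ => hN (u i)))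

end Cfsg.Agent.S2640
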