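import Cfsg.Statements.S2641
import Mathlib
import Cfsg.Agent.S2678
import Cfsg.Agent.S2640
-- import your own Cfsg.Agent.* helpers here

set_option autoImplicit false
open Cfsg

namespace Cfsg.Agent.S2641

theorem emb_of_lin' {F K : Type*} [Field F] [Field K] [Algebra F K] (m q : ℕ)
    {ι : Type} [Fintype ι] [DecidableEq ι] (Q : (ι → F) → F)
    (Λ : (Fin m → K) ≃ₗ[F] (ι → F))
    (hΛ : ∀ u, algebraMap F K (Q (Λ u)) = ∑ i, u i * (u i) ^ q) :
    ∃ φ : ↥(Cfsg.GU m K q) →* ↥(Cfsg.isometryGroup F Q),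
      Function.Injective φ := by
  classical
  obtain ⟨L, hL⟩ : ∃ L : Matrix (Fin m) (Fin m) K →
      ((ι → F) →ₗ[F] (ι → F)),
      ∀ A v, L A v = Λ (A.mulVec (Λ.symm v)) :=
    ⟨fun A => (Λ : (Fin m → K) →ₗ[F] (ι → F)) ∘ₗ
      ((Matrix.toLin' A).restrictScalars F) ∘ₗ
      (Λ.symm : (ι → F) →ₗ[F] (Fin m → K)), fun A v => rfl⟩
  have hLmul : ∀ A B, L (A * B) = L A ∘ₗ L B := by
    intro A B
    apply LinearMap.ext
    intro v
    rw [LinearMap.comp_apply, hL, hL, hL, Λ.symm_apply_apply, Matrix.mulVec_mulVec]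
  have hLone : L 1 = LinearMap.id := by
    apply LinearMap.ext
    intro v
    rw [hL, Matrix.one_mulVec, Λ.apply_symm_apply, LinearMap.id_apply]
  let Ψ : Matrix (Fin m) (Fin m) K →* Matrix (ι) (ι) F :=
    { toFun := fun A => LinearMap.toMatrix' (L A)
      map_one' := by rw [hLone, LinearMap.toMatrix'_id]
      map_mul' := fun A B => by rw [hLmul, LinearMap.toMatrix'_comp] }
  have hΨv : ∀ A v, (Ψ A).mulVec v = Λ (A.mulVec (Λ.symm v)) := by
    intro A v
    show (LinearMap.toMatrix' (L A)).mulVec v = _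
    rw [← Matrix.toLin'_apply, Matrix.toLin'_toMatrix', hL]
  have hΨinj : Function.Injective Ψ := by
    intro A B h
    apply Matrix.toLin'.injective
    apply LinearMap.ext
    intro w
    have h1 := congrArg (fun M : Matrix (ι) (ι) F => M.mulVec (Λ w)) h
    simp only [hΨv, Λ.symm_apply_apply] at h1
    rw [Matrix.toLin'_apply, Matrix.toLin'_apply]
    exact Λ.injective h1
  have hmem : ∀ g : ↥(Cfsg.GU m K q),
      Units.map Ψ g.1 ∈ Cfsg.isometryGroup F (Q) := by
    intro g
    have hg : ∀ u v, Cfsg.hermForm m K q ((g.1 : Matrix (Fin m) (Fin m) K).mulVec u)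
        ((g.1 : Matrix (Fin m) (Fin m) K).mulVec v) = Cfsg.hermForm m K q u v := g.2
    have key : ∀ u v : ι → F,
        Q ((Ψ (g.1 : Matrix (Fin m) (Fin m) K)).mulVec u) =
          Q u := by
      intro u v
      apply (algebraMap F K).injective
      rw [hΨv, hΛ]
      conv_rhs => rw [← Λ.apply_symm_apply u, hΛ]
      exact hg (Λ.symm u) (Λ.symm u)
    exact key
  refine ⟨{ toFun := fun g => ⟨Units.map Ψ g.1, hmem g⟩
            map_one' := Subtype.ext (map_one _)
            map_mul' := fun a b => Subtype.ext (map_mul _ _ _) }, ?_⟩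
  intro a b h
  have h1 : Units.map Ψ a.1 = Units.map Ψ b.1 := congrArg Subtype.val h
  have h2 : Ψ (a.1 : Matrix (Fin m) (Fin m) K) = Ψ (b.1 : Matrix (Fin m) (Fin m) K) :=
    congrArg Units.val h1
  exact Subtype.ext (Units.ext (hΨinj h2))


theorem det_lin2 {F : Type*} [Field F] (M : Matrix (Fin 2) (Fin 2) F) (x y : F) :
    (x • (1 : Matrix (Fin 2) (Fin 2) F) + y • M).det = x ^ 2 + x * y * M.trace + y ^ 2 * M.det := by
  simp [Matrix.det_fin_two, Matrix.trace_fin_two, Matrix.one_apply]
  ring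

theorem exists_root {F K : Type*} [Field F] [Fintype F] [Field K] [Fintype K] [Algebra F K]
    (q : ℕ) (hF : Fintype.card F = q) (hK : Fintype.card K = q ^ 2) (a b : F)
    (hab : ∀ z₁ z₂ : F, z₁ ^ 2 + a * z₁ * z₂ + b * z₂ ^ 2 = 0 → z₁ = 0 ∧ z₂ = 0) :
    ∃ r : K, r * r - algebraMap F K a * r + algebraMap F K b = 0 := by
  classical
  have hq2 : 2 ≤ q := by rw [← hF]; exact Fintype.one_lt_card
  obtain ⟨f, hf⟩ : ∃ f : Polynomial F,
      f = Polynomial.X ^ 2 - Polynomial.C a * Polynomial.X + Polynomial.C b := ⟨_, rfl⟩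
  have hfdeg : f.natDegree = 2 := by
    rw [hf]
    compute_degree!
  have hfmonic : f.Monic := by
    rw [hf]
    monicity!
  have hirr : Irreducible f := by
    rw [hfmonic.irreducible_iff_roots_eq_zero_of_degree_le_three (by omega) (by omega)]
    rw [Multiset.eq_zero_iff_forall_notMem]
    intro x hx
    rw [Polynomial.mem_roots hfmonic.ne_zero, Polynomial.IsRoot.def] at hx
    have hx' : x ^ 2 - a * x + b = 0 := by simpa [hf] using hx
    have h1 := (hab x (-1) (by linear_combination hx')).2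
    exact one_ne_zero (neg_eq_zero.mp h1)
  have hdvd : f ∣ Polynomial.X ^ q ^ 2 - Polynomial.X := by
    have h := (hirr.natDegree_dvd_iff_dvd_X_pow_card_pow_sub_X (n := 2)).mp (by rw [hfdeg])
    rwa [Nat.card_eq_fintype_card, hF] at h
  obtain ⟨h, hh⟩ := hdvd
  have hne : (Polynomial.X ^ q ^ 2 - Polynomial.X : Polynomial F) ≠ 0 :=
    FiniteField.X_pow_card_pow_sub_X_ne_zero F (by norm_num) (by omega)
  have hnd : (Polynomial.X ^ q ^ 2 - Polynomial.X : Polynomial F).natDegree = q ^ 2 :=
    FiniteField.X_pow_card_pow_sub_X_natDegree_eq F (by norm_num) (by omega)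
  have hh0 : h ≠ 0 := by
    rintro rfl
    rw [mul_zero] at hh
    exact hne hh
  have hdeg : 2 + h.natDegree = q ^ 2 := by
    have h1 := congrArg Polynomial.natDegree hh
    rw [Polynomial.natDegree_mul hirr.ne_zero hh0, hfdeg, hnd] at h1
    exact h1.symm
  by_contra hcon
  push_neg at hcon
  have hev : ∀ x : K, Polynomial.eval₂ (algebraMap F K) x h = 0 := by
    intro x
    have h1 := congrArg (Polynomial.eval₂ (algebraMap F K) x) hh
    rw [Polynomial.eval₂_mul] at h1
    have h2 : Polynomial.eval₂ (algebraMap F K) x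
        (Polynomial.X ^ q ^ 2 - Polynomial.X : Polynomial F) = 0 := by
      rw [Polynomial.eval₂_sub, Polynomial.eval₂_pow, Polynomial.eval₂_X, ← hK,
        FiniteField.pow_card, sub_self]
    rw [h2] at h1
    have h3 : Polynomial.eval₂ (algebraMap F K) x f ≠ 0 := by
      have e : Polynomial.eval₂ (algebraMap F K) x f =
          x * x - algebraMap F K a * x + algebraMap F K b := by
        rw [hf]
        simp [Polynomial.eval₂_add, Polynomial.eval₂_sub, Polynomial.eval₂_mul,
          Polynomial.eval₂_pow, pow_two]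
      rw [e]
      exact hcon x
    exact (mul_eq_zero.mp h1.symm).resolve_left h3
  have hmap0 : h.map (algebraMap F K) ≠ 0 :=
    (Polynomial.map_ne_zero_iff (algebraMap F K).injective).mpr hh0
  have hsub : (Finset.univ : Finset K).val ⊆ (h.map (algebraMap F K)).roots := by
    intro x _
    rw [Polynomial.mem_roots hmap0, Polynomial.IsRoot.def, Polynomial.eval_map]
    exact hev x
  have hle := Polynomial.card_le_degree_of_subset_roots hsub
  rw [Finset.card_univ, hK, Polynomial.natDegree_map] at hle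
  omega

theorem exists_Lam' {F K : Type*} [Field F] [Field K] [Algebra F K] [Module.Finite F K]
    (hfr : Module.finrank F K = 2)
    (ρ : K →ₐ[F] Matrix (Fin 2) (Fin 2) F)
    (q : ℕ) (hρq : ∀ k, ρ (k ^ q) = (ρ k).trace • (1 : Matrix (Fin 2) (Fin 2) F) - ρ k)
    (X : Matrix (Fin 2) (Fin 2) F) (hX1 : X.det = 1) (hX2 : ∀ k, (ρ k * X).trace = 0)
    (k₀ : K) (hk₀ : (ρ k₀).trace ≠ 0) (a b : F)
    (κ : (Fin 2 → F) ≃ₗ[F] K)
    (hκ : ∀ z, (ρ (κ z)).det = z 0 ^ 2 + a * z 0 * z 1 + b * z 1 ^ 2)
    (m n k : ℕ) (hn : k + k = n) (hm : n + 1 = m) :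
    ∃ Λ : (Fin m → K) ≃ₗ[F] ((Fin n ⊕ Fin n) ⊕ Fin 2 → F),
      ∀ u, Cfsg.quadFormMinus n F a b (Λ u) = ∑ i, (ρ (u i)).det := by
  classical
  have hdet : ∀ a c : K, (ρ a + X * ρ c).det = (ρ a).det + (ρ c).det := by
    intro a c
    rw [Cfsg.Agent.S2640.det_add2, Matrix.det_mul, hX1, one_mul, ← hρq]
    have : (ρ (a ^ q) * (X * ρ c)).trace = 0 := by
      rw [← Matrix.mul_assoc, Matrix.trace_mul_comm, ← Matrix.mul_assoc, ← map_mul]
      exact hX2 _
    rw [this, add_zero]
  have hinj2 : ∀ a c : K, ρ a + X * ρ c = 0 → a = 0 ∧ c = 0 := by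
    intro a c h
    have ha : a = 0 := by
      by_contra ha
      have h1 : (ρ (k₀ * a⁻¹) * (ρ a + X * ρ c)).trace = 0 := by
        rw [h, Matrix.mul_zero, Matrix.trace_zero]
      rw [Matrix.mul_add, Matrix.trace_add, ← map_mul, mul_assoc, inv_mul_cancel₀ ha,
        mul_one] at h1
      have h2 : (ρ (k₀ * a⁻¹) * (X * ρ c)).trace = 0 := by
        rw [← Matrix.mul_assoc, Matrix.trace_mul_comm, ← Matrix.mul_assoc, ← map_mul]
        exact hX2 _
      rw [h2, add_zero] at h1
      exact hk₀ h1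
    refine ⟨ha, ?_⟩
    by_contra hc
    rw [ha, map_zero, zero_add] at h
    have h3 := congrArg Matrix.det h
    have hz : (0 : Matrix (Fin 2) (Fin 2) F).det = 0 := by simp [Matrix.det_fin_two]
    rw [Matrix.det_mul, hX1, one_mul, hz] at h3
    have h4 : ρ c * ρ c⁻¹ = 1 := by rw [← map_mul, mul_inv_cancel₀ hc, map_one]
    have h5 := congrArg Matrix.det h4
    rw [Matrix.det_mul, h3, zero_mul, Matrix.det_one] at h5
    exact zero_ne_one h5
  let e' : Fin k ⊕ Fin k ≃ Fin n := finSumFinEquiv.trans (finCongr hn)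
  let e : Fin n ⊕ Fin 1 ≃ Fin m := finSumFinEquiv.trans (finCongr hm)
  obtain ⟨A, hA⟩ : ∃ A : (Fin m → K) → Fin k → Matrix (Fin 2) (Fin 2) F,
      ∀ u i, A u i = ρ (u (e (Sum.inl (e' (Sum.inl i))))) +
        X * ρ (u (e (Sum.inl (e' (Sum.inr i))))) :=
    ⟨fun u i => ρ (u (e (Sum.inl (e' (Sum.inl i))))) +
      X * ρ (u (e (Sum.inl (e' (Sum.inr i))))), fun u i => rfl⟩
  have hAadd : ∀ u v i, A (u + v) i = A u i + A v i := by
    intro u v i
    rw [hA, hA, hA, Pi.add_apply, Pi.add_apply, map_add, map_add, Matrix.mul_add]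
    abel
  have hAsmul : ∀ (c : F) u i, A (c • u) i = c • A u i := by
    intro c u i
    rw [hA, hA, Pi.smul_apply, Pi.smul_apply, map_smul, map_smul, Matrix.mul_smul, smul_add]
  let Λ' : (Fin m → K) →ₗ[F] (((Fin k ⊕ Fin k) ⊕ (Fin k ⊕ Fin k)) ⊕ Fin 2 → F) :=
    { toFun := fun u => Sum.elim
        (Sum.elim (Sum.elim (fun i => A u i 0 0) (fun i => -(A u i 0 1)))
          (Sum.elim (fun i => A u i 1 1) (fun i => A u i 1 0)))
        (fun s => κ.symm (u (e (Sum.inr 0))) s)
      map_add' := by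
        intro u v
        funext t
        rcases t with ((i | i) | (i | i)) | s
        · simp [hAadd]
        · simp [hAadd]; ring
        · simp [hAadd]
        · simp [hAadd]
        · simp [map_add]
      map_smul' := by
        intro c u
        funext t
        rcases t with ((i | i) | (i | i)) | s
        · simp [hAsmul]
        · simp [hAsmul]
        · simp [hAsmul]
        · simp [hAsmul]
        · simp [map_smul] }
  have hΛ'inj : Function.Injective Λ' := by
    rw [← LinearMap.ker_eq_bot, LinearMap.ker_eq_bot']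
    intro u hu
    have hAz : ∀ i, A u i = 0 := by
      intro i
      have h00 : A u i 0 0 = 0 := congrFun hu (Sum.inl (Sum.inl (Sum.inl i)))
      have h01 : -(A u i 0 1) = 0 := congrFun hu (Sum.inl (Sum.inl (Sum.inr i)))
      have h11 : A u i 1 1 = 0 := congrFun hu (Sum.inl (Sum.inr (Sum.inl i)))
      have h10 : A u i 1 0 = 0 := congrFun hu (Sum.inl (Sum.inr (Sum.inr i)))
      ext s t
      fin_cases s <;> fin_cases t
      · exact h00
      · exact neg_eq_zero.mp h01
      · exact h10
      · exact h11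
    have hlast : u (e (Sum.inr 0)) = 0 := by
      have h1 : κ.symm (u (e (Sum.inr 0))) = 0 := by
        funext s
        exact congrFun hu (Sum.inr s)
      exact (LinearEquiv.map_eq_zero_iff κ.symm).mp h1
    funext j
    obtain ⟨s, rfl⟩ := e.surjective j
    rcases s with j' | z
    · obtain ⟨s', rfl⟩ := e'.surjective j'
      rcases s' with i | i
      · exact (hinj2 _ _ ((hA u i).symm.trans (hAz i))).1
      · exact (hinj2 _ _ ((hA u i).symm.trans (hAz i))).2
    · rw [Subsingleton.elim z 0]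
      exact hlast
  have hdim : Module.finrank F (Fin m → K) =
      Module.finrank F (((Fin k ⊕ Fin k) ⊕ (Fin k ⊕ Fin k)) ⊕ Fin 2 → F) := by
    rw [Module.finrank_pi_fintype, Module.finrank_fintype_fun_eq_card]
    simp only [hfr, Finset.sum_const, Finset.card_univ, Fintype.card_fin, Fintype.card_sum,
      smul_eq_mul]
    omega
  let Λ : (Fin m → K) ≃ₗ[F] ((Fin n ⊕ Fin n) ⊕ Fin 2 → F) :=
    (Λ'.linearEquivOfInjective hΛ'inj hdim).trans
      (LinearEquiv.funCongrLeft F F
        (Equiv.sumCongr (Equiv.sumCongr e' e') (Equiv.refl (Fin 2))).symm)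
  refine ⟨Λ, ?_⟩
  intro u
  have hl : ∀ j, Λ u (Sum.inl (Sum.inl j)) = Λ' u (Sum.inl (Sum.inl (e'.symm j))) := fun j => rfl
  have hr : ∀ j, Λ u (Sum.inl (Sum.inr j)) = Λ' u (Sum.inl (Sum.inr (e'.symm j))) := fun j => rfl
  have hz : ∀ s, Λ u (Sum.inr s) = κ.symm (u (e (Sum.inr 0))) s := fun s => rfl
  unfold Cfsg.quadFormMinus
  simp_rw [hl, hr, hz]
  rw [Equiv.sum_comp e'.symm (fun s => Λ' u (Sum.inl (Sum.inl s)) * Λ' u (Sum.inl (Sum.inr s))),
    Fintype.sum_sum_type]
  rw [← Equiv.sum_comp e (fun j => (ρ (u j)).det), Fintype.sum_sum_type,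
    ← Equiv.sum_comp e' (fun j => (ρ (u (e (Sum.inl j)))).det), Fintype.sum_sum_type,
    Fin.sum_univ_one, ← Finset.sum_add_distrib, ← Finset.sum_add_distrib]
  congr 1
  · apply Finset.sum_congr rfl
    intro i _
    rw [← hdet, ← hA]
    show A u i 0 0 * A u i 1 1 + -(A u i 0 1) * A u i 1 0 = (A u i).det
    rw [Matrix.det_fin_two]
    ring
  · have h1 := hκ (κ.symm (u (e (Sum.inr 0))))
    rw [κ.apply_symm_apply] at h1
    exact h1.symm

/-- For m odd, the unitary group GU_m(q) (over the field with q² elements) embeds in the orthogonal group O⁻_2m(q) of an elliptic form (Σ_(i<m−1) x_i y_i plus an anisotropic binary form) over the field with q elements (there is an injective homomorphism). -/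
theorem result {K F : Type*} [Field K] [Fintype K] [Field F] [Fintype F] {q : ℕ} (hK : Fintype.card K = q ^ 2) (hF : Fintype.card F = q) (m : ℕ) (hm : Odd m) (a b : F) (hab : ∀ z₁ z₂ : F, z₁ ^ 2 + a * z₁ * z₂ + b * z₂ ^ 2 = 0 → z₁ = 0 ∧ z₂ = 0) : ∃ φ : ↥(Cfsg.GU m K q) →* ↥(Cfsg.isometryGroup F (Cfsg.quadFormMinus (m - 1) F a b)), Function.Injective φ := by
  classical
  obtain ⟨k, hk⟩ := hm
  subst hk
  obtain ⟨ι⟩ := Cfsg.Agent.S2678.exists_emb (F := K) (K := F) 2 (by rw [hF, hK])
  letI : Algebra F K := ι.toAlgebra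
  have hq2 : 2 ≤ q := by rw [← hF]; exact Fintype.one_lt_card
  have hfr : Module.finrank F K = 2 := by
    have h := Module.card_eq_pow_finrank (K := F) (V := K)
    rw [hK, hF] at h
    exact (Nat.pow_right_injective hq2 h).symm
  obtain ⟨bs⟩ : Nonempty (Module.Basis (Fin 2) F K) := ⟨Module.finBasisOfFinrankEq F K hfr⟩
  have hρq : ∀ x : K, Algebra.leftMulMatrix bs (x ^ q) =
      (Algebra.leftMulMatrix bs x).trace • (1 : Matrix (Fin 2) (Fin 2) F) -
        Algebra.leftMulMatrix bs x := by
    intro x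
    have h1 := FiniteField.algebraMap_trace_eq_sum_pow (K := F) (L := K) (x := x)
    rw [hfr, Finset.sum_range_succ, Finset.sum_range_one, pow_zero, pow_one, pow_one,
      Nat.card_eq_fintype_card, hF] at h1
    have h2 : x ^ q = algebraMap F K (Algebra.trace F K x) - x := by rw [h1]; ring
    rw [h2, map_sub, AlgHom.commutes, Algebra.algebraMap_eq_smul_one,
      Algebra.trace_eq_matrix_trace bs]
  have hinj := Algebra.leftMulMatrix_injective bs
  have hk₀ : ∃ k₀ : K, (Algebra.leftMulMatrix bs k₀).trace ≠ 0 := by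
    by_contra hcon
    push_neg at hcon
    have h1 : ∀ x : K, x ^ q = -x := by
      intro x
      apply hinj
      rw [hρq, hcon, zero_smul, zero_sub, map_neg]
    have h2 : (1 : K) = -1 := by
      have := h1 1
      rwa [one_pow] at this
    have h3 : ∀ x : K, x ^ q = x := by
      intro x
      rw [h1 x]
      calc -x = (-1) * x := by ring
        _ = 1 * x := by rw [← h2]
        _ = x := one_mul x
    have hne : (Polynomial.X ^ q - Polynomial.X : Polynomial K) ≠ 0 :=
      FiniteField.X_pow_card_sub_X_ne_zero K (by omega)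
    have hsub : (Finset.univ : Finset K).val ⊆
        (Polynomial.X ^ q - Polynomial.X : Polynomial K).roots := by
      intro x _
      rw [Polynomial.mem_roots hne, Polynomial.IsRoot.def]
      simp [h3 x]
    have hle := Polynomial.card_le_degree_of_subset_roots hsub
    rw [Finset.card_univ, hK, FiniteField.X_pow_card_sub_X_natDegree_eq K (by omega)] at hle
    nlinarith
  obtain ⟨k₀, hk₀⟩ := hk₀
  obtain ⟨T, Tinv, hT1, hT2, hTt, hρT⟩ := Cfsg.Agent.S2678.exists_T bs
  have hdetT : T.det ≠ 0 := by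
    have h := congrArg Matrix.det hT1
    rw [Matrix.det_mul, Matrix.det_one] at h
    exact left_ne_zero_of_mul_eq_one h
  obtain ⟨e₀, he₀⟩ := FiniteField.norm_surjective F K (T.det)⁻¹
  rw [Algebra.norm_eq_matrix_det bs] at he₀
  have hΩS : ∀ S : Matrix (Fin 2) (Fin 2) F, S.transpose = S →
      ((!![0, 1; -1, 0] : Matrix (Fin 2) (Fin 2) F) * S).trace = 0 := by
    intro S hS
    have h01 : S 1 0 = S 0 1 := by
      have := congrFun (congrFun hS 0) 1
      simpa [Matrix.transpose_apply] using this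
    rw [Matrix.trace_fin_two, Matrix.mul_apply, Matrix.mul_apply, Fin.sum_univ_two,
      Fin.sum_univ_two]
    simp [h01]
  have hX2 : ∀ k' : K, (Algebra.leftMulMatrix bs k' *
      (!![0, 1; -1, 0] * T * Algebra.leftMulMatrix bs e₀)).trace = 0 := by
    intro k'
    rw [Matrix.trace_mul_comm, Matrix.mul_assoc, Matrix.mul_assoc, ← map_mul]
    apply hΩS
    rw [Matrix.transpose_mul, hTt, hρT]
  have hX1 : (!![0, 1; -1, 0] * T * Algebra.leftMulMatrix bs e₀).det = 1 := by
    rw [Matrix.det_mul, Matrix.det_mul, he₀]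
    have : (!![0, 1; -1, 0] : Matrix (Fin 2) (Fin 2) F).det = 1 := by simp [Matrix.det_fin_two]
    rw [this, one_mul, mul_inv_cancel₀ hdetT]
  have hN : ∀ x : K, algebraMap F K (Algebra.leftMulMatrix bs x).det = x * x ^ q := by
    intro x
    apply hinj
    rw [map_mul, hρq, AlgHom.commutes, Algebra.algebraMap_eq_smul_one]
    exact Cfsg.Agent.S2640.cayley2 _
  obtain ⟨r, hr⟩ := Cfsg.Agent.S2641.exists_root (F := F) (K := K) q hF hK (-a) b (by
    intro z₁ z₂ h
    have := hab z₁ (-z₂) (by linear_combination h)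
    exact ⟨this.1, neg_eq_zero.mp this.2⟩)
  rw [map_neg, neg_mul, sub_neg_eq_add] at hr
  -- trace and determinant of r
  have hρr : Algebra.leftMulMatrix bs r * Algebra.leftMulMatrix bs r +
      a • Algebra.leftMulMatrix bs r + b • (1 : Matrix (Fin 2) (Fin 2) F) = 0 := by
    have h := congrArg (Algebra.leftMulMatrix bs) hr
    rw [map_add, map_add, map_mul, map_mul, AlgHom.commutes, AlgHom.commutes, map_zero,
      Algebra.algebraMap_eq_smul_one, Algebra.algebraMap_eq_smul_one, Matrix.smul_mul,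
      Matrix.one_mul] at h
    exact h
  have hCH : Algebra.leftMulMatrix bs r * Algebra.leftMulMatrix bs r =
      (Algebra.leftMulMatrix bs r).trace • Algebra.leftMulMatrix bs r -
        (Algebra.leftMulMatrix bs r).det • (1 : Matrix (Fin 2) (Fin 2) F) := by
    rw [Cfsg.Agent.S2640.cayley2, Matrix.mul_sub, Matrix.mul_smul, Matrix.mul_one]
    abel
  have hlin : ((Algebra.leftMulMatrix bs r).trace + a) • Algebra.leftMulMatrix bs r =
      ((Algebra.leftMulMatrix bs r).det - b) • (1 : Matrix (Fin 2) (Fin 2) F) := by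
    rw [hCH] at hρr
    rw [add_smul, sub_smul, ← sub_eq_zero, ← hρr]
    abel
  have htr : (Algebra.leftMulMatrix bs r).trace = -a := by
    by_contra hne
    have hne' : (Algebra.leftMulMatrix bs r).trace + a ≠ 0 := fun h => hne (eq_neg_of_add_eq_zero_left h)
    obtain ⟨c, hc⟩ : ∃ c : F, c = ((Algebra.leftMulMatrix bs r).trace + a)⁻¹ *
        ((Algebra.leftMulMatrix bs r).det - b) := ⟨_, rfl⟩
    have h1 : Algebra.leftMulMatrix bs r = Algebra.leftMulMatrix bs (algebraMap F K c) := by
      rw [AlgHom.commutes, Algebra.algebraMap_eq_smul_one, hc, mul_smul, ← hlin, smul_smul,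
        inv_mul_cancel₀ hne', one_smul]
    have h2 := hinj h1
    rw [h2, ← map_mul, ← map_mul, ← map_add, ← map_add] at hr
    have h3 := (algebraMap F K).injective (hr.trans (map_zero _).symm)
    have h4 := (hab c 1 (by linear_combination h3)).2
    exact one_ne_zero h4
  have hdt : (Algebra.leftMulMatrix bs r).det = b := by
    rw [htr, neg_add_cancel, zero_smul] at hlin
    have h1 := congrFun (congrFun hlin 0) 0
    simp at h1
    exact (sub_eq_zero.mp h1.symm)
  -- the coordinate equivalence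
  let κ₀ : (Fin 2 → F) →ₗ[F] K :=
    { toFun := fun z => z 0 • (1 : K) + z 1 • r
      map_add' := by
        intro z w
        simp only [Pi.add_apply, add_smul]
        abel
      map_smul' := by
        intro c z
        simp only [Pi.smul_apply, smul_eq_mul, mul_smul, RingHom.id_apply, smul_add] }
  have hκdet : ∀ z : Fin 2 → F, (Algebra.leftMulMatrix bs (κ₀ z)).det =
      z 0 ^ 2 + -a * z 0 * z 1 + b * z 1 ^ 2 := by
    intro z
    show (Algebra.leftMulMatrix bs (z 0 • (1 : K) + z 1 • r)).det = _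
    rw [map_add, map_smul, map_smul, map_one, Cfsg.Agent.S2641.det_lin2, htr, hdt]
    ring
  have hκinj : Function.Injective κ₀ := by
    rw [← LinearMap.ker_eq_bot, LinearMap.ker_eq_bot']
    intro z hz
    have h1 := hκdet z
    rw [hz, map_zero] at h1
    have hz0 : (0 : Matrix (Fin 2) (Fin 2) F).det = 0 := by simp [Matrix.det_fin_two]
    rw [hz0] at h1
    have h2 := hab (z 0) (-(z 1)) (by linear_combination -h1)
    funext s
    fin_cases s
    · exact h2.1
    · exact neg_eq_zero.mp h2.2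
  have hκdim : Module.finrank F (Fin 2 → F) = Module.finrank F K := by
    rw [Module.finrank_fintype_fun_eq_card, Fintype.card_fin, hfr]
  obtain ⟨κ, hκ⟩ : ∃ κ : (Fin 2 → F) ≃ₗ[F] K, ∀ z, κ z = κ₀ z :=
    ⟨κ₀.linearEquivOfInjective hκinj hκdim, fun z => rfl⟩
  -- reparametrise: the statement's form has +a, so flip the sign of the second coordinate
  let ν : (Fin 2 → F) ≃ₗ[F] (Fin 2 → F) :=
    LinearEquiv.ofInvolutive
      { toFun := fun z => ![z 0, -(z 1)]
        map_add' := by
          intro z w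
          funext s
          fin_cases s <;> simp [neg_add, add_comm]
        map_smul' := by
          intro c z
          funext s
          fin_cases s <;> simp }
      (by
        intro z
        funext s
        fin_cases s <;> simp)
  have hν0 : ∀ z : Fin 2 → F, ν z 0 = z 0 := fun z => rfl
  have hν1 : ∀ z : Fin 2 → F, ν z 1 = -(z 1) := fun z => rfl
  obtain ⟨Λ, hΛ⟩ := Cfsg.Agent.S2641.exists_Lam' hfr (Algebra.leftMulMatrix bs) q hρq _ hX1 hX2
    k₀ hk₀ a b (ν.trans κ) (by
      intro z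
      show (Algebra.leftMulMatrix bs (κ (ν z))).det = _
      rw [hκ, hκdet, hν0, hν1]
      ring) (2 * k + 1) (2 * k + 1 - 1) k (by omega) (by omega)
  exact Cfsg.Agent.S2641.emb_of_lin' (2 * k + 1) q _ Λ (fun u => by
    rw [hΛ, map_sum]
    exact Finset.sum_congr rfl (fun i _ => hN (u i)))

end Cfsg.Agent.S2641
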