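import Mathlib
import Cfsg.Statements.S2666

set_option autoImplicit false
open Cfsg

namespace Cfsg.Agent.S2666

theorem fix_pow {X : Type*} [Group X] (σ : MulAut X) (c : X) (h : σ c = c) (n : ℕ) :
    (σ ^ n) c = c := by
  induction n with
  | zero => simp
  | succ n ih => rw [pow_succ, MulAut.mul_apply, h, ih]

theorem pow_succ_apply {X : Type*} [Group X] (σ : MulAut X) (a : X) (n : ℕ) :
    (σ ^ (n + 1)) a = (σ ^ n) (σ a) := by
  rw [pow_succ, MulAut.mul_apply]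

theorem pow_succ_apply' {X : Type*} [Group X] (σ : MulAut X) (a : X) (n : ℕ) :
    (σ ^ (n + 1)) a = σ ((σ ^ n) a) := by
  rw [pow_succ', MulAut.mul_apply]

theorem tele {X : Type*} [Group X] (σ : MulAut X) (a : X) (d : ℕ) :
    ((List.range d).map (fun i => (σ ^ i) (a * (σ a)⁻¹))).prod = a * ((σ ^ d) a)⁻¹ := by
  induction d with
  | zero => simp
  | succ d ih =>
    rw [List.range_succ, List.map_append, List.prod_append, ih]
    simp only [List.map_cons, List.map_nil, List.prod_cons, List.prod_nil, mul_one, map_mul,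
      map_inv]
    rw [pow_succ_apply]
    group

/-- if `a σ(a)⁻¹` is fixed by `σ^e` then `σ^e(a)⁻¹ a` is fixed by `σ` -/
theorem x_fixed {X : Type*} [Group X] (σ : MulAut X) (e : ℕ) (a : X)
    (hg : (σ ^ e) (a * (σ a)⁻¹) = a * (σ a)⁻¹) :
    σ (((σ ^ e) a)⁻¹ * a) = ((σ ^ e) a)⁻¹ * a := by
  rw [map_mul, map_inv] at hg ⊢
  rw [← pow_succ_apply', pow_succ_apply]
  have h1 : ((σ ^ e) (σ a))⁻¹ = ((σ ^ e) a)⁻¹ * (a * (σ a)⁻¹) := by
    rw [← hg]; group
  rw [h1]; group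

/-- Shintani descent, in an abstract form. Let `σ` be an automorphism of a group `X` such that the maps `a ↦ a·σ(a)⁻¹` and `a ↦ a·σᵉ(a)⁻¹` are surjective on `X` (the Lang–Steinberg property, which holds when `X` is a connected algebraic group and `σ` a Steinberg endomorphism), where `e ≥ 1`. Write `G` for the subgroup of fixed points of `σᵉ` and `H` for the subgroup of fixed points of `σ`. The `G`-conjugacy classes in the coset `G σ` of the semidirect product of `G` by `σ` correspond to the orbits of `G` on itself under twisted conjugation `g ↦ k g σ(k)⁻¹`, and the `e`-th power of `g σ` has `G`-part the norm `g σ(g) ⋯ σ^(e-1)(g)`. For `g` in `G` and any `a` with `g = a σ(a)⁻¹`, put `x = σᵉ(a)⁻¹ a`. Then: (1) `x` lies in `H`, and `a⁻¹ · (g σ(g) ⋯ σ^(e-1)(g)) · a = x`; (2) for `g, g'` in `G` with such elements `a, b` and `x, x'`, the elements `g, g'` are twisted-conjugate under `G` if and only if `x, x'` are conjugate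 in `H`; (3) every element of `H` arises as such an `x`. So `g ↦ x` induces a well-defined bijection from the twisted `G`-classes of `G` onto the conjugacy classes of `H` (the Shintani map). -/
theorem result {X : Type*} [Group X] (σ : MulAut X) (e : ℕ) (he : 1 ≤ e)
    (hL : ∀ g : X, ∃ a : X, g = a * (σ a)⁻¹) (hLe : ∀ g : X, ∃ a : X, g = a * ((σ ^ e) a)⁻¹) :
    (∀ g ∈ (MulEquiv.toMonoidHom (σ ^ e)).eqLocus (MonoidHom.id X), ∀ a : X, g = a * (σ a)⁻¹ →
        ((σ ^ e) a)⁻¹ * a ∈ (MulEquiv.toMonoidHom σ).eqLocus (MonoidHom.id X) ∧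
          a⁻¹ * ((List.range e).map (fun i => (σ ^ i) g)).prod * a = ((σ ^ e) a)⁻¹ * a) ∧
    (∀ g ∈ (MulEquiv.toMonoidHom (σ ^ e)).eqLocus (MonoidHom.id X), ∀ g' ∈ (MulEquiv.toMonoidHom (σ ^ e)).eqLocus (MonoidHom.id X), ∀ a b : X,
        g = a * (σ a)⁻¹ → g' = b * (σ b)⁻¹ →
          ((∃ k ∈ (MulEquiv.toMonoidHom (σ ^ e)).eqLocus (MonoidHom.id X), g' = k * g * (σ k)⁻¹) ↔
            (∃ h ∈ (MulEquiv.toMonoidHom σ).eqLocus (MonoidHom.id X), ((σ ^ e) b)⁻¹ * b = h * (((σ ^ e) a)⁻¹ * a) * h⁻¹))) ∧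
    (∀ x ∈ (MulEquiv.toMonoidHom σ).eqLocus (MonoidHom.id X), ∃ g ∈ (MulEquiv.toMonoidHom (σ ^ e)).eqLocus (MonoidHom.id X), ∃ a : X,
        g = a * (σ a)⁻¹ ∧ ((σ ^ e) a)⁻¹ * a = x) := by
  refine ⟨?_, ?_, ?_⟩
  · intro g hg a ha
    have hg' : (σ ^ e) g = g := hg
    subst ha
    refine ⟨x_fixed σ e a hg', ?_⟩
    rw [tele]; group
  · intro g hg g' hg' a b ha hb
    have hg1 : (σ ^ e) g = g := hg
    have hg'1 : (σ ^ e) g' = g' := hg'
    subst ha hb
    constructor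
    · rintro ⟨k, hk, hkk⟩
      have hk1 : (σ ^ e) k = k := hk
      -- h = b⁻¹ k a is σ-fixed
      have h1 : σ (b⁻¹ * k * a) = b⁻¹ * k * a := by
        simp only [map_mul, map_inv]
        have h2 : (σ b)⁻¹ = b⁻¹ * (k * (a * (σ a)⁻¹) * (σ k)⁻¹) := by rw [← hkk]; group
        rw [h2]; group
      refine ⟨b⁻¹ * k * a, h1, ?_⟩
      have h3 : (σ ^ e) (b⁻¹ * k * a) = b⁻¹ * k * a := fix_pow σ _ h1 e
      simp only [map_mul, map_inv] at h3
      rw [hk1] at h3
      have h4 : ((σ ^ e) b)⁻¹ = b⁻¹ * k * a * ((σ ^ e) a)⁻¹ * k⁻¹ := by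
        rw [← h3]; group
      rw [h4]; group
    · rintro ⟨h, hh, hhh⟩
      have hh1 : σ h = h := hh
      have hh2 : (σ ^ e) h = h := fix_pow σ h hh1 e
      refine ⟨b * h * a⁻¹, ?_, ?_⟩
      · show (σ ^ e) (b * h * a⁻¹) = b * h * a⁻¹
        simp only [map_mul, map_inv]
        rw [hh2]
        have h5 : (σ ^ e) b = b * h * (((σ ^ e) a)⁻¹ * a)⁻¹ * h⁻¹ := by
          have : (σ ^ e) b = b * (((σ ^ e) b)⁻¹ * b)⁻¹ := by group
          rw [this, hhh]; group
        rw [h5]; group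
      · simp only [map_mul, map_inv]
        rw [hh1]; group
  · intro x hx
    have hx1 : σ x = x := hx
    obtain ⟨c, hc⟩ := hLe x⁻¹
    obtain ⟨d, hd⟩ : ∃ d : X, d = c⁻¹ := ⟨_, rfl⟩
    have hxc : ((σ ^ e) d)⁻¹ * d = x := by
      rw [hd, map_inv, inv_inv]
      have : x = (x⁻¹)⁻¹ := by group
      rw [this, hc]; group
    refine ⟨d * (σ d)⁻¹, ?_, d, rfl, hxc⟩
    show (σ ^ e) (d * (σ d)⁻¹) = d * (σ d)⁻¹
    have h6 : σ (((σ ^ e) d)⁻¹ * d) = ((σ ^ e) d)⁻¹ * d := by rw [hxc]; exact hx1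
    rw [map_mul, map_inv] at h6
    rw [← pow_succ_apply', pow_succ_apply] at h6
    rw [map_mul, map_inv]
    have h7 : ((σ ^ e) (σ d))⁻¹ = ((σ ^ e) d)⁻¹ * d * (σ d)⁻¹ := by
      rw [← h6]; group
    rw [h7]; group

end Cfsg.Agent.S2666
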