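import Mathlib
import Cfsg.Statements.S2668
import Cfsg.Agent.S2666

set_option autoImplicit false
open Cfsg

namespace Cfsg.Agent.S2668

/-- Shintani descent and powers (abstract form). Let `σ` be an automorphism of a group `X`, `e ≥ 1` and `d ≥ 1`, let `g` be fixed by `σᵉ` and let `a` satisfy `g = a σ(a)⁻¹`, so that the Shintani map of `(X, σ, e)` sends the class of `g σ` to the class of `x = σᵉ(a)⁻¹ a`. Put `h = g σ(g) ⋯ σ^(d-1)(g)`, the part in `X` of the `d`-th power `(g σ)^d = h σ^d`. Then `h = a σ^d(a)⁻¹` (so `a` also serves for `h` with respect to `σ^d`), `h` is fixed by `(σ^d)ᵉ`, and `(σ^d)ᵉ(a)⁻¹ a = x^d`: the Shintani map of `(X, σ^d, e)` sends the class of `(g σ)^d` to the class of `x^d`. (When `d` divides `e`, the Shintani map of `(X, σ^d, e/d)` sends it to the class of `x` itself, since `(σ^d)^(e/d) = σᵉ`.) -/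
theorem result {X : Type*} [Group X] (σ : MulAut X) (e d : ℕ) (he : 1 ≤ e) (hd : 1 ≤ d)
    (g : X) (hg : g ∈ (MulEquiv.toMonoidHom (σ ^ e)).eqLocus (MonoidHom.id X)) (a : X) (ha : g = a * (σ a)⁻¹) :
    ((List.range d).map (fun i => (σ ^ i) g)).prod = a * ((σ ^ d) a)⁻¹ ∧
      ((List.range d).map (fun i => (σ ^ i) g)).prod ∈ (MulEquiv.toMonoidHom ((σ ^ d) ^ e)).eqLocus (MonoidHom.id X) ∧
      (((σ ^ d) ^ e) a)⁻¹ * a = (((σ ^ e) a)⁻¹ * a) ^ d := by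
  have hg1 : (σ ^ e) g = g := hg
  subst ha
  have hx : σ (((σ ^ e) a)⁻¹ * a) = ((σ ^ e) a)⁻¹ * a := Cfsg.Agent.S2666.x_fixed σ e a hg1
  have hxe : ∀ n : ℕ, (σ ^ n) (((σ ^ e) a)⁻¹ * a) = ((σ ^ e) a)⁻¹ * a :=
    fun n => Cfsg.Agent.S2666.fix_pow σ _ hx n
  -- the third statement
  have h3 : ∀ j : ℕ, (((σ ^ e) ^ j) a)⁻¹ * a = (((σ ^ e) a)⁻¹ * a) ^ j := by
    intro j
    induction j with
    | zero => simp
    | succ j ih =>
      rw [pow_succ', MulAut.mul_apply, pow_succ']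
      have h4 : (σ ^ e) ((((σ ^ e) ^ j) a)⁻¹ * a) = (((σ ^ e) a)⁻¹ * a) ^ j := by
        rw [ih, map_pow, hxe e]
      rw [map_mul, map_inv] at h4
      have h5 : ((σ ^ e) (((σ ^ e) ^ j) a))⁻¹ = (((σ ^ e) a)⁻¹ * a) ^ j * ((σ ^ e) a)⁻¹ := by
        rw [← h4]; group
      rw [h5]
      have h6 : Commute ((((σ ^ e) a)⁻¹ * a) ^ j) (((σ ^ e) a)⁻¹ * a) :=
        (Commute.refl _).pow_left j
      calc (((σ ^ e) a)⁻¹ * a) ^ j * ((σ ^ e) a)⁻¹ * a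
          = (((σ ^ e) a)⁻¹ * a) ^ j * (((σ ^ e) a)⁻¹ * a) := by group
        _ = ((σ ^ e) a)⁻¹ * a * (((σ ^ e) a)⁻¹ * a) ^ j := h6.eq
  have hpow : (σ ^ d) ^ e = (σ ^ e) ^ d := by
    rw [← pow_mul, ← pow_mul, mul_comm]
  have key : ((σ ^ d) ^ e) (a * ((σ ^ d) a)⁻¹) = a * ((σ ^ d) a)⁻¹ := by
    rw [hpow]
    -- (σ^e)^d fixes a σ^d(a)⁻¹
    have h7 : ((σ ^ e) ^ d) (a * ((σ ^ d) a)⁻¹) = ((σ ^ e) ^ d) a * ((σ ^ d) (((σ ^ e) ^ d) a))⁻¹ := by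
      rw [map_mul, map_inv]
      congr 2
      rw [← MulAut.mul_apply, ← MulAut.mul_apply]
      congr 1
      rw [← pow_mul, ← pow_add, ← pow_add, add_comm]
    rw [h7]
    have h8 : ((σ ^ e) ^ d) a = a * ((((σ ^ e) a)⁻¹ * a) ^ d)⁻¹ := by
      rw [← h3 d]; group
    rw [h8, map_mul, map_inv, map_pow, hxe d]
    group
  refine ⟨Cfsg.Agent.S2666.tele σ a d, ?_, ?_⟩
  · rw [Cfsg.Agent.S2666.tele σ a d]
    exact key
  · rw [hpow]; exact h3 d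

end Cfsg.Agent.S2668
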