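import Mathlib
import Cfsg.Statements.S2669
import Cfsg.Agent.S2666

set_option autoImplicit false
open Cfsg

namespace Cfsg.Agent.S2669

theorem card_fib {α X : Type*} [Group X] (S : Subgroup X) (P : α → X → Prop)
    (h1 : ∀ k, ∃ c, P k c) (h2 : ∀ k c c', P k c → (P k c' ↔ c⁻¹ * c' ∈ S)) :
    Nat.card {p : α × X // P p.1 p.2} = Nat.card α * Nat.card S := by
  classical
  choose c₀ hc₀ using h1
  rw [← Nat.card_prod]
  apply Nat.card_congr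
  exact
    { toFun := fun p => (p.1.1, ⟨(c₀ p.1.1)⁻¹ * p.1.2, (h2 _ _ _ (hc₀ _)).mp p.2⟩)
      invFun := fun q => ⟨(q.1, c₀ q.1 * q.2.1), (h2 _ _ _ (hc₀ _)).mpr (by simpa using q.2.2)⟩
      left_inv := fun p => Subtype.ext (Prod.ext rfl (by simp))
      right_inv := fun q => Prod.ext rfl (Subtype.ext (by simp)) }

theorem Ypow {X : Type*} [Group X] (σ : MulAut X) (Y : Subgroup X) (hY : ∀ y : X, y ∈ Y ↔ σ y ∈ Y)
    (n : ℕ) (y : X) (hy : y ∈ Y) : (σ ^ n) y ∈ Y := by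
  induction n with
  | zero => simpa using hy
  | succ n ih =>
    rw [Cfsg.Agent.S2666.pow_succ_apply']
    exact (hY _).mp ih

theorem L1 {X : Type*} [Group X] (σ : MulAut X) (a k c : X)
    (h : k⁻¹ * (a * (σ a)⁻¹) * σ k = c * (σ c)⁻¹) : σ (a⁻¹ * k * c) = a⁻¹ * k * c := by
  simp only [map_mul, map_inv]
  have h1 : σ k = σ a * a⁻¹ * k * (k⁻¹ * (a * (σ a)⁻¹) * σ k) := by group
  rw [h1, h]; group

theorem L2 {X : Type*} [Group X] (σ : MulAut X) (e : ℕ) (a k c : X) (hk : (σ ^ e) k = k)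
    (h : k⁻¹ * (a * (σ a)⁻¹) * σ k = c * (σ c)⁻¹) :
    (a⁻¹ * k * c)⁻¹ * (((σ ^ e) a)⁻¹ * a) * (a⁻¹ * k * c) = ((σ ^ e) c)⁻¹ * c := by
  have h1 := Cfsg.Agent.S2666.fix_pow σ _ (L1 σ a k c h) e
  simp only [map_mul, map_inv] at h1
  rw [hk] at h1
  have h2 : ((σ ^ e) a)⁻¹ = a⁻¹ * k * c * ((σ ^ e) c)⁻¹ * k⁻¹ := by
    rw [← h1]; group
  rw [h2]; group

theorem L3 {X : Type*} [Group X] (σ : MulAut X) (e : ℕ) (a h d : X) (hh : σ h = h)
    (hd : h⁻¹ * (((σ ^ e) a)⁻¹ * a) * h = (σ ^ e) d * d⁻¹) :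
    (σ ^ e) (a * h * d) = a * h * d := by
  have hh2 : (σ ^ e) h = h := Cfsg.Agent.S2666.fix_pow σ h hh e
  simp only [map_mul]
  rw [hh2]
  have h1 : (σ ^ e) d = (h⁻¹ * (((σ ^ e) a)⁻¹ * a) * h) * d := by rw [hd]; group
  rw [h1]; group

theorem L4 {X : Type*} [Group X] (σ : MulAut X) (a h d : X) (hh : σ h = h) :
    (a * h * d)⁻¹ * (a * (σ a)⁻¹) * σ (a * h * d) = d⁻¹ * (σ d⁻¹)⁻¹ := by
  simp only [map_mul, map_inv]
  rw [hh]; group

/-- Shintani descent preserves numbers of fixed points on coset spaces (abstract form). Let `σ` be an automorphism of a group `X` and `e ≥ 1`; write `G` for the fixed points of `σᵉ` and `H` for the fixed points of `σ`, and assume `G` is finite. Let `Y` be a `σ`-stable subgroup of `X` on which the maps `a ↦ a σ(a)⁻¹` and `a ↦ a σᵉ(a)⁻¹` are surjective (as for a closed connected `σ`-stable subgroup of an algebraic group). Let `g ∈ G`, let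 `a ∈ X` satisfy `g = a σ(a)⁻¹` and put `x = σᵉ(a)⁻¹ a` (the Shintani image, an element of `H`). The element `g σ` of the semidirect product acts on the cosets of `Y ∩ G` in `G` by `k (Y ∩ G) ↦ g σ(k) (Y ∩ G)`, fixing that coset exactly when `k⁻¹ g σ(k) ∈ Y`; and `x` fixes the coset `h (Y ∩ H)` of `H` exactly when `h⁻¹ x h ∈ Y`. Then the two numbers of fixed cosets agree; in cross-multiplied form, `#{k ∈ G : k⁻¹ g σ(k) ∈ Y} · |Y ∩ H| = #{h ∈ H : h⁻¹ x h ∈ Y} · |Y ∩ G|`. -/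
theorem result {X : Type*} [Group X] (σ : MulAut X) (e : ℕ) (he : 1 ≤ e)
    [Finite ↥((MulEquiv.toMonoidHom (σ ^ e)).eqLocus (MonoidHom.id X))]
    (Y : Subgroup X) (hY : ∀ y : X, y ∈ Y ↔ σ y ∈ Y)
    (hYL : ∀ y ∈ Y, ∃ a ∈ Y, y = a * (σ a)⁻¹) (hYLe : ∀ y ∈ Y, ∃ a ∈ Y, y = a * ((σ ^ e) a)⁻¹)
    (g : X) (hg : g ∈ (MulEquiv.toMonoidHom (σ ^ e)).eqLocus (MonoidHom.id X)) (a : X) (ha : g = a * (σ a)⁻¹) :
    Nat.card {k : ↥((MulEquiv.toMonoidHom (σ ^ e)).eqLocus (MonoidHom.id X)) // (k : X)⁻¹ * g * σ k ∈ Y} *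
        Nat.card ↥(Y ⊓ (MulEquiv.toMonoidHom σ).eqLocus (MonoidHom.id X)) =
      Nat.card {h : ↥((MulEquiv.toMonoidHom σ).eqLocus (MonoidHom.id X)) // (h : X)⁻¹ * (((σ ^ e) a)⁻¹ * a) * h ∈ Y} *
        Nat.card ↥(Y ⊓ (MulEquiv.toMonoidHom (σ ^ e)).eqLocus (MonoidHom.id X)) := by
  subst ha
  -- the two relations
  let PA : {k : ↥((MulEquiv.toMonoidHom (σ ^ e)).eqLocus (MonoidHom.id X)) //
      (k : X)⁻¹ * (a * (σ a)⁻¹) * σ k ∈ Y} → X → Prop :=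
    fun k c => c ∈ Y ∧ (k.1 : X)⁻¹ * (a * (σ a)⁻¹) * σ k.1 = c * (σ c)⁻¹
  let PB : {h : ↥((MulEquiv.toMonoidHom σ).eqLocus (MonoidHom.id X)) //
      (h : X)⁻¹ * (((σ ^ e) a)⁻¹ * a) * h ∈ Y} → X → Prop :=
    fun h d => d ∈ Y ∧ (h.1 : X)⁻¹ * (((σ ^ e) a)⁻¹ * a) * h.1 = (σ ^ e) d * d⁻¹
  have hA := card_fib (Y ⊓ (MulEquiv.toMonoidHom σ).eqLocus (MonoidHom.id X)) PA
    (by
      intro k
      obtain ⟨c, hc, hc2⟩ := hYL _ k.2
      exact ⟨c, hc, hc2⟩)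
    (by
      rintro k c c' ⟨hc, hc2⟩
      constructor
      · rintro ⟨hc', hc'2⟩
        refine ⟨Y.mul_mem (Y.inv_mem hc) hc', ?_⟩
        show σ (c⁻¹ * c') = c⁻¹ * c'
        rw [map_mul, map_inv]
        have h1 : σ c' = (c' * (σ c')⁻¹)⁻¹ * c' := by group
        have h2 : (σ c)⁻¹ = c⁻¹ * (c * (σ c)⁻¹) := by group
        rw [h1, h2, ← hc'2, ← hc2]; group
      · rintro ⟨hs, hs2⟩
        have hs3 : σ (c⁻¹ * c') = c⁻¹ * c' := hs2
        have hc' : c' ∈ Y := by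
          have : c' = c * (c⁻¹ * c') := by group
          rw [this]; exact Y.mul_mem hc hs
        refine ⟨hc', ?_⟩
        rw [hc2]
        rw [map_mul, map_inv] at hs3
        have h1 : σ c' = σ c * ((σ c)⁻¹ * σ c') := by group
        rw [h1, hs3]; group)
  have hB := card_fib (Y ⊓ (MulEquiv.toMonoidHom (σ ^ e)).eqLocus (MonoidHom.id X)) PB
    (by
      intro h
      obtain ⟨c, hc, hc2⟩ := hYLe _ (Y.inv_mem h.2)
      refine ⟨c, hc, ?_⟩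
      have : (h.1 : X)⁻¹ * (((σ ^ e) a)⁻¹ * a) * h.1 =
          (((h.1 : X)⁻¹ * (((σ ^ e) a)⁻¹ * a) * h.1)⁻¹)⁻¹ := by group
      rw [this, hc2]; group)
    (by
      rintro h d d' ⟨hd, hd2⟩
      constructor
      · rintro ⟨hd', hd'2⟩
        refine ⟨Y.mul_mem (Y.inv_mem hd) hd', ?_⟩
        show (σ ^ e) (d⁻¹ * d') = d⁻¹ * d'
        rw [map_mul, map_inv]
        have h1 : (σ ^ e) d' = ((σ ^ e) d' * d'⁻¹) * d' := by group
        have h2 : ((σ ^ e) d)⁻¹ = d⁻¹ * ((σ ^ e) d * d⁻¹)⁻¹ := by group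
        rw [h1, h2, ← hd'2, ← hd2]; group
      · rintro ⟨hs, hs2⟩
        have hs3 : (σ ^ e) (d⁻¹ * d') = d⁻¹ * d' := hs2
        have hd' : d' ∈ Y := by
          have : d' = d * (d⁻¹ * d') := by group
          rw [this]; exact Y.mul_mem hd hs
        refine ⟨hd', ?_⟩
        rw [hd2]
        rw [map_mul, map_inv] at hs3
        have h1 : (σ ^ e) d' = (σ ^ e) d * (((σ ^ e) d)⁻¹ * (σ ^ e) d') := by group
        rw [h1, hs3]; group)
  rw [← hA, ← hB]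
  apply Nat.card_congr
  exact
    { toFun := fun p =>
        ⟨(⟨⟨a⁻¹ * (p.1.1.1 : X) * p.1.2, L1 σ a _ _ p.2.2⟩, by
            show (a⁻¹ * (p.1.1.1 : X) * p.1.2)⁻¹ * (((σ ^ e) a)⁻¹ * a) * (a⁻¹ * (p.1.1.1 : X) * p.1.2) ∈ Y
            rw [L2 σ e a _ _ p.1.1.1.2 p.2.2]
            exact Y.mul_mem (Y.inv_mem (Ypow σ Y hY e _ p.2.1)) p.2.1⟩, (p.1.2)⁻¹), by
          refine ⟨Y.inv_mem p.2.1, ?_⟩
          show (a⁻¹ * (p.1.1.1 : X) * p.1.2)⁻¹ * (((σ ^ e) a)⁻¹ * a) * (a⁻¹ * (p.1.1.1 : X) * p.1.2) =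
            (σ ^ e) (p.1.2)⁻¹ * ((p.1.2)⁻¹)⁻¹
          rw [L2 σ e a _ _ p.1.1.1.2 p.2.2, map_inv, inv_inv]⟩
      invFun := fun q =>
        ⟨(⟨⟨a * (q.1.1.1 : X) * q.1.2, L3 σ e a _ _ q.1.1.1.2 q.2.2⟩, by
            show (a * (q.1.1.1 : X) * q.1.2)⁻¹ * (a * (σ a)⁻¹) * σ (a * (q.1.1.1 : X) * q.1.2) ∈ Y
            rw [L4 σ a _ _ q.1.1.1.2]
            exact Y.mul_mem (Y.inv_mem q.2.1) (Y.inv_mem ((hY _).mp (Y.inv_mem q.2.1)))⟩, (q.1.2)⁻¹), by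
          refine ⟨Y.inv_mem q.2.1, ?_⟩
          show (a * (q.1.1.1 : X) * q.1.2)⁻¹ * (a * (σ a)⁻¹) * σ (a * (q.1.1.1 : X) * q.1.2) =
            (q.1.2)⁻¹ * (σ (q.1.2)⁻¹)⁻¹
          exact L4 σ a _ _ q.1.1.1.2⟩
      left_inv := fun p => by
        apply Subtype.ext
        apply Prod.ext
        · apply Subtype.ext
          apply Subtype.ext
          show a * (a⁻¹ * (p.1.1.1 : X) * p.1.2) * (p.1.2)⁻¹ = p.1.1.1
          group
        · show ((p.1.2)⁻¹)⁻¹ = p.1.2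
          group
      right_inv := fun q => by
        apply Subtype.ext
        apply Prod.ext
        · apply Subtype.ext
          apply Subtype.ext
          show a⁻¹ * (a * (q.1.1.1 : X) * q.1.2) * (q.1.2)⁻¹ = q.1.1.1
          group
        · show ((q.1.2)⁻¹)⁻¹ = q.1.2
          group }

end Cfsg.Agent.S2669
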