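import Cfsg.Statements.S2679
import Mathlib
import Cfsg.Agent.S2678
import Cfsg.Agent.S2641
-- import your own Cfsg.Agent.* helpers here

set_option autoImplicit false
open Cfsg

namespace Cfsg.Agent.S2679

theorem base_change {F K : Type*} [Field F] [Field K] [Algebra F K]
    (bs : Module.Basis (Fin 2) F K) (n : ℕ) (a c : F)
    (g : Matrix ((Fin n ⊕ Fin n) ⊕ Fin 2) ((Fin n ⊕ Fin n) ⊕ Fin 2) F)
    (hg : ∀ x, Cfsg.quadFormMinus n F a c (g.mulVec x) = Cfsg.quadFormMinus n F a c x)
    (w : (Fin n ⊕ Fin n) ⊕ Fin 2 → K) :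
    Cfsg.quadFormMinus n K (algebraMap F K a) (algebraMap F K c)
        ((g.map (algebraMap F K)).mulVec w) =
      Cfsg.quadFormMinus n K (algebraMap F K a) (algebraMap F K c) w := by
  classical
  have hexp : ∀ (X Y : (Fin n ⊕ Fin n) ⊕ Fin 2 → K) (s t : K),
      Cfsg.quadFormMinus n K (algebraMap F K a) (algebraMap F K c) (s • X + t • Y) =
        s ^ 2 * Cfsg.quadFormMinus n K (algebraMap F K a) (algebraMap F K c) X +
        s * t * (Cfsg.quadFormMinus n K (algebraMap F K a) (algebraMap F K c) (X + Y) -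
          Cfsg.quadFormMinus n K (algebraMap F K a) (algebraMap F K c) X -
          Cfsg.quadFormMinus n K (algebraMap F K a) (algebraMap F K c) Y) +
        t ^ 2 * Cfsg.quadFormMinus n K (algebraMap F K a) (algebraMap F K c) Y := by
    intro X Y s t
    unfold Cfsg.quadFormMinus
    simp only [Pi.add_apply, Pi.smul_apply, smul_eq_mul]
    have e1 : ∑ i : Fin n, (s * X (Sum.inl (Sum.inl i)) + t * Y (Sum.inl (Sum.inl i))) *
        (s * X (Sum.inl (Sum.inr i)) + t * Y (Sum.inl (Sum.inr i))) =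
        s ^ 2 * ∑ i : Fin n, X (Sum.inl (Sum.inl i)) * X (Sum.inl (Sum.inr i)) +
        s * t * (∑ i : Fin n, (X (Sum.inl (Sum.inl i)) + Y (Sum.inl (Sum.inl i))) *
          (X (Sum.inl (Sum.inr i)) + Y (Sum.inl (Sum.inr i))) -
          ∑ i : Fin n, X (Sum.inl (Sum.inl i)) * X (Sum.inl (Sum.inr i)) -
          ∑ i : Fin n, Y (Sum.inl (Sum.inl i)) * Y (Sum.inl (Sum.inr i))) +
        t ^ 2 * ∑ i : Fin n, Y (Sum.inl (Sum.inl i)) * Y (Sum.inl (Sum.inr i)) := by
      simp only [Finset.mul_sum, ← Finset.sum_sub_distrib, ← Finset.sum_add_distrib]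
      apply Finset.sum_congr rfl
      intro i _
      ring
    rw [e1]
    ring
  have hmapvec : ∀ x : (Fin n ⊕ Fin n) ⊕ Fin 2 → F,
      (g.map (algebraMap F K)).mulVec (fun i => algebraMap F K (x i)) =
        fun i => algebraMap F K ((g.mulVec x) i) := by
    intro x
    funext i
    simp [Matrix.mulVec, dotProduct, map_sum, map_mul]
  have hQι : ∀ x : (Fin n ⊕ Fin n) ⊕ Fin 2 → F,
      Cfsg.quadFormMinus n K (algebraMap F K a) (algebraMap F K c)
        (fun i => algebraMap F K (x i)) = algebraMap F K (Cfsg.quadFormMinus n F a c x) := by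
    intro x
    unfold Cfsg.quadFormMinus
    simp [map_add, map_mul, map_pow, map_sum]
  have hadd : ∀ x y : (Fin n ⊕ Fin n) ⊕ Fin 2 → F,
      ((fun i => algebraMap F K (x i)) + (fun i => algebraMap F K (y i)) :
        (Fin n ⊕ Fin n) ⊕ Fin 2 → K) = fun i => algebraMap F K ((x + y) i) := by
    intro x y
    funext i
    simp
  obtain ⟨x, hx⟩ : ∃ x : (Fin n ⊕ Fin n) ⊕ Fin 2 → F, ∀ i, x i = bs.repr (w i) 0 :=
    ⟨fun i => bs.repr (w i) 0, fun i => rfl⟩
  obtain ⟨y, hy⟩ : ∃ y : (Fin n ⊕ Fin n) ⊕ Fin 2 → F, ∀ i, y i = bs.repr (w i) 1 :=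
    ⟨fun i => bs.repr (w i) 1, fun i => rfl⟩
  have hw : w = bs 0 • (fun i => algebraMap F K (x i)) + bs 1 • (fun i => algebraMap F K (y i)) := by
    funext i
    have h := bs.sum_repr (w i)
    rw [Fin.sum_univ_two] at h
    show w i = bs 0 * algebraMap F K (x i) + bs 1 * algebraMap F K (y i)
    rw [hx, hy]
    conv_lhs => rw [← h]
    rw [Algebra.smul_def, Algebra.smul_def]
    ring
  have hgw : (g.map (algebraMap F K)).mulVec w =
      bs 0 • (fun i => algebraMap F K ((g.mulVec x) i)) +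
        bs 1 • (fun i => algebraMap F K ((g.mulVec y) i)) := by
    conv_lhs => rw [hw]
    rw [Matrix.mulVec_add, Matrix.mulVec_smul, Matrix.mulVec_smul, hmapvec, hmapvec]
  rw [hgw, hexp, hadd, hQι, hQι, hQι]
  conv_rhs => rw [hw, hexp, hadd, hQι, hQι, hQι]
  rw [hg, hg, ← Matrix.mulVec_add, hg]

theorem exists_Lam2 {K : Type*} [Field K] (a' c' r r' : K) (hs : r + r' = -a')
    (hp : r * r' = c') (hne : r ≠ r') (m n : ℕ) (hm : n + 1 = m) :
    ∃ Λ : ((Fin n ⊕ Fin n) ⊕ Fin 2 → K) ≃ₗ[K] (Fin m ⊕ Fin m → K),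
      ∀ w, Cfsg.quadFormPlus m K (Λ w) = Cfsg.quadFormMinus n K a' c' w := by
  classical
  let e : Fin n ⊕ Fin 1 ≃ Fin m := finSumFinEquiv.trans (finCongr hm)
  let Λ' : ((Fin n ⊕ Fin n) ⊕ Fin 2 → K) →ₗ[K] ((Fin n ⊕ Fin 1) ⊕ (Fin n ⊕ Fin 1) → K) :=
    { toFun := fun w => Sum.elim
        (Sum.elim (fun i => w (Sum.inl (Sum.inl i))) (fun _ => w (Sum.inr 0) - r * w (Sum.inr 1)))
        (Sum.elim (fun i => w (Sum.inl (Sum.inr i))) (fun _ => w (Sum.inr 0) - r' * w (Sum.inr 1)))
      map_add' := by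
        intro u v
        funext t
        rcases t with (i | z) | (i | z)
        · rfl
        · show (u + v) (Sum.inr 0) - r * (u + v) (Sum.inr 1) =
            (u (Sum.inr 0) - r * u (Sum.inr 1)) + (v (Sum.inr 0) - r * v (Sum.inr 1))
          simp only [Pi.add_apply]
          ring
        · rfl
        · show (u + v) (Sum.inr 0) - r' * (u + v) (Sum.inr 1) =
            (u (Sum.inr 0) - r' * u (Sum.inr 1)) + (v (Sum.inr 0) - r' * v (Sum.inr 1))
          simp only [Pi.add_apply]
          ring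
      map_smul' := by
        intro s u
        funext t
        rcases t with (i | z) | (i | z)
        · rfl
        · show (s • u) (Sum.inr 0) - r * (s • u) (Sum.inr 1) =
            s • (u (Sum.inr 0) - r * u (Sum.inr 1))
          simp only [Pi.smul_apply, smul_eq_mul]
          ring
        · rfl
        · show (s • u) (Sum.inr 0) - r' * (s • u) (Sum.inr 1) =
            s • (u (Sum.inr 0) - r' * u (Sum.inr 1))
          simp only [Pi.smul_apply, smul_eq_mul]
          ring }
  have hinj : Function.Injective Λ' := by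
    rw [← LinearMap.ker_eq_bot, LinearMap.ker_eq_bot']
    intro w hw
    have h1 : ∀ i, w (Sum.inl (Sum.inl i)) = 0 := fun i => congrFun hw (Sum.inl (Sum.inl i))
    have h2 : ∀ i, w (Sum.inl (Sum.inr i)) = 0 := fun i => congrFun hw (Sum.inr (Sum.inl i))
    have h3 : w (Sum.inr 0) - r * w (Sum.inr 1) = 0 := congrFun hw (Sum.inl (Sum.inr 0))
    have h4 : w (Sum.inr 0) - r' * w (Sum.inr 1) = 0 := congrFun hw (Sum.inr (Sum.inr 0))
    have h5 : w (Sum.inr 1) = 0 := by
      have : (r - r') * w (Sum.inr 1) = 0 := by linear_combination h4 - h3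
      exact (mul_eq_zero.mp this).resolve_left (sub_ne_zero.mpr hne)
    have h6 : w (Sum.inr 0) = 0 := by
      rw [h5, mul_zero, sub_zero] at h3
      exact h3
    funext t
    rcases t with (i | i) | s
    · exact h1 i
    · exact h2 i
    · fin_cases s
      · exact h6
      · exact h5
  have hdim : Module.finrank K ((Fin n ⊕ Fin n) ⊕ Fin 2 → K) =
      Module.finrank K ((Fin n ⊕ Fin 1) ⊕ (Fin n ⊕ Fin 1) → K) := by
    rw [Module.finrank_fintype_fun_eq_card, Module.finrank_fintype_fun_eq_card]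
    simp only [Fintype.card_sum, Fintype.card_fin]
    omega
  let Λ : ((Fin n ⊕ Fin n) ⊕ Fin 2 → K) ≃ₗ[K] (Fin m ⊕ Fin m → K) :=
    (Λ'.linearEquivOfInjective hinj hdim).trans
      (LinearEquiv.funCongrLeft K K (Equiv.sumCongr e e).symm)
  refine ⟨Λ, ?_⟩
  intro w
  have hl : ∀ j, Λ w (Sum.inl j) = Λ' w (Sum.inl (e.symm j)) := fun j => rfl
  have hr' : ∀ j, Λ w (Sum.inr j) = Λ' w (Sum.inr (e.symm j)) := fun j => rfl
  unfold Cfsg.quadFormPlus Cfsg.quadFormMinus
  simp_rw [hl, hr']
  rw [Equiv.sum_comp e.symm (fun s => Λ' w (Sum.inl s) * Λ' w (Sum.inr s)),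
    Fintype.sum_sum_type, Fin.sum_univ_one]
  refine congrArg₂ (· + ·) rfl ?_
  show (w (Sum.inr 0) - r * w (Sum.inr 1)) * (w (Sum.inr 0) - r' * w (Sum.inr 1)) = _
  linear_combination (-(w (Sum.inr 0) * w (Sum.inr 1))) * hs + (w (Sum.inr 1)) ^ 2 * hp

theorem emb_of_lin2 {F K : Type*} [Field F] [Field K] [Algebra F K]
    {I J : Type} [Fintype I] [DecidableEq I] [Fintype J] [DecidableEq J]
    (QF : (I → F) → F) (QK : (I → K) → K) (QJ : (J → K) → K)
    (hbc : ∀ g : Matrix I I F, (∀ x, QF (g.mulVec x) = QF x) →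
      ∀ w, QK ((g.map (algebraMap F K)).mulVec w) = QK w)
    (Λ : (I → K) ≃ₗ[K] (J → K)) (hΛ : ∀ w, QJ (Λ w) = QK w) :
    ∃ φ : ↥(Cfsg.isometryGroup F QF) →* ↥(Cfsg.isometryGroup K QJ), Function.Injective φ := by
  classical
  obtain ⟨L, hL⟩ : ∃ L : Matrix I I F → ((J → K) →ₗ[K] (J → K)),
      ∀ A v, L A v = Λ ((A.map (algebraMap F K)).mulVec (Λ.symm v)) :=
    ⟨fun A => (Λ : (I → K) →ₗ[K] (J → K)) ∘ₗ (Matrix.toLin' (A.map (algebraMap F K))) ∘ₗ
      (Λ.symm : (J → K) →ₗ[K] (I → K)), fun A v => rfl⟩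
  have hLmul : ∀ A B, L (A * B) = L A ∘ₗ L B := by
    intro A B
    apply LinearMap.ext
    intro v
    rw [LinearMap.comp_apply, hL, hL, hL, Λ.symm_apply_apply, Matrix.mulVec_mulVec,
      Matrix.map_mul]
  have hLone : L 1 = LinearMap.id := by
    apply LinearMap.ext
    intro v
    rw [hL, Matrix.map_one _ (map_zero _) (map_one _), Matrix.one_mulVec, Λ.apply_symm_apply,
      LinearMap.id_apply]
  let Ψ : Matrix I I F →* Matrix J J K :=
    { toFun := fun A => LinearMap.toMatrix' (L A)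
      map_one' := by rw [hLone, LinearMap.toMatrix'_id]
      map_mul' := fun A B => by rw [hLmul, LinearMap.toMatrix'_comp] }
  have hΨv : ∀ A v, (Ψ A).mulVec v = Λ ((A.map (algebraMap F K)).mulVec (Λ.symm v)) := by
    intro A v
    show (LinearMap.toMatrix' (L A)).mulVec v = _
    rw [← Matrix.toLin'_apply, Matrix.toLin'_toMatrix', hL]
  have hΨinj : Function.Injective Ψ := by
    intro A B h
    have hm : A.map (algebraMap F K) = B.map (algebraMap F K) := by
      apply Matrix.toLin'.injective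
      apply LinearMap.ext
      intro w
      have h1 := congrArg (fun M : Matrix J J K => M.mulVec (Λ w)) h
      simp only [hΨv, Λ.symm_apply_apply] at h1
      rw [Matrix.toLin'_apply, Matrix.toLin'_apply]
      exact Λ.injective h1
    ext i j
    exact (algebraMap F K).injective (congrFun (congrFun hm i) j)
  have hmem : ∀ g : ↥(Cfsg.isometryGroup F QF),
      Units.map Ψ g.1 ∈ Cfsg.isometryGroup K QJ := by
    intro g
    have hg : ∀ u v : I → F, QF ((g.1 : Matrix I I F).mulVec u) = QF u := g.2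
    have key : ∀ u v : J → K, QJ ((Ψ (g.1 : Matrix I I F)).mulVec u) = QJ u := by
      intro u v
      rw [hΨv, hΛ, hbc _ (fun x => hg x x)]
      conv_rhs => rw [← Λ.apply_symm_apply u, hΛ]
    exact key
  refine ⟨{ toFun := fun g => ⟨Units.map Ψ g.1, hmem g⟩
            map_one' := Subtype.ext (map_one _)
            map_mul' := fun a b => Subtype.ext (map_mul _ _ _) }, ?_⟩
  intro a b h
  have h1 : Units.map Ψ a.1 = Units.map Ψ b.1 := congrArg Subtype.val h
  have h2 : Ψ (a.1 : Matrix I I F) = Ψ (b.1 : Matrix I I F) := congrArg Units.val h1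
  exact Subtype.ext (Units.ext (hΨinj h2))

/-- An elliptic orthogonal group embeds in the hyperbolic orthogonal group of the same dimension over the quadratic extension: for a field F with q elements and a field K with q² elements there is an injective homomorphism from O⁻_2m(F) (isometries of Σ_(j<m−1) x_j y_j + z₁² + a z₁z₂ + c z₂², binary part anisotropic) to O⁺_2m(K) (isometries of Σ_(j<m) x_j y_j over K). -/
theorem result {F K : Type*} [Field F] [Fintype F] [Field K] [Fintype K] {q : ℕ} (hF : Fintype.card F = q) (hK : Fintype.card K = q ^ 2) {m : ℕ} (hm : 1 ≤ m) (a c : F) (hac : ∀ z₁ z₂ : F, z₁ ^ 2 + a * z₁ * z₂ + c * z₂ ^ 2 = 0 → z₁ = 0 ∧ z₂ = 0) : ∃ φ : ↥(Cfsg.isometryGroup F (Cfsg.quadFormMinus (m - 1) F a c)) →* ↥(Cfsg.isometryGroup K (Cfsg.quadFormPlus m K)), Function.Injective φ := by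
  classical
  obtain ⟨ι⟩ := Cfsg.Agent.S2678.exists_emb (F := K) (K := F) 2 (by rw [hF, hK])
  letI : Algebra F K := ι.toAlgebra
  have hq2 : 2 ≤ q := by rw [← hF]; exact Fintype.one_lt_card
  have hfr : Module.finrank F K = 2 := by
    have h := Module.card_eq_pow_finrank (K := F) (V := K)
    rw [hK, hF] at h
    exact (Nat.pow_right_injective hq2 h).symm
  obtain ⟨bs⟩ : Nonempty (Module.Basis (Fin 2) F K) := ⟨Module.finBasisOfFinrankEq F K hfr⟩
  obtain ⟨r, hr⟩ := Cfsg.Agent.S2641.exists_root (F := F) (K := K) q hF hK (-a) c (by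
    intro z₁ z₂ h
    have := hac z₁ (-z₂) (by linear_combination h)
    exact ⟨this.1, neg_eq_zero.mp this.2⟩)
  rw [map_neg, neg_mul, sub_neg_eq_add] at hr
  have hrr : r + r ≠ -(algebraMap F K a) := by
    intro h
    by_cases h2 : ringChar F = 2
    · have h2F : (2 : F) = 0 := by
        have := CharP.cast_eq_zero F (ringChar F)
        rw [h2] at this
        exact_mod_cast this
      have h2K : (2 : K) = 0 := by
        have := congrArg (algebraMap F K) h2F
        rwa [map_ofNat, map_zero] at this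
      have hrr0 : r + r = 0 := by rw [← two_mul, h2K, zero_mul]
      have ha0 : a = 0 := by
        apply (algebraMap F K).injective
        rw [map_zero]
        rw [hrr0] at h
        exact neg_eq_zero.mp h.symm
      obtain ⟨s, hs⟩ := FiniteField.isSquare_of_char_two h2 c
      have h5 := (hac (-s) 1 (by rw [ha0, hs]; linear_combination (s * s) * h2F)).2
      exact one_ne_zero h5
    · have h2F : (2 : F) ≠ 0 := Ring.two_ne_zero h2
      have h2K : (2 : K) ≠ 0 := by
        intro h0
        apply h2F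
        apply (algebraMap F K).injective
        rw [map_ofNat, map_zero]
        exact h0
      have h4 : r = algebraMap F K (-a * 2⁻¹) := by
        rw [map_mul, map_neg, map_inv₀, map_ofNat]
        field_simp
        linear_combination h
      rw [h4, ← map_mul, ← map_mul, ← map_add, ← map_add] at hr
      have h3 := (algebraMap F K).injective (hr.trans (map_zero _).symm)
      have h5 := (hac (-a * 2⁻¹) 1 (by linear_combination h3)).2
      exact one_ne_zero h5
  obtain ⟨Λ, hΛ⟩ := Cfsg.Agent.S2679.exists_Lam2 (algebraMap F K a) (algebraMap F K c) r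
    (-(algebraMap F K a) - r) (by ring) (by linear_combination -hr)
    (fun h => hrr (by linear_combination h)) m (m - 1) (by omega)
  exact Cfsg.Agent.S2679.emb_of_lin2 (Cfsg.quadFormMinus (m - 1) F a c)
    (Cfsg.quadFormMinus (m - 1) K (algebraMap F K a) (algebraMap F K c))
    (Cfsg.quadFormPlus m K)
    (fun g hg w => Cfsg.Agent.S2679.base_change bs (m - 1) a c g hg w) Λ hΛ

end Cfsg.Agent.S2679
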