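import Mathlib
import Cfsg.Statements.S2738

set_option autoImplicit false
open Cfsg

namespace Cfsg.Agent.S2738

/-- The special linear group SL(3, 4) has centre of order 3 and does not split over it: no subgroup is a complement to the centre (so SL(3, 4) is a non-split central extension of PSL(3, 4) by a group of order 3). -/
theorem result (F : Type*) [Field F] [Fintype F] (hF : Fintype.card F = 4) : Nat.card ↥(Subgroup.center (Matrix.SpecialLinearGroup (Fin 3) F)) = 3 ∧ ¬ ∃ K : Subgroup (Matrix.SpecialLinearGroup (Fin 3) F), Subgroup.IsComplement' (Subgroup.center (Matrix.SpecialLinearGroup (Fin 3) F)) K := by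
  classical
  obtain ⟨ω, hω0, hω1⟩ : ∃ ω : F, ω ≠ 0 ∧ ω ≠ 1 := by
    by_contra hcon
    push_neg at hcon
    have : Fintype.card F ≤ 2 := by
      have hsub : (Finset.univ : Finset F) ⊆ {0, 1} := by
        intro x _
        by_cases hx : x = 0
        · simp [hx]
        · simp [hcon x hx]
      calc Fintype.card F = (Finset.univ : Finset F).card := Finset.card_univ.symm
        _ ≤ ({0, 1} : Finset F).card := Finset.card_le_card hsub
        _ ≤ 2 := Finset.card_le_two
    omega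
  have hω3 : ω ^ 3 = 1 := by
    have := FiniteField.pow_card_sub_one_eq_one ω hω0
    rwa [hF] at this
  haveI : Fact (Nat.Prime 3) := ⟨by norm_num⟩
  have hprim : IsPrimitiveRoot ω 3 := by
    have ho : orderOf ω = 3 := orderOf_eq_prime hω3 hω1
    rw [← ho]; exact IsPrimitiveRoot.orderOf ω
  constructor
  · have e := Matrix.SpecialLinearGroup.center_equiv_rootsOfUnity (n := Fin 3) (R := F)
    rw [Nat.card_congr e.toEquiv]
    simp only [Fintype.card_fin]
    exact hprim.card_rootsOfUnity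
  · rintro ⟨K, hK⟩
    let x : Matrix.SpecialLinearGroup (Fin 3) F :=
      ⟨!![1, 0, 0; 0, ω, 0; 0, 0, ω ^ 2], by
        rw [Matrix.det_fin_three]; simp; linear_combination hω3⟩
    let y : Matrix.SpecialLinearGroup (Fin 3) F :=
      ⟨!![0, 1, 0; 0, 0, 1; 1, 0, 0], by
        rw [Matrix.det_fin_three]; simp⟩
    let c : Matrix.SpecialLinearGroup (Fin 3) F :=
      ⟨!![ω ^ 2, 0, 0; 0, ω ^ 2, 0; 0, 0, ω ^ 2], by
        rw [Matrix.det_fin_three]; simp; linear_combination (ω ^ 3 + 1) * hω3⟩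
    have hM : (!![1, 0, 0; 0, ω, 0; 0, 0, ω ^ 2] : Matrix (Fin 3) (Fin 3) F) * !![0, 1, 0; 0, 0, 1; 1, 0, 0]
        = !![ω ^ 2, 0, 0; 0, ω ^ 2, 0; 0, 0, ω ^ 2] *
          (!![0, 1, 0; 0, 0, 1; 1, 0, 0] * !![1, 0, 0; 0, ω, 0; 0, 0, ω ^ 2]) := by
      ext i j
      fin_cases i <;> fin_cases j <;> simp [Matrix.mul_apply, Fin.sum_univ_three]
      · linear_combination (-1 : F) * hω3
      · linear_combination (-ω) * hω3
    have hxy : x * y = c * (y * x) := Subtype.ext hM
    have hcZ : c ∈ Subgroup.center (Matrix.SpecialLinearGroup (Fin 3) F) := by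
      rw [Matrix.SpecialLinearGroup.mem_center_iff]
      refine ⟨ω ^ 2, ?_, ?_⟩
      · simp only [Fintype.card_fin]; linear_combination (ω ^ 3 + 1) * hω3
      · ext i j
        fin_cases i <;> fin_cases j <;> simp [c, Matrix.scalar]
    have hc1 : c ≠ 1 := by
      intro h
      have h1 : (c : Matrix (Fin 3) (Fin 3) F) 0 0 = (1 : Matrix (Fin 3) (Fin 3) F) 0 0 := by
        rw [h]; rfl
      simp [c] at h1
      rcases h1 with h1 | h1
      · exact hω1 h1
      · have h5 : (-1 : F) = 1 := by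
          have := hω3
          rw [h1] at this
          linear_combination this
        exact hω1 (h1.trans h5)
    obtain ⟨⟨z₁, k₁⟩, h1, -⟩ := Subgroup.IsComplement.existsUnique hK x
    obtain ⟨⟨z₂, k₂⟩, h2, -⟩ := Subgroup.IsComplement.existsUnique hK y
    simp only at h1 h2
    have hz1 : ∀ g : Matrix.SpecialLinearGroup (Fin 3) F, g * z₁.1 = z₁.1 * g :=
      fun g => Subgroup.mem_center_iff.mp z₁.2 g
    have hz2 : ∀ g : Matrix.SpecialLinearGroup (Fin 3) F, g * z₂.1 = z₂.1 * g :=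
      fun g => Subgroup.mem_center_iff.mp z₂.2 g
    have hcc : ∀ g : Matrix.SpecialLinearGroup (Fin 3) F, g * c = c * g :=
      fun g => Subgroup.mem_center_iff.mp hcZ g
    have h3 : k₁.1 * k₂.1 = c * (k₂.1 * k₁.1) := by
      have e1 : x * y = z₁.1 * z₂.1 * (k₁.1 * k₂.1) := by
        rw [← h1, ← h2]
        calc z₁.1 * k₁.1 * (z₂.1 * k₂.1) = z₁.1 * (k₁.1 * z₂.1) * k₂.1 := by group
          _ = z₁.1 * (z₂.1 * k₁.1) * k₂.1 := by rw [hz2]
          _ = z₁.1 * z₂.1 * (k₁.1 * k₂.1) := by group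
      have e2 : c * (y * x) = z₁.1 * z₂.1 * (c * (k₂.1 * k₁.1)) := by
        rw [← h1, ← h2]
        calc c * (z₂.1 * k₂.1 * (z₁.1 * k₁.1)) = c * (z₂.1 * (k₂.1 * z₁.1) * k₁.1) := by group
          _ = c * (z₂.1 * (z₁.1 * k₂.1) * k₁.1) := by rw [hz1]
          _ = (c * z₂.1) * z₁.1 * (k₂.1 * k₁.1) := by group
          _ = (z₂.1 * c) * z₁.1 * (k₂.1 * k₁.1) := by rw [hz2]
          _ = z₂.1 * (c * z₁.1) * (k₂.1 * k₁.1) := by group
          _ = z₂.1 * (z₁.1 * c) * (k₂.1 * k₁.1) := by rw [hz1]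
          _ = (z₂.1 * z₁.1) * (c * (k₂.1 * k₁.1)) := by group
          _ = (z₁.1 * z₂.1) * (c * (k₂.1 * k₁.1)) := by rw [hz1]
      have e3 := hxy
      rw [e1, e2] at e3
      exact mul_left_cancel e3
    have hcK : c ∈ K := by
      have : c = k₁.1 * k₂.1 * (k₂.1 * k₁.1)⁻¹ := by rw [h3]; group
      rw [this]
      exact K.mul_mem (K.mul_mem k₁.2 k₂.2) (K.inv_mem (K.mul_mem k₂.2 k₁.2))
    exact hc1 (Subgroup.disjoint_def.mp hK.disjoint hcZ hcK)

end Cfsg.Agent.S2738
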