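import Mathlib
import Cfsg.Statements.S2758
import Cfsg.Agent.S0206

set_option autoImplicit false
open Cfsg

namespace Cfsg.Agent.S2758

/-- the rotation subgroup of the dihedral group -/
def rot (n : ℕ) : Subgroup (DihedralGroup n) where
  carrier := Set.range DihedralGroup.r
  mul_mem' := by
    rintro _ _ ⟨i, rfl⟩ ⟨j, rfl⟩
    exact ⟨i + j, (DihedralGroup.r_mul_r i j).symm⟩
  one_mem' := ⟨0, DihedralGroup.r_zero⟩
  inv_mem' := by
    rintro _ ⟨i, rfl⟩
    exact ⟨-i, (DihedralGroup.inv_r i).symm⟩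

open DihedralGroup in
instance rot_normal (n : ℕ) : (rot n).Normal := by
  constructor
  rintro _ ⟨i, rfl⟩ g
  rcases g with j | j
  · rw [inv_r, r_mul_r, r_mul_r]; exact ⟨_, rfl⟩
  · rw [inv_sr, sr_mul_r, sr_mul_sr]; exact ⟨_, rfl⟩

open DihedralGroup in
theorem sr_pow_odd {n : ℕ} (j : ZMod n) (m : ℕ) (hm : ¬ 2 ∣ m) : (sr j) ^ m = sr j := by
  obtain ⟨q, hq⟩ : ∃ q, m = 2 * q + 1 := ⟨m / 2, by omega⟩
  rw [hq, pow_succ, pow_mul, pow_two, sr_mul_self, one_pow, one_mul]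

open DihedralGroup in
theorem norm_of_involves {G : Type*} [Group G] [Finite G] {p : ℕ} [Fact p.Prime] (hp : p ≠ 2)
    (h : Cfsg.Involves (DihedralGroup p) G) :
    ∃ (x : G) (P : Subgroup G), (∃ k : ℕ, orderOf x = 2 ^ k) ∧ IsPGroup p ↥P ∧
      x ∈ Subgroup.normalizer (P : Set G) ∧ x ∉ Subgroup.centralizer (P : Set G) := by
  classical
  have hpp : p.Prime := Fact.out
  obtain ⟨K, R, hnorm, ⟨e⟩⟩ := h
  haveI := hnorm
  let φ : K →* DihedralGroup p := e.toMonoidHom.comp (QuotientGroup.mk' (R.subgroupOf K))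
  have hφ : Function.Surjective φ := e.surjective.comp (QuotientGroup.mk'_surjective _)
  set L : Subgroup K := (rot p).comap φ with hL
  haveI hLn : L.Normal := inferInstance
  have hmemL : ∀ g : K, g ∈ L ↔ ∃ i, r i = φ g := fun g => Iff.rfl
  -- a `p`-element `w'` mapping to a nontrivial rotation
  obtain ⟨w, hw⟩ := hφ (r 1)
  obtain ⟨a, m, hm, ham⟩ := Nat.exists_eq_pow_mul_and_not_dvd (orderOf_pos w).ne' p hpp.ne_one
  have hm0 : m ≠ 0 := by rintro rfl; exact hm (dvd_zero p)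
  set w' := w ^ m with hw'
  have hw'ord : orderOf w' = p ^ a := by
    rw [hw', orderOf_pow_of_dvd hm0 (by rw [ham]; exact dvd_mul_left _ _), ham,
      Nat.mul_div_cancel _ (Nat.pos_of_ne_zero hm0)]
  have hφw' : φ w' = r (m : ZMod p) := by
    rw [hw', map_pow, hw, r_one_pow]
  have hw'L : w' ∈ L := (hmemL w').2 ⟨_, hφw'.symm⟩
  have hm' : (m : ZMod p) ≠ 0 := by
    rw [Ne, ZMod.natCast_eq_zero_iff]
    exact hm
  have hZp : IsPGroup p (Subgroup.zpowers (⟨w', hw'L⟩ : L)) := by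
    apply IsPGroup.of_card (n := a)
    rw [Nat.card_zpowers, Subgroup.orderOf_mk, hw'ord]
  obtain ⟨P, hP⟩ := hZp.exists_le_sylow
  have hfr := Sylow.normalizer_sup_eq_top P
  set P' : Subgroup K := (P : Subgroup L).map L.subtype with hP'
  have hw'P : w' ∈ P' := by
    rw [hP']
    exact ⟨⟨w', hw'L⟩, hP (Subgroup.mem_zpowers _), rfl⟩
  -- a preimage of a reflection in the normalizer
  obtain ⟨t, ht⟩ := hφ (sr 0)
  have htmem : t ∈ Subgroup.normalizer (P' : Set K) ⊔ L := by rw [hfr]; trivial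
  obtain ⟨n, hn, l, hl, rfl⟩ := Subgroup.mem_sup_of_normal_right.1 htmem
  obtain ⟨i, hi⟩ := (hmemL l).1 hl
  have hφn : φ n = sr (0 + -i) := by
    have h1 : φ n = φ (n * l) * (φ l)⁻¹ := by rw [map_mul]; group
    rw [h1, ht, ← hi, inv_r, sr_mul_r]
  obtain ⟨a2, m2, hm2, ham2⟩ := Nat.exists_eq_pow_mul_and_not_dvd (orderOf_pos n).ne' 2 (by norm_num)
  have hm20 : m2 ≠ 0 := by rintro rfl; exact hm2 (dvd_zero 2)
  set x := n ^ m2 with hx
  have hxord : orderOf x = 2 ^ a2 := by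
    rw [hx, orderOf_pow_of_dvd hm20 (by rw [ham2]; exact dvd_mul_left _ _), ham2,
      Nat.mul_div_cancel _ (Nat.pos_of_ne_zero hm20)]
  have hφx : φ x = sr (0 + -i) := by
    rw [hx, map_pow, hφn, sr_pow_odd _ _ hm2]
  have hxN : x ∈ Subgroup.normalizer (P' : Set K) := Subgroup.pow_mem _ hn _
  have hxC : ¬ (w' * x = x * w') := by
    intro hc
    have h1 := congrArg φ hc
    rw [map_mul, map_mul, hφx, hφw', r_mul_sr, sr_mul_r] at h1
    have h2 : (0 + -i - (m : ZMod p)) = 0 + -i + (m : ZMod p) := by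
      injection h1
    have h3 : (2 : ZMod p) * (m : ZMod p) = 0 := by linear_combination -h2
    rcases mul_eq_zero.1 h3 with h4 | h4
    · have : ((2 : ℕ) : ZMod p) = 0 := by exact_mod_cast h4
      rw [ZMod.natCast_eq_zero_iff] at this
      exact hp ((Nat.prime_dvd_prime_iff_eq hpp Nat.prime_two).1 this)
    · exact hm' h4
  refine ⟨(x : G), P'.map K.subtype, ⟨a2, ?_⟩, ?_, ?_, ?_⟩
  · rw [Subgroup.orderOf_coe, hxord]
  · exact (P.isPGroup'.map _).map _
  · have h1 : (x : G) ∈ (Subgroup.normalizer (P' : Set K)).map K.subtype := ⟨x, hxN, rfl⟩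
    exact Subgroup.le_normalizer_map _ h1
  · intro hcen
    apply hxC
    have h2 : (w' : G) ∈ ((P'.map K.subtype : Subgroup G) : Set G) := ⟨w', hw'P, rfl⟩
    have h3 := hcen (w' : G) h2
    exact Subtype.ext h3

theorem inverted_of_norm {G : Type*} [Group G] [Finite G] {p : ℕ} [Fact p.Prime]
    (x : G) (P : Subgroup G) (hx : ∃ k : ℕ, orderOf x = 2 ^ k) (hP : IsPGroup p P)
    (hN : x ∈ Subgroup.normalizer (P : Set G)) (hC : x ∉ Subgroup.centralizer (P : Set G)) :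
    ∃ x y : G, (∃ k : ℕ, orderOf x = 2 ^ k) ∧ (∃ k : ℕ, orderOf y = p ^ k) ∧ y ≠ 1 ∧
      x * y * x⁻¹ = y⁻¹ := by
  classical
  obtain ⟨k, hk⟩ := hx
  have hex : ∃ j, x ^ (2 ^ j) ∈ Subgroup.centralizer (P : Set G) :=
    ⟨k, by rw [← hk, pow_orderOf_eq_one]; exact Subgroup.one_mem _⟩
  have hjspec := Nat.find_spec hex
  have hj0 : Nat.find hex ≠ 0 := by
    intro h0
    rw [h0, pow_zero, pow_one] at hjspec
    exact hC hjspec
  obtain ⟨i, hi⟩ := Nat.exists_eq_succ_of_ne_zero hj0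
  have hmin : x ^ (2 ^ i) ∉ Subgroup.centralizer (P : Set G) :=
    Nat.find_min hex (by omega)
  set x' := x ^ (2 ^ i) with hx'
  have hx'2 : x' ^ 2 ∈ Subgroup.centralizer (P : Set G) := by
    rw [hx', ← pow_mul, ← pow_succ, ← Nat.succ_eq_add_one, ← hi]; exact hjspec
  have hx'N : x' ∈ Subgroup.normalizer (P : Set G) := Subgroup.pow_mem _ hN _
  have hu : ∃ u ∈ P, u * x' ≠ x' * u := by
    by_contra hcon
    push_neg at hcon
    exact hmin (fun u hu => hcon u hu)
  obtain ⟨u, hu, hux⟩ := hu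
  have hyP : u * x' * u⁻¹ * x'⁻¹ ∈ P := by
    have h1 : x' * u⁻¹ * x'⁻¹ ∈ P := (Subgroup.mem_normalizer_iff.1 hx'N u⁻¹).1 (P.inv_mem hu)
    have h2 := P.mul_mem hu h1
    have h3 : u * (x' * u⁻¹ * x'⁻¹) = u * x' * u⁻¹ * x'⁻¹ := by group
    rw [← h3]; exact h2
  refine ⟨x', u * x' * u⁻¹ * x'⁻¹, ?_, ?_, ?_, ?_⟩
  · have hd : orderOf x' ∣ 2 ^ k := by
      rw [← hk]; exact orderOf_pow_dvd _
    obtain ⟨m, -, hm⟩ := (Nat.dvd_prime_pow Nat.prime_two).1 hd
    exact ⟨m, hm⟩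
  · obtain ⟨m, hm⟩ := hP ⟨_, hyP⟩
    have hm' : (u * x' * u⁻¹ * x'⁻¹) ^ (p ^ m) = 1 := by
      have := congrArg Subtype.val hm
      simpa using this
    obtain ⟨m', -, hm''⟩ := (Nat.dvd_prime_pow Fact.out).1 (orderOf_dvd_of_pow_eq_one hm')
    exact ⟨m', hm''⟩
  · intro h
    apply hux
    have h1 : u * x' * u⁻¹ * x'⁻¹ * (x' * u) = x' * u := by rw [h, one_mul]
    rw [← h1]; group
  · have hc : u⁻¹ * x' ^ 2 = x' ^ 2 * u⁻¹ := hx'2 u⁻¹ (P.inv_mem hu)
    have key : x' * u⁻¹ * x'⁻¹ * x'⁻¹ = x'⁻¹ * u⁻¹ := by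
      calc x' * u⁻¹ * x'⁻¹ * x'⁻¹ = x'⁻¹ * (x' ^ 2 * u⁻¹) * (x' ^ 2)⁻¹ := by group
        _ = x'⁻¹ * (u⁻¹ * x' ^ 2) * (x' ^ 2)⁻¹ := by rw [hc]
        _ = x'⁻¹ * u⁻¹ := by group
    calc x' * (u * x' * u⁻¹ * x'⁻¹) * x'⁻¹ = x' * u * (x' * u⁻¹ * x'⁻¹ * x'⁻¹) := by group
      _ = x' * u * (x'⁻¹ * u⁻¹) := by rw [key]
      _ = (u * x' * u⁻¹ * x'⁻¹)⁻¹ := by group

theorem involves_of_inverted {G : Type*} [Group G] [Finite G] {p : ℕ} [Fact p.Prime] (hp : p ≠ 2)
    (x y : G) (hy : ∃ k : ℕ, orderOf y = p ^ k) (hy1 : y ≠ 1)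
    (hinv : x * y * x⁻¹ = y⁻¹) : Cfsg.Involves (DihedralGroup p) G := by
  classical
  have hpp : p.Prime := Fact.out
  obtain ⟨k, hk⟩ := hy
  have hk0 : k ≠ 0 := by
    rintro rfl
    rw [pow_zero, orderOf_eq_one_iff] at hk
    exact hy1 hk
  obtain ⟨j, rfl⟩ := Nat.exists_eq_succ_of_ne_zero hk0
  set y' := y ^ (p ^ j) with hy'
  have hy'p : y' ^ p = 1 := by
    rw [hy', ← pow_mul, ← pow_succ, ← Nat.succ_eq_add_one, ← hk, pow_orderOf_eq_one]
  have hy'1 : y' ≠ 1 := by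
    rw [hy']
    apply pow_ne_one_of_lt_orderOf (pow_pos hpp.pos j).ne'
    rw [hk]
    exact Nat.pow_lt_pow_right hpp.one_lt (Nat.lt_succ_self j)
  have hinv' : x * y' * x⁻¹ = y'⁻¹ := by
    rw [hy', ← inv_pow, ← hinv, conj_pow]
  -- `x` does not commute with `y'`
  have hcontra : x * y' = y' * x → False := by
    intro hc
    have h1 : y' = y'⁻¹ := by
      rw [← hinv', hc]; group
    have h2 : y' ^ 2 = 1 := by
      rw [pow_two]
      nth_rewrite 2 [h1]
      exact mul_inv_cancel y'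
    have h3 : orderOf y' ∣ Nat.gcd 2 p := Nat.dvd_gcd (orderOf_dvd_of_pow_eq_one h2) (orderOf_dvd_of_pow_eq_one hy'p)
    have h4 : Nat.gcd 2 p = 1 := by
      rw [Nat.coprime_primes Nat.prime_two hpp |>.2 (Ne.symm hp)]
    rw [h4, Nat.dvd_one, orderOf_eq_one_iff] at h3
    exact hy'1 h3
  have hx2y : x ^ 2 * y' = y' * x ^ 2 := by
    have h1 : x * y' = y'⁻¹ * x := by rw [← hinv']; group
    have h3 : x * y'⁻¹ * x⁻¹ = y' := by
      calc x * y'⁻¹ * x⁻¹ = (x * y' * x⁻¹)⁻¹ := by group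
        _ = y' := by rw [hinv', inv_inv]
    have h2 : x * y'⁻¹ = y' * x := by
      calc x * y'⁻¹ = (x * y'⁻¹ * x⁻¹) * x := by group
        _ = y' * x := by rw [h3]
    calc x ^ 2 * y' = x * (x * y') := by rw [pow_two, mul_assoc]
      _ = x * (y'⁻¹ * x) := by rw [h1]
      _ = (x * y'⁻¹) * x := by rw [mul_assoc]
      _ = y' * x * x := by rw [h2]
      _ = y' * x ^ 2 := by rw [pow_two, mul_assoc]
  set K : Subgroup G := Subgroup.closure {x, y'} with hK
  set R : Subgroup G := Subgroup.zpowers (x ^ 2) with hR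
  have hxK : x ∈ K := Subgroup.subset_closure (by simp)
  have hyK : y' ∈ K := Subgroup.subset_closure (by simp)
  -- elements of `R` commute with `x` and `y'`
  have hRx : ∀ g ∈ R, g * x = x * g := by
    intro g hg
    obtain ⟨i, rfl⟩ := Subgroup.mem_zpowers_iff.1 hg
    have : Commute (x ^ 2) x := (Commute.refl x).pow_left 2
    exact (this.zpow_left i).eq
  have hRy : ∀ g ∈ R, g * y' = y' * g := by
    intro g hg
    obtain ⟨i, rfl⟩ := Subgroup.mem_zpowers_iff.1 hg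
    have : Commute (x ^ 2) y' := hx2y
    exact (this.zpow_left i).eq
  have hRK : ∀ g ∈ R, ∀ h ∈ K, g * h = h * g := by
    intro g hg h hh
    refine Subgroup.closure_induction (p := fun h _ => g * h = h * g) ?_ ?_ ?_ ?_ hh
    · intro h hh
      rcases hh with rfl | hh
      · exact hRx g hg
      · rw [Set.mem_singleton_iff] at hh
        rw [hh]; exact hRy g hg
    · simp
    · intro a b _ _ ha hb
      rw [← mul_assoc, ha, mul_assoc, hb, mul_assoc]
    · intro a _ ha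
      have : Commute g a := ha
      exact this.inv_right.eq
  haveI hnorm : (R.subgroupOf K).Normal := by
    constructor
    intro n hn g
    rw [Subgroup.mem_subgroupOf] at hn ⊢
    have h1 := hRK _ hn _ g.2
    have h2 : ((g * n * g⁻¹ : K) : G) = (n : G) := by
      push_cast
      rw [← h1]; group
    rw [h2]; exact hn
  have hx2R : x ^ 2 ∈ R := Subgroup.mem_zpowers _
  refine ⟨K, R, hnorm, ?_⟩
  set a : K ⧸ R.subgroupOf K := QuotientGroup.mk (⟨x, hxK⟩ : K) with ha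
  set b : K ⧸ R.subgroupOf K := QuotientGroup.mk (⟨x * y', K.mul_mem hxK hyK⟩ : K) with hb
  have hmk1 : ∀ (g : G) (hg : g ∈ K), (QuotientGroup.mk (⟨g, hg⟩ : K) : K ⧸ R.subgroupOf K) = 1 ↔ g ∈ R := by
    intro g hg
    rw [QuotientGroup.eq_one_iff, Subgroup.mem_subgroupOf]
  have hxR : x ∉ R := fun h => hcontra (hRy x h)
  have hxyR : x * y' ∉ R := by
    intro h
    have h1 := hRx _ h
    apply hcontra
    exact (mul_left_cancel (by rw [← h1, mul_assoc] : x * (x * y') = x * (y' * x)))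
  have hyR : y' ∉ R := fun h => hcontra (hRx y' h).symm
  have ha2 : orderOf a = 2 := by
    apply orderOf_eq_prime
    · rw [ha, ← QuotientGroup.mk_pow]
      exact (hmk1 _ _).2 hx2R
    · intro h
      exact hxR ((hmk1 _ _).1 h)
  have hxy2 : (x * y') ^ 2 = x ^ 2 := by
    have h1 : x * y' = y'⁻¹ * x := by rw [← hinv']; group
    calc (x * y') ^ 2 = x * y' * (x * y') := pow_two _
      _ = y'⁻¹ * x * (x * y') := by rw [h1]
      _ = y'⁻¹ * (x ^ 2 * y') := by rw [pow_two]; group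
      _ = y'⁻¹ * (y' * x ^ 2) := by rw [hx2y]
      _ = x ^ 2 := by group
  have hb2 : orderOf b = 2 := by
    apply orderOf_eq_prime
    · rw [hb, ← QuotientGroup.mk_pow]
      apply (hmk1 _ _).2
      show (x * y') ^ 2 ∈ R
      rw [hxy2]; exact hx2R
    · intro h
      exact hxyR ((hmk1 _ _).1 h)
  have hab : a * b = QuotientGroup.mk (⟨y', hyK⟩ : K) := by
    have h1 : (⟨x, hxK⟩ : K) * ⟨x * y', K.mul_mem hxK hyK⟩ = ⟨x ^ 2, K.pow_mem hxK 2⟩ * ⟨y', hyK⟩ := by
      apply Subtype.ext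
      show x * (x * y') = x ^ 2 * y'
      rw [pow_two, mul_assoc]
    rw [ha, hb, ← QuotientGroup.mk_mul, h1, QuotientGroup.mk_mul, (hmk1 _ _).2 hx2R, one_mul]
  have habne : a ≠ b := by
    intro h
    have h1 : a * b = 1 := by
      rw [h, ← pow_two, ← hb2, pow_orderOf_eq_one]
    rw [hab] at h1
    exact hyR ((hmk1 _ _).1 h1)
  have habord : orderOf (a * b) = p := by
    apply orderOf_eq_prime
    · rw [hab, ← QuotientGroup.mk_pow]
      apply (hmk1 _ _).2
      show y' ^ p ∈ R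
      rw [hy'p]; exact R.one_mem
    · rw [hab]
      intro h
      exact hyR ((hmk1 _ _).1 h)
  have htop : Subgroup.closure ({a, b} : Set (K ⧸ R.subgroupOf K)) = ⊤ := by
    rw [eq_top_iff]
    intro q _
    induction q using QuotientGroup.induction_on with
    | H k =>
      obtain ⟨k, hk⟩ := k
      have hall : ∀ g (hg : g ∈ K), (QuotientGroup.mk (⟨g, hg⟩ : K) : K ⧸ R.subgroupOf K) ∈
          Subgroup.closure ({a, b} : Set (K ⧸ R.subgroupOf K)) := by
        intro g hg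
        refine Subgroup.closure_induction (p := fun g hg =>
          (QuotientGroup.mk (⟨g, hg⟩ : K) : K ⧸ R.subgroupOf K) ∈
            Subgroup.closure ({a, b} : Set (K ⧸ R.subgroupOf K))) ?_ ?_ ?_ ?_ hg
        · intro g hg
          rcases hg with rfl | hg
          · exact Subgroup.subset_closure (Set.mem_insert _ _)
          · rw [Set.mem_singleton_iff] at hg
            subst hg
            have h1 : (QuotientGroup.mk (⟨y', hyK⟩ : K) : K ⧸ R.subgroupOf K) = a * b := hab.symm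
            rw [h1]
            exact Subgroup.mul_mem _ (Subgroup.subset_closure (Set.mem_insert _ _))
              (Subgroup.subset_closure (Set.mem_insert_of_mem _ rfl))
        · exact Subgroup.one_mem _
        · intro g h hg hh ihg ihh
          exact Subgroup.mul_mem _ ihg ihh
        · intro g hg ih
          exact Subgroup.inv_mem _ ih
      exact hall k hk
  obtain ⟨e⟩ := Cfsg.Agent.S0206.result a b ha2 hb2 habne
  rw [habord, htop] at e
  exact ⟨Subgroup.topEquiv.symm.trans e⟩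

/-- For an odd prime p and a finite group G the following are equivalent: the dihedral group of order 2p is involved in G; some element of 2-power order normalizes but does not centralize some p-subgroup of G; some element of 2-power order inverts some nonidentity element of p-power order. -/
theorem result {G : Type*} [Group G] [Finite G] {p : ℕ} [Fact p.Prime] (hp : p ≠ 2) : (Cfsg.Involves (DihedralGroup p) G ↔ ∃ (x : G) (P : Subgroup G), (∃ k : ℕ, orderOf x = 2 ^ k) ∧ IsPGroup p ↥P ∧ x ∈ Subgroup.normalizer (P : Set G) ∧ x ∉ Subgroup.centralizer (P : Set G)) ∧ (Cfsg.Involves (DihedralGroup p) G ↔ ∃ x y : G, (∃ k : ℕ, orderOf x = 2 ^ k) ∧ (∃ k : ℕ, orderOf y = p ^ k) ∧ y ≠ 1 ∧ x * y * x⁻¹ = y⁻¹) := by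
  refine ⟨⟨fun h => norm_of_involves hp h, ?_⟩, ⟨?_, ?_⟩⟩
  · rintro ⟨x, P, hx, hP, hN, hC⟩
    obtain ⟨x', y, -, hy, hy1, hinv⟩ := inverted_of_norm x P hx hP hN hC
    exact involves_of_inverted hp x' y hy hy1 hinv
  · intro h
    obtain ⟨x, P, hx, hP, hN, hC⟩ := norm_of_involves hp h
    exact inverted_of_norm x P hx hP hN hC
  · rintro ⟨x, y, -, hy, hy1, hinv⟩
    exact involves_of_inverted hp x y hy hy1 hinv

end Cfsg.Agent.S2758
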