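import Cfsg.Statements.S2760
import Cfsg.Agent.Lib.Helper6.PAction
import Cfsg.Agent.Lib.Helper6.PCore

set_option autoImplicit false
open Cfsg

namespace Cfsg.Agent.S2760

/-- Let G be a finite group with C_G(O₂(G)) ≤ O₂(G) and H a subgroup of G such that H is normal in G, or the subgroup O²(H) generated by the elements of H of odd order is normal in G. Then C_H(O₂(H)) ≤ O₂(H). -/
theorem result {G : Type*} [Group G] [Finite G] (hchar : Subgroup.centralizer (Cfsg.pCore 2 G : Set G) ≤ Cfsg.pCore 2 G) (H : Subgroup G) (hH : H.Normal ∨ ((Cfsg.pResidual 2 ↥H).map H.subtype).Normal) : Subgroup.centralizer (Cfsg.pCore 2 ↥H : Set ↥H) ≤ Cfsg.pCore 2 ↥H := by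
  classical
  have key : ∀ N : Subgroup G, N.Normal → N ≤ H →
      (∀ x : ↥H, (orderOf x).Coprime 2 → (x : G) ∈ N) →
      Subgroup.centralizer (Cfsg.pCore 2 ↥H : Set ↥H) ≤ Cfsg.pCore 2 ↥H := by
    intro N hN hNH hodd
    have hpG : IsPGroup 2 (Cfsg.pCore 2 G) := Cfsg.Agent.Lib.Helper6.pc_isPGroup 2 G
    have hBn : (Cfsg.pCore 2 G ⊓ N).Normal := by
      haveI := hN
      infer_instance
    have hBle : (Cfsg.pCore 2 G ⊓ N).subgroupOf H ≤ Cfsg.pCore 2 ↥H := by
      apply Cfsg.Agent.Lib.Helper6.pc_subgroupOf_le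
      · haveI := hBn
        exact Subgroup.le_normalizer_of_normal
      · exact hpG.to_le inf_le_left
    apply Cfsg.Agent.Lib.Helper6.pc_le inferInstance
    apply Cfsg.Agent.Lib.Helper6.pa_isPGroup_of_coprime_trivial
    intro x hxC hx
    have hx' : (orderOf (x : G)).Coprime 2 := by rw [Subgroup.orderOf_coe]; exact hx
    have hxN : (x : G) ∈ N := hodd x hx
    have hcB : ∀ b ∈ Cfsg.pCore 2 G ⊓ N, Commute (x : G) b := by
      intro b hb
      have hbH : b ∈ H := hNH hb.2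
      have h1 : (⟨b, hbH⟩ : ↥H) ∈ Cfsg.pCore 2 ↥H := hBle (by
        rw [Subgroup.mem_subgroupOf]; exact hb)
      have h2 := (Subgroup.mem_centralizer_iff.1 hxC) _ h1
      have h3 := congrArg Subtype.val h2
      exact h3.symm
    have hAB : ∀ r ∈ Cfsg.pCore 2 G, (x : G) * r * (x : G)⁻¹ * r⁻¹ ∈ Cfsg.pCore 2 G ⊓ N := by
      intro r hr
      refine Subgroup.mem_inf.2 ⟨?_, ?_⟩
      · have hn : (Cfsg.pCore 2 G).Normal := inferInstance
        exact Subgroup.mul_mem _ (hn.conj_mem r hr _) (Subgroup.inv_mem _ hr)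
      · have h1 : r * (x : G)⁻¹ * r⁻¹ ∈ N := hN.conj_mem _ (N.inv_mem hxN) r
        have e : (x : G) * r * (x : G)⁻¹ * r⁻¹ = (x : G) * (r * (x : G)⁻¹ * r⁻¹) := by group
        rw [e]
        exact N.mul_mem hxN h1
    have hcent := Cfsg.Agent.Lib.Helper6.pa_centralizes_step (x : G) hx' (Cfsg.pCore 2 G)
      (Cfsg.pCore 2 G ⊓ N) (hpG.to_le inf_le_left) hcB hAB
    have hxc : (x : G) ∈ Subgroup.centralizer (Cfsg.pCore 2 G : Set G) := by
      rw [Subgroup.mem_centralizer_iff]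
      intro r hr
      exact (hcent r hr).eq.symm
    have h1 := Cfsg.Agent.Lib.Helper6.pa_eq_one_of_mem_pgroup_coprime hpG (hchar hxc) hx'
    ext
    exact h1
  rcases hH with hH | hH
  · exact key H hH (le_refl H) (fun x _ => x.2)
  · apply key _ hH (Subgroup.map_subtype_le _)
    intro x hx
    exact ⟨x, Subgroup.subset_closure hx, rfl⟩

end Cfsg.Agent.S2760
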