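import Cfsg.Statements.S2781
import Cfsg.Agent.Lib.Helper6.TraceSplit
import Cfsg.Agent.Lib.Helper6.PIrred

set_option autoImplicit false
open Cfsg

namespace Cfsg.Agent.S2781

/-- Let H act faithfully by conjugation on the elementary abelian p-subgroup V of a finite group, let O^p(H) be the subgroup of H generated by its elements of order prime to p, and T a Sylow p-subgroup of O^p(H). If V is generated by the H-conjugates of C_V(T) (V is the smallest H-invariant subgroup containing C_V(T)), then V = [V, O^p(H)]·C_V(O^p(H)). -/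
theorem result {G : Type*} [Group G] [Finite G] {p : ℕ} [Fact p.Prime] (V H : Subgroup G) (hV : Cfsg.IsElementaryAbelian p V) (hHV : H ≤ Subgroup.normalizer (V : Set G)) (hf : H ⊓ Subgroup.centralizer (V : Set G) = ⊥) (R : Subgroup G) (hR : R = (Cfsg.pResidual p ↥H).map H.subtype) (S : Sylow p ↥R) (T : Subgroup G) (hT : T = ((S : Subgroup ↥R).map R.subtype)) (hgen : ∀ W : Subgroup G, H ≤ Subgroup.normalizer (W : Set G) → (V ⊓ Subgroup.centralizer ((T : Subgroup G) : Set G)) ≤ W → V ≤ W) : ⁅V, R⁆ ⊔ (V ⊓ Subgroup.centralizer ((R : Subgroup G) : Set G)) = V := by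
  subst hR hT
  have hp : p.Prime := Fact.out
  have hVab := Cfsg.Agent.Lib.Helper6.gl_elemAb_comm hV
  have hRH : (Cfsg.pResidual p ↥H).map H.subtype ≤ H := Subgroup.map_subtype_le _
  have hHR : H ≤ Subgroup.normalizer (((Cfsg.pResidual p ↥H).map H.subtype : Subgroup G) : Set G) :=
    Cfsg.Agent.Lib.Helper6.gl_le_normalizer_map_of_normal H _
      (Cfsg.Agent.Lib.Helper6.pres_normal p ↥H)
  have hWV : ⁅V, (Cfsg.pResidual p ↥H).map H.subtype⁆ ≤ V :=
    Cfsg.Agent.Lib.Helper6.gl_commutator_le_of_le_normalizer (hRH.trans hHV)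
  have hcop : Nat.Coprime (((S : Subgroup ↥((Cfsg.pResidual p ↥H).map H.subtype)).map
      ((Cfsg.pResidual p ↥H).map H.subtype).subtype).relIndex
      ((Cfsg.pResidual p ↥H).map H.subtype)) p := by
    have e : ((S : Subgroup ↥((Cfsg.pResidual p ↥H).map H.subtype)).map
        ((Cfsg.pResidual p ↥H).map H.subtype).subtype).subgroupOf
        ((Cfsg.pResidual p ↥H).map H.subtype) = S :=
      Subgroup.comap_map_eq_self_of_injective (Subgroup.subtype_injective _) _
    rw [Subgroup.relIndex, e]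
    exact ((Nat.Prime.coprime_iff_not_dvd hp).2 S.not_dvd_index).symm
  apply le_antisymm (sup_le hWV inf_le_left)
  apply hgen
  · apply Cfsg.Agent.Lib.Helper6.gl_le_normalizer_sup_of
    · intro r hr y hy
      exact Subgroup.mem_sup_left (Cfsg.Agent.Lib.Helper6.gl_mem_normalizer_conj
        (((le_inf hHV hHR).trans (Cfsg.Agent.Lib.Helper6.gl_normalizer_commutator _ _)) hr) hy)
    · intro r hr y hy
      exact Subgroup.mem_sup_right (Cfsg.Agent.Lib.Helper6.gl_mem_normalizer_conj
        (((le_inf hHV (hHR.trans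
          (Cfsg.Agent.Lib.Helper6.gl_normalizer_le_normalizer_centralizer _))).trans
          (Cfsg.Agent.Lib.Helper6.gl_normalizer_inf _ _)) hr) hy)
  · intro z hz
    obtain ⟨hzV, hzT⟩ := Subgroup.mem_inf.1 hz
    obtain ⟨c, hcV, hcL, w, hw, rfl⟩ := Cfsg.Agent.Lib.Helper6.gl_trace_split V
      ⁅V, (Cfsg.pResidual p ↥H).map H.subtype⁆
      ((S : Subgroup ↥((Cfsg.pResidual p ↥H).map H.subtype)).map
        ((Cfsg.pResidual p ↥H).map H.subtype).subtype)
      ((Cfsg.pResidual p ↥H).map H.subtype) hVab hV.2 (hRH.trans hHV) hWV hcop hzV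
      (fun s hs => (Subgroup.mem_centralizer_iff.1 hzT) s hs)
      (fun l hl => Cfsg.Agent.Lib.Helper6.pa_comm_mem hl hzV)
    refine Subgroup.mul_mem _ (Subgroup.mem_sup_right (Subgroup.mem_inf.2 ⟨hcV, ?_⟩))
      (Subgroup.mem_sup_left hw)
    rw [Subgroup.mem_centralizer_iff]
    exact hcL

end Cfsg.Agent.S2781
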