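import Cfsg.Statements.S2941
import Cfsg.Agent.Lib.Helper3.Glauberman
import Cfsg.Agent.Lib.Helper7.Coprime

set_option autoImplicit false
open Cfsg

namespace Cfsg.Agent.S2941

open scoped commutatorElement

/-- if `j` normalizes `K` then `(k * j)^n ∈ K * j^n` -/
theorem jc_pow {G : Type*} [Group G] {K : Subgroup G} {j : G}
    (hj : ∀ x ∈ K, j * x * j⁻¹ ∈ K) {k : G} (hk : k ∈ K) (n : ℕ) :
    ∃ k' ∈ K, (k * j) ^ n = k' * j ^ n := by
  have hjn : ∀ m : ℕ, ∀ x ∈ K, j ^ m * x * (j ^ m)⁻¹ ∈ K := by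
    intro m
    induction m with
    | zero => intro x hx; simpa using hx
    | succ m ihm =>
      intro x hx
      have h1 := hj _ (ihm x hx)
      have e2 : j ^ (m + 1) * x * (j ^ (m + 1))⁻¹ = j * (j ^ m * x * (j ^ m)⁻¹) * j⁻¹ := by
        rw [pow_succ']; group
      rw [e2]; exact h1
  induction n with
  | zero => exact ⟨1, K.one_mem, by simp⟩
  | succ n ih =>
    obtain ⟨k', hk', e⟩ := ih
    refine ⟨k' * (j ^ n * k * (j ^ n)⁻¹), K.mul_mem hk' (hjn n k hk), ?_⟩
    rw [pow_succ, e, pow_succ]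
    group

/-- an element of odd order of `K ⊔ J`, `J` a `2`-group normalizing `K`, lies in `K` -/
theorem jc_odd_mem {G : Type*} [Group G] [Finite G] {K J : Subgroup G} (hJ2 : IsPGroup 2 ↥J)
    (hJK : J ≤ Subgroup.normalizer (K : Set G)) {x : G} (hx : x ∈ K ⊔ J)
    (hodd : Odd (orderOf x)) : x ∈ K := by
  obtain ⟨k, hk, j, hj, rfl⟩ := Cfsg.Agent.Lib.Helper7.exists_mul_of_mem_sup hJK hx
  have hjn : ∀ y ∈ K, j * y * j⁻¹ ∈ K := fun y hy =>
    (Subgroup.mem_normalizer_iff.mp (hJK hj) y).mp hy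
  obtain ⟨k', hk', e⟩ := jc_pow hjn hk (orderOf (k * j))
  rw [pow_orderOf_eq_one] at e
  have hjnK : j ^ orderOf (k * j) ∈ K := by
    have e' : j ^ orderOf (k * j) = k'⁻¹ := eq_inv_of_mul_eq_one_right e.symm
    rw [e']; exact K.inv_mem hk'
  obtain ⟨a, ha⟩ := hJ2 ⟨j, hj⟩
  have ha' : j ^ 2 ^ a = 1 := by
    have := congrArg Subtype.val ha
    simpa using this
  have hcop : Nat.Coprime (orderOf (k * j)) (orderOf j) :=
    Nat.Coprime.coprime_dvd_right (orderOf_dvd_of_pow_eq_one ha')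
      (Nat.Coprime.pow_right a hodd.coprime_two_right)
  obtain ⟨m, hm⟩ := exists_pow_eq_self_of_coprime hcop
  have hjK : j ∈ K := by rw [← hm]; exact K.pow_mem hjnK m
  exact K.mul_mem hk hjK

/-- Let G be a finite group of characteristic 2 type in which every 2-local subgroup is solvable and the centralizer of Ω₁(Z(S)) lies in N_G(S) for every Sylow 2-subgroup S, and let T be a nontrivial 2-subgroup and K a J(T)-component (J the Thompson subgroup generated by the elementary abelian 2-subgroups of largest order). If a subgroup Q is normalized by ⟨K, J(T)⟩ and normalizes J(T), then Q normalizes K. -/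
theorem result {G : Type*} [Group G] [Finite G] (hL : Cfsg.IsCharacteristicTwoType G) (hN : ∀ N : Subgroup G, Cfsg.IsTwoLocal N → Group.IsSolvable ↥N)
    (hZ : ∀ S : Sylow 2 G, Subgroup.centralizer (Cfsg.omegaCenterOf (S : Subgroup G) : Set G) ≤ Subgroup.normalizer ((S : Subgroup G) : Set G)) (T : Subgroup G) (hT : IsPGroup 2 ↥T) (hT1 : T ≠ ⊥) (K : Subgroup G) (hK : Cfsg.IsJComponent T K)
    (Q : Subgroup G) (hQ1 : K ⊔ Cfsg.thompsonSubgroupOf 2 T ≤ Subgroup.normalizer (Q : Set G)) (hQ2 : Q ≤ Subgroup.normalizer (Cfsg.thompsonSubgroupOf 2 T : Set G)) :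
    Q ≤ Subgroup.normalizer (K : Set G) := by
  classical
  obtain ⟨J, hJ⟩ : ∃ J : Subgroup G, J = Cfsg.thompsonSubgroupOf 2 T := ⟨_, rfl⟩
  rw [← hJ] at hQ1 hQ2
  obtain ⟨hgen, hcomm, -, -, -, -⟩ := hK
  rw [← hJ] at hcomm
  have hJT : J ≤ T := by rw [hJ]; exact Subgroup.map_subtype_le _
  have hJ2 : IsPGroup 2 ↥J := hT.to_le hJT
  have hJK : J ≤ Subgroup.normalizer (K : Set G) := by
    intro j hj
    apply Cfsg.Agent.Lib.Helper3.fin_mem_normalizer
    intro k hk
    have h1 : ⁅j, k⁆ ∈ K := by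
      have h2 : ⁅k, j⁆ ∈ ⁅K, J⁆ := Subgroup.commutator_mem_commutator hk hj
      rw [hcomm] at h2
      have e : ⁅j, k⁆ = ⁅k, j⁆⁻¹ := by simp only [commutatorElement_def]; group
      rw [e]; exact K.inv_mem h2
    have e : j * k * j⁻¹ = ⁅j, k⁆ * k := by simp only [commutatorElement_def]; group
    rw [e]; exact K.mul_mem h1 hk
  obtain ⟨W, hW⟩ : ∃ W : Subgroup G,
      W = Subgroup.closure {x : G | ∃ k ∈ K, ∃ j ∈ J, x = k * j * k⁻¹} := ⟨_, rfl⟩
  have hJW : J ≤ W := by
    intro j hj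
    rw [hW]
    exact Subgroup.subset_closure ⟨1, K.one_mem, j, hj, by simp⟩
  have hKW : K ≤ W := by
    have h : ⁅K, J⁆ ≤ W := by
      rw [Subgroup.commutator_le]
      intro k hk j hj
      have e : ⁅k, j⁆ = (k * j * k⁻¹) * j⁻¹ := by simp only [commutatorElement_def]
      rw [e]
      exact W.mul_mem (by rw [hW]; exact Subgroup.subset_closure ⟨k, hk, j, hj, rfl⟩)
        (W.inv_mem (hJW hj))
    rw [hcomm] at h
    exact h
  have hQW : ∀ q ∈ Q, ∀ x ∈ W, q * x * q⁻¹ ∈ W := by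
    intro q hq x hx
    have hle : Subgroup.closure {x : G | ∃ k ∈ K, ∃ j ∈ J, x = k * j * k⁻¹} ≤
        W.comap (MulAut.conj q).toMonoidHom := by
      rw [Subgroup.closure_le]
      rintro _ ⟨k, hk, j, hj, rfl⟩
      show (MulAut.conj q).toMonoidHom (k * j * k⁻¹) ∈ W
      rw [hW]
      apply Subgroup.subset_closure
      have hq' : k⁻¹ * q * k ∈ Q := by
        have hkn : k⁻¹ ∈ Subgroup.normalizer (Q : Set G) :=
          Subgroup.inv_mem _ (hQ1 (Subgroup.mem_sup_left hk))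
        have := (Subgroup.mem_normalizer_iff.mp hkn q).mp hq
        simpa using this
      have hj' : (k⁻¹ * q * k) * j * (k⁻¹ * q * k)⁻¹ ∈ J :=
        (Subgroup.mem_normalizer_iff.mp (hQ2 hq') j).mp hj
      refine ⟨k, hk, _, hj', ?_⟩
      simp only [MulEquiv.coe_toMonoidHom, MulAut.conj_apply]
      group
    rw [← hW] at hle
    have := hle hx
    simpa [MulAut.conj_apply] using this
  have hWX : W ≤ K ⊔ J := by
    rw [hW, Subgroup.closure_le]
    rintro _ ⟨k, hk, j, hj, rfl⟩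
    exact Subgroup.mul_mem _ (Subgroup.mul_mem _ (Subgroup.mem_sup_left hk)
      (Subgroup.mem_sup_right hj)) (Subgroup.inv_mem _ (Subgroup.mem_sup_left hk))
  intro q hq
  apply Cfsg.Agent.Lib.Helper3.fin_mem_normalizer
  intro x hx
  have hle : Subgroup.closure {g : G | g ∈ K ∧ Odd (orderOf g)} ≤
      K.comap (MulAut.conj q).toMonoidHom := by
    rw [Subgroup.closure_le]
    rintro g ⟨hgK, hgodd⟩
    show (MulAut.conj q).toMonoidHom g ∈ K
    have h1 : q * g * q⁻¹ ∈ K ⊔ J := hWX (hQW q hq g (hKW hgK))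
    have h2 : Odd (orderOf (q * g * q⁻¹)) := by
      have e : orderOf (q * g * q⁻¹) = orderOf g := (MulAut.conj q).orderOf_eq g
      rw [e]; exact hgodd
    exact jc_odd_mem hJ2 hJK h1 h2
  rw [hgen] at hle
  have := hle hx
  simpa [MulAut.conj_apply] using this

end Cfsg.Agent.S2941
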