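import Mathlib
import Cfsg.Statements.S3356

set_option autoImplicit false
set_option linter.unusedSectionVars false

open Cfsg

namespace Cfsg.Agent.S3356

open MulAction

variable {G Ω : Type*} [Group G] [Finite G] [MulAction G Ω] [Finite Ω]

theorem card_stab_sub (T : Subgroup G) (ω : Ω) :
    Nat.card (stabilizer ↥T ω) = Nat.card ↥(T ⊓ stabilizer G ω) := by
  refine Nat.card_congr
    { toFun := fun t => ⟨(t.1 : G), Subgroup.mem_inf.mpr ⟨t.1.2, ?_⟩⟩
      invFun := fun g => ⟨⟨g.1, (Subgroup.mem_inf.mp g.2).1⟩, ?_⟩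
      left_inv := fun t => rfl
      right_inv := fun g => rfl }
  · exact mem_stabilizer_iff.mpr (mem_stabilizer_iff.mp t.2)
  · exact mem_stabilizer_iff.mpr (mem_stabilizer_iff.mp (Subgroup.mem_inf.mp g.2).2)

theorem orbit_stab (T : Subgroup G) (ω : Ω) :
    Nat.card ↥(T ⊓ stabilizer G ω) * (orbit ↥T ω).ncard = Nat.card ↥T := by
  rw [← card_stab_sub, ← MulAction.index_stabilizer]
  exact Subgroup.card_mul_index _

theorem mem_orbit_sub (T : Subgroup G) (ω x : Ω) :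
    x ∈ orbit ↥T ω ↔ ∃ t ∈ T, t • ω = x := by
  constructor
  · rintro ⟨t, rfl⟩
    exact ⟨t.1, t.2, rfl⟩
  · rintro ⟨t, ht, rfl⟩
    exact ⟨⟨t, ht⟩, rfl⟩

theorem OD (T : Subgroup G) (c : ℕ) : ∀ (n : ℕ) (Y : Finset Ω), Y.card = n →
    (∀ t ∈ T, ∀ ω ∈ Y, t • ω ∈ Y) →
    (∀ ω ∈ Y, Nat.card ↥(T ⊓ stabilizer G ω) = c) → Nat.card ↥T ∣ c * Y.card := by
  classical
  intro n
  induction n using Nat.strong_induction_on with
  | _ n ih =>
    intro Y hn hinv hc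
    rcases Y.eq_empty_or_nonempty with rfl | ⟨ω, hω⟩
    · simp
    · have hsplit : (Y.filter (fun x => x ∈ orbit ↥T ω)).card
          + (Y.filter (fun x => ¬ x ∈ orbit ↥T ω)).card = Y.card :=
        Finset.card_filter_add_card_filter_not _
      have hOcard : (Y.filter (fun x => x ∈ orbit ↥T ω)).card = (orbit ↥T ω).ncard := by
        rw [← Set.ncard_coe_finset]
        congr 1
        ext x
        rw [Finset.mem_coe, Finset.mem_filter]
        refine ⟨fun h => h.2, fun h => ⟨?_, h⟩⟩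
        obtain ⟨t, ht, rfl⟩ := (mem_orbit_sub T ω x).mp h
        exact hinv t ht ω hω
      have hOpos : 0 < (Y.filter (fun x => x ∈ orbit ↥T ω)).card :=
        Finset.card_pos.mpr ⟨ω, Finset.mem_filter.mpr ⟨hω, mem_orbit_self ω⟩⟩
      have hY'inv : ∀ t ∈ T, ∀ x ∈ Y.filter (fun x => ¬ x ∈ orbit ↥T ω),
          t • x ∈ Y.filter (fun x => ¬ x ∈ orbit ↥T ω) := by
        intro t ht x hx
        rw [Finset.mem_filter] at hx ⊢
        refine ⟨hinv t ht x hx.1, fun h => hx.2 ?_⟩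
        obtain ⟨s, hs, hsx⟩ := (mem_orbit_sub T ω _).mp h
        exact (mem_orbit_sub T ω x).mpr
          ⟨t⁻¹ * s, T.mul_mem (T.inv_mem ht) hs, by rw [mul_smul, hsx, inv_smul_smul]⟩
      have h1 := ih (Y.filter (fun x => ¬ x ∈ orbit ↥T ω)).card (by omega) _ rfl hY'inv
        (fun x hx => hc x (Finset.mem_of_mem_filter x hx))
      have h2 := orbit_stab T ω
      rw [hc ω hω, ← hOcard] at h2
      rw [← hsplit, mul_add, h2]
      exact Dvd.dvd.add (dvd_refl _) h1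

structure Setup (G Ω : Type*) [Group G] [MulAction G Ω] where
  N : Subgroup G
  hN : N.Normal
  a : Ω
  b : Ω
  hb : b ≠ a
  c : ℕ
  hc : 1 < c
  reg : ∀ m ∈ N, m • a = a → m = 1
  tr : ∀ ω : Ω, ∃ n ∈ N, n • a = ω
  hcard : ∀ ω : Ω, ω ≠ a → Nat.card ↥(stabilizer G a ⊓ stabilizer G ω) = c

abbrev St (S : Setup G Ω) (ω : Ω) : Subgroup G := stabilizer G S.a ⊓ stabilizer G ω

theorem mem_St (S : Setup G Ω) (ω : Ω) (g : G) :
    g ∈ St S ω ↔ g • S.a = S.a ∧ g • ω = ω :=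
  Subgroup.mem_inf.trans (and_congr mem_stabilizer_iff mem_stabilizer_iff)

theorem reg2 (S : Setup G Ω) {m m' : G} (hm : m ∈ S.N) (hm' : m' ∈ S.N)
    (h : m • S.a = m' • S.a) : m = m' := by
  have h1 : (m'⁻¹ * m) • S.a = S.a := by rw [mul_smul, h, inv_smul_smul]
  have h2 := S.reg _ (S.N.mul_mem (S.N.inv_mem hm') hm) h1
  exact (inv_mul_eq_one.mp h2).symm

theorem act (S : Setup G Ω) {h : G} (hh : h • S.a = S.a) (n : G) :
    h • (n • S.a) = (h * n * h⁻¹) • S.a := by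
  have hh' : h⁻¹ • S.a = S.a := by rw [inv_smul_eq_iff, hh]
  rw [mul_smul, mul_smul, hh']

theorem K1 (S : Setup G Ω) {n h : G} (hn : n ∈ S.N) (hh : h • S.a = S.a) :
    h • (n • S.a) = n • S.a ↔ h * n = n * h := by
  constructor
  · intro e
    have := reg2 S (S.hN.conj_mem n hn h) hn ((act S hh n).symm.trans e)
    calc h * n = (h * n * h⁻¹) * h := by group
      _ = n * h := by rw [this]
  · intro e
    rw [← mul_smul, e, mul_smul, hh]

theorem cen (S : Setup G Ω) {n g : G} (hn : n ∈ S.N) (hg : g ∈ St S (n • S.a)) :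
    Commute g n :=
  (K1 S hn ((mem_St S _ g).mp hg).1).mp ((mem_St S _ g).mp hg).2

theorem ne_a (S : Setup G Ω) {n : G} (hn : n ∈ S.N) (hn1 : n ≠ 1) : n • S.a ≠ S.a :=
  fun h => hn1 (S.reg n hn h)

theorem cardN (S : Setup G Ω) : Nat.card ↥S.N = Nat.card Ω := by
  refine Nat.card_congr (Equiv.ofBijective (fun n : ↥S.N => (n : G) • S.a) ⟨?_, ?_⟩)
  · intro n n' h
    exact Subtype.ext (reg2 S n.2 n'.2 h)
  · intro ω
    obtain ⟨n, hn, rfl⟩ := S.tr ω
    exact ⟨⟨n, hn⟩, rfl⟩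

theorem kfac (S : Setup G Ω) :
    ∃ k, Nat.card ↥(stabilizer G S.a) = S.c * k ∧ Nat.Coprime k (Nat.card ↥S.N) := by
  classical
  have := Fintype.ofFinite Ω
  have hcpos : 0 < S.c := by have := S.hc; omega
  have hdvd : S.c ∣ Nat.card ↥(stabilizer G S.a) := by
    rw [← S.hcard S.b S.hb]
    exact Subgroup.card_dvd_of_le inf_le_left
  obtain ⟨k, hk⟩ := hdvd
  refine ⟨k, hk, ?_⟩
  have h1 : Nat.card ↥(stabilizer G S.a) ∣ S.c * (Finset.univ.erase S.a).card := by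
    apply OD (stabilizer G S.a) S.c _ (Finset.univ.erase S.a) rfl
    · intro t ht ω hω
      rw [Finset.mem_erase] at hω ⊢
      refine ⟨fun h => hω.1 ?_, Finset.mem_univ _⟩
      have ht' : t • S.a = S.a := mem_stabilizer_iff.mp ht
      have h' : t • ω = t • S.a := h.trans ht'.symm
      exact smul_left_cancel t h'
    · intro ω hω
      exact S.hcard ω (Finset.ne_of_mem_erase hω)
  rw [hk, Finset.card_erase_of_mem (Finset.mem_univ _), Finset.card_univ,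
    ← Nat.card_eq_fintype_card] at h1
  have h2 : k ∣ Nat.card Ω - 1 := Nat.dvd_of_mul_dvd_mul_left hcpos h1
  rw [cardN S]
  have hpos : 0 < Nat.card Ω := Nat.card_pos_iff.mpr ⟨⟨S.a⟩, inferInstance⟩
  show Nat.gcd k (Nat.card Ω) = 1
  have hd1 : Nat.gcd k (Nat.card Ω) ∣ Nat.card Ω - 1 := (Nat.gcd_dvd_left _ _).trans h2
  have hd2 : Nat.gcd k (Nat.card Ω) ∣ (Nat.card Ω - 1) + 1 := by
    rw [Nat.sub_add_cancel hpos]; exact Nat.gcd_dvd_right _ _
  exact Nat.dvd_one.mp ((Nat.dvd_add_right hd1).mp hd2)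

theorem Lsame (S : Setup G Ω) (Y : Finset Ω) (haY : S.a ∉ Y) (hdiv : Y.card ∣ Nat.card ↥S.N)
    (hcl : ∀ ω ∈ Y, ∀ g ∈ St S ω, ∀ ω' ∈ Y, g • ω' ∈ Y) :
    ∀ ω ∈ Y, ∀ ω' ∈ Y, St S ω = St S ω' := by
  classical
  let T : Subgroup G :=
    { carrier := {h | h • S.a = S.a ∧ ∀ ω, ω ∈ Y ↔ h • ω ∈ Y}
      mul_mem' := by
        rintro x y ⟨hx1, hx2⟩ ⟨hy1, hy2⟩
        refine ⟨by rw [mul_smul, hy1, hx1], fun ω => ?_⟩
        rw [mul_smul, ← hx2, ← hy2]
      one_mem' := ⟨one_smul _ _, fun ω => by rw [one_smul]⟩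
      inv_mem' := by
        rintro x ⟨hx1, hx2⟩
        refine ⟨by rw [inv_smul_eq_iff, hx1], fun ω => ?_⟩
        rw [hx2 (x⁻¹ • ω), smul_inv_smul] }
  have hTmem : ∀ h, h ∈ T ↔ (h • S.a = S.a ∧ ∀ ω, ω ∈ Y ↔ h • ω ∈ Y) := fun h => Iff.rfl
  have hTle : T ≤ stabilizer G S.a := fun h hh => mem_stabilizer_iff.mpr ((hTmem h).mp hh).1
  have hSt_le : ∀ ω ∈ Y, St S ω ≤ T := by
    intro ω hω g hg
    rw [hTmem]
    refine ⟨((mem_St S ω g).mp hg).1, fun ω' => ⟨fun h => hcl ω hω g hg ω' h, fun h => ?_⟩⟩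
    have := hcl ω hω g⁻¹ (inv_mem hg) (g • ω') h
    rwa [inv_smul_smul] at this
  have hTinf : ∀ ω ∈ Y, T ⊓ stabilizer G ω = St S ω := by
    intro ω hω
    apply le_antisymm
    · exact inf_le_inf_right _ hTle
    · exact le_inf (hSt_le ω hω) inf_le_right
  have hYne : ∀ ω ∈ Y, ω ≠ S.a := fun ω hω h => haY (h ▸ hω)
  have hOD : Nat.card ↥T ∣ S.c * Y.card :=
    OD T S.c _ Y rfl (fun t ht ω hω => (((hTmem t).mp ht).2 ω).mp hω)
      (fun ω hω => by rw [hTinf ω hω]; exact S.hcard ω (hYne ω hω))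
  obtain ⟨k, hk, hcop⟩ := kfac S
  have hT2 : Nat.card ↥T ∣ S.c * k := hk ▸ Subgroup.card_dvd_of_le hTle
  intro ω hω ω' hω'
  have hcpos : 0 < S.c := by have := S.hc; omega
  have e1 : Nat.card ↥(St S ω) = S.c := S.hcard ω (hYne ω hω)
  have e1' : Nat.card ↥(St S ω') = S.c := S.hcard ω' (hYne ω' hω')
  have hcT : S.c ∣ Nat.card ↥T := by
    rw [← e1]
    exact Subgroup.card_dvd_of_le (hSt_le ω hω)
  obtain ⟨t, ht⟩ := hcT
  rw [ht] at hOD hT2
  have ht1 : t ∣ Y.card := Nat.dvd_of_mul_dvd_mul_left hcpos hOD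
  have ht2 : t ∣ k := Nat.dvd_of_mul_dvd_mul_left hcpos hT2
  have ht3 : t = 1 := by
    have := Nat.dvd_gcd ht2 (ht1.trans hdiv)
    rw [hcop.gcd_eq_one] at this
    exact Nat.dvd_one.mp this
  have hTω : St S ω = T :=
    Subgroup.eq_of_le_of_card_ge (hSt_le ω hω) (by rw [e1, ht, ht3, mul_one])
  have hTω' : St S ω' = T :=
    Subgroup.eq_of_le_of_card_ge (hSt_le ω' hω') (by rw [e1', ht, ht3, mul_one])
  rw [hTω, hTω']

theorem not_all [FaithfulSMul G Ω] (S : Setup G Ω) (C : Subgroup G)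
    (hC : ∀ ν ∈ S.N, ν ≠ 1 → St S (ν • S.a) = C) : False := by
  obtain ⟨ν, hν, hνb⟩ := S.tr S.b
  have hν1 : ν ≠ 1 := by
    rintro rfl
    rw [one_smul] at hνb
    exact S.hb hνb.symm
  have hCb : St S S.b = C := by rw [← hνb]; exact hC ν hν hν1
  have hcard : Nat.card ↥C = S.c := by rw [← hCb]; exact S.hcard S.b S.hb
  have hbot : C = ⊥ := by
    rw [Subgroup.eq_bot_iff_forall]
    intro g hg
    apply FaithfulSMul.eq_of_smul_eq_smul (α := Ω)
    intro ω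
    rw [one_smul]
    by_cases hω : ω = S.a
    · rw [hω]
      have : g ∈ St S S.b := by rw [hCb]; exact hg
      exact ((mem_St S S.b g).mp this).1
    · obtain ⟨μ, hμ, rfl⟩ := S.tr ω
      have hμ1 : μ ≠ 1 := by
        rintro rfl
        exact hω (one_smul _ _)
      have : g ∈ St S (μ • S.a) := by rw [hC μ hμ hμ1]; exact hg
      exact ((mem_St S _ g).mp this).2
  rw [hbot, Subgroup.card_bot] at hcard
  have := S.hc
  omega

theorem P1 (S : Setup G Ω) {x m : G} (hx : x ∈ S.N) (hx1 : x ≠ 1) (hm : m ∈ S.N) (hm1 : m ≠ 1)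
    (hcen : ∀ g ∈ St S (x • S.a), Commute g m) : St S (x • S.a) = St S (m • S.a) := by
  have e1 : Nat.card ↥(St S (x • S.a)) = S.c := S.hcard _ (ne_a S hx hx1)
  have e2 : Nat.card ↥(St S (m • S.a)) = S.c := S.hcard _ (ne_a S hm hm1)
  refine Subgroup.eq_of_le_of_card_ge ?_ (by rw [e1, e2])
  intro g hg
  have hga := ((mem_St S _ g).mp hg).1
  exact (mem_St S _ g).mpr ⟨hga, (K1 S hm hga).mpr (hcen g hg)⟩

theorem claimA [FaithfulSMul G Ω] (S : Setup G Ω) (N₀ : Subgroup G) (hle : N₀ ≤ S.N)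
    (hinv : ∀ h : G, h • S.a = S.a → ∀ m ∈ N₀, h * m * h⁻¹ ∈ N₀) (hne : N₀ ≠ ⊥) :
    S.N ≤ N₀ := by
  classical
  by_contra hcon
  obtain ⟨n₀, hn₀, hn₀'⟩ := SetLike.not_le_iff_exists.mp hcon
  obtain ⟨m₀, hm₀, hm₀1⟩ : ∃ m ∈ N₀, m ≠ 1 := by
    by_contra h
    exact hne ((Subgroup.eq_bot_iff_forall N₀).mpr
      (fun m hm => by_contra (fun hm1 => h ⟨m, hm, hm1⟩)))
  have aux : ∀ n ∈ S.N, n ∉ N₀ → ∀ m ∈ N₀, m ≠ 1 → St S (n • S.a) = St S (m • S.a) := by
    intro n hn hnN₀ m hm hm1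
    have := Fintype.ofFinite ↥N₀
    let Y : Finset Ω := Finset.univ.image (fun μ : ↥N₀ => (n * (μ : G)) • S.a)
    have hYmem : ∀ ω, ω ∈ Y ↔ ∃ μ ∈ N₀, (n * μ) • S.a = ω := by
      intro ω
      show ω ∈ Finset.univ.image (fun μ : ↥N₀ => (n * (μ : G)) • S.a) ↔ _
      rw [Finset.mem_image]
      constructor
      · rintro ⟨μ, -, rfl⟩; exact ⟨μ.1, μ.2, rfl⟩
      · rintro ⟨μ, hμ, rfl⟩; exact ⟨⟨μ, hμ⟩, Finset.mem_univ _, rfl⟩
    have hnμ : ∀ μ ∈ N₀, n * μ ≠ 1 := by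
      intro μ hμ h
      apply hnN₀
      have : n = μ⁻¹ := eq_inv_of_mul_eq_one_left h
      rw [this]; exact N₀.inv_mem hμ
    have haY : S.a ∉ Y := by
      rw [hYmem]
      rintro ⟨μ, hμ, h⟩
      exact hnμ μ hμ (S.reg _ (S.N.mul_mem hn (hle hμ)) h)
    have hcardY : Y.card = Nat.card ↥N₀ := by
      show (Finset.univ.image (fun μ : ↥N₀ => (n * (μ : G)) • S.a)).card = _
      rw [Finset.card_image_of_injective, Finset.card_univ, Nat.card_eq_fintype_card]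
      intro μ μ' h
      have := reg2 S (S.N.mul_mem hn (hle μ.2)) (S.N.mul_mem hn (hle μ'.2)) h
      exact Subtype.ext (mul_left_cancel this)
    have hdiv : Y.card ∣ Nat.card ↥S.N := by
      rw [hcardY]; exact Subgroup.card_dvd_of_le hle
    have hcl : ∀ ω ∈ Y, ∀ g ∈ St S ω, ∀ ω' ∈ Y, g • ω' ∈ Y := by
      intro ω hω g hg ω' hω'
      obtain ⟨μ, hμ, rfl⟩ := (hYmem ω).mp hω
      obtain ⟨μ', hμ', rfl⟩ := (hYmem ω').mp hω'
      have hga := ((mem_St S _ g).mp hg).1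
      have hc : g * (n * μ) = (n * μ) * g := cen S (S.N.mul_mem hn (hle hμ)) hg
      rw [hYmem]
      refine ⟨μ * (g * (μ⁻¹ * μ') * g⁻¹),
        N₀.mul_mem hμ (hinv g hga _ (N₀.mul_mem (N₀.inv_mem hμ) hμ')), ?_⟩
      rw [act S hga]
      congr 1
      calc n * (μ * (g * (μ⁻¹ * μ') * g⁻¹)) = ((n * μ) * g) * (μ⁻¹ * μ') * g⁻¹ := by group
        _ = (g * (n * μ)) * (μ⁻¹ * μ') * g⁻¹ := by rw [hc]
        _ = g * (n * μ') * g⁻¹ := by group
    have hsame := Lsame S Y haY hdiv hcl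
    have hnY : n • S.a ∈ Y := (hYmem _).mpr ⟨1, N₀.one_mem, by rw [mul_one]⟩
    have hnmY : (n * m) • S.a ∈ Y := (hYmem _).mpr ⟨m, hm, rfl⟩
    have heq := hsame _ hnY _ hnmY
    apply P1 S hn (fun h => hnN₀ (by rw [h]; exact N₀.one_mem)) (hle hm) hm1
    intro g hg
    have c1 : Commute g n := cen S hn hg
    have c2 : Commute g (n * m) := cen S (S.N.mul_mem hn (hle hm)) (by rw [← heq]; exact hg)
    have c3 : Commute g (n⁻¹ * (n * m)) := c1.inv_right.mul_right c2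
    rwa [inv_mul_cancel_left] at c3
  apply not_all S (St S (n₀ • S.a))
  intro ν hν hν1
  by_cases hνN₀ : ν ∈ N₀
  · exact (aux n₀ hn₀ hn₀' ν hνN₀ hν1).symm
  · rw [aux ν hν hνN₀ m₀ hm₀ hm₀1, aux n₀ hn₀ hn₀' m₀ hm₀ hm₀1]

theorem K2 (S : Setup G Ω) {x : G} (hx : x ∈ S.N) (hx1 : x ≠ 1) {ν : G} (hν : ν ∈ S.N) :
    St S (x • S.a) = St S ((ν * x * ν⁻¹) • S.a) := by
  classical
  have hinjA : Function.Injective (fun y : ↥S.N => (y : G) • S.a) :=
    fun y y' h => Subtype.ext (reg2 S y.2 y'.2 h)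
  have hOrbfin : (orbit (ConjAct ↥S.N) (⟨x, hx⟩ : ↥S.N)).Finite := Set.toFinite _
  let Y : Finset Ω := hOrbfin.toFinset.image (fun y : ↥S.N => (y : G) • S.a)
  have hYmem : ∀ ω, ω ∈ Y ↔ ∃ μ ∈ S.N, (μ * x * μ⁻¹) • S.a = ω := by
    intro ω
    show ω ∈ hOrbfin.toFinset.image (fun y : ↥S.N => (y : G) • S.a) ↔ _
    rw [Finset.mem_image]
    constructor
    · rintro ⟨y, hy, rfl⟩
      rw [Set.Finite.mem_toFinset] at hy
      obtain ⟨c, rfl⟩ := hy
      exact ⟨(ConjAct.ofConjAct c : ↥S.N).1, (ConjAct.ofConjAct c : ↥S.N).2, rfl⟩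
    · rintro ⟨μ, hμ, rfl⟩
      refine ⟨ConjAct.toConjAct (⟨μ, hμ⟩ : ↥S.N) • (⟨x, hx⟩ : ↥S.N), ?_, rfl⟩
      rw [Set.Finite.mem_toFinset]
      exact ⟨_, rfl⟩
  have hdiv : Y.card ∣ Nat.card ↥S.N := by
    show (hOrbfin.toFinset.image (fun y : ↥S.N => (y : G) • S.a)).card ∣ _
    rw [Finset.card_image_of_injective _ hinjA, ← Set.ncard_eq_toFinset_card _ hOrbfin]
    show (orbit (ConjAct ↥S.N) (⟨x, hx⟩ : ↥S.N)).ncard ∣ Nat.card (ConjAct ↥S.N)
    rw [← MulAction.index_stabilizer]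
    exact Subgroup.index_dvd_card _
  have hconj : ∀ μ ∈ S.N, μ * x * μ⁻¹ ∈ S.N := fun μ _ => S.hN.conj_mem x hx μ
  have hconj1 : ∀ μ : G, μ * x * μ⁻¹ ≠ 1 := by
    intro μ h
    apply hx1
    have : x = μ⁻¹ * (μ * x * μ⁻¹) * μ := by group
    rw [this, h]; group
  have haY : S.a ∉ Y := by
    rw [hYmem]
    rintro ⟨μ, hμ, h⟩
    exact hconj1 μ (S.reg _ (hconj μ hμ) h)
  have hcl : ∀ ω ∈ Y, ∀ g ∈ St S ω, ∀ ω' ∈ Y, g • ω' ∈ Y := by
    intro ω hω g hg ω' hω'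
    obtain ⟨μ, hμ, rfl⟩ := (hYmem ω).mp hω
    obtain ⟨μ', hμ', rfl⟩ := (hYmem ω').mp hω'
    have hga := ((mem_St S _ g).mp hg).1
    have hc : g * (μ * x * μ⁻¹) = (μ * x * μ⁻¹) * g := cen S (hconj μ hμ) hg
    rw [hYmem]
    refine ⟨g * (μ' * μ⁻¹) * g⁻¹ * μ,
      S.N.mul_mem (S.hN.conj_mem _ (S.N.mul_mem hμ' (S.N.inv_mem hμ)) g) hμ, ?_⟩
    rw [act S hga]
    congr 1
    calc (g * (μ' * μ⁻¹) * g⁻¹ * μ) * x * (g * (μ' * μ⁻¹) * g⁻¹ * μ)⁻¹
        = g * (μ' * μ⁻¹) * (g⁻¹ * ((μ * x * μ⁻¹) * g)) * (μ * μ'⁻¹) * g⁻¹ := by group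
      _ = g * (μ' * μ⁻¹) * (g⁻¹ * (g * (μ * x * μ⁻¹))) * (μ * μ'⁻¹) * g⁻¹ := by rw [hc]
      _ = g * (μ' * x * μ'⁻¹) * g⁻¹ := by group
  have hsame := Lsame S Y haY hdiv hcl
  exact hsame _ ((hYmem _).mpr ⟨1, S.N.one_mem, by rw [one_mul, inv_one, mul_one]⟩) _
    ((hYmem _).mpr ⟨ν, hν, rfl⟩)

theorem P3 (S : Setup G Ω) {x y : G} (hx : x ∈ S.N) (hx1 : x ≠ 1) (hy : y ∈ S.N) (hy1 : y ≠ 1)
    (hne : St S (x • S.a) ≠ St S (y • S.a)) : x * y = y * x := by
  by_contra hxy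
  have hw1 : x * y * x⁻¹ * y⁻¹ ≠ 1 := by
    intro h
    apply hxy
    calc x * y = (x * y * x⁻¹ * y⁻¹) * (y * x) := by group
      _ = y * x := by rw [h, one_mul]
  have hwN : x * y * x⁻¹ * y⁻¹ ∈ S.N :=
    S.N.mul_mem (S.N.mul_mem (S.N.mul_mem hx hy) (S.N.inv_mem hx)) (S.N.inv_mem hy)
  apply hne
  have e1 : St S (x • S.a) = St S ((x * y * x⁻¹ * y⁻¹) • S.a) := by
    apply P1 S hx hx1 hwN hw1
    intro g hg
    have c1 : Commute g x := cen S hx hg
    have c2 : Commute g (y * x * y⁻¹) :=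
      cen S (S.hN.conj_mem x hx y) (by rw [← K2 S hx hx1 hy]; exact hg)
    have c3 : Commute g (x * (y * x * y⁻¹)⁻¹) := c1.mul_right c2.inv_right
    have e : x * (y * x * y⁻¹)⁻¹ = x * y * x⁻¹ * y⁻¹ := by group
    rwa [e] at c3
  have e2 : St S (y • S.a) = St S ((x * y * x⁻¹ * y⁻¹) • S.a) := by
    apply P1 S hy hy1 hwN hw1
    intro g hg
    have c1 : Commute g y := cen S hy hg
    have c2 : Commute g (x * y * x⁻¹) :=
      cen S (S.hN.conj_mem y hy x) (by rw [← K2 S hy hy1 hx]; exact hg)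
    exact c2.mul_right c1.inv_right
  rw [e1, e2]

theorem comm [FaithfulSMul G Ω] (S : Setup G Ω) {x y : G} (hx : x ∈ S.N) (hy : y ∈ S.N) :
    x * y = y * x := by
  by_cases hx1 : x = 1
  · rw [hx1, one_mul, mul_one]
  by_cases hy1 : y = 1
  · rw [hy1, one_mul, mul_one]
  by_cases hne : St S (x • S.a) = St S (y • S.a)
  · obtain ⟨z, hz, hz1, hzx⟩ : ∃ z ∈ S.N, z ≠ 1 ∧ St S (z • S.a) ≠ St S (x • S.a) := by
      by_contra h
      apply not_all S (St S (x • S.a))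
      intro ν hν hν1
      by_contra h'
      exact h ⟨ν, hν, hν1, h'⟩
    have hzy : z * y = y * z := P3 S hz hz1 hy hy1 (by rw [← hne]; exact hzx)
    by_cases hxz : x * z = 1
    · have : x = z⁻¹ := eq_inv_of_mul_eq_one_left hxz
      rw [this]
      have c : Commute z y := hzy
      exact c.inv_left.eq
    · have hxzN : x * z ∈ S.N := S.N.mul_mem hx hz
      have hne2 : St S ((x * z) • S.a) ≠ St S (y • S.a) := by
        rw [← hne]
        intro heq
        apply hzx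
        symm
        apply P1 S hx hx1 hz hz1
        intro g hg
        have c1 : Commute g x := cen S hx hg
        have c2 : Commute g (x * z) := cen S hxzN (by rw [heq]; exact hg)
        have c3 : Commute g (x⁻¹ * (x * z)) := c1.inv_right.mul_right c2
        rwa [inv_mul_cancel_left] at c3
      have c4 : Commute (x * z) y := P3 S hxzN hxz hy hy1 hne2
      have c5 : Commute z y := hzy
      have c6 : Commute ((x * z) * z⁻¹) y := c4.mul_left c5.inv_left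
      rw [mul_inv_cancel_right] at c6
      exact c6.eq
  · exact P3 S hx hx1 hy hy1 hne

/-- Let G be a finite 3/2-transitive permutation group: G acts faithfully and transitively on a finite set, the point stabilizers are non-trivial, and for each point a all orbits of G_a on the remaining points have the same size. Suppose G has a regular normal subgroup N and G is not a Frobenius group (some two-point stabilizer is non-trivial). Then N is an elementary abelian p-group for some prime p, and every non-trivial normal subgroup of G contains N (so N is the unique minimal normal subgroup). -/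
theorem result {G Ω : Type*} [Group G] [Finite G]
    [MulAction G Ω] [FaithfulSMul G Ω] [Finite Ω] (htrans : MulAction.IsPretransitive G Ω)
    (hne : ∀ a : Ω, MulAction.stabilizer G a ≠ ⊥)
    (hhalf : ∀ a b c : Ω, b ≠ a → c ≠ a →
      Nat.card (MulAction.orbit (MulAction.stabilizer G a) b) = Nat.card (MulAction.orbit (MulAction.stabilizer G a) c))
    (N : Subgroup G) [hN : N.Normal] (hNt : MulAction.IsPretransitive N Ω) (hNr : ∀ a : Ω, MulAction.stabilizer N a = ⊥)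
    (hnotF : ∃ a b : Ω, a ≠ b ∧ MulAction.stabilizer G a ⊓ MulAction.stabilizer G b ≠ ⊥) :
    (∃ p : ℕ, p.Prime ∧ IsMulCommutative N ∧ ∀ x ∈ N, x ^ p = 1) ∧
    (∀ M : Subgroup G, M.Normal → M ≠ ⊥ → N ≤ M) := by
  classical
  obtain ⟨a, b, hab, hSt⟩ := hnotF
  have hc1 : 1 < Nat.card ↥(stabilizer G a ⊓ stabilizer G b) :=
    (Subgroup.one_lt_card_iff_ne_bot _).mpr hSt
  have hcard : ∀ ω : Ω, ω ≠ a → Nat.card ↥(stabilizer G a ⊓ stabilizer G ω)
      = Nat.card ↥(stabilizer G a ⊓ stabilizer G b) := by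
    intro ω hω
    have h1 := orbit_stab (stabilizer G a) ω
    have h2 := orbit_stab (stabilizer G a) b
    have h3 := hhalf a ω b hω hab.symm
    rw [Nat.card_coe_set_eq, Nat.card_coe_set_eq] at h3
    rw [h3] at h1
    have hHpos : 0 < Nat.card ↥(stabilizer G a) := Nat.card_pos
    have hpos : 0 < (orbit ↥(stabilizer G a) b).ncard := by
      by_contra h0
      have h0' : (orbit ↥(stabilizer G a) b).ncard = 0 := by omega
      rw [h0', mul_zero] at h2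
      omega
    exact Nat.eq_of_mul_eq_mul_right hpos (h1.trans h2.symm)
  have reg : ∀ m ∈ N, m • a = a → m = 1 := by
    intro m hm hma
    have : (⟨m, hm⟩ : ↥N) ∈ stabilizer ↥N a := mem_stabilizer_iff.mpr hma
    rw [hNr a, Subgroup.mem_bot] at this
    exact congrArg Subtype.val this
  have tr : ∀ ω : Ω, ∃ n ∈ N, n • a = ω := by
    intro ω
    obtain ⟨n, hn⟩ := hNt.exists_smul_eq a ω
    exact ⟨n.1, n.2, hn⟩
  obtain ⟨S, hSN, hSa⟩ : ∃ S : Setup G Ω, S.N = N ∧ S.a = a :=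
    ⟨⟨N, hN, a, b, hab.symm, _, hc1, reg, tr, hcard⟩, rfl, rfl⟩
  subst hSN hSa
  have hcomm : ∀ x ∈ S.N, ∀ y ∈ S.N, x * y = y * x := fun x hx y hy => comm S hx hy
  refine ⟨?_, ?_⟩
  · have hNcard : 1 < Nat.card ↥S.N := by
      rw [Subgroup.one_lt_card_iff_ne_bot]
      intro hbot
      obtain ⟨n, hn, hnb⟩ := S.tr S.b
      rw [hbot, Subgroup.mem_bot] at hn
      rw [hn, one_smul] at hnb
      exact S.hb hnb.symm
    obtain ⟨p, hp, hpdvd⟩ := Nat.exists_prime_and_dvd (Nat.ne_of_gt hNcard)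
    have : Fact p.Prime := ⟨hp⟩
    let N₀ : Subgroup G :=
      { carrier := {x | x ∈ S.N ∧ x ^ p = 1}
        mul_mem' := by
          rintro x y ⟨hx, hxp⟩ ⟨hy, hyp⟩
          refine ⟨S.N.mul_mem hx hy, ?_⟩
          have c : Commute x y := hcomm x hx y hy
          rw [c.mul_pow, hxp, hyp, one_mul]
        one_mem' := ⟨S.N.one_mem, one_pow _⟩
        inv_mem' := by
          rintro x ⟨hx, hxp⟩
          exact ⟨S.N.inv_mem hx, by rw [inv_pow, hxp, inv_one]⟩ }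
    have hN₀mem : ∀ x, x ∈ N₀ ↔ (x ∈ S.N ∧ x ^ p = 1) := fun x => Iff.rfl
    have hN₀le : N₀ ≤ S.N := fun x hx => ((hN₀mem x).mp hx).1
    have hN₀inv : ∀ h : G, h • S.a = S.a → ∀ m ∈ N₀, h * m * h⁻¹ ∈ N₀ := by
      intro h _ m hm
      rw [hN₀mem] at hm ⊢
      exact ⟨S.hN.conj_mem m hm.1 h, by rw [conj_pow, hm.2, mul_one, mul_inv_cancel]⟩
    have hN₀ne : N₀ ≠ ⊥ := by
      obtain ⟨x, hx⟩ := exists_prime_orderOf_dvd_card' (G := ↥S.N) p hpdvd
      intro hbot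
      have hxmem : (x : G) ∈ N₀ := by
        rw [hN₀mem]
        refine ⟨x.2, ?_⟩
        have := pow_orderOf_eq_one x
        rw [hx] at this
        exact_mod_cast congrArg Subtype.val this
      rw [hbot, Subgroup.mem_bot] at hxmem
      have : x = 1 := Subtype.ext hxmem
      rw [this, orderOf_one] at hx
      exact hp.one_lt.ne hx
    have hle := claimA S N₀ hN₀le hN₀inv hN₀ne
    exact ⟨p, hp, ⟨⟨fun x y => Subtype.ext (hcomm x.1 x.2 y.1 y.2)⟩⟩,
      fun x hx => ((hN₀mem x).mp (hle hx)).2⟩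
  · intro M hM hMne
    by_cases hMN : M ⊓ S.N = ⊥
    · exfalso
      obtain ⟨g, hg, hg1⟩ : ∃ g ∈ M, g ≠ 1 := by
        by_contra h
        exact hMne ((Subgroup.eq_bot_iff_forall M).mpr
          (fun m hm => by_contra (fun hm1 => h ⟨m, hm, hm1⟩)))
      have hcen : ∀ n ∈ S.N, g * n = n * g := by
        intro n hn
        have hmem : g * n * g⁻¹ * n⁻¹ ∈ M ⊓ S.N := by
          refine Subgroup.mem_inf.mpr ⟨?_, ?_⟩
          · have : g * n * g⁻¹ * n⁻¹ = g * (n * g⁻¹ * n⁻¹) := by group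
            rw [this]
            exact M.mul_mem hg (hM.conj_mem _ (M.inv_mem hg) n)
          · exact S.N.mul_mem (S.hN.conj_mem n hn g) (S.N.inv_mem hn)
        rw [hMN, Subgroup.mem_bot] at hmem
        calc g * n = (g * n * g⁻¹ * n⁻¹) * (n * g) := by group
          _ = n * g := by rw [hmem, one_mul]
      obtain ⟨n₀, hn₀, hn₀g⟩ := S.tr (g • S.a)
      have hfix : ∀ ω : Ω, (n₀⁻¹ * g) • ω = (1 : G) • ω := by
        intro ω
        obtain ⟨n, hn, rfl⟩ := S.tr ω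
        rw [one_smul, ← mul_smul]
        have : n₀⁻¹ * g * n = n * (n₀⁻¹ * g) := by
          calc n₀⁻¹ * g * n = n₀⁻¹ * (g * n) := by group
            _ = n₀⁻¹ * (n * g) := by rw [hcen n hn]
            _ = (n₀⁻¹ * n) * g := by group
            _ = (n * n₀⁻¹) * g := by rw [hcomm _ (S.N.inv_mem hn₀) n hn]
            _ = n * (n₀⁻¹ * g) := by group
        rw [this, mul_smul, mul_smul, ← hn₀g, inv_smul_smul]
      have h1 : n₀⁻¹ * g = 1 := FaithfulSMul.eq_of_smul_eq_smul hfix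
      have hgn : g = n₀ := by
        calc g = n₀ * (n₀⁻¹ * g) := by group
          _ = n₀ := by rw [h1, mul_one]
      have h2 : g ∈ M ⊓ S.N := Subgroup.mem_inf.mpr ⟨hg, by rw [hgn]; exact hn₀⟩
      rw [hMN, Subgroup.mem_bot] at h2
      exact hg1 h2
    · have h3 := claimA S (M ⊓ S.N) inf_le_right
        (fun h _ m hm => Subgroup.mem_inf.mpr
          ⟨hM.conj_mem m (Subgroup.mem_inf.mp hm).1 h,
            S.hN.conj_mem m (Subgroup.mem_inf.mp hm).2 h⟩) hMN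
      exact fun x hx => (Subgroup.mem_inf.mp (h3 hx)).1

end Cfsg.Agent.S3356
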