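import Mathlib
import Cfsg.Statements.S3362
import Cfsg.Agent.H4Perm

set_option autoImplicit false

open Cfsg

namespace Cfsg.Agent.S3362

open Cfsg.Agent.H4Perm

/-- The identity image list. -/
def idl : List ℕ := [0, 1, 2, 3, 4, 5, 6, 7, 8, 9, 10, 11]

theorem e_one : toL (1 : Equiv.Perm (Fin 12)) = idl := by decide +kernel

/-- The generator. -/
def ps : Equiv.Perm (Fin 12) := Equiv.swap (3 : Fin 12) 5 * Equiv.swap (3 : Fin 12) 4 * Equiv.swap (6 : Fin 12) 8 * Equiv.swap (6 : Fin 12) 7 * Equiv.swap (9 : Fin 12) 11 * Equiv.swap (9 : Fin 12) 10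
/-- Its image list. -/
def ls : List ℕ := [0, 1, 2, 4, 5, 3, 7, 8, 6, 10, 11, 9]
/-- The image list of its inverse. -/
def lsi : List ℕ := [0, 1, 2, 5, 3, 4, 8, 6, 7, 11, 9, 10]
theorem e_s : toL ps = ls := by decide +kernel
theorem e_si : toL ps⁻¹ = lsi := by decide +kernel

/-- The generator. -/
def pt : Equiv.Perm (Fin 12) := Equiv.swap (3 : Fin 12) 9 * Equiv.swap (3 : Fin 12) 6 * Equiv.swap (4 : Fin 12) 10 * Equiv.swap (4 : Fin 12) 7 * Equiv.swap (5 : Fin 12) 11 * Equiv.swap (5 : Fin 12) 8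
/-- Its image list. -/
def lt : List ℕ := [0, 1, 2, 6, 7, 8, 9, 10, 11, 3, 4, 5]
/-- The image list of its inverse. -/
def lti : List ℕ := [0, 1, 2, 9, 10, 11, 3, 4, 5, 6, 7, 8]
theorem e_t : toL pt = lt := by decide +kernel
theorem e_ti : toL pt⁻¹ = lti := by decide +kernel

/-- The generator. -/
def pu : Equiv.Perm (Fin 12) := Equiv.swap (4 : Fin 12) 9 * Equiv.swap (4 : Fin 12) 5 * Equiv.swap (4 : Fin 12) 6 * Equiv.swap (7 : Fin 12) 10 * Equiv.swap (7 : Fin 12) 11 * Equiv.swap (7 : Fin 12) 8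
/-- Its image list. -/
def lu : List ℕ := [0, 1, 2, 3, 6, 9, 5, 8, 11, 4, 7, 10]
/-- The image list of its inverse. -/
def lui : List ℕ := [0, 1, 2, 3, 9, 6, 4, 10, 7, 5, 11, 8]
theorem e_u : toL pu = lu := by decide +kernel
theorem e_ui : toL pu⁻¹ = lui := by decide +kernel

/-- The generator. -/
def pv : Equiv.Perm (Fin 12) := Equiv.swap (4 : Fin 12) 11 * Equiv.swap (4 : Fin 12) 5 * Equiv.swap (4 : Fin 12) 7 * Equiv.swap (6 : Fin 12) 8 * Equiv.swap (6 : Fin 12) 9 * Equiv.swap (6 : Fin 12) 10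
/-- Its image list. -/
def lv : List ℕ := [0, 1, 2, 3, 7, 11, 10, 5, 6, 8, 9, 4]
/-- The image list of its inverse. -/
def lvi : List ℕ := [0, 1, 2, 3, 11, 7, 8, 4, 9, 10, 6, 5]
theorem e_v : toL pv = lv := by decide +kernel
theorem e_vi : toL pv⁻¹ = lvi := by decide +kernel

/-- The generator. -/
def pw : Equiv.Perm (Fin 12) := Equiv.swap (4 : Fin 12) 8 * Equiv.swap (4 : Fin 12) 5 * Equiv.swap (4 : Fin 12) 10 * Equiv.swap (6 : Fin 12) 7 * Equiv.swap (6 : Fin 12) 9 * Equiv.swap (6 : Fin 12) 11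
/-- Its image list. -/
def lw : List ℕ := [0, 1, 2, 3, 10, 8, 11, 6, 4, 7, 5, 9]
/-- The image list of its inverse. -/
def lwi : List ℕ := [0, 1, 2, 3, 8, 10, 7, 9, 5, 11, 4, 6]
theorem e_w : toL pw = lw := by decide +kernel
theorem e_wi : toL pw⁻¹ = lwi := by decide +kernel

/-- The generator. -/
def px1 : Equiv.Perm (Fin 12) := Equiv.swap (0 : Fin 12) 3 * Equiv.swap (6 : Fin 12) 7 * Equiv.swap (8 : Fin 12) 10 * Equiv.swap (9 : Fin 12) 11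
/-- Its image list. -/
def lx1 : List ℕ := [3, 1, 2, 0, 4, 5, 7, 6, 10, 11, 8, 9]
/-- The image list of its inverse. -/
def lx1i : List ℕ := [3, 1, 2, 0, 4, 5, 7, 6, 10, 11, 8, 9]
theorem e_x1 : toL px1 = lx1 := by decide +kernel
theorem e_x1i : toL px1⁻¹ = lx1i := by decide +kernel

/-- The generator. -/
def px2 : Equiv.Perm (Fin 12) := Equiv.swap (0 : Fin 12) 1 * Equiv.swap (6 : Fin 12) 9 * Equiv.swap (7 : Fin 12) 10 * Equiv.swap (8 : Fin 12) 11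
/-- Its image list. -/
def lx2 : List ℕ := [1, 0, 2, 3, 4, 5, 9, 10, 11, 6, 7, 8]
/-- The image list of its inverse. -/
def lx2i : List ℕ := [1, 0, 2, 3, 4, 5, 9, 10, 11, 6, 7, 8]
theorem e_x2 : toL px2 = lx2 := by decide +kernel
theorem e_x2i : toL px2⁻¹ = lx2i := by decide +kernel

/-- The generator. -/
def px3 : Equiv.Perm (Fin 12) := Equiv.swap (1 : Fin 12) 2 * Equiv.swap (6 : Fin 12) 11 * Equiv.swap (7 : Fin 12) 9 * Equiv.swap (8 : Fin 12) 10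
/-- Its image list. -/
def lx3 : List ℕ := [0, 2, 1, 3, 4, 5, 11, 9, 10, 7, 8, 6]
/-- The image list of its inverse. -/
def lx3i : List ℕ := [0, 2, 1, 3, 4, 5, 11, 9, 10, 7, 8, 6]
theorem e_x3 : toL px3 = lx3 := by decide +kernel
theorem e_x3i : toL px3⁻¹ = lx3i := by decide +kernel

/-- Generating set. -/
def G9 : Set (Equiv.Perm (Fin 12)) := {ps, pt, pu, pv, pw}
/-- Generator lists with inverses. -/
def gl9 : List (List ℕ) := [ls, lt, lu, lv, lw, lsi, lti, lui, lvi, lwi]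
theorem hg9 : ∀ g ∈ G9, toL g ∈ gl9 ∧ toL g⁻¹ ∈ gl9 := by
  intro g hg
  simp only [G9, Set.mem_insert_iff, Set.mem_singleton_iff] at hg
  rcases hg with rfl | rfl | rfl | rfl | rfl
  · exact ⟨by rw [e_s]; decide +kernel, by rw [e_si]; decide +kernel⟩
  · exact ⟨by rw [e_t]; decide +kernel, by rw [e_ti]; decide +kernel⟩
  · exact ⟨by rw [e_u]; decide +kernel, by rw [e_ui]; decide +kernel⟩
  · exact ⟨by rw [e_v]; decide +kernel, by rw [e_vi]; decide +kernel⟩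
  · exact ⟨by rw [e_w]; decide +kernel, by rw [e_wi]; decide +kernel⟩
theorem hgl9 : ∀ l ∈ gl9, ∃ g ∈ Subgroup.closure G9, toL g = l := by
  intro l hl
  simp only [gl9, List.mem_cons, List.not_mem_nil, or_false] at hl
  rcases hl with rfl | rfl | rfl | rfl | rfl | rfl | rfl | rfl | rfl | rfl
  · exact ⟨ps, Subgroup.subset_closure (by simp [G9]), e_s⟩
  · exact ⟨pt, Subgroup.subset_closure (by simp [G9]), e_t⟩
  · exact ⟨pu, Subgroup.subset_closure (by simp [G9]), e_u⟩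
  · exact ⟨pv, Subgroup.subset_closure (by simp [G9]), e_v⟩
  · exact ⟨pw, Subgroup.subset_closure (by simp [G9]), e_w⟩
  · exact ⟨ps⁻¹, Subgroup.inv_mem _ (Subgroup.subset_closure (by simp [G9])), e_si⟩
  · exact ⟨pt⁻¹, Subgroup.inv_mem _ (Subgroup.subset_closure (by simp [G9])), e_ti⟩
  · exact ⟨pu⁻¹, Subgroup.inv_mem _ (Subgroup.subset_closure (by simp [G9])), e_ui⟩
  · exact ⟨pv⁻¹, Subgroup.inv_mem _ (Subgroup.subset_closure (by simp [G9])), e_vi⟩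
  · exact ⟨pw⁻¹, Subgroup.inv_mem _ (Subgroup.subset_closure (by simp [G9])), e_wi⟩

/-- Generating set. -/
def G10 : Set (Equiv.Perm (Fin 12)) := {ps, pt, pu, pv, pw, px1}
/-- Generator lists with inverses. -/
def gl10 : List (List ℕ) := [ls, lt, lu, lv, lw, lx1, lsi, lti, lui, lvi, lwi, lx1i]
theorem hg10 : ∀ g ∈ G10, toL g ∈ gl10 ∧ toL g⁻¹ ∈ gl10 := by
  intro g hg
  simp only [G10, Set.mem_insert_iff, Set.mem_singleton_iff] at hg
  rcases hg with rfl | rfl | rfl | rfl | rfl | rfl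
  · exact ⟨by rw [e_s]; decide +kernel, by rw [e_si]; decide +kernel⟩
  · exact ⟨by rw [e_t]; decide +kernel, by rw [e_ti]; decide +kernel⟩
  · exact ⟨by rw [e_u]; decide +kernel, by rw [e_ui]; decide +kernel⟩
  · exact ⟨by rw [e_v]; decide +kernel, by rw [e_vi]; decide +kernel⟩
  · exact ⟨by rw [e_w]; decide +kernel, by rw [e_wi]; decide +kernel⟩
  · exact ⟨by rw [e_x1]; decide +kernel, by rw [e_x1i]; decide +kernel⟩
theorem hgl10 : ∀ l ∈ gl10, ∃ g ∈ Subgroup.closure G10, toL g = l := by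
  intro l hl
  simp only [gl10, List.mem_cons, List.not_mem_nil, or_false] at hl
  rcases hl with rfl | rfl | rfl | rfl | rfl | rfl | rfl | rfl | rfl | rfl | rfl | rfl
  · exact ⟨ps, Subgroup.subset_closure (by simp [G10]), e_s⟩
  · exact ⟨pt, Subgroup.subset_closure (by simp [G10]), e_t⟩
  · exact ⟨pu, Subgroup.subset_closure (by simp [G10]), e_u⟩
  · exact ⟨pv, Subgroup.subset_closure (by simp [G10]), e_v⟩
  · exact ⟨pw, Subgroup.subset_closure (by simp [G10]), e_w⟩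
  · exact ⟨px1, Subgroup.subset_closure (by simp [G10]), e_x1⟩
  · exact ⟨ps⁻¹, Subgroup.inv_mem _ (Subgroup.subset_closure (by simp [G10])), e_si⟩
  · exact ⟨pt⁻¹, Subgroup.inv_mem _ (Subgroup.subset_closure (by simp [G10])), e_ti⟩
  · exact ⟨pu⁻¹, Subgroup.inv_mem _ (Subgroup.subset_closure (by simp [G10])), e_ui⟩
  · exact ⟨pv⁻¹, Subgroup.inv_mem _ (Subgroup.subset_closure (by simp [G10])), e_vi⟩
  · exact ⟨pw⁻¹, Subgroup.inv_mem _ (Subgroup.subset_closure (by simp [G10])), e_wi⟩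
  · exact ⟨px1⁻¹, Subgroup.inv_mem _ (Subgroup.subset_closure (by simp [G10])), e_x1i⟩

/-- Generating set. -/
def G11 : Set (Equiv.Perm (Fin 12)) := {ps, pt, pu, pv, pw, px1, px2}
/-- Generator lists with inverses. -/
def gl11 : List (List ℕ) := [ls, lt, lu, lv, lw, lx1, lx2, lsi, lti, lui, lvi, lwi, lx1i, lx2i]
theorem hg11 : ∀ g ∈ G11, toL g ∈ gl11 ∧ toL g⁻¹ ∈ gl11 := by
  intro g hg
  simp only [G11, Set.mem_insert_iff, Set.mem_singleton_iff] at hg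
  rcases hg with rfl | rfl | rfl | rfl | rfl | rfl | rfl
  · exact ⟨by rw [e_s]; decide +kernel, by rw [e_si]; decide +kernel⟩
  · exact ⟨by rw [e_t]; decide +kernel, by rw [e_ti]; decide +kernel⟩
  · exact ⟨by rw [e_u]; decide +kernel, by rw [e_ui]; decide +kernel⟩
  · exact ⟨by rw [e_v]; decide +kernel, by rw [e_vi]; decide +kernel⟩
  · exact ⟨by rw [e_w]; decide +kernel, by rw [e_wi]; decide +kernel⟩
  · exact ⟨by rw [e_x1]; decide +kernel, by rw [e_x1i]; decide +kernel⟩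
  · exact ⟨by rw [e_x2]; decide +kernel, by rw [e_x2i]; decide +kernel⟩
theorem hgl11 : ∀ l ∈ gl11, ∃ g ∈ Subgroup.closure G11, toL g = l := by
  intro l hl
  simp only [gl11, List.mem_cons, List.not_mem_nil, or_false] at hl
  rcases hl with rfl | rfl | rfl | rfl | rfl | rfl | rfl | rfl | rfl | rfl | rfl | rfl | rfl | rfl
  · exact ⟨ps, Subgroup.subset_closure (by simp [G11]), e_s⟩
  · exact ⟨pt, Subgroup.subset_closure (by simp [G11]), e_t⟩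
  · exact ⟨pu, Subgroup.subset_closure (by simp [G11]), e_u⟩
  · exact ⟨pv, Subgroup.subset_closure (by simp [G11]), e_v⟩
  · exact ⟨pw, Subgroup.subset_closure (by simp [G11]), e_w⟩
  · exact ⟨px1, Subgroup.subset_closure (by simp [G11]), e_x1⟩
  · exact ⟨px2, Subgroup.subset_closure (by simp [G11]), e_x2⟩
  · exact ⟨ps⁻¹, Subgroup.inv_mem _ (Subgroup.subset_closure (by simp [G11])), e_si⟩
  · exact ⟨pt⁻¹, Subgroup.inv_mem _ (Subgroup.subset_closure (by simp [G11])), e_ti⟩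
  · exact ⟨pu⁻¹, Subgroup.inv_mem _ (Subgroup.subset_closure (by simp [G11])), e_ui⟩
  · exact ⟨pv⁻¹, Subgroup.inv_mem _ (Subgroup.subset_closure (by simp [G11])), e_vi⟩
  · exact ⟨pw⁻¹, Subgroup.inv_mem _ (Subgroup.subset_closure (by simp [G11])), e_wi⟩
  · exact ⟨px1⁻¹, Subgroup.inv_mem _ (Subgroup.subset_closure (by simp [G11])), e_x1i⟩
  · exact ⟨px2⁻¹, Subgroup.inv_mem _ (Subgroup.subset_closure (by simp [G11])), e_x2i⟩

/-- Generating set. -/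
def G12 : Set (Equiv.Perm (Fin 12)) := {ps, pt, pu, pv, pw, px1, px2, px3}
/-- Generator lists with inverses. -/
def gl12 : List (List ℕ) := [ls, lt, lu, lv, lw, lx1, lx2, lx3, lsi, lti, lui, lvi, lwi, lx1i, lx2i, lx3i]
theorem hg12 : ∀ g ∈ G12, toL g ∈ gl12 ∧ toL g⁻¹ ∈ gl12 := by
  intro g hg
  simp only [G12, Set.mem_insert_iff, Set.mem_singleton_iff] at hg
  rcases hg with rfl | rfl | rfl | rfl | rfl | rfl | rfl | rfl
  · exact ⟨by rw [e_s]; decide +kernel, by rw [e_si]; decide +kernel⟩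
  · exact ⟨by rw [e_t]; decide +kernel, by rw [e_ti]; decide +kernel⟩
  · exact ⟨by rw [e_u]; decide +kernel, by rw [e_ui]; decide +kernel⟩
  · exact ⟨by rw [e_v]; decide +kernel, by rw [e_vi]; decide +kernel⟩
  · exact ⟨by rw [e_w]; decide +kernel, by rw [e_wi]; decide +kernel⟩
  · exact ⟨by rw [e_x1]; decide +kernel, by rw [e_x1i]; decide +kernel⟩
  · exact ⟨by rw [e_x2]; decide +kernel, by rw [e_x2i]; decide +kernel⟩
  · exact ⟨by rw [e_x3]; decide +kernel, by rw [e_x3i]; decide +kernel⟩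
theorem hgl12 : ∀ l ∈ gl12, ∃ g ∈ Subgroup.closure G12, toL g = l := by
  intro l hl
  simp only [gl12, List.mem_cons, List.not_mem_nil, or_false] at hl
  rcases hl with rfl | rfl | rfl | rfl | rfl | rfl | rfl | rfl | rfl | rfl | rfl | rfl | rfl | rfl | rfl | rfl
  · exact ⟨ps, Subgroup.subset_closure (by simp [G12]), e_s⟩
  · exact ⟨pt, Subgroup.subset_closure (by simp [G12]), e_t⟩
  · exact ⟨pu, Subgroup.subset_closure (by simp [G12]), e_u⟩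
  · exact ⟨pv, Subgroup.subset_closure (by simp [G12]), e_v⟩
  · exact ⟨pw, Subgroup.subset_closure (by simp [G12]), e_w⟩
  · exact ⟨px1, Subgroup.subset_closure (by simp [G12]), e_x1⟩
  · exact ⟨px2, Subgroup.subset_closure (by simp [G12]), e_x2⟩
  · exact ⟨px3, Subgroup.subset_closure (by simp [G12]), e_x3⟩
  · exact ⟨ps⁻¹, Subgroup.inv_mem _ (Subgroup.subset_closure (by simp [G12])), e_si⟩
  · exact ⟨pt⁻¹, Subgroup.inv_mem _ (Subgroup.subset_closure (by simp [G12])), e_ti⟩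
  · exact ⟨pu⁻¹, Subgroup.inv_mem _ (Subgroup.subset_closure (by simp [G12])), e_ui⟩
  · exact ⟨pv⁻¹, Subgroup.inv_mem _ (Subgroup.subset_closure (by simp [G12])), e_vi⟩
  · exact ⟨pw⁻¹, Subgroup.inv_mem _ (Subgroup.subset_closure (by simp [G12])), e_wi⟩
  · exact ⟨px1⁻¹, Subgroup.inv_mem _ (Subgroup.subset_closure (by simp [G12])), e_x1i⟩
  · exact ⟨px2⁻¹, Subgroup.inv_mem _ (Subgroup.subset_closure (by simp [G12])), e_x2i⟩
  · exact ⟨px3⁻¹, Subgroup.inv_mem _ (Subgroup.subset_closure (by simp [G12])), e_x3i⟩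

theorem fix_of (gens : Set (Equiv.Perm (Fin 12))) (β : Fin 12) (h : ∀ g ∈ gens, g β = β) :
    ∀ k ∈ Subgroup.closure gens, k β = β := by
  intro k hk
  have hle : Subgroup.closure gens ≤ MulAction.stabilizer (Equiv.Perm (Fin 12)) β := by
    rw [Subgroup.closure_le]
    intro g hg
    exact MulAction.mem_stabilizer_iff.mpr (h g hg)
  exact MulAction.mem_stabilizer_iff.mp (hle hk)

theorem fix9_0 : ∀ k ∈ Subgroup.closure G9, k (0 : Fin 12) = 0 := by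
  apply fix_of
  intro g hg
  simp only [G9, Set.mem_insert_iff, Set.mem_singleton_iff] at hg
  rcases hg with rfl | rfl | rfl | rfl | rfl <;> decide +kernel
theorem fix9_1 : ∀ k ∈ Subgroup.closure G9, k (1 : Fin 12) = 1 := by
  apply fix_of
  intro g hg
  simp only [G9, Set.mem_insert_iff, Set.mem_singleton_iff] at hg
  rcases hg with rfl | rfl | rfl | rfl | rfl <;> decide +kernel
theorem fix9_2 : ∀ k ∈ Subgroup.closure G9, k (2 : Fin 12) = 2 := by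
  apply fix_of
  intro g hg
  simp only [G9, Set.mem_insert_iff, Set.mem_singleton_iff] at hg
  rcases hg with rfl | rfl | rfl | rfl | rfl <;> decide +kernel

theorem fix10_1 : ∀ k ∈ Subgroup.closure G10, k (1 : Fin 12) = 1 := by
  apply fix_of
  intro g hg
  simp only [G10, Set.mem_insert_iff, Set.mem_singleton_iff] at hg
  rcases hg with rfl | rfl | rfl | rfl | rfl | rfl <;> decide +kernel
theorem fix10_2 : ∀ k ∈ Subgroup.closure G10, k (2 : Fin 12) = 2 := by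
  apply fix_of
  intro g hg
  simp only [G10, Set.mem_insert_iff, Set.mem_singleton_iff] at hg
  rcases hg with rfl | rfl | rfl | rfl | rfl | rfl <;> decide +kernel

theorem fix11_2 : ∀ k ∈ Subgroup.closure G11, k (2 : Fin 12) = 2 := by
  apply fix_of
  intro g hg
  simp only [G11, Set.mem_insert_iff, Set.mem_singleton_iff] at hg
  rcases hg with rfl | rfl | rfl | rfl | rfl | rfl | rfl <;> decide +kernel

/-- The 72 elements of the base group. -/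
def B : List (List ℕ) := [
  [0, 1, 2, 3, 4, 5, 6, 7, 8, 9, 10, 11], [0, 1, 2, 4, 5, 3, 7, 8, 6, 10, 11, 9], [0, 1, 2, 6, 7, 8, 9, 10, 11, 3, 4, 5],
  [0, 1, 2, 3, 6, 9, 5, 8, 11, 4, 7, 10], [0, 1, 2, 3, 7, 11, 10, 5, 6, 8, 9, 4], [0, 1, 2, 3, 10, 8, 11, 6, 4, 7, 5, 9],
  [0, 1, 2, 5, 3, 4, 8, 6, 7, 11, 9, 10], [0, 1, 2, 9, 10, 11, 3, 4, 5, 6, 7, 8], [0, 1, 2, 3, 9, 6, 4, 10, 7, 5, 11, 8],
  [0, 1, 2, 3, 11, 7, 8, 4, 9, 10, 6, 5], [0, 1, 2, 3, 8, 10, 7, 9, 5, 11, 4, 6], [0, 1, 2, 7, 8, 6, 10, 11, 9, 4, 5, 3],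
  [0, 1, 2, 6, 9, 3, 8, 11, 5, 7, 10, 4], [0, 1, 2, 7, 11, 3, 5, 6, 10, 9, 4, 8], [0, 1, 2, 10, 8, 3, 6, 4, 11, 5, 9, 7],
  [0, 1, 2, 10, 11, 9, 4, 5, 3, 7, 8, 6], [0, 1, 2, 9, 6, 3, 10, 7, 4, 11, 8, 5], [0, 1, 2, 11, 7, 3, 4, 9, 8, 6, 5, 10],
  [0, 1, 2, 8, 10, 3, 9, 5, 7, 4, 6, 11], [0, 1, 2, 5, 8, 11, 4, 7, 10, 3, 6, 9], [0, 1, 2, 10, 5, 6, 8, 9, 4, 3, 7, 11],
  [0, 1, 2, 11, 6, 4, 7, 5, 9, 3, 10, 8], [0, 1, 2, 8, 6, 7, 11, 9, 10, 5, 3, 4], [0, 1, 2, 4, 10, 7, 5, 11, 8, 3, 9, 6],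
  [0, 1, 2, 8, 4, 9, 10, 6, 5, 3, 11, 7], [0, 1, 2, 7, 9, 5, 11, 4, 6, 3, 8, 10], [0, 1, 2, 4, 7, 10, 3, 6, 9, 5, 8, 11],
  [0, 1, 2, 3, 5, 4, 9, 11, 10, 6, 8, 7], [0, 1, 2, 9, 3, 6, 11, 5, 8, 10, 4, 7], [0, 1, 2, 4, 8, 9, 11, 3, 7, 6, 10, 5],
  [0, 1, 2, 6, 10, 5, 4, 8, 9, 11, 3, 7], [0, 1, 2, 5, 6, 10, 9, 4, 8, 7, 11, 3], [0, 1, 2, 9, 4, 8, 7, 11, 3, 5, 6, 10],
  [0, 1, 2, 4, 11, 6, 9, 7, 5, 8, 3, 10], [0, 1, 2, 6, 4, 11, 5, 9, 7, 10, 8, 3], [0, 1, 2, 5, 9, 7, 10, 8, 3, 6, 4, 11],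
  [0, 1, 2, 9, 7, 5, 8, 3, 10, 4, 11, 6], [0, 1, 2, 11, 3, 7, 6, 10, 5, 4, 8, 9], [0, 1, 2, 8, 3, 10, 4, 11, 6, 9, 7, 5],
  [0, 1, 2, 11, 9, 10, 5, 3, 4, 8, 6, 7], [0, 1, 2, 6, 3, 9, 7, 4, 10, 8, 5, 11], [0, 1, 2, 7, 3, 11, 9, 8, 4, 5, 10, 6],
  [0, 1, 2, 10, 3, 8, 5, 7, 9, 6, 11, 4], [0, 1, 2, 8, 9, 4, 3, 7, 11, 10, 5, 6], [0, 1, 2, 7, 5, 9, 3, 10, 8, 11, 6, 4],
  [0, 1, 2, 5, 11, 8, 3, 9, 6, 4, 10, 7], [0, 1, 2, 10, 6, 5, 3, 11, 7, 8, 4, 9], [0, 1, 2, 11, 4, 6, 3, 8, 10, 7, 9, 5],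
  [0, 1, 2, 4, 9, 8, 6, 5, 10, 11, 7, 3], [0, 1, 2, 6, 5, 10, 11, 7, 3, 4, 9, 8], [0, 1, 2, 5, 10, 6, 7, 3, 11, 9, 8, 4],
  [0, 1, 2, 9, 8, 4, 5, 10, 6, 7, 3, 11], [0, 1, 2, 4, 6, 11, 8, 10, 3, 9, 5, 7], [0, 1, 2, 6, 11, 4, 10, 3, 8, 5, 7, 9],
  [0, 1, 2, 5, 7, 9, 6, 11, 4, 10, 3, 8], [0, 1, 2, 9, 5, 7, 4, 6, 11, 8, 10, 3], [0, 1, 2, 8, 11, 5, 7, 10, 4, 6, 9, 3],
  [0, 1, 2, 10, 7, 4, 11, 8, 5, 9, 6, 3], [0, 1, 2, 7, 10, 4, 6, 9, 3, 8, 11, 5], [0, 1, 2, 5, 4, 3, 11, 10, 9, 8, 7, 6],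
  [0, 1, 2, 11, 8, 5, 9, 6, 3, 10, 7, 4], [0, 1, 2, 9, 11, 10, 6, 8, 7, 3, 5, 4], [0, 1, 2, 11, 5, 8, 10, 4, 7, 9, 3, 6],
  [0, 1, 2, 7, 4, 10, 8, 5, 11, 6, 3, 9], [0, 1, 2, 6, 8, 7, 3, 5, 4, 9, 11, 10], [0, 1, 2, 10, 4, 7, 9, 3, 6, 11, 5, 8],
  [0, 1, 2, 4, 3, 5, 10, 9, 11, 7, 6, 8], [0, 1, 2, 7, 6, 8, 4, 3, 5, 10, 9, 11], [0, 1, 2, 8, 5, 11, 6, 3, 9, 7, 4, 10],
  [0, 1, 2, 10, 9, 11, 7, 6, 8, 4, 3, 5], [0, 1, 2, 11, 10, 9, 8, 7, 6, 5, 4, 3], [0, 1, 2, 8, 7, 6, 5, 4, 3, 11, 10, 9]]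
/-- Its word program. -/
def prog9 : List (ℕ × ℕ) := [
  (0, 0), (0, 1), (0, 2), (0, 3), (0, 4), (0, 5), (0, 6), (0, 7), (0, 8), (0, 9), (1, 1), (1, 2),
  (1, 3), (1, 4), (1, 6), (1, 7), (1, 8), (1, 9), (2, 2), (2, 3), (2, 4), (2, 5), (2, 7), (2, 8),
  (2, 9), (3, 0), (3, 2), (3, 6), (4, 0), (4, 1), (4, 5), (4, 6), (5, 0), (5, 1), (5, 5), (5, 6),
  (6, 3), (6, 4), (6, 6), (6, 7), (6, 8), (6, 9), (7, 3), (7, 4), (7, 7), (7, 8), (7, 9), (9, 0),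
  (9, 1), (9, 5), (9, 6), (10, 0), (10, 1), (10, 5), (10, 6), (11, 2), (11, 7), (12, 0), (12, 2), (15, 7),
  (19, 2), (19, 6), (22, 7), (26, 2), (26, 6), (27, 0), (29, 3), (29, 9), (30, 3), (31, 3), (32, 3)]

theorem hB9 : B = toL (1 : Equiv.Perm (Fin 12)) :: B.tail := by rw [e_one]; decide +kernel
theorem hW9 : chkWL gl9 (toL (1 : Equiv.Perm (Fin 12))) B.tail prog9
    [toL (1 : Equiv.Perm (Fin 12))] = true := by rw [e_one]; decide +kernel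
theorem hmul9 : (gl9.all fun g => B.all fun b => B.contains (comp g b)) = true := by decide +kernel
theorem hnd9 : B.Nodup := by decide +kernel

/-- Membership test of the base group. -/
def mem9 : List ℕ → Bool := fun l => B.contains l

theorem thm9 : (∀ g ∈ Subgroup.closure G9, toL g ∈ B) ∧ Nat.card (Subgroup.closure G9) = B.length ∧
    (∀ g : Equiv.Perm (Fin 12), mem9 (toL g) = true → g ∈ Subgroup.closure G9) :=
  base G9 gl9 hg9 hgl9 B prog9 hB9 hW9 hmul9 hnd9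

/-- Transversal of level A. -/
def repsA : List (List ℕ) := [
  [0, 1, 2, 3, 4, 5, 6, 7, 8, 9, 10, 11], [3, 1, 2, 0, 4, 5, 7, 6, 10, 11, 8, 9], [4, 1, 2, 0, 5, 3, 8, 7, 11, 9, 6, 10],
  [6, 1, 2, 0, 7, 8, 10, 9, 4, 5, 11, 3], [5, 1, 2, 0, 3, 4, 6, 8, 9, 10, 7, 11], [9, 1, 2, 0, 10, 11, 4, 3, 7, 8, 5, 6],
  [7, 1, 2, 0, 8, 6, 11, 10, 5, 3, 9, 4], [10, 1, 2, 0, 8, 3, 4, 6, 9, 7, 11, 5], [11, 1, 2, 0, 7, 3, 9, 4, 5, 10, 8, 6],
  [8, 1, 2, 0, 10, 3, 5, 9, 6, 11, 7, 4]]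
/-- Its word program. -/
def progA : List (ℕ × ℕ) := [
  (0, 5), (1, 0), (1, 1), (1, 6), (1, 7), (2, 1), (2, 4), (2, 9), (2, 10)]

theorem hrA : repsA = toL (1 : Equiv.Perm (Fin 12)) :: repsA.tail := by rw [e_one]; decide +kernel
theorem hWA : chkWL gl10 (toL (1 : Equiv.Perm (Fin 12))) repsA.tail progA
    [toL (1 : Equiv.Perm (Fin 12))] = true := by rw [e_one]; decide +kernel
theorem hSA : chkS 12 ((0 : Fin 12) : ℕ) gl10 repsA mem9 = true := by decide +kernel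
theorem hndA : (repsA.map fun l => l.getD ((0 : Fin 12) : ℕ) 0).Nodup := by decide +kernel
theorem subA : Subgroup.closure G9 ≤ Subgroup.closure G10 := by
  apply Subgroup.closure_mono
  intro g hg
  simp only [G9, Set.mem_insert_iff, Set.mem_singleton_iff] at hg
  simp only [G10, Set.mem_insert_iff, Set.mem_singleton_iff]
  tauto

/-- Membership test of level A. -/
def mem10 : List ℕ → Bool := memLevel 12 ((0 : Fin 12) : ℕ) repsA mem9

theorem thmA : (∀ g ∈ Subgroup.closure G10, g (0 : Fin 12) = 0 → g ∈ Subgroup.closure G9) ∧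
    (∀ c : Fin 12, c.val ∈ repsA.map (fun l => l.getD ((0 : Fin 12) : ℕ) 0) →
      ∃ u ∈ Subgroup.closure G10, u (0 : Fin 12) = c) ∧
    Nat.card (Subgroup.closure G10) = repsA.length * Nat.card (Subgroup.closure G9) ∧
    (∀ g : Equiv.Perm (Fin 12), mem10 (toL g) = true → g ∈ Subgroup.closure G10) :=
  level G10 (Subgroup.closure G9) subA (0 : Fin 12) fix9_0 gl10 hg10 hgl10
    repsA progA hrA hWA mem9 thm9.2.2 hSA hndA

/-- Transversal of level B. -/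
def repsB : List (List ℕ) := [
  [0, 1, 2, 3, 4, 5, 6, 7, 8, 9, 10, 11], [1, 0, 2, 3, 4, 5, 9, 10, 11, 6, 7, 8], [1, 3, 2, 0, 4, 5, 11, 8, 9, 7, 6, 10],
  [1, 4, 2, 0, 5, 3, 9, 6, 10, 8, 7, 11], [1, 6, 2, 0, 7, 8, 5, 11, 3, 10, 9, 4], [1, 5, 2, 0, 3, 4, 10, 7, 11, 6, 8, 9],
  [1, 9, 2, 0, 10, 11, 8, 5, 6, 4, 3, 7], [1, 7, 2, 0, 8, 6, 3, 9, 4, 11, 10, 5], [1, 10, 2, 0, 8, 3, 7, 11, 5, 4, 6, 9],
  [1, 11, 2, 0, 7, 3, 10, 8, 6, 9, 4, 5], [1, 8, 2, 0, 10, 3, 11, 7, 4, 5, 9, 6]]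
/-- Its word program. -/
def progB : List (ℕ × ℕ) := [
  (0, 6), (1, 5), (2, 0), (2, 1), (2, 7), (2, 8), (3, 1), (3, 4), (3, 10), (3, 11)]

theorem hrB : repsB = toL (1 : Equiv.Perm (Fin 12)) :: repsB.tail := by rw [e_one]; decide +kernel
theorem hWB : chkWL gl11 (toL (1 : Equiv.Perm (Fin 12))) repsB.tail progB
    [toL (1 : Equiv.Perm (Fin 12))] = true := by rw [e_one]; decide +kernel
theorem hSB : chkS 12 ((1 : Fin 12) : ℕ) gl11 repsB mem10 = true := by decide +kernel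
theorem hndB : (repsB.map fun l => l.getD ((1 : Fin 12) : ℕ) 0).Nodup := by decide +kernel
theorem subB : Subgroup.closure G10 ≤ Subgroup.closure G11 := by
  apply Subgroup.closure_mono
  intro g hg
  simp only [G10, Set.mem_insert_iff, Set.mem_singleton_iff] at hg
  simp only [G11, Set.mem_insert_iff, Set.mem_singleton_iff]
  tauto

/-- Membership test of level B. -/
def mem11 : List ℕ → Bool := memLevel 12 ((1 : Fin 12) : ℕ) repsB mem10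

theorem thmB : (∀ g ∈ Subgroup.closure G11, g (1 : Fin 12) = 1 → g ∈ Subgroup.closure G10) ∧
    (∀ c : Fin 12, c.val ∈ repsB.map (fun l => l.getD ((1 : Fin 12) : ℕ) 0) →
      ∃ u ∈ Subgroup.closure G11, u (1 : Fin 12) = c) ∧
    Nat.card (Subgroup.closure G11) = repsB.length * Nat.card (Subgroup.closure G10) ∧
    (∀ g : Equiv.Perm (Fin 12), mem11 (toL g) = true → g ∈ Subgroup.closure G11) :=
  level G11 (Subgroup.closure G10) subB (1 : Fin 12) fix10_1 gl11 hg11 hgl11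
    repsB progB hrB hWB mem10 thmA.2.2.2 hSB hndB

/-- Transversal of level C. -/
def repsC : List (List ℕ) := [
  [0, 1, 2, 3, 4, 5, 6, 7, 8, 9, 10, 11], [0, 2, 1, 3, 4, 5, 11, 9, 10, 7, 8, 6], [1, 2, 0, 3, 4, 5, 8, 6, 7, 10, 11, 9],
  [1, 2, 3, 0, 4, 5, 10, 7, 6, 8, 9, 11], [1, 2, 4, 0, 5, 3, 11, 8, 7, 6, 10, 9], [1, 2, 6, 0, 7, 8, 4, 10, 9, 11, 3, 5],
  [1, 2, 5, 0, 3, 4, 9, 6, 8, 7, 11, 10], [1, 2, 9, 0, 10, 11, 7, 4, 3, 5, 6, 8], [1, 2, 7, 0, 8, 6, 5, 11, 10, 9, 4, 3],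
  [1, 2, 10, 0, 8, 3, 9, 4, 6, 11, 5, 7], [1, 2, 11, 0, 7, 3, 5, 9, 4, 8, 6, 10], [1, 2, 8, 0, 10, 3, 6, 5, 9, 7, 4, 11]]
/-- Its word program. -/
def progC : List (ℕ × ℕ) := [
  (0, 7), (1, 6), (2, 5), (3, 0), (3, 1), (3, 8), (3, 9), (4, 1), (4, 4), (4, 11), (4, 12)]

theorem hrC : repsC = toL (1 : Equiv.Perm (Fin 12)) :: repsC.tail := by rw [e_one]; decide +kernel
theorem hWC : chkWL gl12 (toL (1 : Equiv.Perm (Fin 12))) repsC.tail progC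
    [toL (1 : Equiv.Perm (Fin 12))] = true := by rw [e_one]; decide +kernel
theorem hSC : chkS 12 ((2 : Fin 12) : ℕ) gl12 repsC mem11 = true := by decide +kernel
theorem hndC : (repsC.map fun l => l.getD ((2 : Fin 12) : ℕ) 0).Nodup := by decide +kernel
theorem subC : Subgroup.closure G11 ≤ Subgroup.closure G12 := by
  apply Subgroup.closure_mono
  intro g hg
  simp only [G11, Set.mem_insert_iff, Set.mem_singleton_iff] at hg
  simp only [G12, Set.mem_insert_iff, Set.mem_singleton_iff]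
  tauto

/-- Membership test of level C. -/
def mem12 : List ℕ → Bool := memLevel 12 ((2 : Fin 12) : ℕ) repsC mem11

theorem thmC : (∀ g ∈ Subgroup.closure G12, g (2 : Fin 12) = 2 → g ∈ Subgroup.closure G11) ∧
    (∀ c : Fin 12, c.val ∈ repsC.map (fun l => l.getD ((2 : Fin 12) : ℕ) 0) →
      ∃ u ∈ Subgroup.closure G12, u (2 : Fin 12) = c) ∧
    Nat.card (Subgroup.closure G12) = repsC.length * Nat.card (Subgroup.closure G11) ∧
    (∀ g : Equiv.Perm (Fin 12), mem12 (toL g) = true → g ∈ Subgroup.closure G12) :=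
  level G12 (Subgroup.closure G11) subC (2 : Fin 12) fix11_2 gl12 hg12 hgl12
    repsC progC hrC hWC mem11 thmB.2.2.2 hSC hndC

theorem card12 : Nat.card (Subgroup.closure G12) = 95040 := by
  rw [thmC.2.2.1, thmB.2.2.1, thmA.2.2.1, thm9.2.1]
  decide +kernel

theorem card11 : Nat.card (Subgroup.closure G11) = 7920 := by
  rw [thmB.2.2.1, thmA.2.2.1, thm9.2.1]
  decide +kernel

theorem memC : ∀ c : Fin 12, c.val ∈ repsC.map (fun l => l.getD ((2 : Fin 12) : ℕ) 0) := by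
  decide +kernel

theorem memB' : ∀ c : Fin 12, c ≠ 2 →
    c.val ∈ repsB.map (fun l => l.getD ((1 : Fin 12) : ℕ) 0) := by
  decide +kernel

theorem memA' : ∀ c : Fin 12, c ≠ 1 → c ≠ 2 →
    c.val ∈ repsA.map (fun l => l.getD ((0 : Fin 12) : ℕ) 0) := by
  decide +kernel

theorem c_sharp : ∀ b ∈ B, b = idl ∨ ∀ p ∈ List.range 12, ∀ q ∈ List.range 12,
    p < 3 ∨ q < 3 ∨ p = q ∨ ¬ (b.getD p 0 = p ∧ b.getD q 0 = q) := by
  decide +kernel

theorem ainv (r : Equiv.Perm (Fin 12)) (x : Fin 12) : r (r⁻¹ x) = x := by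
  rw [← Equiv.Perm.mul_apply, mul_inv_cancel]; rfl

theorem inva (r : Equiv.Perm (Fin 12)) (x : Fin 12) : r⁻¹ (r x) = x := by
  rw [← Equiv.Perm.mul_apply, inv_mul_cancel]; rfl

theorem fixed3 (h : Equiv.Perm (Fin 12)) (hh : h ∈ Subgroup.closure G12) (h2 : h 2 = 2)
    (h1 : h 1 = 1) (h0 : h 0 = 0) : toL h ∈ B :=
  thm9.1 h (thmA.1 h (thmB.1 h (thmC.1 h hh h2) h1) h0)

theorem trans3 (a b c : Fin 12) (hab : a ≠ b) (hac : a ≠ c) (hbc : b ≠ c) :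
    ∃ ρ ∈ Subgroup.closure G12, ρ 2 = a ∧ ρ 1 = b ∧ ρ 0 = c := by
  obtain ⟨r, hr, er⟩ := thmC.2.1 a (memC a)
  have hb' : r⁻¹ b ≠ 2 := by
    intro h
    apply hab
    rw [← er, ← h, ainv]
  obtain ⟨r2, hr2, er2⟩ := thmB.2.1 (r⁻¹ b) (memB' _ hb')
  have r2f : r2 2 = 2 := fix11_2 r2 hr2
  have hc2 : r2⁻¹ (r⁻¹ c) ≠ 2 := by
    intro h
    apply hac
    have h' : r⁻¹ c = r2 2 := by rw [← h, ainv]
    rw [r2f] at h'
    rw [← er, ← h', ainv]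
  have hc1 : r2⁻¹ (r⁻¹ c) ≠ 1 := by
    intro h
    apply hbc
    have h' : r⁻¹ c = r2 1 := by rw [← h, ainv]
    rw [er2] at h'
    have h'' := congrArg r h'
    rw [ainv, ainv] at h''
    exact h''.symm
  obtain ⟨r3, hr3, er3⟩ := thmA.2.1 (r2⁻¹ (r⁻¹ c)) (memA' _ hc1 hc2)
  have r3f1 : r3 1 = 1 := fix10_1 r3 hr3
  have r3f2 : r3 2 = 2 := fix10_2 r3 hr3
  refine ⟨r * r2 * r3, Subgroup.mul_mem _ (Subgroup.mul_mem _ hr (subC hr2)) (subC (subB hr3)),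
    ?_, ?_, ?_⟩
  · rw [Equiv.Perm.mul_apply, Equiv.Perm.mul_apply, r3f2, r2f, er]
  · rw [Equiv.Perm.mul_apply, Equiv.Perm.mul_apply, r3f1, er2, ainv]
  · rw [Equiv.Perm.mul_apply, Equiv.Perm.mul_apply, er3, ainv, ainv]

theorem sharp (g : Equiv.Perm (Fin 12)) (hg : g ∈ Subgroup.closure G12) (y : Fin 5 ↪ Fin 12)
    (hy : ∀ i, g (y i) = y i) : g = 1 := by
  have ne : ∀ i j : Fin 5, i ≠ j → y i ≠ y j := fun i j h e => h (y.injective e)
  obtain ⟨ρ, hρ, e2, e1, e0⟩ := trans3 (y 0) (y 1) (y 2) (ne _ _ (by decide))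
    (ne _ _ (by decide)) (ne _ _ (by decide))
  have hh : ρ⁻¹ * g * ρ ∈ Subgroup.closure G12 :=
    Subgroup.mul_mem _ (Subgroup.mul_mem _ (Subgroup.inv_mem _ hρ) hg) hρ
  have conj : ∀ x : Fin 12, g (ρ x) = ρ x → (ρ⁻¹ * g * ρ) x = x := by
    intro x hx
    rw [Equiv.Perm.mul_apply, Equiv.Perm.mul_apply, hx, inva]
  have h2 := conj 2 (by rw [e2]; exact hy 0)
  have h1 := conj 1 (by rw [e1]; exact hy 1)
  have h0 := conj 0 (by rw [e0]; exact hy 2)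
  have hB := fixed3 _ hh h2 h1 h0
  have hp := conj (ρ⁻¹ (y 3)) (by rw [ainv]; exact hy 3)
  have hq := conj (ρ⁻¹ (y 4)) (by rw [ainv]; exact hy 4)
  have pne : ∀ (i : Fin 5) (z : Fin 12) (j : Fin 5), ρ z = y j → i ≠ j → ρ⁻¹ (y i) ≠ z := by
    intro i z j hz hij h
    apply ne i j hij
    rw [← hz, ← h, ainv]
  rcases c_sharp _ hB with e | hno
  · have h1' : ρ⁻¹ * g * ρ = 1 := toL_inj (e.trans e_one.symm)
    have h2' : g = ρ * (ρ⁻¹ * g * ρ) * ρ⁻¹ := by group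
    rw [h2', h1']
    group
  · exfalso
    have hP := hno (ρ⁻¹ (y 3)).val (List.mem_range.mpr (ρ⁻¹ (y 3)).isLt)
      (ρ⁻¹ (y 4)).val (List.mem_range.mpr (ρ⁻¹ (y 4)).isLt)
    have p0 : (ρ⁻¹ (y 3)).val ≠ 0 := fun h => pne 3 0 2 e0 (by decide) (Fin.ext h)
    have p1 : (ρ⁻¹ (y 3)).val ≠ 1 := fun h => pne 3 1 1 e1 (by decide) (Fin.ext h)
    have p2 : (ρ⁻¹ (y 3)).val ≠ 2 := fun h => pne 3 2 0 e2 (by decide) (Fin.ext h)
    have q0 : (ρ⁻¹ (y 4)).val ≠ 0 := fun h => pne 4 0 2 e0 (by decide) (Fin.ext h)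
    have q1 : (ρ⁻¹ (y 4)).val ≠ 1 := fun h => pne 4 1 1 e1 (by decide) (Fin.ext h)
    have q2 : (ρ⁻¹ (y 4)).val ≠ 2 := fun h => pne 4 2 0 e2 (by decide) (Fin.ext h)
    have pq : (ρ⁻¹ (y 3)).val ≠ (ρ⁻¹ (y 4)).val := by
      intro h
      have h' := (ρ⁻¹).injective (Fin.ext h)
      exact ne 3 4 (by decide) h'
    rcases hP with h | h | h | h
    · omega
    · omega
    · exact pq h
    · apply h
      constructor
      · rw [toL_getD, hp]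
      · rw [toL_getD, hq]

/-- An explicit construction of the Mathieu groups of degrees 11 and 12. On the points 0, …, 11 let s = (3 4 5)(6 7 8)(9 10 11), t = (3 6 9)(4 7 10)(5 8 11), u = (4 6 5 9)(7 8 11 10), v = (4 7 5 11)(6 10 9 8), w = (4 10 5 8)(6 11 9 7), x₁ = (0 3)(6 7)(8 10)(9 11), x₂ = (0 1)(6 9)(7 10)(8 11), x₃ = (1 2)(6 11)(7 9)(8 10) (each written as a product of transpositions). Then the group M₁₂ generated by all eight permutations is sharply 5-transitive on the 12 points and has order 95040, and the group M₁₁ generated by the first seven has order 7920 and is the stabilizer of the point 2 in M₁₂. -/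
theorem result
    (s t u v w x₁ x₂ x₃ : Equiv.Perm (Fin 12))
    (hs : s = Equiv.swap (3 : Fin 12) 5 * Equiv.swap (3 : Fin 12) 4 * Equiv.swap (6 : Fin 12) 8 * Equiv.swap (6 : Fin 12) 7 * Equiv.swap (9 : Fin 12) 11 * Equiv.swap (9 : Fin 12) 10) (ht : t = Equiv.swap (3 : Fin 12) 9 * Equiv.swap (3 : Fin 12) 6 * Equiv.swap (4 : Fin 12) 10 * Equiv.swap (4 : Fin 12) 7 * Equiv.swap (5 : Fin 12) 11 * Equiv.swap (5 : Fin 12) 8)
    (hu : u = Equiv.swap (4 : Fin 12) 9 * Equiv.swap (4 : Fin 12) 5 * Equiv.swap (4 : Fin 12) 6 * Equiv.swap (7 : Fin 12) 10 * Equiv.swap (7 : Fin 12) 11 * Equiv.swap (7 : Fin 12) 8) (hv : v = Equiv.swap (4 : Fin 12) 11 * Equiv.swap (4 : Fin 12) 5 * Equiv.swap (4 : Fin 12) 7 * Equiv.swap (6 : Fin 12) 8 * Equiv.swap (6 : Fin 12) 9 * Equiv.swap (6 : Fin 12) 10) (hw : w = Equiv.swap (4 : Fin 12) 8 * Equiv.swap (4 : Fin 12) 5 * Equiv.swap (4 : Fin 12) 10 * Equiv.swap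 (6 : Fin 12) 7 * Equiv.swap (6 : Fin 12) 9 * Equiv.swap (6 : Fin 12) 11)
    (hx₁ : x₁ = Equiv.swap (0 : Fin 12) 3 * Equiv.swap (6 : Fin 12) 7 * Equiv.swap (8 : Fin 12) 10 * Equiv.swap (9 : Fin 12) 11) (hx₂ : x₂ = Equiv.swap (0 : Fin 12) 1 * Equiv.swap (6 : Fin 12) 9 * Equiv.swap (7 : Fin 12) 10 * Equiv.swap (8 : Fin 12) 11)
    (hx₃ : x₃ = Equiv.swap (1 : Fin 12) 2 * Equiv.swap (6 : Fin 12) 11 * Equiv.swap (7 : Fin 12) 9 * Equiv.swap (8 : Fin 12) 10)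
    (M₁₂ M₁₁ : Subgroup (Equiv.Perm (Fin 12))) (hM₁₂ : M₁₂ = Subgroup.closure {s, t, u, v, w, x₁, x₂, x₃})
    (hM₁₁ : M₁₁ = Subgroup.closure {s, t, u, v, w, x₁, x₂}) :
    MulAction.IsMultiplyPretransitive M₁₂ (Fin 12) 5 ∧ (∀ y : Fin 5 ↪ Fin 12, MulAction.stabilizer M₁₂ y = ⊥) ∧
    Nat.card M₁₂ = 95040 ∧ Nat.card M₁₁ = 7920 ∧
    M₁₁ = M₁₂ ⊓ MulAction.stabilizer (Equiv.Perm (Fin 12)) (2 : Fin 12) := by
  have e12 : M₁₂ = Subgroup.closure G12 := by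
    rw [hM₁₂, hs, ht, hu, hv, hw, hx₁, hx₂, hx₃]; rfl
  have e11 : M₁₁ = Subgroup.closure G11 := by
    rw [hM₁₁, hs, ht, hu, hv, hw, hx₁, hx₂]; rfl
  subst e12 e11
  have hstab : ∀ y : Fin 5 ↪ Fin 12, MulAction.stabilizer (Subgroup.closure G12) y = ⊥ := by
    intro y
    rw [eq_bot_iff]
    intro g hg
    rw [MulAction.mem_stabilizer_iff] at hg
    rw [Subgroup.mem_bot]
    apply Subtype.ext
    apply sharp g.1 g.2 y
    intro i
    exact congrArg (fun f : Fin 5 ↪ Fin 12 => f i) hg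
  have hcardE : Nat.card (Fin 5 ↪ Fin 12) = 95040 := by
    rw [Nat.card_eq_fintype_card, Fintype.card_embedding_eq, Fintype.card_fin, Fintype.card_fin]
    rfl
  have htrans : MulAction.IsMultiplyPretransitive (Subgroup.closure G12) (Fin 12) 5 := by
    refine ⟨fun x y => ?_⟩
    have hinj : Function.Injective (fun g : Subgroup.closure G12 => g • x) := by
      intro g g' e
      have e0 : g • x = g' • x := e
      have e' : (g'⁻¹ * g) • x = x := by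
        have e1 : (g'⁻¹ * g) • x = g'⁻¹ • (g • x) := mul_smul _ _ _
        rw [e1, e0]
        exact inv_smul_smul _ _
      have hmem : g'⁻¹ * g ∈ MulAction.stabilizer (Subgroup.closure G12) x :=
        MulAction.mem_stabilizer_iff.mpr e'
      rw [hstab x, Subgroup.mem_bot] at hmem
      exact (inv_mul_eq_one.mp hmem).symm
    have hbij := hinj.bijective_of_nat_card_le (by rw [hcardE, card12])
    exact hbij.2 y
  refine ⟨htrans, hstab, card12, card11, ?_⟩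
  apply le_antisymm
  · intro g hg
    exact Subgroup.mem_inf.mpr ⟨subC hg, MulAction.mem_stabilizer_iff.mpr (fix11_2 g hg)⟩
  · intro g hg
    obtain ⟨h1, h2⟩ := Subgroup.mem_inf.mp hg
    exact thmC.1 g h1 (MulAction.mem_stabilizer_iff.mp h2)

end Cfsg.Agent.S3362
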