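import Mathlib
import Cfsg.Statements.S3375
import Cfsg.Agent.Lib.Helper5.Fpf

set_option autoImplicit false
open Cfsg

namespace Cfsg.Agent.S3375

open Cfsg.Agent.Lib.Helper5

/-- Let γ be an automorphism of order 2 of a finite group H. (i) If γ fixes only the identity, then H is abelian and γ inverts every element. (ii) If γ has exactly two fixed points and H has a subgroup of index 2, then H has a γ-invariant abelian subgroup of index 2 on which γ acts by inversion. -/
theorem result {H : Type*} [Group H] [Finite H] (γ : MulAut H) (hγ : orderOf γ = 2) :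
    ((∀ h : H, γ h = h → h = 1) → (∀ a b : H, a * b = b * a) ∧ ∀ h : H, γ h = h⁻¹) ∧
    ((Nat.card {h : H // γ h = h} = 2 ∧ ∃ M : Subgroup H, M.index = 2) →
      ∃ A : Subgroup H, A.index = 2 ∧ IsMulCommutative A ∧ (∀ a ∈ A, γ a ∈ A) ∧ ∀ a ∈ A, γ a = a⁻¹) := by
  have hγ2 : ∀ h : H, γ (γ h) = h := by
    intro h
    have h1 := pow_orderOf_eq_one γ
    rw [hγ, pow_two] at h1
    have h2 := congrArg (fun f : MulAut H => f h) h1
    simpa [MulAut.mul_apply] using h2
  constructor
  · intro hfpf
    have hinv : ∀ h : H, γ h = h⁻¹ := by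
      intro x
      obtain ⟨h, rfl⟩ := aut_fpf_surj γ hfpf x
      rw [map_mul, map_inv, hγ2, mul_inv_rev, inv_inv]
    refine ⟨?_, hinv⟩
    intro a b
    have h1 := hinv (a * b)
    rw [map_mul, hinv a, hinv b, mul_inv_rev] at h1
    have h2 := congrArg (fun x => x⁻¹) h1
    simpa using h2.symm
  · rintro ⟨hfix2, M, hM⟩
    obtain ⟨A, hA2, hAγ⟩ : ∃ A : Subgroup H, A.index = 2 ∧ ∀ a, a ∈ A ↔ γ a ∈ A := by
      by_cases hMγ : ∀ a, a ∈ M ↔ γ a ∈ M
      · exact ⟨M, hM, hMγ⟩
      · push Not at hMγ
        obtain ⟨a₀, ha₀⟩ := hMγ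
        refine ⟨{ carrier := {h | h ∈ M ↔ γ h ∈ M}
                  one_mem' := by simp [M.one_mem]
                  mul_mem' := ?_
                  inv_mem' := ?_ }, ?_, ?_⟩
        · intro a b ha hb
          have ha' : a ∈ M ↔ γ a ∈ M := ha
          have hb' : b ∈ M ↔ γ b ∈ M := hb
          show a * b ∈ M ↔ γ (a * b) ∈ M
          rw [map_mul, Subgroup.mul_mem_iff_of_index_two hM, Subgroup.mul_mem_iff_of_index_two hM,
            ha', hb']
        · intro a ha
          have ha' : a ∈ M ↔ γ a ∈ M := ha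
          show a⁻¹ ∈ M ↔ γ a⁻¹ ∈ M
          rw [map_inv, inv_mem_iff, inv_mem_iff]
          exact ha'
        · rw [Subgroup.index_eq_two_iff]
          refine ⟨a₀, fun b => ?_⟩
          show Xor (b * a₀ ∈ M ↔ γ (b * a₀) ∈ M) (b ∈ M ↔ γ b ∈ M)
          rw [map_mul, Subgroup.mul_mem_iff_of_index_two hM, Subgroup.mul_mem_iff_of_index_two hM]
          unfold Xor
          tauto
        · intro a
          show (a ∈ M ↔ γ a ∈ M) ↔ (γ a ∈ M ↔ γ (γ a) ∈ M)
          rw [hγ2]
          tauto
    obtain ⟨C, hCmem⟩ : ∃ C : Subgroup H, ∀ h, h ∈ C ↔ γ h = h :=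
      ⟨{ carrier := {h | γ h = h}
         one_mem' := by simp
         mul_mem' := by
           intro a b ha hb
           have ha' : γ a = a := ha
           have hb' : γ b = b := hb
           show γ (a * b) = a * b
           rw [map_mul, ha', hb']
         inv_mem' := by
           intro a ha
           have ha' : γ a = a := ha
           show γ a⁻¹ = a⁻¹
           rw [map_inv, ha'] }, fun h => Iff.rfl⟩
    have hCcard : Nat.card C = 2 := by
      rw [← hfix2]
      exact Nat.card_congr (Equiv.subtypeEquivRight hCmem)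
    have hI : ∀ h : H, γ h * h⁻¹ ∈ A := by
      intro h
      rw [Subgroup.mul_mem_iff_of_index_two hA2, inv_mem_iff]
      exact (hAγ h).symm
    obtain ⟨f, hf⟩ : ∃ f : H ⧸ C → A, ∀ h : H, ((f (h : H ⧸ C) : A) : H) = γ h * h⁻¹ := by
      refine ⟨fun q => Quotient.liftOn' q (fun h => (⟨γ h * h⁻¹, hI h⟩ : A)) ?_, fun h => rfl⟩
      intro a b hab
      have hab' : a⁻¹ * b ∈ C := QuotientGroup.leftRel_apply.mp hab
      apply Subtype.ext
      have h1 : γ (a⁻¹ * b) = a⁻¹ * b := (hCmem _).mp hab'
      rw [map_mul, map_inv] at h1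
      show γ a * a⁻¹ = γ b * b⁻¹
      calc γ a * a⁻¹ = γ a * (a⁻¹ * b) * b⁻¹ := by group
        _ = γ a * ((γ a)⁻¹ * γ b) * b⁻¹ := by rw [h1]
        _ = γ b * b⁻¹ := by group
    have hinj : Function.Injective f := by
      intro q1 q2
      induction q1 using QuotientGroup.induction_on with
      | H a =>
        induction q2 using QuotientGroup.induction_on with
        | H b =>
          intro hab
          have h1 : γ a * a⁻¹ = γ b * b⁻¹ := by rw [← hf a, ← hf b, hab]
          rw [QuotientGroup.eq, hCmem, map_mul, map_inv]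
          calc (γ a)⁻¹ * γ b = (γ a)⁻¹ * (γ b * b⁻¹) * b := by group
            _ = (γ a)⁻¹ * (γ a * a⁻¹) * b := by rw [← h1]
            _ = a⁻¹ * b := by group
    have hcard : Nat.card (H ⧸ C) = Nat.card A := by
      have h1 : C.index * Nat.card C = Nat.card H := C.index_mul_card
      have h2 : A.index * Nat.card A = Nat.card H := A.index_mul_card
      rw [hCcard] at h1
      rw [hA2] at h2
      have : C.index = Nat.card A := by omega
      exact this
    have hbij : Function.Bijective f := (Nat.bijective_iff_injective_and_card f).mpr ⟨hinj, hcard⟩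
    have hAinv : ∀ a ∈ A, γ a = a⁻¹ := by
      intro a ha
      obtain ⟨q, hq⟩ := hbij.2 ⟨a, ha⟩
      induction q using QuotientGroup.induction_on with
      | H h =>
        have : a = γ h * h⁻¹ := by rw [← hf h, hq]
        rw [this, map_mul, map_inv, hγ2, mul_inv_rev, inv_inv]
    refine ⟨A, hA2, ?_, fun a ha => (hAγ a).mp ha, hAinv⟩
    refine ⟨⟨fun a b => ?_⟩⟩
    apply Subtype.ext
    have h1 := hAinv (a.1 * b.1) (A.mul_mem a.2 b.2)
    rw [map_mul, hAinv a.1 a.2, hAinv b.1 b.2, mul_inv_rev] at h1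
    have h2 := congrArg (fun x => x⁻¹) h1
    simpa using h2.symm

end Cfsg.Agent.S3375
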