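import Mathlib
import Cfsg.Statements.S3377

set_option autoImplicit false

open Cfsg

namespace Cfsg.Agent.S3377

theorem core {G : Type*} [Group G] (x y : G) (t : Fin 12 → G) (hx : x ^ 3 = 1) (hy : y ^ 5 = 1)
    (hxy : (x * y) ^ 2 = 1) (h0 : t 0 = 1)
    (e1 : t 0 * x = t 1) (e2 : t 1 * x = t 2) (e3 : t 2 * y = t 3) (e4 : t 3 * x = t 4) (e5 : t 3 * y = t 5) (e6 : t 4 * x = t 6)
    (e7 : t 5 * x = t 7) (e8 : t 6 * y = t 8) (e9 : t 8 * y = t 9) (e10 : t 9 * x = t 10) (e11 : t 10 * x = t 11) :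
    (∀ i : Fin 12, ∃ (k : ℕ) (j : Fin 12), t i * x = y ^ k * t j) ∧
    (∀ i : Fin 12, ∃ (k : ℕ) (j : Fin 12), t i * y = y ^ k * t j) := by
  have hx3 : x * (x * x) = 1 := by rw [← hx, pow_succ, pow_succ, pow_one, mul_assoc]
  have hy5 : y * (y * (y * (y * y))) = 1 := by
    rw [← hy, pow_succ, pow_succ, pow_succ, pow_succ, pow_one]; simp only [mul_assoc]
  have hxy4 : x * (y * (x * y)) = 1 := by rw [← hxy, pow_succ, pow_one]; simp only [mul_assoc]
  have hyx4 : y * (x * (y * x)) = 1 := by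
    have h1 : y * (x * (y * x)) = x⁻¹ * (x * (y * (x * y))) * x := by group
    rw [h1, hxy4, mul_one, inv_mul_cancel]
  have h10 : y ^ 10 = 1 := by rw [show (10 : ℕ) = 5 * 2 from rfl, pow_mul, hy, one_pow]
  have h15 : y ^ 15 = 1 := by rw [show (15 : ℕ) = 5 * 3 from rfl, pow_mul, hy, one_pow]
  have h20 : y ^ 20 = 1 := by rw [show (20 : ℕ) = 5 * 4 from rfl, pow_mul, hy, one_pow]
  have h00 : y ^ 0 = 1 := pow_zero y
  have F0x : t 0 * x = y ^ 0 * t 1 := by rw [pow_zero, one_mul]; exact e1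
  have F1x : t 1 * x = y ^ 0 * t 2 := by rw [pow_zero, one_mul]; exact e2
  have F2y : t 2 * y = y ^ 0 * t 3 := by rw [pow_zero, one_mul]; exact e3
  have F3x : t 3 * x = y ^ 0 * t 4 := by rw [pow_zero, one_mul]; exact e4
  have F3y : t 3 * y = y ^ 0 * t 5 := by rw [pow_zero, one_mul]; exact e5
  have F4x : t 4 * x = y ^ 0 * t 6 := by rw [pow_zero, one_mul]; exact e6
  have F5x : t 5 * x = y ^ 0 * t 7 := by rw [pow_zero, one_mul]; exact e7
  have F6y : t 6 * y = y ^ 0 * t 8 := by rw [pow_zero, one_mul]; exact e8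
  have F8y : t 8 * y = y ^ 0 * t 9 := by rw [pow_zero, one_mul]; exact e9
  have F9x : t 9 * x = y ^ 0 * t 10 := by rw [pow_zero, one_mul]; exact e10
  have F10x : t 10 * x = y ^ 0 * t 11 := by rw [pow_zero, one_mul]; exact e11
  have F0y : t 0 * y = y ^ 1 * t 0 := by rw [h0, one_mul, mul_one, pow_one]
  have F2x : t 2 * x = y ^ 0 * t 0 := by
    have p1 : t 0 * x = y ^ (0) * t 1 := F0x
    have p2 : t 0 * x * x = y ^ (0 + 0) * t 2 := by
      rw [p1, mul_assoc, F1x, ← mul_assoc, ← pow_add]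
    have fin : y ^ (0 + 0) * (t 2 * x) = t 0 := by
      rw [← mul_assoc, ← p2]; simp only [mul_assoc]; rw [hx3, mul_one]
    calc t 2 * x = y ^ 0 * (y ^ (0 + 0) * (t 2 * x)) := by
          rw [← mul_assoc, ← pow_add, show y ^ (0 + (0 + 0)) = 1 from h00, one_mul]
      _ = y ^ 0 * t 0 := by rw [fin]
  have F1y : t 1 * y = y ^ 4 * t 2 := by
    have p1 : t 2 * x = y ^ (0) * t 0 := F2x
    have p2 : t 2 * x * y = y ^ (0 + 1) * t 0 := by
      rw [p1, mul_assoc, F0y, ← mul_assoc, ← pow_add]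
    have p3 : t 2 * x * y * x = y ^ (0 + 1 + 0) * t 1 := by
      rw [p2, mul_assoc, F0x, ← mul_assoc, ← pow_add]
    have fin : y ^ (0 + 1 + 0) * (t 1 * y) = t 2 := by
      rw [← mul_assoc, ← p3]; simp only [mul_assoc]; rw [hxy4, mul_one]
    calc t 1 * y = y ^ 4 * (y ^ (0 + 1 + 0) * (t 1 * y)) := by
          rw [← mul_assoc, ← pow_add, show y ^ (4 + (0 + 1 + 0)) = 1 from hy, one_mul]
      _ = y ^ 4 * t 2 := by rw [fin]
  have F4y : t 4 * y = y ^ 0 * t 1 := by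
    have p1 : t 1 * x = y ^ (0) * t 2 := F1x
    have p2 : t 1 * x * y = y ^ (0 + 0) * t 3 := by
      rw [p1, mul_assoc, F2y, ← mul_assoc, ← pow_add]
    have p3 : t 1 * x * y * x = y ^ (0 + 0 + 0) * t 4 := by
      rw [p2, mul_assoc, F3x, ← mul_assoc, ← pow_add]
    have fin : y ^ (0 + 0 + 0) * (t 4 * y) = t 1 := by
      rw [← mul_assoc, ← p3]; simp only [mul_assoc]; rw [hxy4, mul_one]
    calc t 4 * y = y ^ 0 * (y ^ (0 + 0 + 0) * (t 4 * y)) := by
          rw [← mul_assoc, ← pow_add, show y ^ (0 + (0 + 0 + 0)) = 1 from h00, one_mul]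
      _ = y ^ 0 * t 1 := by rw [fin]
  have F5y : t 5 * y = y ^ 1 * t 4 := by
    have p1 : t 4 * y = y ^ (0) * t 1 := F4y
    have p2 : t 4 * y * y = y ^ (0 + 4) * t 2 := by
      rw [p1, mul_assoc, F1y, ← mul_assoc, ← pow_add]
    have p3 : t 4 * y * y * y = y ^ (0 + 4 + 0) * t 3 := by
      rw [p2, mul_assoc, F2y, ← mul_assoc, ← pow_add]
    have p4 : t 4 * y * y * y * y = y ^ (0 + 4 + 0 + 0) * t 5 := by
      rw [p3, mul_assoc, F3y, ← mul_assoc, ← pow_add]
    have fin : y ^ (0 + 4 + 0 + 0) * (t 5 * y) = t 4 := by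
      rw [← mul_assoc, ← p4]; simp only [mul_assoc]; rw [hy5, mul_one]
    calc t 5 * y = y ^ 1 * (y ^ (0 + 4 + 0 + 0) * (t 5 * y)) := by
          rw [← mul_assoc, ← pow_add, show y ^ (1 + (0 + 4 + 0 + 0)) = 1 from hy, one_mul]
      _ = y ^ 1 * t 4 := by rw [fin]
  have F6x : t 6 * x = y ^ 0 * t 3 := by
    have p1 : t 3 * x = y ^ (0) * t 4 := F3x
    have p2 : t 3 * x * x = y ^ (0 + 0) * t 6 := by
      rw [p1, mul_assoc, F4x, ← mul_assoc, ← pow_add]
    have fin : y ^ (0 + 0) * (t 6 * x) = t 3 := by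
      rw [← mul_assoc, ← p2]; simp only [mul_assoc]; rw [hx3, mul_one]
    calc t 6 * x = y ^ 0 * (y ^ (0 + 0) * (t 6 * x)) := by
          rw [← mul_assoc, ← pow_add, show y ^ (0 + (0 + 0)) = 1 from h00, one_mul]
      _ = y ^ 0 * t 3 := by rw [fin]
  have F8x : t 8 * x = y ^ 4 * t 5 := by
    have p1 : t 5 * y = y ^ (1) * t 4 := F5y
    have p2 : t 5 * y * x = y ^ (1 + 0) * t 6 := by
      rw [p1, mul_assoc, F4x, ← mul_assoc, ← pow_add]
    have p3 : t 5 * y * x * y = y ^ (1 + 0 + 0) * t 8 := by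
      rw [p2, mul_assoc, F6y, ← mul_assoc, ← pow_add]
    have fin : y ^ (1 + 0 + 0) * (t 8 * x) = t 5 := by
      rw [← mul_assoc, ← p3]; simp only [mul_assoc]; rw [hyx4, mul_one]
    calc t 8 * x = y ^ 4 * (y ^ (1 + 0 + 0) * (t 8 * x)) := by
          rw [← mul_assoc, ← pow_add, show y ^ (4 + (1 + 0 + 0)) = 1 from hy, one_mul]
      _ = y ^ 4 * t 5 := by rw [fin]
  have F7x : t 7 * x = y ^ 1 * t 8 := by
    have p1 : t 8 * x = y ^ (4) * t 5 := F8x
    have p2 : t 8 * x * x = y ^ (4 + 0) * t 7 := by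
      rw [p1, mul_assoc, F5x, ← mul_assoc, ← pow_add]
    have fin : y ^ (4 + 0) * (t 7 * x) = t 8 := by
      rw [← mul_assoc, ← p2]; simp only [mul_assoc]; rw [hx3, mul_one]
    calc t 7 * x = y ^ 1 * (y ^ (4 + 0) * (t 7 * x)) := by
          rw [← mul_assoc, ← pow_add, show y ^ (1 + (4 + 0)) = 1 from hy, one_mul]
      _ = y ^ 1 * t 8 := by rw [fin]
  have F7y : t 7 * y = y ^ 0 * t 6 := by
    have p1 : t 6 * x = y ^ (0) * t 3 := F6x
    have p2 : t 6 * x * y = y ^ (0 + 0) * t 5 := by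
      rw [p1, mul_assoc, F3y, ← mul_assoc, ← pow_add]
    have p3 : t 6 * x * y * x = y ^ (0 + 0 + 0) * t 7 := by
      rw [p2, mul_assoc, F5x, ← mul_assoc, ← pow_add]
    have fin : y ^ (0 + 0 + 0) * (t 7 * y) = t 6 := by
      rw [← mul_assoc, ← p3]; simp only [mul_assoc]; rw [hxy4, mul_one]
    calc t 7 * y = y ^ 0 * (y ^ (0 + 0 + 0) * (t 7 * y)) := by
          rw [← mul_assoc, ← pow_add, show y ^ (0 + (0 + 0 + 0)) = 1 from h00, one_mul]
      _ = y ^ 0 * t 6 := by rw [fin]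
  have F10y : t 10 * y = y ^ 4 * t 7 := by
    have p1 : t 7 * x = y ^ (1) * t 8 := F7x
    have p2 : t 7 * x * y = y ^ (1 + 0) * t 9 := by
      rw [p1, mul_assoc, F8y, ← mul_assoc, ← pow_add]
    have p3 : t 7 * x * y * x = y ^ (1 + 0 + 0) * t 10 := by
      rw [p2, mul_assoc, F9x, ← mul_assoc, ← pow_add]
    have fin : y ^ (1 + 0 + 0) * (t 10 * y) = t 7 := by
      rw [← mul_assoc, ← p3]; simp only [mul_assoc]; rw [hxy4, mul_one]
    calc t 10 * y = y ^ 4 * (y ^ (1 + 0 + 0) * (t 10 * y)) := by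
          rw [← mul_assoc, ← pow_add, show y ^ (4 + (1 + 0 + 0)) = 1 from hy, one_mul]
      _ = y ^ 4 * t 7 := by rw [fin]
  have F9y : t 9 * y = y ^ 1 * t 10 := by
    have p1 : t 10 * y = y ^ (4) * t 7 := F10y
    have p2 : t 10 * y * y = y ^ (4 + 0) * t 6 := by
      rw [p1, mul_assoc, F7y, ← mul_assoc, ← pow_add]
    have p3 : t 10 * y * y * y = y ^ (4 + 0 + 0) * t 8 := by
      rw [p2, mul_assoc, F6y, ← mul_assoc, ← pow_add]
    have p4 : t 10 * y * y * y * y = y ^ (4 + 0 + 0 + 0) * t 9 := by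
      rw [p3, mul_assoc, F8y, ← mul_assoc, ← pow_add]
    have fin : y ^ (4 + 0 + 0 + 0) * (t 9 * y) = t 10 := by
      rw [← mul_assoc, ← p4]; simp only [mul_assoc]; rw [hy5, mul_one]
    calc t 9 * y = y ^ 1 * (y ^ (4 + 0 + 0 + 0) * (t 9 * y)) := by
          rw [← mul_assoc, ← pow_add, show y ^ (1 + (4 + 0 + 0 + 0)) = 1 from hy, one_mul]
      _ = y ^ 1 * t 10 := by rw [fin]
  have F11x : t 11 * x = y ^ 0 * t 9 := by
    have p1 : t 9 * x = y ^ (0) * t 10 := F9x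
    have p2 : t 9 * x * x = y ^ (0 + 0) * t 11 := by
      rw [p1, mul_assoc, F10x, ← mul_assoc, ← pow_add]
    have fin : y ^ (0 + 0) * (t 11 * x) = t 9 := by
      rw [← mul_assoc, ← p2]; simp only [mul_assoc]; rw [hx3, mul_one]
    calc t 11 * x = y ^ 0 * (y ^ (0 + 0) * (t 11 * x)) := by
          rw [← mul_assoc, ← pow_add, show y ^ (0 + (0 + 0)) = 1 from h00, one_mul]
      _ = y ^ 0 * t 9 := by rw [fin]
  have F11y : t 11 * y = y ^ 4 * t 11 := by
    have p1 : t 11 * x = y ^ (0) * t 9 := F11x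
    have p2 : t 11 * x * y = y ^ (0 + 1) * t 10 := by
      rw [p1, mul_assoc, F9y, ← mul_assoc, ← pow_add]
    have p3 : t 11 * x * y * x = y ^ (0 + 1 + 0) * t 11 := by
      rw [p2, mul_assoc, F10x, ← mul_assoc, ← pow_add]
    have fin : y ^ (0 + 1 + 0) * (t 11 * y) = t 11 := by
      rw [← mul_assoc, ← p3]; simp only [mul_assoc]; rw [hxy4, mul_one]
    calc t 11 * y = y ^ 4 * (y ^ (0 + 1 + 0) * (t 11 * y)) := by
          rw [← mul_assoc, ← pow_add, show y ^ (4 + (0 + 1 + 0)) = 1 from hy, one_mul]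
      _ = y ^ 4 * t 11 := by rw [fin]
  refine ⟨fun i => ?_, fun i => ?_⟩
  · fin_cases i
    · exact ⟨0, 1, F0x⟩
    · exact ⟨0, 2, F1x⟩
    · exact ⟨0, 0, F2x⟩
    · exact ⟨0, 4, F3x⟩
    · exact ⟨0, 6, F4x⟩
    · exact ⟨0, 7, F5x⟩
    · exact ⟨0, 3, F6x⟩
    · exact ⟨1, 8, F7x⟩
    · exact ⟨4, 5, F8x⟩
    · exact ⟨0, 10, F9x⟩
    · exact ⟨0, 11, F10x⟩
    · exact ⟨0, 9, F11x⟩
  · fin_cases i
    · exact ⟨1, 0, F0y⟩
    · exact ⟨4, 2, F1y⟩
    · exact ⟨0, 3, F2y⟩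
    · exact ⟨0, 5, F3y⟩
    · exact ⟨0, 1, F4y⟩
    · exact ⟨1, 4, F5y⟩
    · exact ⟨0, 8, F6y⟩
    · exact ⟨0, 6, F7y⟩
    · exact ⟨0, 9, F8y⟩
    · exact ⟨1, 10, F9y⟩
    · exact ⟨4, 7, F10y⟩
    · exact ⟨4, 11, F11y⟩

/-- The twelve coset representatives of `⟨y⟩`. -/
def reps {G : Type*} [Group G] (x y : G) : Fin 12 → G :=
  ![1, 1 * x, 1 * x * x, 1 * x * x * y, 1 * x * x * y * x, 1 * x * x * y * y,
    1 * x * x * y * x * x, 1 * x * x * y * y * x, 1 * x * x * y * x * x * y,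
    1 * x * x * y * x * x * y * y, 1 * x * x * y * x * x * y * y * x,
    1 * x * x * y * x * x * y * y * x * x]

theorem closed {G : Type*} [Group G] (x y : G) (hx : x ^ 3 = 1) (hy : y ^ 5 = 1)
    (hxy : (x * y) ^ 2 = 1) :
    (∀ i : Fin 12, ∃ (k : ℕ) (j : Fin 12), reps x y i * x = y ^ k * reps x y j) ∧
    (∀ i : Fin 12, ∃ (k : ℕ) (j : Fin 12), reps x y i * y = y ^ k * reps x y j) :=
  core x y (reps x y) hx hy hxy rfl rfl rfl rfl rfl rfl rfl rfl rfl rfl rfl rfl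

/-- The set of elements `y ^ k * t_i`. -/
def SS {G : Type*} [Group G] (x y : G) : Set G :=
  {g | ∃ (k : ℕ) (i : Fin 12), g = y ^ k * reps x y i}

theorem SS_x {G : Type*} [Group G] (x y : G) (hx : x ^ 3 = 1) (hy : y ^ 5 = 1)
    (hxy : (x * y) ^ 2 = 1) {g : G} (hg : g ∈ SS x y) : g * x ∈ SS x y := by
  obtain ⟨k, i, rfl⟩ := hg
  obtain ⟨k', j, h⟩ := (closed x y hx hy hxy).1 i
  exact ⟨k + k', j, by rw [mul_assoc, h, ← mul_assoc, ← pow_add]⟩

theorem SS_y {G : Type*} [Group G] (x y : G) (hx : x ^ 3 = 1) (hy : y ^ 5 = 1)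
    (hxy : (x * y) ^ 2 = 1) {g : G} (hg : g ∈ SS x y) : g * y ∈ SS x y := by
  obtain ⟨k, i, rfl⟩ := hg
  obtain ⟨k', j, h⟩ := (closed x y hx hy hxy).2 i
  exact ⟨k + k', j, by rw [mul_assoc, h, ← mul_assoc, ← pow_add]⟩

theorem SS_xinv {G : Type*} [Group G] (x y : G) (hx : x ^ 3 = 1) (hy : y ^ 5 = 1)
    (hxy : (x * y) ^ 2 = 1) {g : G} (hg : g ∈ SS x y) : g * x⁻¹ ∈ SS x y := by
  have h : x⁻¹ = x * x := by
    apply inv_eq_of_mul_eq_one_right
    rw [← hx, pow_succ, pow_succ, pow_one, mul_assoc]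
  rw [h, ← mul_assoc]
  exact SS_x x y hx hy hxy (SS_x x y hx hy hxy hg)

theorem SS_yinv {G : Type*} [Group G] (x y : G) (hx : x ^ 3 = 1) (hy : y ^ 5 = 1)
    (hxy : (x * y) ^ 2 = 1) {g : G} (hg : g ∈ SS x y) : g * y⁻¹ ∈ SS x y := by
  have h : y⁻¹ = y * y * y * y := by
    apply inv_eq_of_mul_eq_one_right
    rw [← hy, pow_succ, pow_succ, pow_succ, pow_succ, pow_one]; simp only [mul_assoc]
  rw [h, ← mul_assoc, ← mul_assoc, ← mul_assoc]
  exact SS_y x y hx hy hxy (SS_y x y hx hy hxy (SS_y x y hx hy hxy (SS_y x y hx hy hxy hg)))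

/-- The relator set. -/
abbrev rels : Set (FreeGroup (Fin 2)) :=
  {FreeGroup.of (0 : Fin 2) ^ 3, FreeGroup.of (1 : Fin 2) ^ 5,
    (FreeGroup.of (0 : Fin 2) * FreeGroup.of 1) ^ 2}

theorem rel_x : (PresentedGroup.of (0 : Fin 2) : PresentedGroup rels) ^ 3 = 1 := by
  have h := PresentedGroup.one_of_mem (rels := rels) (x := FreeGroup.of (0 : Fin 2) ^ 3)
    (by simp)
  rw [map_pow] at h
  exact h

theorem rel_y : (PresentedGroup.of (1 : Fin 2) : PresentedGroup rels) ^ 5 = 1 := by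
  have h := PresentedGroup.one_of_mem (rels := rels) (x := FreeGroup.of (1 : Fin 2) ^ 5)
    (by simp)
  rw [map_pow] at h
  exact h

theorem rel_xy : ((PresentedGroup.of (0 : Fin 2) : PresentedGroup rels) *
    PresentedGroup.of (1 : Fin 2)) ^ 2 = 1 := by
  have h := PresentedGroup.one_of_mem (rels := rels)
    (x := (FreeGroup.of (0 : Fin 2) * FreeGroup.of 1) ^ 2) (by simp)
  rw [map_pow, map_mul] at h
  exact h

theorem all_mem (g : PresentedGroup rels) :
    g ∈ SS (PresentedGroup.of (0 : Fin 2) : PresentedGroup rels) (PresentedGroup.of (1 : Fin 2)) := by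
  have key : ∀ z : FreeGroup (Fin 2), ∀ g : PresentedGroup rels,
      g ∈ SS (PresentedGroup.of (0 : Fin 2) : PresentedGroup rels) (PresentedGroup.of (1 : Fin 2)) →
      g * PresentedGroup.mk rels z ∈
        SS (PresentedGroup.of (0 : Fin 2) : PresentedGroup rels) (PresentedGroup.of (1 : Fin 2)) := by
    intro z
    induction z using FreeGroup.induction_on with
    | C1 => intro g hg; rw [map_one, mul_one]; exact hg
    | of i =>
      intro g hg
      fin_cases i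
      · exact SS_x _ _ rel_x rel_y rel_xy hg
      · exact SS_y _ _ rel_x rel_y rel_xy hg
    | inv_of i _ =>
      intro g hg
      rw [map_inv]
      fin_cases i
      · exact SS_xinv _ _ rel_x rel_y rel_xy hg
      · exact SS_yinv _ _ rel_x rel_y rel_xy hg
    | mul a b ha hb =>
      intro g hg
      rw [map_mul, ← mul_assoc]
      exact hb _ (ha _ hg)
  induction g using PresentedGroup.induction_on with
  | H z =>
    have h1 := key z 1 ⟨0, 0, by simp [reps]⟩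
    rwa [one_mul] at h1

theorem card_le : Finite (PresentedGroup rels) ∧ Nat.card (PresentedGroup rels) ≤ 60 := by
  let f : Fin 5 × Fin 12 → PresentedGroup rels := fun p =>
    (PresentedGroup.of (1 : Fin 2)) ^ (p.1 : ℕ) *
      reps (PresentedGroup.of (0 : Fin 2) : PresentedGroup rels) (PresentedGroup.of (1 : Fin 2)) p.2
  have hf : Function.Surjective f := by
    intro g
    obtain ⟨k, i, rfl⟩ := all_mem g
    refine ⟨(⟨k % 5, Nat.mod_lt _ (by norm_num)⟩, i), ?_⟩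
    show (PresentedGroup.of (1 : Fin 2)) ^ (k % 5) * _ = _
    rw [← pow_eq_pow_mod k rel_y]
  have hfin : Finite (PresentedGroup rels) := Finite.of_surjective f hf
  refine ⟨hfin, ?_⟩
  have := Nat.card_le_card_of_surjective f hf
  simpa using this

/-- The 3-cycle. -/
def a0 : Equiv.Perm (Fin 5) := c[2, 3, 4]

/-- The 5-cycle. -/
def b0 : Equiv.Perm (Fin 5) := c[0, 2, 4, 1, 3]

theorem a0_pow : a0 ^ 3 = 1 := by decide
theorem b0_pow : b0 ^ 5 = 1 := by decide
theorem ab0_pow : (a0 * b0) ^ 2 = 1 := by decide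
theorem a0_ne : a0 ≠ 1 := by decide
theorem b0_ne : b0 ≠ 1 := by decide
theorem ab0_ne : a0 * b0 ≠ 1 := by decide

/-- The 3-cycle in `A₅`. -/
def pa : alternatingGroup (Fin 5) := ⟨a0, Equiv.Perm.mem_alternatingGroup.mpr (by decide)⟩

/-- The 5-cycle in `A₅`. -/
def pb : alternatingGroup (Fin 5) := ⟨b0, Equiv.Perm.mem_alternatingGroup.mpr (by decide)⟩

theorem pa_pow : pa ^ 3 = 1 := Subtype.ext (by rw [Subgroup.coe_pow]; exact a0_pow)
theorem pb_pow : pb ^ 5 = 1 := Subtype.ext (by rw [Subgroup.coe_pow]; exact b0_pow)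
theorem pab_pow : (pa * pb) ^ 2 = 1 :=
  Subtype.ext (by rw [Subgroup.coe_pow, Subgroup.coe_mul]; exact ab0_pow)
theorem pa_ne : pa ≠ 1 := fun h => a0_ne (congrArg Subtype.val h)
theorem pb_ne : pb ≠ 1 := fun h => b0_ne (congrArg Subtype.val h)
theorem pab_ne : pa * pb ≠ 1 := fun h => ab0_ne (congrArg Subtype.val h)

theorem rels_hold : ∀ r ∈ rels, FreeGroup.lift ![pa, pb] r = 1 := by
  intro r hr
  simp only [rels, Set.mem_insert_iff, Set.mem_singleton_iff] at hr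
  rcases hr with rfl | rfl | rfl
  · rw [map_pow, FreeGroup.lift_apply_of]
    exact pa_pow
  · rw [map_pow, FreeGroup.lift_apply_of]
    exact pb_pow
  · rw [map_pow, map_mul, FreeGroup.lift_apply_of, FreeGroup.lift_apply_of]
    exact pab_pow

/-- The homomorphism onto `A₅`. -/
noncomputable def phi : PresentedGroup rels →* alternatingGroup (Fin 5) :=
  PresentedGroup.toGroup rels_hold

theorem phi_surj : Function.Surjective phi := by
  rw [← MonoidHom.range_eq_top]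
  set H := phi.range with hH
  have ha : pa ∈ H := ⟨PresentedGroup.of 0, by simp [phi]⟩
  have hb : pb ∈ H := ⟨PresentedGroup.of 1, by simp [phi]⟩
  have hab : pa * pb ∈ H := H.mul_mem ha hb
  haveI : Fact (Nat.Prime 5) := ⟨by norm_num⟩
  have o3 : orderOf pa = 3 := orderOf_eq_prime pa_pow pa_ne
  have o5 : orderOf pb = 5 := orderOf_eq_prime pb_pow pb_ne
  have o2 : orderOf (pa * pb) = 2 := orderOf_eq_prime pab_pow pab_ne
  have d3 : 3 ∣ Nat.card H := by
    have h := orderOf_dvd_natCard (⟨pa, ha⟩ : H)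
    rw [Subgroup.orderOf_mk, o3] at h; exact h
  have d5 : 5 ∣ Nat.card H := by
    have h := orderOf_dvd_natCard (⟨pb, hb⟩ : H)
    rw [Subgroup.orderOf_mk, o5] at h; exact h
  have d2 : 2 ∣ Nat.card H := by
    have h := orderOf_dvd_natCard (⟨pa * pb, hab⟩ : H)
    rw [Subgroup.orderOf_mk, o2] at h; exact h
  have d30 : 30 ∣ Nat.card H := by
    have h6 : 6 ∣ Nat.card H := Nat.Coprime.mul_dvd_of_dvd_of_dvd (by norm_num) d2 d3
    exact Nat.Coprime.mul_dvd_of_dvd_of_dvd (by norm_num) h6 d5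
  have hcard : Nat.card (alternatingGroup (Fin 5)) = 60 := by
    rw [nat_card_alternatingGroup]; simp [Nat.factorial]
  have hidx : H.index * Nat.card H = 60 := by rw [← hcard]; exact H.index_mul_card
  obtain ⟨m, hm⟩ := d30
  have hm0 : m ≠ 0 := by
    rintro rfl
    rw [hm] at hidx; simp at hidx
  have hi : H.index = 1 ∨ H.index = 2 := by
    rw [hm] at hidx
    have h1 : H.index * m = 2 := by nlinarith
    have h2 : H.index ∣ 2 := Dvd.intro _ h1
    have h3 : H.index ≤ 2 := Nat.le_of_dvd (by norm_num) h2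
    have h4 : H.index ≠ 0 := by rintro h; rw [h] at h1; simp at h1
    omega
  rcases hi with hi | hi
  · exact Subgroup.index_eq_one.mp hi
  · have hn : H.Normal := Subgroup.normal_of_index_eq_two hi
    haveI := alternatingGroup.isSimpleGroup_five
    rcases hn.eq_bot_or_eq_top with h | h
    · exfalso
      rw [h] at d3
      simp at d3
    · exact h

/-- The alternating group of degree 5 has the presentation ⟨x, y | x³ = 1, y⁵ = 1, (xy)² = 1⟩: the group so presented is isomorphic to Alt(5). -/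
theorem result :
    Nonempty (PresentedGroup ({FreeGroup.of (0 : Fin 2) ^ 3, FreeGroup.of (1 : Fin 2) ^ 5,
        (FreeGroup.of (0 : Fin 2) * FreeGroup.of 1) ^ 2} : Set (FreeGroup (Fin 2))) ≃* alternatingGroup (Fin 5)) := by
  have hc := card_le
  haveI := hc.1
  have hbij : Function.Bijective phi :=
    phi_surj.bijective_of_nat_card_le (by
      have hcard : Nat.card (alternatingGroup (Fin 5)) = 60 := by
        rw [nat_card_alternatingGroup]; simp [Nat.factorial]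
      rw [hcard]; exact hc.2)
  exact ⟨MulEquiv.ofBijective phi hbij⟩

end Cfsg.Agent.S3377
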