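import Cfsg.Statements.S3379
-- import your own Cfsg.Agent.* helpers here

set_option autoImplicit false
open Cfsg

namespace Cfsg.Agent.S3379

/-- Let G be a finite group all of whose Sylow subgroups are cyclic. Then G is generated by two elements x and y of coprime orders n and m with x⁻¹yx = y^r, where gcd(r − 1, m) = 1 and r^n ≡ 1 (mod m). -/
theorem result {G : Type*} [Group G] [Finite G]
    (hZ : ∀ (p : ℕ) [Fact p.Prime] (P : Sylow p G), IsCyclic (P : Subgroup G)) :
    ∃ (x y : G) (n m r : ℕ), Subgroup.closure {x, y} = ⊤ ∧ orderOf x = n ∧ orderOf y = m ∧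
      x⁻¹ * y * x = y ^ r ∧ Nat.Coprime (r - 1) m ∧ Nat.Coprime n m ∧ 1 ≤ r ∧ r ^ n % m = 1 % m := by
  classical
  have hZG : IsZGroup G := by
    refine ⟨fun p hp P => ?_⟩
    have := Fact.mk hp
    have h0 : IsCyclic ↥(P : Subgroup G) := hZ p P
    exact h0
  have hcop := IsZGroup.coprime_commutator_index G
  have hNcyc : IsCyclic ↥(commutator G) := IsZGroup.isCyclic_commutator G
  obtain ⟨H, hH⟩ := Subgroup.exists_right_complement'_of_coprime hcop
  have h1 : Abelianization G ≃* H := hH.symm.QuotientMulEquiv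
  have hHcyc : IsCyclic ↥H := isCyclic_of_surjective _ h1.surjective
  -- generators
  obtain ⟨x, hxH⟩ : ∃ x : G, Subgroup.zpowers x = H := by
    obtain ⟨gx, hgx⟩ := IsCyclic.exists_generator (α := ↥H)
    refine ⟨(gx : G), ?_⟩
    have h2 : (Subgroup.zpowers gx).map H.subtype = Subgroup.zpowers (gx : G) :=
      MonoidHom.map_zpowers H.subtype gx
    rw [← h2, (Subgroup.eq_top_iff' _).mpr hgx, ← MonoidHom.range_eq_map, Subgroup.range_subtype]
  obtain ⟨y, hyN⟩ : ∃ y : G, Subgroup.zpowers y = commutator G := by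
    obtain ⟨gy, hgy⟩ := IsCyclic.exists_generator (α := ↥(commutator G))
    refine ⟨(gy : G), ?_⟩
    have h2 : (Subgroup.zpowers gy).map (commutator G).subtype = Subgroup.zpowers (gy : G) :=
      MonoidHom.map_zpowers (commutator G).subtype gy
    rw [← h2, (Subgroup.eq_top_iff' _).mpr hgy, ← MonoidHom.range_eq_map, Subgroup.range_subtype]
  have hgen : Subgroup.closure {x, y} = ⊤ := by
    rw [eq_top_iff, ← hH.sup_eq_top]
    apply sup_le
    · rw [← hyN, Subgroup.zpowers_le]
      exact Subgroup.subset_closure (by simp)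
    · rw [← hxH, Subgroup.zpowers_le]
      exact Subgroup.subset_closure (by simp)
  have hmpos : 0 < orderOf y := orderOf_pos y
  -- the conjugation exponent
  have hyconj : x⁻¹ * y * x ∈ Subgroup.zpowers y := by
    rw [hyN]
    have h2 := (inferInstance : (commutator G).Normal).conj_mem y (by rw [← hyN]; exact Subgroup.mem_zpowers y) x⁻¹
    rwa [inv_inv] at h2
  obtain ⟨r₀, hr₀⟩ := (Submonoid.mem_powers_iff _ _).mp (mem_powers_iff_mem_zpowers.mpr hyconj)
  obtain ⟨r, hrdef⟩ : ∃ r : ℕ, r = r₀ + orderOf y := ⟨_, rfl⟩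
  have hr1 : 1 ≤ r := by omega
  have hconj : x⁻¹ * y * x = y ^ r := by
    rw [hrdef, pow_add, pow_orderOf_eq_one, mul_one, hr₀]
  have hpowconj : ∀ k : ℕ, (x ^ k)⁻¹ * y * x ^ k = y ^ (r ^ k) := by
    intro k
    induction k with
    | zero => simp
    | succ k ih =>
      have e : (x ^ (k + 1))⁻¹ * y * x ^ (k + 1) = x⁻¹ * ((x ^ k)⁻¹ * y * x ^ k) * x⁻¹⁻¹ := by
        rw [pow_succ, mul_inv_rev, inv_inv]
        simp only [mul_assoc]
      rw [e, ih, ← conj_pow, inv_inv, hconj, ← pow_mul, ← pow_succ']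
  have hpow : r ^ orderOf x % orderOf y = 1 % orderOf y := by
    have h2 := hpowconj (orderOf x)
    rw [pow_orderOf_eq_one, inv_one, one_mul, mul_one] at h2
    have h3 : y ^ (r ^ orderOf x) = y ^ 1 := by rw [pow_one]; exact h2.symm
    exact pow_eq_pow_iff_modEq.mp h3
  have hcop2 : Nat.Coprime (orderOf x) (orderOf y) := by
    have hx : orderOf x = Nat.card H := by rw [← Nat.card_zpowers, hxH]
    have hy : orderOf y = Nat.card (commutator G) := by rw [← Nat.card_zpowers, hyN]
    rw [hx, hy, ← hH.symm.index_eq_card]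
    exact hcop.symm
  -- gcd(r - 1, m) = 1
  have hMn : (Subgroup.zpowers (y ^ (r - 1))).Normal := by
    constructor
    intro a ha g
    obtain ⟨i, hi⟩ := Subgroup.mem_zpowers_iff.mp ha
    have hgy : g * y * g⁻¹ ∈ Subgroup.zpowers y := by
      rw [hyN]
      exact (inferInstance : (commutator G).Normal).conj_mem y
        (by rw [← hyN]; exact Subgroup.mem_zpowers y) g
    obtain ⟨j, hj⟩ := Subgroup.mem_zpowers_iff.mp hgy
    have e0 : (y ^ j) ^ (r - 1) = (y ^ (r - 1)) ^ j := by
      rw [← zpow_natCast, ← zpow_mul, mul_comm, zpow_mul, zpow_natCast]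
    have e : g * a * g⁻¹ = ((y ^ (r - 1)) ^ j) ^ i := by
      rw [← hi, ← conj_zpow, ← conj_pow, ← hj, e0]
    rw [e]
    exact Subgroup.zpow_mem _ (Subgroup.zpow_mem _ (Subgroup.mem_zpowers _) j) i
  have hcomm_le : commutator G ≤ Subgroup.zpowers (y ^ (r - 1)) := by
    have := hMn
    have hgenQ : Subgroup.closure
        {QuotientGroup.mk' (Subgroup.zpowers (y ^ (r - 1))) x,
          QuotientGroup.mk' (Subgroup.zpowers (y ^ (r - 1))) y} = ⊤ := by
      have h2 := congrArg (Subgroup.map (QuotientGroup.mk' (Subgroup.zpowers (y ^ (r - 1))))) hgen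
      rw [MonoidHom.map_closure, Set.image_pair, ← MonoidHom.range_eq_map,
        MonoidHom.range_eq_top.mpr (QuotientGroup.mk'_surjective _)] at h2
      exact h2
    have hxy : QuotientGroup.mk' (Subgroup.zpowers (y ^ (r - 1))) y *
        QuotientGroup.mk' (Subgroup.zpowers (y ^ (r - 1))) x =
        QuotientGroup.mk' (Subgroup.zpowers (y ^ (r - 1))) x *
        QuotientGroup.mk' (Subgroup.zpowers (y ^ (r - 1))) y := by
      have e : y * x = x * y * y ^ (r - 1) := by
        have h3 : y ^ r = y * y ^ (r - 1) := by rw [← pow_succ', Nat.sub_add_cancel hr1]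
        rw [mul_assoc, ← h3, ← hconj]
        simp only [mul_assoc, mul_inv_cancel_left]
      rw [← (QuotientGroup.mk' _).map_mul, ← (QuotientGroup.mk' _).map_mul, e,
        (QuotientGroup.mk' _).map_mul]
      have h4 : QuotientGroup.mk' (Subgroup.zpowers (y ^ (r - 1))) (y ^ (r - 1)) = 1 :=
        (QuotientGroup.eq_one_iff _).mpr (Subgroup.mem_zpowers _)
      rw [h4, mul_one]
    have hcent : Subgroup.centralizer
        ({QuotientGroup.mk' (Subgroup.zpowers (y ^ (r - 1))) x,
          QuotientGroup.mk' (Subgroup.zpowers (y ^ (r - 1))) y} :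
          Set (G ⧸ Subgroup.zpowers (y ^ (r - 1)))) = ⊤ := by
      rw [eq_top_iff, ← hgenQ, Subgroup.closure_le]
      intro a ha
      rw [SetLike.mem_coe, Subgroup.mem_centralizer_iff]
      intro b hb
      rcases ha with rfl | ha
      · rcases hb with rfl | hb
        · rfl
        · rw [Set.mem_singleton_iff.mp hb]; exact hxy
      · rw [Set.mem_singleton_iff.mp ha]
        rcases hb with rfl | hb
        · exact hxy.symm
        · rw [Set.mem_singleton_iff.mp hb]
    have hcenter : Subgroup.center (G ⧸ Subgroup.zpowers (y ^ (r - 1))) = ⊤ := by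
      rw [eq_top_iff, ← hgenQ, Subgroup.closure_le]
      intro a ha
      rw [SetLike.mem_coe, Subgroup.mem_center_iff]
      intro b
      have hb : b ∈ Subgroup.centralizer
          ({QuotientGroup.mk' (Subgroup.zpowers (y ^ (r - 1))) x,
            QuotientGroup.mk' (Subgroup.zpowers (y ^ (r - 1))) y} :
            Set (G ⧸ Subgroup.zpowers (y ^ (r - 1)))) := by
        rw [hcent]; exact Subgroup.mem_top b
      exact (Subgroup.mem_centralizer_iff.mp hb a ha).symm
    rw [commutator_def, Subgroup.commutator_le]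
    intro g₁ _ g₂ _
    have h5 : QuotientGroup.mk' (Subgroup.zpowers (y ^ (r - 1))) (g₁ * g₂ * g₁⁻¹ * g₂⁻¹) = 1 := by
      rw [map_mul, map_mul, map_mul, map_inv, map_inv]
      have hb : QuotientGroup.mk' (Subgroup.zpowers (y ^ (r - 1))) g₂ ∈
          Subgroup.center (G ⧸ Subgroup.zpowers (y ^ (r - 1))) := by
        rw [hcenter]; exact Subgroup.mem_top _
      have h6 := Subgroup.mem_center_iff.mp hb (QuotientGroup.mk' (Subgroup.zpowers (y ^ (r - 1))) g₁)
      rw [h6, mul_inv_cancel_right, mul_inv_cancel]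
    exact (QuotientGroup.eq_one_iff _).mp h5
  have hcop1 : Nat.Coprime (r - 1) (orderOf y) := by
    have hy : y ∈ Subgroup.zpowers (y ^ (r - 1)) := by
      apply hcomm_le
      rw [← hyN]
      exact Subgroup.mem_zpowers y
    obtain ⟨j, hj⟩ := (Submonoid.mem_powers_iff _ _).mp (mem_powers_iff_mem_zpowers.mpr hy)
    have h3 : y ^ ((r - 1) * j) = y ^ 1 := by rw [pow_mul, hj, pow_one]
    exact Nat.coprime_of_mul_modEq_one j (pow_eq_pow_iff_modEq.mp h3)
  exact ⟨x, y, orderOf x, orderOf y, r, hgen, rfl, rfl, hconj, hcop1, hcop2, hr1, hpow⟩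

end Cfsg.Agent.S3379
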