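import Mathlib
import Cfsg.Statements.S3383
import Cfsg.Agent.Lib.Helper5.Fpf

set_option autoImplicit false
open Cfsg

namespace Cfsg.Agent.S3383

open Cfsg.Agent.Lib.Helper5
open scoped Pointwise

/-- Let H be a Frobenius complement in a finite group L and K the Frobenius kernel (as a subgroup). Then K is characteristic in L, and every normal subgroup of L either contains K or is contained in K. -/
theorem result {L : Type*} [Group L] [Finite L]
    (H : Subgroup L) (hH : Cfsg.IsFrobeniusComplement H)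
    (K : Subgroup L) (hK : (K : Set L) = Cfsg.frobeniusKernel H) :
    K.Characteristic ∧ ∀ N : Subgroup L, N.Normal → K ≤ N ∨ N ≤ K := by
  obtain ⟨-, -, hF⟩ := hH
  have hmem : ∀ (g x : L) (S : Subgroup L), x ∈ MulAut.conj g • S ↔ g⁻¹ * x * g ∈ S := by
    intro g x S
    rw [Subgroup.mem_pointwise_smul_iff_inv_smul_mem]
    simp [MulAut.smul_def]
  have hKmem : ∀ x : L, x ∈ K ↔ (x = 1 ∨ ∀ g : L, x ∉ MulAut.conj g • H) := by
    intro x
    have : x ∈ (K : Set L) ↔ x ∈ Cfsg.frobeniusKernel H := by rw [hK]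
    exact this
  have hKn : ∀ c x : L, x ∈ K → c * x * c⁻¹ ∈ K := by
    intro c x hx
    rw [hKmem] at hx ⊢
    rcases hx with rfl | hx
    · left; group
    · right
      intro g hg
      apply hx (c⁻¹ * g)
      rw [hmem] at hg ⊢
      have : (c⁻¹ * g)⁻¹ * x * (c⁻¹ * g) = g⁻¹ * (c * x * c⁻¹) * g := by group
      rw [this]; exact hg
  have hKH : ∀ x : L, x ∈ K → x ∈ H → x = 1 := by
    intro x hx hxH
    rcases (hKmem x).mp hx with h | h
    · exact h
    · exfalso
      apply h 1
      rw [hmem]; simpa using hxH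
  have hfpf : ∀ h : L, h ∈ H → h ≠ 1 → ∀ k ∈ K, k * h = h * k → k = 1 := by
    intro h hh hh1 k hk hkh
    apply hKH k hk
    by_contra hkH
    have hbot := hF k hkH
    have h2 : h ∈ MulAut.conj k • H := by
      rw [hmem]
      have : k⁻¹ * h * k = h := by rw [mul_assoc, ← hkh, inv_mul_cancel_left]
      rw [this]; exact hh
    have h3 : h ∈ H ⊓ MulAut.conj k • H := ⟨hh, h2⟩
    rw [hbot, Subgroup.mem_bot] at h3
    exact hh1 h3
  have part2 : ∀ N : Subgroup L, N.Normal → K ≤ N ∨ N ≤ K := by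
    intro N hN
    by_cases hNK : N ≤ K
    · exact Or.inr hNK
    · left
      obtain ⟨n, hnN, hnK⟩ := SetLike.not_le_iff_exists.mp hNK
      rw [hKmem] at hnK
      push Not at hnK
      obtain ⟨hn1, g, hg⟩ := hnK
      rw [hmem] at hg
      obtain ⟨h, hhdef⟩ : ∃ h, h = g⁻¹ * n * g := ⟨_, rfl⟩
      have hhH : h ∈ H := hhdef ▸ hg
      have hhN : h ∈ N := by
        rw [hhdef]
        have := hN.conj_mem n hnN g⁻¹
        simpa using this
      have hh1 : h ≠ 1 := by
        intro h1
        apply hn1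
        have : n = g * h * g⁻¹ := by rw [hhdef]; group
        rw [this, h1]; group
      have hsurj := fpf_surj K h (fun k hk => hKn h k hk) (hfpf h hhH hh1)
      intro x hx
      obtain ⟨k, hk, rfl⟩ := hsurj x hx
      have : k⁻¹ * (h * k * h⁻¹) = (k⁻¹ * h * k⁻¹⁻¹) * h⁻¹ := by group
      rw [this]
      exact N.mul_mem (hN.conj_mem h hhN k⁻¹) (N.inv_mem hhN)
  refine ⟨?_, part2⟩
  rw [Subgroup.characteristic_iff_map_le]
  intro ϕ
  have hKnormal : K.Normal := ⟨fun x hx c => hKn c x hx⟩
  have hN : (K.map ϕ.toMonoidHom).Normal := hKnormal.map _ ϕ.surjective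
  rcases part2 _ hN with h | h
  · have hcard : Nat.card (K.map ϕ.toMonoidHom) = Nat.card K :=
      Subgroup.card_map_of_injective ϕ.injective
    exact (Subgroup.eq_of_le_of_card_ge h (le_of_eq hcard)).ge
  · exact h

end Cfsg.Agent.S3383
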