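import Cfsg.Statements.S3704
-- import your own Cfsg.Agent.* helpers here

set_option autoImplicit false
open Cfsg

namespace Cfsg.Agent.S3704

open Classical in
/-- Incidence matrix of the translates of an `H`-invariant set. -/
noncomputable def twA {G Ω : Type*} [Group G] [MulAction G Ω] (H : Subgroup G) (S : Ω → Prop) :
    Matrix Ω (G ⧸ H) ℚ :=
  fun ω x => if S ((Quotient.out x : G)⁻¹ • ω) then 1 else 0

open Classical in
theorem twA_mk {G Ω : Type*} [Group G] [MulAction G Ω] (H : Subgroup G) (S : Ω → Prop)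
    (hinv : ∀ h ∈ H, ∀ ω, S (h • ω) ↔ S ω) (ω : Ω) (g : G) :
    twA H S ω (QuotientGroup.mk g) = if S (g⁻¹ • ω) then 1 else 0 := by
  obtain ⟨h, hh⟩ := QuotientGroup.mk_out_eq_mul H g
  have e1 : ((QuotientGroup.mk g : G ⧸ H).out)⁻¹ • ω = (h : G)⁻¹ • (g⁻¹ • ω) := by
    rw [hh, mul_inv_rev, mul_smul]
  show (if S (((QuotientGroup.mk g : G ⧸ H).out)⁻¹ • ω) then (1 : ℚ) else 0) = _
  rw [e1]
  exact if_congr (hinv _ (H.inv_mem h.2) _) rfl rfl

open Classical in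
theorem twA_nonneg {G Ω : Type*} [Group G] [MulAction G Ω] (H : Subgroup G) (S : Ω → Prop)
    (ω : Ω) (x : G ⧸ H) : 0 ≤ twA H S ω x := by
  show 0 ≤ (if S ((Quotient.out x : G)⁻¹ • ω) then (1 : ℚ) else 0)
  split_ifs <;> norm_num

theorem twA_smul {G Ω : Type*} [Group G] [MulAction G Ω] (H : Subgroup G) (S : Ω → Prop)
    (hinv : ∀ h ∈ H, ∀ ω, S (h • ω) ↔ S ω) (t : G) (ω : Ω) (x : G ⧸ H) :
    twA H S (t • ω) x = twA H S ω (t⁻¹ • x) := by
  refine QuotientGroup.induction_on x (fun g => ?_)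
  rw [MulAction.Quotient.smul_mk, twA_mk H S hinv, twA_mk H S hinv, smul_eq_mul, mul_inv_rev,
    inv_inv, mul_smul]

theorem twK_apply {G Ω : Type*} [Group G] [MulAction G Ω] (H : Subgroup G) [Fintype (G ⧸ H)]
    (S T : Ω → Prop) (α β : Ω) :
    (twA H S * (twA H T).transpose) α β = ∑ x, twA H S α x * twA H T β x := by
  rw [Matrix.mul_apply]; rfl

theorem twK_inv {G Ω : Type*} [Group G] [MulAction G Ω] (H : Subgroup G) [Fintype (G ⧸ H)]
    (S T : Ω → Prop) (hinvS : ∀ h ∈ H, ∀ ω, S (h • ω) ↔ S ω)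
    (hinvT : ∀ h ∈ H, ∀ ω, T (h • ω) ↔ T ω) (t : G) (α β : Ω) :
    (twA H S * (twA H T).transpose) (t • α) (t • β) = (twA H S * (twA H T).transpose) α β := by
  rw [twK_apply, twK_apply]
  have h1 : ∀ x, twA H S (t • α) x * twA H T (t • β) x =
      (fun y => twA H S α y * twA H T β y) (t⁻¹ • x) := by
    intro x; rw [twA_smul H S hinvS, twA_smul H T hinvT]
  rw [Finset.sum_congr rfl (fun x _ => h1 x)]
  exact Equiv.sum_comp (MulAction.toPerm t⁻¹) (fun y => twA H S α y * twA H T β y)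

open Classical in
theorem twK_diag_zero {G Ω : Type*} [Group G] [MulAction G Ω] (H : Subgroup G)
    [Fintype (G ⧸ H)] (S T : Ω → Prop) (hdisj : ∀ ω, S ω → ¬ T ω) (α : Ω) :
    (twA H S * (twA H T).transpose) α α = 0 := by
  rw [twK_apply]
  apply Finset.sum_eq_zero
  intro x _
  show (if S ((Quotient.out x : G)⁻¹ • α) then (1 : ℚ) else 0) *
    (if T ((Quotient.out x : G)⁻¹ • α) then (1 : ℚ) else 0) = 0
  by_cases h : S ((Quotient.out x : G)⁻¹ • α)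
  · rw [if_neg (hdisj _ h), mul_zero]
  · rw [if_neg h, zero_mul]

theorem twK_pos {G Ω : Type*} [Group G] [MulAction G Ω] (H : Subgroup G) [Fintype (G ⧸ H)]
    (S T : Ω → Prop) (hinvS : ∀ h ∈ H, ∀ ω, S (h • ω) ↔ S ω)
    (hinvT : ∀ h ∈ H, ∀ ω, T (h • ω) ↔ T ω) (g : G) (α β : Ω) (hS : S (g⁻¹ • α))
    (hT : T (g⁻¹ • β)) : 0 < (twA H S * (twA H T).transpose) α β := by
  rw [twK_apply]
  apply Finset.sum_pos'
  · intro x _; exact mul_nonneg (twA_nonneg H S α x) (twA_nonneg H T β x)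
  · refine ⟨QuotientGroup.mk g, Finset.mem_univ _, ?_⟩
    rw [twA_mk H S hinvS, twA_mk H T hinvT, if_pos hS, if_pos hT]
    norm_num

theorem tw_three_false {G Ω : Type*} [Group G] [MulAction G Ω] [Fintype Ω] [DecidableEq Ω]
    (h2 : ∀ a b c d : Ω, a ≠ b → c ≠ d → ∃ g : G, g • a = c ∧ g • b = d)
    (H : Subgroup G) [Fintype (G ⧸ H)] [DecidableEq (G ⧸ H)] (e : Ω ≃ G ⧸ H)
    (S₁ S₂ S₃ : Ω → Prop)
    (hinv₁ : ∀ h ∈ H, ∀ ω, S₁ (h • ω) ↔ S₁ ω) (hinv₂ : ∀ h ∈ H, ∀ ω, S₂ (h • ω) ↔ S₂ ω)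
    (hinv₃ : ∀ h ∈ H, ∀ ω, S₃ (h • ω) ↔ S₃ ω)
    (h12 : ∀ ω, S₁ ω → ¬ S₂ ω) (h13 : ∀ ω, S₁ ω → ¬ S₃ ω) (h23 : ∀ ω, S₂ ω → ¬ S₃ ω)
    (s₁ s₂ s₃ : Ω) (hs₁ : S₁ s₁) (hs₂ : S₂ s₂) (hs₃ : S₃ s₃) : False := by
  have hs12 : s₁ ≠ s₂ := fun h => h12 s₁ hs₁ (h ▸ hs₂)
  have hs13 : s₁ ≠ s₃ := fun h => h13 s₁ hs₁ (h ▸ hs₃)
  have htrans : ∀ α α' : Ω, ∃ g : G, g • α = α' := by
    intro α α'
    by_cases h : α = α'
    · exact ⟨1, by rw [one_smul, h]⟩
    · obtain ⟨g, hg, _⟩ := h2 α α' α' α h (Ne.symm h)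
      exact ⟨g, hg⟩
  obtain ⟨d, hd_def⟩ : ∃ d : ℚ, (twA H S₁ * (twA H S₁).transpose) s₁ s₁ = d := ⟨_, rfl⟩
  obtain ⟨b₁₁, hb11_def⟩ : ∃ b : ℚ, (twA H S₁ * (twA H S₁).transpose) s₁ s₂ = b := ⟨_, rfl⟩
  obtain ⟨b₁₂, hb12_def⟩ : ∃ b : ℚ, (twA H S₁ * (twA H S₂).transpose) s₁ s₂ = b := ⟨_, rfl⟩
  obtain ⟨b₁₃, hb13_def⟩ : ∃ b : ℚ, (twA H S₁ * (twA H S₃).transpose) s₁ s₃ = b := ⟨_, rfl⟩
  have hd : ∀ α, (twA H S₁ * (twA H S₁).transpose) α α = d := by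
    intro α
    obtain ⟨g, hg⟩ := htrans s₁ α
    rw [← hg, twK_inv H S₁ S₁ hinv₁ hinv₁, hd_def]
  have hdpos : 0 < d := by
    rw [← hd_def]
    exact twK_pos H S₁ S₁ hinv₁ hinv₁ 1 s₁ s₁ (by rw [inv_one, one_smul]; exact hs₁)
      (by rw [inv_one, one_smul]; exact hs₁)
  have hb11 : ∀ α β, α ≠ β → (twA H S₁ * (twA H S₁).transpose) α β = b₁₁ := by
    intro α β hαβ
    obtain ⟨g, hg1, hg2⟩ := h2 s₁ s₂ α β hs12 hαβ
    rw [← hg1, ← hg2, twK_inv H S₁ S₁ hinv₁ hinv₁, hb11_def]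
  have hb12 : ∀ α β, α ≠ β → (twA H S₁ * (twA H S₂).transpose) α β = b₁₂ := by
    intro α β hαβ
    obtain ⟨g, hg1, hg2⟩ := h2 s₁ s₂ α β hs12 hαβ
    rw [← hg1, ← hg2, twK_inv H S₁ S₂ hinv₁ hinv₂, hb12_def]
  have hb12pos : 0 < b₁₂ := by
    rw [← hb12_def]
    exact twK_pos H S₁ S₂ hinv₁ hinv₂ 1 s₁ s₂ (by rw [inv_one, one_smul]; exact hs₁)
      (by rw [inv_one, one_smul]; exact hs₂)
  have hb13 : ∀ α β, α ≠ β → (twA H S₁ * (twA H S₃).transpose) α β = b₁₃ := by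
    intro α β hαβ
    obtain ⟨g, hg1, hg2⟩ := h2 s₁ s₃ α β hs13 hαβ
    rw [← hg1, ← hg2, twK_inv H S₁ S₃ hinv₁ hinv₃, hb13_def]
  have hb13pos : 0 < b₁₃ := by
    rw [← hb13_def]
    exact twK_pos H S₁ S₃ hinv₁ hinv₃ 1 s₁ s₃ (by rw [inv_one, one_smul]; exact hs₁)
      (by rw [inv_one, one_smul]; exact hs₃)
  have hz12 := twK_diag_zero H S₁ S₂ h12
  have hz13 := twK_diag_zero H S₁ S₃ h13
  have E1 : twA H S₁ * (b₁₂ • (twA H S₁).transpose - b₁₁ • (twA H S₂).transpose) =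
      (b₁₂ * d) • (1 : Matrix Ω Ω ℚ) := by
    rw [Matrix.mul_sub, Matrix.mul_smul, Matrix.mul_smul]
    ext α β
    rw [Matrix.sub_apply, Matrix.smul_apply, Matrix.smul_apply, Matrix.smul_apply, smul_eq_mul,
      smul_eq_mul, smul_eq_mul, Matrix.one_apply]
    by_cases hαβ : α = β
    · rw [hαβ, hd, hz12, if_pos rfl]; ring
    · rw [hb11 α β hαβ, hb12 α β hαβ, if_neg hαβ]; ring
  have E2 : twA H S₁ * (b₁₃ • (twA H S₂).transpose - b₁₂ • (twA H S₃).transpose) = 0 := by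
    rw [Matrix.mul_sub, Matrix.mul_smul, Matrix.mul_smul]
    ext α β
    rw [Matrix.sub_apply, Matrix.smul_apply, Matrix.smul_apply, smul_eq_mul, smul_eq_mul,
      Matrix.zero_apply]
    by_cases hαβ : α = β
    · rw [hαβ, hz12, hz13]; ring
    · rw [hb12 α β hαβ, hb13 α β hαβ]; ring
  have hne : b₁₂ * d ≠ 0 := (mul_pos hb12pos hdpos).ne'
  have E3 : twA H S₁ * ((b₁₂ * d)⁻¹ • (b₁₂ • (twA H S₁).transpose -
      b₁₁ • (twA H S₂).transpose)) = 1 := by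
    rw [Matrix.mul_smul, E1, smul_smul, inv_mul_cancel₀ hne, one_smul]
  have E4 := (Matrix.mul_eq_one_comm_of_equiv e).mp E3
  have E5 : b₁₃ • (twA H S₂).transpose - b₁₂ • (twA H S₃).transpose = 0 := by
    calc b₁₃ • (twA H S₂).transpose - b₁₂ • (twA H S₃).transpose
        = 1 * (b₁₃ • (twA H S₂).transpose - b₁₂ • (twA H S₃).transpose) := (Matrix.one_mul _).symm
      _ = ((b₁₂ * d)⁻¹ • (b₁₂ • (twA H S₁).transpose - b₁₁ • (twA H S₂).transpose)) * twA H S₁ *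
            (b₁₃ • (twA H S₂).transpose - b₁₂ • (twA H S₃).transpose) := by rw [E4]
      _ = 0 := by rw [Matrix.mul_assoc, E2, Matrix.mul_zero]
  have E6 := congrFun (congrFun E5 (QuotientGroup.mk 1)) s₂
  rw [Matrix.sub_apply, Matrix.smul_apply, Matrix.smul_apply, smul_eq_mul, smul_eq_mul,
    Matrix.zero_apply, Matrix.transpose_apply, Matrix.transpose_apply, twA_mk H S₂ hinv₂,
    twA_mk H S₃ hinv₃, inv_one, one_smul, if_pos hs₂, if_neg (h23 s₂ hs₂)] at E6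
  have h0 : b₁₃ = 0 := by linarith
  exact hb13pos.ne' h0

/-- Let G be a finite group acting faithfully and 2-transitively on a finite set Ω of size n, and let H be a subgroup of index n in G which is not transitive on Ω and fixes no point of Ω. Then H has exactly two orbits on Ω. -/
theorem result {G Ω : Type*} [Group G] [Finite G] [MulAction G Ω] [FaithfulSMul G Ω] [Finite Ω] (h2 : MulAction.IsMultiplyPretransitive G Ω 2) (H : Subgroup G) (hidx : H.index = Nat.card Ω) (hnt : ¬ MulAction.IsPretransitive H Ω) (hfix : ∀ a : Ω, ∃ h : H, h • a ≠ a) : Nat.card (MulAction.orbitRel.Quotient H Ω) = 2 := by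
  classical
  haveI : Fintype Ω := Fintype.ofFinite Ω
  haveI : Fintype (G ⧸ H) := Fintype.ofFinite _
  have h2' : ∀ a b c d : Ω, a ≠ b → c ≠ d → ∃ g : G, g • a = c ∧ g • b = d := by
    intro a b c d hab hcd
    exact (MulAction.is_two_pretransitive_iff.mp h2) hab hcd
  obtain ⟨e⟩ : Nonempty (Ω ≃ G ⧸ H) := Finite.card_eq.mp (by rw [← hidx]; rfl)
  have hmk : ∀ h ∈ H, ∀ ω : Ω, (Quotient.mk'' (h • ω) : MulAction.orbitRel.Quotient H Ω) =
      Quotient.mk'' ω := by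
    intro h hh ω
    apply Quotient.sound'
    exact MulAction.orbitRel_apply.mpr ⟨⟨h, hh⟩, rfl⟩
  by_contra hne
  have hcases : Nat.card (MulAction.orbitRel.Quotient H Ω) ≤ 1 ∨
      3 ≤ Nat.card (MulAction.orbitRel.Quotient H Ω) := by omega
  rcases hcases with hle | hge
  · apply hnt
    have hsub : Subsingleton (MulAction.orbitRel.Quotient H Ω) :=
      Finite.card_le_one_iff_subsingleton.mp hle
    constructor
    intro a b
    have h1 : (Quotient.mk'' b : MulAction.orbitRel.Quotient H Ω) = Quotient.mk'' a :=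
      Subsingleton.elim _ _
    have h3 : b ∈ MulAction.orbit H a := MulAction.orbitRel_apply.mp (Quotient.eq''.mp h1)
    obtain ⟨h, hh⟩ := h3
    exact ⟨h, hh⟩
  · haveI : Fintype (MulAction.orbitRel.Quotient H Ω) := Fintype.ofFinite _
    rw [Nat.card_eq_fintype_card] at hge
    obtain ⟨q₁, q₂, q₃, h12, h13, h23⟩ := Fintype.two_lt_card_iff.mp hge
    obtain ⟨s₁, hs₁⟩ := Quotient.exists_rep q₁
    obtain ⟨s₂, hs₂⟩ := Quotient.exists_rep q₂
    obtain ⟨s₃, hs₃⟩ := Quotient.exists_rep q₃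
    exact tw_three_false h2' H e
      (fun ω => (Quotient.mk'' ω : MulAction.orbitRel.Quotient H Ω) = q₁)
      (fun ω => (Quotient.mk'' ω : MulAction.orbitRel.Quotient H Ω) = q₂)
      (fun ω => (Quotient.mk'' ω : MulAction.orbitRel.Quotient H Ω) = q₃)
      (fun h hh ω => by
        show (Quotient.mk'' (h • ω) : MulAction.orbitRel.Quotient H Ω) = q₁ ↔ Quotient.mk'' ω = q₁
        rw [hmk h hh ω])
      (fun h hh ω => by
        show (Quotient.mk'' (h • ω) : MulAction.orbitRel.Quotient H Ω) = q₂ ↔ Quotient.mk'' ω = q₂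
        rw [hmk h hh ω])
      (fun h hh ω => by
        show (Quotient.mk'' (h • ω) : MulAction.orbitRel.Quotient H Ω) = q₃ ↔ Quotient.mk'' ω = q₃
        rw [hmk h hh ω])
      (fun ω h1 h2 => h12 (h1.symm.trans h2)) (fun ω h1 h3 => h13 (h1.symm.trans h3))
      (fun ω h2 h3 => h23 (h2.symm.trans h3)) s₁ s₂ s₃ hs₁ hs₂ hs₃

end Cfsg.Agent.S3704
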