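import Cfsg.Statements.S3733
import Mathlib

set_option autoImplicit false
open Cfsg

namespace Cfsg.Agent.S3733

open scoped IsMulCommutative in
theorem main {G : Type*} [Group G] [Finite G] (A V : Subgroup G) (hVab : IsMulCommutative V) (hV : V ≠ ⊥) (hAV : A ≤ Subgroup.normalizer (V : Set G)) (𝒜 : Finset (Subgroup G)) (hne : 𝒜.Nonempty) (hprop : ∀ B ∈ 𝒜, B < A) (hpart : ∀ a ∈ A, a ≠ 1 → ∃! B, B ∈ 𝒜 ∧ a ∈ B) (hk : (𝒜.card - 1).Coprime (Nat.card V)) : ∃ B ∈ 𝒜, V ⊓ Subgroup.centralizer (B : Set G) ≠ ⊥ := by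
  classical
  by_contra hcon
  push Not at hcon
  haveI : Fintype G := Fintype.ofFinite G
  set NV := Subgroup.normalizer (V : Set G) with hNV
  let ψ : ↥NV →* MulAut ↥V := V.normalizerMonoidHom
  let c : G → MulAut ↥V := fun g => if h : g ∈ NV then ψ ⟨g, h⟩ else 1
  have hc_val : ∀ g (hg : g ∈ NV) (v : ↥V), ((c g v : ↥V) : G) = g * v * g⁻¹ := by
    intro g hg v
    simp only [c, dif_pos hg]
    rfl
  have hc_mul : ∀ g g', g ∈ NV → g' ∈ NV → c (g * g') = c g * c g' := by
    intro g g' hg hg'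
    simp only [c, dif_pos hg, dif_pos hg', dif_pos (NV.mul_mem hg hg')]
    rw [← map_mul]; rfl
  have hc_one : ∀ v : ↥V, c 1 v = v := by
    intro v
    apply Subtype.ext
    rw [hc_val 1 NV.one_mem]; simp
  let s : Subgroup G → Finset G := fun B => Finset.univ.filter (· ∈ B)
  have hs : ∀ B g, g ∈ s B ↔ g ∈ B := by intro B g; simp [s]
  have F1 : ∀ B : Subgroup G, B ≤ NV → ∀ v : ↥V,
      ((∏ g ∈ s B, c g v : ↥V) : G) ∈ V ⊓ Subgroup.centralizer (B : Set G) := by
    intro B hB v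
    refine Subgroup.mem_inf.2 ⟨Subtype.property _, ?_⟩
    rw [Subgroup.mem_centralizer_iff]
    intro b hb
    have hfix : c b (∏ g ∈ s B, c g v) = ∏ g ∈ s B, c g v := by
      rw [map_prod]
      have h1 : ∀ g ∈ s B, c b (c g v) = c (b * g) v := by
        intro g hg
        rw [hc_mul b g (hB hb) (hB ((hs B g).1 hg))]; rfl
      rw [Finset.prod_congr rfl h1]
      exact Finset.prod_bij (fun g _ => b * g)
        (fun g hg => (hs B _).2 (B.mul_mem hb ((hs B g).1 hg)))
        (fun g₁ _ g₂ _ h => mul_left_cancel h)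
        (fun g hg => ⟨b⁻¹ * g, (hs B _).2 (B.mul_mem (B.inv_mem hb) ((hs B g).1 hg)), by simp⟩)
        (fun g _ => rfl)
    have h2 := congrArg Subtype.val hfix
    rw [hc_val b (hB hb)] at h2
    calc b * ((∏ g ∈ s B, c g v : ↥V) : G)
        = (b * ((∏ g ∈ s B, c g v : ↥V) : G) * b⁻¹) * b := by group
      _ = ((∏ g ∈ s B, c g v : ↥V) : G) * b := by rw [h2]
  have hBNV : ∀ B ∈ 𝒜, B ≤ NV := fun B hB => (hprop B hB).le.trans hAV
  have N1 : ∀ B ∈ 𝒜, ∀ v : ↥V, ∏ g ∈ s B, c g v = 1 := by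
    intro B hB v
    have h1 := F1 B (hBNV B hB) v
    rw [hcon B hB, Subgroup.mem_bot] at h1
    exact Subtype.ext h1
  obtain ⟨B₀, hB₀⟩ := hne
  have NA : ∀ v : ↥V, ∏ g ∈ s A, c g v = 1 := by
    intro v
    have h1 := F1 A hAV v
    have h2 : V ⊓ Subgroup.centralizer (A : Set G) ≤ V ⊓ Subgroup.centralizer (B₀ : Set G) :=
      inf_le_inf_left _ (Subgroup.centralizer_le (hprop B₀ hB₀).le)
    have h3 := h2 h1
    rw [hcon B₀ hB₀, Subgroup.mem_bot] at h3
    exact Subtype.ext h3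
  have F3 : ∀ v : ↥V, ∏ B ∈ 𝒜, ∏ g ∈ s B, c g v = (∏ g ∈ s A, c g v) * v ^ (𝒜.card - 1) := by
    intro v
    have e1 : ∀ B ∈ 𝒜, ∏ g ∈ s B, c g v = ∏ g ∈ s A, (if g ∈ B then c g v else 1) := by
      intro B hB
      rw [← Finset.prod_filter]
      congr 1
      ext g
      simp only [Finset.mem_filter, hs]
      exact ⟨fun h => ⟨(hprop B hB).le h, h⟩, fun h => h.2⟩
    rw [Finset.prod_congr rfl e1, Finset.prod_comm]
    have e2 : ∀ g ∈ s A, ∏ B ∈ 𝒜, (if g ∈ B then c g v else 1) =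
        c g v * (if g = 1 then v ^ (𝒜.card - 1) else 1) := by
      intro g hg
      rw [Finset.prod_ite, Finset.prod_const_one, mul_one, Finset.prod_const]
      by_cases hg1 : g = 1
      · subst hg1
        have h1 : 𝒜.filter (fun B => (1 : G) ∈ B) = 𝒜 :=
          Finset.filter_true_of_mem (fun B _ => B.one_mem)
        rw [h1, if_pos rfl, hc_one, ← pow_succ']
        congr 1
        have := Finset.card_pos.2 ⟨B₀, hB₀⟩
        omega
      · rw [if_neg hg1, mul_one]
        obtain ⟨B, ⟨hB, hgB⟩, huniq⟩ := hpart g ((hs A g).1 hg) hg1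
        have h1 : 𝒜.filter (fun B => g ∈ B) = {B} := by
          ext B'
          simp only [Finset.mem_filter, Finset.mem_singleton]
          exact ⟨fun h => huniq B' h, fun h => h ▸ ⟨hB, hgB⟩⟩
        rw [h1, Finset.card_singleton, pow_one]
    rw [Finset.prod_congr rfl e2, Finset.prod_mul_distrib, Finset.prod_ite_eq']
    rw [if_pos ((hs A 1).2 A.one_mem)]
  have hpow : ∀ v : ↥V, v ^ (𝒜.card - 1) = 1 := by
    intro v
    have h1 := F3 v
    rw [NA v, one_mul, Finset.prod_congr rfl (fun B hB => N1 B hB v), Finset.prod_const_one] at h1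
    exact h1.symm
  apply hV
  rw [Subgroup.eq_bot_iff_forall]
  intro x hx
  have h1 := hpow ⟨x, hx⟩
  have h2 : orderOf (⟨x, hx⟩ : ↥V) ∣ 𝒜.card - 1 := orderOf_dvd_of_pow_eq_one h1
  have h3 : orderOf (⟨x, hx⟩ : ↥V) ∣ Nat.card V := orderOf_dvd_natCard _
  have h4 := Nat.dvd_gcd h2 h3
  rw [hk.gcd_eq_one] at h4
  have h5 := orderOf_eq_one_iff.1 (Nat.dvd_one.1 h4)
  exact congrArg Subtype.val h5


/-- Let A and V be subgroups of a finite group with V abelian and nontrivial and A normalizing V. Suppose a nonempty finite family of proper subgroups of A partitions A: every non-identity element of A lies in exactly one member. If the number of members minus one is coprime to the order of V, then some member B of the family has a non-identity fixed point on V, that is V ∩ C(B) ≠ 1. -/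
theorem result {G : Type*} [Group G] [Finite G] (A V : Subgroup G) (hVab : IsMulCommutative V) (hV : V ≠ ⊥) (hAV : A ≤ Subgroup.normalizer (V : Set G)) (𝒜 : Finset (Subgroup G)) (hne : 𝒜.Nonempty) (hprop : ∀ B ∈ 𝒜, B < A) (hpart : ∀ a ∈ A, a ≠ 1 → ∃! B, B ∈ 𝒜 ∧ a ∈ B) (hk : (𝒜.card - 1).Coprime (Nat.card V)) : ∃ B ∈ 𝒜, V ⊓ Subgroup.centralizer (B : Set G) ≠ ⊥ := by
  exact main A V hVab hV hAV 𝒜 hne hprop hpart hk

end Cfsg.Agent.S3733
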