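import Cfsg.Statements.S3735
import Mathlib.Tactic
import Cfsg.Agent.Lib.Helper8.MinInv

set_option autoImplicit false
open Cfsg
open Cfsg.Agent.Lib.Helper8

namespace Cfsg.Agent.S3735

/-- Clifford's Theorem for actions on finite abelian groups, first part. Let H and V be subgroups of a finite group with V abelian and H normalizing V, and let A be a normal subgroup of H. If every H-invariant subgroup of V has an H-invariant complement in V, then every A-invariant subgroup of V has an A-invariant complement in V. -/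
theorem result {G : Type*} [Group G] [Finite G] (H A V : Subgroup G) (hVab : IsMulCommutative V) (hHV : H ≤ Subgroup.normalizer (V : Set G)) (hAH : A ≤ H) (hAn : H ≤ Subgroup.normalizer (A : Set G)) (hss : ∀ U : Subgroup G, U ≤ V → H ≤ Subgroup.normalizer (U : Set G) → ∃ W : Subgroup G, W ≤ V ∧ H ≤ Subgroup.normalizer (W : Set G) ∧ U ⊓ W = ⊥ ∧ U ⊔ W = V) (U : Subgroup G) (hUV : U ≤ V) (hAU : A ≤ Subgroup.normalizer (U : Set G)) : ∃ W : Subgroup G, W ≤ V ∧ A ≤ Subgroup.normalizer (W : Set G) ∧ U ⊓ W = ⊥ ∧ U ⊔ W = V := by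
  classical
  have hVc : ∀ a ∈ V, ∀ b ∈ V, a * b = b * a := fun a ha b hb =>
    congrArg Subtype.val (hVab.is_comm.comm (⟨a, ha⟩ : ↥V) ⟨b, hb⟩)
  have hnorm : ∀ X Y : Subgroup G, X ≤ V → Y ≤ V → Y ≤ Subgroup.normalizer (X : Set G) := by
    intro X Y hX hY y hy
    rw [Subgroup.mem_normalizer_iff]
    intro x
    constructor
    · intro hx
      have h1 := hVc y (hY hy) x (hX hx)
      rw [h1]; simpa using hx
    · intro hx
      have h1 := hVc y⁻¹ (V.inv_mem (hY hy)) _ (hX hx)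
      have h3 : x = y * x * y⁻¹ := by
        have h2 : y⁻¹ * (y * x * y⁻¹) = x * y⁻¹ := by group
        rw [h2] at h1
        exact mul_right_cancel h1
      rw [h3]; exact hx
  set 𝓜 : Set (Subgroup G) := {X | X ≤ V ∧ h8_MinInv A X} with h𝓜
  set T := sSup 𝓜 with hT
  have hTV : T ≤ V := sSup_le fun X hX => hX.1
  have hHT : H ≤ Subgroup.normalizer (T : Set G) := by
    apply h8_le_normalizer_of_map_conj_le
    intro h hh
    have e : sSup 𝓜 = ⨆ X ∈ 𝓜, X := sSup_eq_iSup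
    rw [hT, e, Subgroup.map_iSup]
    refine iSup_le fun X => ?_
    rw [Subgroup.map_iSup]
    refine iSup_le fun hX => ?_
    rw [← e]
    refine le_sSup ⟨?_, h8_MinInv_map_conj (hAn hh) hX.2⟩
    have h1 := Subgroup.map_mono (f := (MulAut.conj h).toMonoidHom) hX.1
    rwa [h8_map_conj_eq_of_mem_normalizer (hHV hh)] at h1
  obtain ⟨W', hW'V, hHW', hTW', hTW'sup⟩ := hss T hTV hHT
  have hW'bot : W' = ⊥ := by
    by_contra hne
    obtain ⟨X, hXW', hXmin⟩ := h8_exists_MinInv_le hne (hAH.trans hHW')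
    have hXT : X ≤ T := le_sSup ⟨hXW'.trans hW'V, hXmin⟩
    have h1 : X ≤ T ⊓ W' := le_inf hXT hXW'
    rw [hTW'] at h1
    exact hXmin.1 (le_bot_iff.1 h1)
  have hTeqV : T = V := by rw [← hTW'sup, hW'bot, sup_bot_eq]
  let 𝒮 : Set (Subgroup G) := {W | W ≤ V ∧ A ≤ Subgroup.normalizer (W : Set G) ∧ U ⊓ W = ⊥}
  have h𝒮 : 𝒮.Nonempty := ⟨⊥, bot_le, by
    rw [Subgroup.normalizer_eq_top_iff.2 Subgroup.normal_bot]; exact le_top, inf_bot_eq _⟩
  obtain ⟨W, ⟨hWV, hAW, hUW⟩, hWmax⟩ := (wellFounded_gt (α := Subgroup G)).has_min 𝒮 h𝒮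
  refine ⟨W, hWV, hAW, hUW, ?_⟩
  by_contra hne
  have hUWV : U ⊔ W ≤ V := sup_le hUV hWV
  have hex : ∃ X ∈ 𝓜, ¬ X ≤ U ⊔ W := by
    by_contra hall
    push Not at hall
    apply hne
    apply le_antisymm hUWV
    rw [← hTeqV]
    exact sSup_le hall
  obtain ⟨X, hX𝓜, hXnot⟩ := hex
  obtain ⟨hXV, hXne, hAX, hXmin⟩ := hX𝓜
  have hAUW : A ≤ Subgroup.normalizer ((U ⊔ W : Subgroup G) : Set G) := h8_le_normalizer_sup hAU hAW
  have hXinf : X ⊓ (U ⊔ W) = ⊥ := by
    rcases hXmin (X ⊓ (U ⊔ W)) inf_le_left (h8_le_normalizer_inf hAX hAUW) with h | h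
    · exact h
    · exact absurd (inf_eq_left.1 h) hXnot
  have hmem : W ⊔ X ∈ 𝒮 := by
    refine ⟨sup_le hWV hXV, h8_le_normalizer_sup hAW hAX, ?_⟩
    rw [Subgroup.eq_bot_iff_forall]
    intro u hu
    obtain ⟨huU, huWX⟩ := Subgroup.mem_inf.1 hu
    obtain ⟨w, hw, x, hx, rfl⟩ := h8_mem_sup_of_le_normalizer (hnorm W X hWV hXV) huWX
    have hx' : x ∈ X ⊓ (U ⊔ W) := by
      refine Subgroup.mem_inf.2 ⟨hx, ?_⟩
      have h1 : x = w⁻¹ * (w * x) := by group
      rw [h1]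
      exact Subgroup.mul_mem _ (Subgroup.inv_mem _ (Subgroup.mem_sup_right hw))
        (Subgroup.mem_sup_left huU)
    rw [hXinf, Subgroup.mem_bot] at hx'
    subst hx'
    rw [mul_one] at huU ⊢
    have h2 : w ∈ U ⊓ W := Subgroup.mem_inf.2 ⟨huU, hw⟩
    rw [hUW, Subgroup.mem_bot] at h2
    exact h2
  apply hWmax (W ⊔ X) hmem
  refine lt_of_le_of_ne le_sup_left ?_
  intro heq
  apply hXnot
  have h1 : X ≤ W := by rw [heq]; exact le_sup_right
  exact h1.trans le_sup_right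

end Cfsg.Agent.S3735
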