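import Cfsg.Statements.S3736
import Cfsg.Agent.Lib.Helper7.Coprime2
import Cfsg.Agent.Lib.Helper2.PGroup
import Cfsg.Agent.Lib.Helper8.CoprimeOmega
import Cfsg.Agent.Lib.Helper1.Layer

set_option autoImplicit false
open Cfsg

namespace Cfsg.Agent.S3736

open Cfsg.Agent.Lib.Helper7 Cfsg.Agent.Lib.Helper2 Cfsg.Agent.Lib.Helper8 Cfsg.Agent.Lib.Helper1

/-- Coprime action with `[P, A] = P`: the fixed points of `A` on `P` lie in the derived subgroup
of `P` (norm map on the abelianization). -/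
theorem hh_fix_le_comm {X : Type*} [Group X] [Finite X] (P A : Subgroup X)
    (hAP : A ≤ Subgroup.normalizer (P : Set X))
    (hcop : (Nat.card A).Coprime (Nat.card P)) (hPA : ⁅P, A⁆ = P) :
    P ⊓ Subgroup.centralizer (A : Set X) ≤ (commutator ↥P).map P.subtype := by
  classical
  haveI : Fintype ↥A := Fintype.ofFinite _
  have hconj : ∀ a : ↥A, ∀ x : ↥P, (a : X) * (x : X) * (a : X)⁻¹ ∈ P := fun a x =>
    conj_mem_of_mem_normalizer (hAP a.2) x.2
  obtain ⟨θ, hθ⟩ : ∃ θ : ↥A → (↥P →* ↥P), ∀ a x, ((θ a x : ↥P) : X) = (a : X) * (x : X) * (a : X)⁻¹ :=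
    ⟨fun a => MonoidHom.mk' (fun x => ⟨(a : X) * (x : X) * (a : X)⁻¹, hconj a x⟩) (by
      intro x y
      apply Subtype.ext
      show (a : X) * ((x : X) * (y : X)) * (a : X)⁻¹ =
        ((a : X) * (x : X) * (a : X)⁻¹) * ((a : X) * (y : X) * (a : X)⁻¹)
      group), fun a x => rfl⟩
  obtain ⟨ν, hν⟩ : ∃ ν : ↥P →* Abelianization ↥P,
      ∀ x, ν x = ∏ a : ↥A, Abelianization.of (θ a x) :=
    ⟨MonoidHom.mk' (fun x => ∏ a : ↥A, Abelianization.of (θ a x)) (by
      intro x y
      simp only [map_mul]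
      exact Finset.prod_mul_distrib), fun x => rfl⟩
  have hν2 : ∀ (a₀ : ↥A) (x : ↥P), ν (θ a₀ x) = ν x := by
    intro a₀ x
    rw [hν, hν]
    refine Fintype.prod_equiv (Equiv.mulRight a₀) _ _ (fun a => ?_)
    have e : θ a (θ a₀ x) = θ (a * a₀) x := by
      apply Subtype.ext
      rw [hθ, hθ, hθ]
      show (a : X) * ((a₀ : X) * (x : X) * (a₀ : X)⁻¹) * (a : X)⁻¹ =
        ((a : X) * (a₀ : X)) * (x : X) * ((a : X) * (a₀ : X))⁻¹
      group
    rw [e]
    rfl
  have hker : P ≤ (ν.ker).map P.subtype := by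
    calc P = ⁅P, A⁆ := hPA.symm
      _ ≤ (ν.ker).map P.subtype := by
        rw [Subgroup.commutator_le]
        intro x hx a ha
        refine ⟨(⟨x, hx⟩ : ↥P) * θ ⟨a, ha⟩ (⟨x, hx⟩ : ↥P)⁻¹, ?_, ?_⟩
        · show ν ((⟨x, hx⟩ : ↥P) * θ ⟨a, ha⟩ (⟨x, hx⟩ : ↥P)⁻¹) = 1
          rw [map_mul, hν2, map_inv, mul_inv_cancel]
        · show x * (((θ ⟨a, ha⟩ (⟨x, hx⟩ : ↥P)⁻¹ : ↥P)) : X) = x * a * x⁻¹ * a⁻¹
          rw [hθ]
          show x * (a * x⁻¹ * a⁻¹) = x * a * x⁻¹ * a⁻¹
          group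
  intro c hc
  obtain ⟨hcP, hcA⟩ := Subgroup.mem_inf.mp hc
  obtain ⟨c', hc', hcc⟩ := hker hcP
  have hc'X : (c' : X) = c := hcc
  have hfix : ∀ a : ↥A, θ a c' = c' := by
    intro a
    apply Subtype.ext
    rw [hθ, hc'X]
    have h0 : (a : X) * c = c * (a : X) := Subgroup.mem_centralizer_iff.mp hcA a a.2
    rw [h0]; group
  have h1 : ν c' = Abelianization.of c' ^ Nat.card ↥A := by
    rw [hν]
    simp only [hfix]
    rw [Finset.prod_const, Finset.card_univ, Nat.card_eq_fintype_card]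
  have h2 : Abelianization.of c' ^ Nat.card ↥A = 1 := by
    rw [← h1]; exact hc'
  have hd1 : orderOf (Abelianization.of c') ∣ Nat.card ↥A := orderOf_dvd_of_pow_eq_one h2
  have hd2 : orderOf (Abelianization.of c') ∣ Nat.card ↥P :=
    (orderOf_map_dvd _ c').trans (orderOf_dvd_natCard c')
  have h3 : orderOf (Abelianization.of c') ∣ 1 := by
    have h4 := Nat.dvd_gcd hd1 hd2
    rwa [hcop.gcd_eq_one] at h4
  have h5 : Abelianization.of c' = 1 := orderOf_eq_one_iff.mp (Nat.dvd_one.mp h3)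
  have h6 : c' ∈ commutator ↥P := by
    rw [← Abelianization.ker_of]; exact h5
  exact ⟨c', h6, hcc⟩

/-- The Hall–Higman reduction for a minimal non-trivial action. Let B, A and P be subgroups of a finite group with P a p-group, B normalizing P, and A a normal subgroup of B of order prime to p. Suppose A does not centralize P but centralizes every proper B-invariant subgroup of P. Then [P, A] = P; P is elementary abelian or special; B acts irreducibly on P/Φ(P), that is, the only B-invariant subgroups of P containing Φ(P) are Φ(P) and P; and if p is odd then every element of P has order dividing p. -/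
theorem result {X : Type*} [Group X] [Finite X] {p : ℕ} [Fact p.Prime] (B A P : Subgroup X) (hP : IsPGroup p P) (hBP : B ≤ Subgroup.normalizer (P : Set X)) (hAB : A ≤ B) (hAn : B ≤ Subgroup.normalizer (A : Set X)) (hAp : (Nat.card A).Coprime p) (hnt : ⁅P, A⁆ ≠ ⊥) (hmin : ∀ U : Subgroup X, U < P → B ≤ Subgroup.normalizer (U : Set X) → ⁅U, A⁆ = ⊥) : ⁅P, A⁆ = P ∧ (Cfsg.IsElementaryAbelian p P ∨ Cfsg.IsSpecial p ↥P) ∧ (∀ U : Subgroup X, (frattini ↥P).map P.subtype ≤ U → U ≤ P → B ≤ Subgroup.normalizer (U : Set X) → U = (frattini ↥P).map P.subtype ∨ U = P) ∧ (p ≠ 2 → ∀ x ∈ P, x ^ p = 1) := by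
  classical
  have hpp : p.Prime := Fact.out
  have hAP : A ≤ Subgroup.normalizer (P : Set X) := hAB.trans hBP
  have hcop : (Nat.card A).Coprime (Nat.card P) := by
    obtain ⟨k, hk⟩ := IsPGroup.iff_card.mp hP
    rw [hk]; exact Nat.Coprime.pow_right k hAp
  haveI : Group.IsNilpotent ↥P := hP.isNilpotent
  have hsolv : Group.IsSolvable ↥A ∨ Group.IsSolvable ↥P := Or.inr inferInstance
  have hle : ⁅P, A⁆ ≤ P := commutator_le_of_le_normalizer hAP
  have hBcomm : B ≤ Subgroup.normalizer ((⁅P, A⁆ : Subgroup X) : Set X) := by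
    rw [Subgroup.le_normalizer_iff]
    intro b hb k hk
    have h1 : (⁅P, A⁆).map (MulAut.conj b).toMonoidHom ≤ ⁅P, A⁆ := by
      rw [Subgroup.map_commutator]
      apply Subgroup.commutator_mono
      · rintro _ ⟨x, hx, rfl⟩; exact conj_mem_of_mem_normalizer (hBP hb) hx
      · rintro _ ⟨x, hx, rfl⟩; exact conj_mem_of_mem_normalizer (hAn hb) hx
    exact h1 ⟨k, hk, rfl⟩
  have h1 : ⁅P, A⁆ = P := by
    by_contra hne
    have hlt : ⁅P, A⁆ < P := lt_of_le_of_ne hle hne
    have h2 := hmin _ hlt hBcomm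
    rw [commutator_commutator_eq A P hAP hcop hsolv] at h2
    exact hnt h2
  have hcent : ∀ U : Subgroup X, U < P → B ≤ Subgroup.normalizer (U : Set X) →
      U ≤ Subgroup.centralizer (A : Set X) := fun U hU hBU =>
    Subgroup.commutator_eq_bot_iff_le_centralizer.mp (hmin U hU hBU)
  have hG : ¬ (∀ x ∈ P, ∀ a ∈ A, x * a * x⁻¹ * a⁻¹ ∈ Subgroup.centralizer (A : Set X)) := by
    intro h
    apply hnt
    have h2 : ⁅P, A⁆ ≤ Subgroup.centralizer (A : Set X) :=
      Subgroup.commutator_le.mpr (fun x hx a ha => h x hx a ha)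
    have h3 : ⁅⁅P, A⁆, A⁆ = ⊥ := Subgroup.commutator_eq_bot_iff_le_centralizer.mpr h2
    rw [commutator_commutator_eq A P hAP hcop hsolv] at h3
    exact h3
  have hchar : ∀ (M : Subgroup ↥P) [M.Characteristic], M ≠ ⊤ →
      M.map P.subtype ≤ Subgroup.centralizer (A : Set X) := by
    intro M _ hM
    apply hcent _ _ (le_normalizer_map_subtype_of_characteristic hBP M)
    refine lt_of_le_of_ne (Subgroup.map_subtype_le M) ?_
    intro h
    apply hM
    rw [eq_top_iff]
    intro x _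
    have hx : (x : X) ∈ M.map P.subtype := by rw [h]; exact x.2
    obtain ⟨y, hy, hyx⟩ := hx
    have hyx' : y = x := Subtype.ext hyx
    rw [← hyx']; exact hy
  haveI hPnt : Nontrivial ↥P := by
    rw [Subgroup.nontrivial_iff_ne_bot]
    rintro rfl
    exact hnt (Subgroup.commutator_bot_left A)
  have hΦtop : frattini ↥P ≠ ⊤ := by
    obtain ⟨M, hM, -⟩ := (eq_top_or_exists_le_coatom (⊥ : Subgroup ↥P)).resolve_left bot_ne_top
    intro h
    have h2 := frattini_le_coatom hM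
    rw [h] at h2
    exact hM.1 (top_le_iff.mp h2)
  have hΦcent : (frattini ↥P).map P.subtype ≤ Subgroup.centralizer (A : Set X) :=
    hchar (frattini ↥P) hΦtop
  have hP'Φ : (commutator ↥P).map P.subtype ≤ (frattini ↥P).map P.subtype :=
    Subgroup.map_mono (commutator_le_frattini_of_pGroup hP)
  have hCP' : P ⊓ Subgroup.centralizer (A : Set X) ≤ (commutator ↥P).map P.subtype :=
    hh_fix_le_comm P A hAP hcop h1
  have hpowcent : ∀ x ∈ P, x ^ p ∈ Subgroup.centralizer (A : Set X) := by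
    intro x hx
    apply hΦcent
    exact ⟨(⟨x, hx⟩ : ↥P) ^ p, pow_mem_frattini_of_pGroup hP _, rfl⟩
  -- a power-homomorphism forces exponent `p`
  have hexp_of_hom : (∀ x ∈ P, ∀ y ∈ P, (x * y) ^ p = x ^ p * y ^ p) → ∀ x ∈ P, x ^ p = 1 := by
    intro HP
    by_contra hcon
    push Not at hcon
    obtain ⟨x₀, hx₀P, hx₀⟩ := hcon
    obtain ⟨K, hK⟩ : ∃ K : Subgroup X, ∀ x, x ∈ K ↔ (x ∈ P ∧ x ^ p = 1) :=
      ⟨{ carrier := {x | x ∈ P ∧ x ^ p = 1}
         mul_mem' := fun {a b} ha hb => ⟨P.mul_mem ha.1 hb.1, by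
           rw [HP a ha.1 b hb.1, ha.2, hb.2, one_mul]⟩
         one_mem' := ⟨P.one_mem, one_pow p⟩
         inv_mem' := fun {a} ha => ⟨P.inv_mem ha.1, by rw [inv_pow, ha.2, inv_one]⟩ },
       fun x => Iff.rfl⟩
    have hKP : K < P := by
      refine lt_of_le_of_ne (fun x hx => ((hK x).mp hx).1) ?_
      intro h
      exact hx₀ ((hK x₀).mp (h ▸ hx₀P)).2
    have hBK : B ≤ Subgroup.normalizer (K : Set X) := by
      rw [Subgroup.le_normalizer_iff]
      intro b hb k hk
      obtain ⟨hk1, hk2⟩ := (hK k).mp hk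
      exact (hK _).mpr ⟨conj_mem_of_mem_normalizer (hBP hb) hk1, by
        rw [conj_pow, hk2, mul_one, mul_inv_cancel]⟩
    have hKcent := hcent K hKP hBK
    apply hG
    intro x hx a ha
    apply hKcent
    have hxa : a * x⁻¹ * a⁻¹ ∈ P := conj_mem_of_mem_normalizer (hAP ha) (P.inv_mem hx)
    have e0 : x * a * x⁻¹ * a⁻¹ = x * (a * x⁻¹ * a⁻¹) := by group
    rw [e0]
    refine (hK _).mpr ⟨P.mul_mem hx hxa, ?_⟩
    have hcm : a * x ^ p = x ^ p * a := Subgroup.mem_centralizer_iff.mp (hpowcent x hx) a ha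
    have hpc : a * x ^ p * a⁻¹ = x ^ p := by rw [hcm]; group
    have e : (a * x⁻¹ * a⁻¹) ^ p = (x ^ p)⁻¹ := by
      rw [conj_pow, inv_pow]
      calc a * (x ^ p)⁻¹ * a⁻¹ = (a * x ^ p * a⁻¹)⁻¹ := by group
        _ = (x ^ p)⁻¹ := by rw [hpc]
    rw [HP x hx _ hxa, e, mul_inv_cancel]
  -- irreducibility on the Frattini quotient
  have hirr : ∀ U : Subgroup X, (frattini ↥P).map P.subtype ≤ U → U ≤ P →
      B ≤ Subgroup.normalizer (U : Set X) → U = (frattini ↥P).map P.subtype ∨ U = P := by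
    intro U hΦU hUP hBU
    by_cases hU : U = P
    · exact Or.inr hU
    · left
      have hUc := hcent U (lt_of_le_of_ne hUP hU) hBU
      exact le_antisymm ((le_inf hUP hUc).trans (hCP'.trans hP'Φ)) hΦU
  by_cases hab : IsMulCommutative ↥P
  · have hcommP : ∀ x ∈ P, ∀ y ∈ P, x * y = y * x := isMulCommutative_iff_of_setLike.mp hab
    have hexp : ∀ x ∈ P, x ^ p = 1 :=
      hexp_of_hom (fun x hx y hy => Commute.mul_pow (hcommP x hx y hy) p)
    exact ⟨h1, Or.inl ⟨hab, hexp⟩, hirr, fun _ => hexp⟩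
  · have hZtop : Subgroup.center ↥P ≠ ⊤ := by
      intro h
      apply hab
      rw [isMulCommutative_iff]
      intro a b
      have ha : a ∈ Subgroup.center ↥P := h ▸ Subgroup.mem_top a
      exact (Subgroup.mem_center_iff.mp ha b).symm
    have hZcent : (Subgroup.center ↥P).map P.subtype ≤ Subgroup.centralizer (A : Set X) :=
      hchar (Subgroup.center ↥P) hZtop
    have hZP' : Subgroup.center ↥P ≤ commutator ↥P := by
      rw [← Subgroup.map_subtype_le_map_subtype]
      exact (le_inf (Subgroup.map_subtype_le _) hZcent).trans hCP'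
    have hΦZ : frattini ↥P ≤ Subgroup.center ↥P := by
      have hΦA : ⁅(frattini ↥P).map P.subtype, A⁆ = ⊥ :=
        Subgroup.commutator_eq_bot_iff_le_centralizer.mpr hΦcent
      have hΦP : ⁅(frattini ↥P).map P.subtype, P⁆ ≤ (frattini ↥P).map P.subtype :=
        commutator_le_of_le_normalizer
          (le_normalizer_map_subtype_of_characteristic Subgroup.le_normalizer (frattini ↥P))
      have t1 : ⁅⁅A, (frattini ↥P).map P.subtype⁆, P⁆ = ⊥ := by
        rw [Subgroup.commutator_comm A, hΦA, Subgroup.commutator_bot_left]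
      have t2 : ⁅⁅(frattini ↥P).map P.subtype, P⁆, A⁆ = ⊥ := by
        rw [eq_bot_iff, ← hΦA]
        exact Subgroup.commutator_mono hΦP le_rfl
      have t3 := Subgroup.commutator_commutator_eq_bot_of_rotate t1 t2
      rw [h1] at t3
      have t4 : P ≤ Subgroup.centralizer (((frattini ↥P).map P.subtype : Subgroup X) : Set X) :=
        Subgroup.commutator_eq_bot_iff_le_centralizer.mp t3
      intro y hy
      rw [Subgroup.mem_center_iff]
      intro g
      apply Subtype.ext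
      have h0 := Subgroup.mem_centralizer_iff.mp (t4 g.2) (y : X) ⟨y, hy, rfl⟩
      exact h0.symm
    have hP'Φ' : commutator ↥P ≤ frattini ↥P := commutator_le_frattini_of_pGroup hP
    have hspec : Cfsg.IsSpecial p ↥P :=
      ⟨hP, le_antisymm hΦZ (hZP'.trans hP'Φ'), le_antisymm (hP'Φ'.trans hΦZ) hZP'⟩
    refine ⟨h1, Or.inr hspec, hirr, ?_⟩
    intro hp2
    apply hexp_of_hom
    intro x hx y hy
    -- c = [y, x] is central
    have hcmem : ((⟨y, hy⟩ : ↥P) * ⟨x, hx⟩ * (⟨y, hy⟩ : ↥P)⁻¹ * (⟨x, hx⟩ : ↥P)⁻¹) ∈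
        Subgroup.center ↥P := by
      apply hΦZ
      apply hP'Φ'
      rw [commutator_def]
      exact Subgroup.commutator_mem_commutator (Subgroup.mem_top _) (Subgroup.mem_top _)
    have hcx : (y * x * y⁻¹ * x⁻¹) * x = x * (y * x * y⁻¹ * x⁻¹) :=
      (congrArg Subtype.val (Subgroup.mem_center_iff.mp hcmem ⟨x, hx⟩)).symm
    have hcy : (y * x * y⁻¹ * x⁻¹) * y = y * (y * x * y⁻¹ * x⁻¹) :=
      (congrArg Subtype.val (Subgroup.mem_center_iff.mp hcmem ⟨y, hy⟩)).symm
    have hyx : y * x = (y * x * y⁻¹ * x⁻¹) * x * y := by group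
    have hyp : y ^ p * x = x * y ^ p := by
      have hmem : (⟨y, hy⟩ : ↥P) ^ p ∈ Subgroup.center ↥P :=
        hΦZ (pow_mem_frattini_of_pGroup hP _)
      exact (congrArg Subtype.val (Subgroup.mem_center_iff.mp hmem ⟨x, hx⟩)).symm
    have hcp : (y * x * y⁻¹ * x⁻¹) ^ p = 1 := by
      have h2 := h8_pow_mul_rel x y (y * x * y⁻¹ * x⁻¹) hcy hyx p
      rw [hyp] at h2
      have h3 : 1 * (x * y ^ p) = (y * x * y⁻¹ * x⁻¹) ^ p * (x * y ^ p) := by
        rw [one_mul, ← mul_assoc]; exact h2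
      exact (mul_right_cancel h3).symm
    have h4 := h8_mul_pow_rel x y (y * x * y⁻¹ * x⁻¹) hcx hcy hyx p
    have hp3 : 2 < p := lt_of_le_of_ne hpp.two_le (Ne.symm hp2)
    obtain ⟨m, hm⟩ := Nat.Prime.dvd_choose_self hpp (by norm_num : (2 : ℕ) ≠ 0) hp3
    rw [hm, pow_mul, hcp, one_pow, one_mul] at h4
    exact h4

end Cfsg.Agent.S3736
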