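import Cfsg.Statements.S3737
import Cfsg.Agent.S3736

set_option autoImplicit false
open Cfsg

namespace Cfsg.Agent.S3737

open Cfsg.Agent.Lib.Helper7 Cfsg.Agent.Lib.Helper2 Cfsg.Agent.Lib.Helper8 Cfsg.Agent.Lib.Helper1

/-- In a group where commutators are central, `l.prod * l.reverse.prod` is invariant under
permutations of the list. -/
theorem tpq_perm_prod {H : Type*} [Group H]
    (hcl : ∀ a b c : H, a * b * a⁻¹ * b⁻¹ * c = c * (a * b * a⁻¹ * b⁻¹))
    {l₁ l₂ : List H} (h : l₁.Perm l₂) :
    l₁.prod * l₁.reverse.prod = l₂.prod * l₂.reverse.prod := by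
  induction h with
  | nil => rfl
  | @cons x l₁ l₂ h ih =>
    simp only [List.prod_cons, List.reverse_cons, List.prod_append, List.prod_nil, mul_one]
    calc _ = x * (l₁.prod * l₁.reverse.prod) * x := by group
      _ = x * (l₂.prod * l₂.reverse.prod) * x := by rw [ih]
      _ = _ := by group
  | swap x y l =>
    simp only [List.prod_cons, List.reverse_cons, List.prod_append, List.prod_nil, mul_one]
    generalize l.prod = A
    generalize l.reverse.prod = B
    have hc := hcl y x (x * y * (A * B))
    calc _ = (y * x * y⁻¹ * x⁻¹ * (x * y * (A * B))) * (x * y) := by group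
      _ = (x * y * (A * B) * (y * x * y⁻¹ * x⁻¹)) * (x * y) := by rw [hc]
      _ = _ := by group
  | trans _ _ ih1 ih2 => exact ih1.trans ih2

theorem tpq_core {X : Type*} [Group X] [Finite X] {p : ℕ} [Fact p.Prime] (hp : p ≠ 2)
    (P Q : Subgroup X) (hP : IsPGroup p P) (hQ : (Nat.card Q).Coprime p)
    (hPQ : P ≤ Subgroup.normalizer (Q : Set X)) :
    ∀ n : ℕ, ∀ G : Subgroup X, Nat.card G ≤ n → IsPGroup p G →
      P ≤ Subgroup.normalizer (G : Set X) → Q ≤ Subgroup.normalizer (G : Set X) →
      G ⊓ Subgroup.centralizer (P : Set X) ≤ Subgroup.centralizer (Q : Set X) → ⁅G, Q⁆ = ⊥ := by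
  classical
  intro n
  induction n with
  | zero =>
    intro G hn
    have := Nat.card_pos (α := ↥G)
    exact absurd hn (by omega)
  | succ n ih =>
    intro G hn hG hPG hQG hC
    by_contra hnt
    have hmin : ∀ U : Subgroup X, U < G → (P ⊔ Q) ≤ Subgroup.normalizer (U : Set X) →
        ⁅U, Q⁆ = ⊥ := by
      intro U hU hBU
      have hcard : Nat.card U < Nat.card G :=
        lt_of_le_of_ne (Subgroup.card_le_of_le hU.le)
          (fun h => hU.ne (Subgroup.eq_of_le_of_card_ge hU.le (le_of_eq h.symm)))
      exact ih U (by omega) (hG.to_le hU.le) (le_sup_left.trans hBU) (le_sup_right.trans hBU)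
        ((inf_le_inf_right _ hU.le).trans hC)
    obtain ⟨hGQ, -, -, hexp⟩ := Cfsg.Agent.S3736.result (P ⊔ Q) Q G hG (sup_le hPG hQG)
      le_sup_right (sup_le hPQ Subgroup.le_normalizer) hQ hnt hmin
    have hexp' := hexp hp
    have hcop : (Nat.card Q).Coprime (Nat.card G) := by
      obtain ⟨k, hk⟩ := hG.exists_card_eq
      rw [hk]; exact Nat.Coprime.pow_right _ hQ
    have hfix : G ⊓ Subgroup.centralizer (Q : Set X) ≤ (commutator ↥G).map G.subtype :=
      Cfsg.Agent.S3736.hh_fix_le_comm G Q hQG hcop hGQ
    obtain ⟨D, hD⟩ : ∃ D : Subgroup X, D = (commutator ↥G).map G.subtype := ⟨_, rfl⟩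
    have hDG : D ≤ G := by rw [hD]; exact Subgroup.map_subtype_le _
    have hmem_of_map : ∀ g : ↥G, (g : X) ∈ (commutator ↥G).map G.subtype → g ∈ commutator ↥G := by
      intro g hg
      obtain ⟨w, hw, hwg⟩ := hg
      have : w = g := Subtype.ext hwg
      rw [← this]; exact hw
    have hGnt : Nontrivial ↥G := by
      by_contra hnot
      rw [not_nontrivial_iff_subsingleton] at hnot
      have : G = ⊥ := Subgroup.eq_bot_of_subsingleton G
      apply hnt; rw [this]; exact Subgroup.commutator_bot_left _
    haveI : Nontrivial ↥G := hGnt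
    haveI : Group.IsNilpotent ↥G := hG.isNilpotent
    have hcl : commutator ↥G < ⊤ := Group.IsSolvable.commutator_lt_top_of_nontrivial ↥G
    have hDlt : D < G := by
      refine lt_of_le_of_ne hDG (fun h => ?_)
      apply hcl.ne
      rw [eq_top_iff]; intro g _
      apply hmem_of_map
      rw [← hD, h]; exact g.2
    have hBD : P ⊔ Q ≤ Subgroup.normalizer (D : Set X) := by
      rw [hD]; exact le_normalizer_map_subtype_of_characteristic (sup_le hPG hQG) (commutator ↥G)
    have hGD0 : G ≤ Subgroup.normalizer (D : Set X) := by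
      rw [hD]; exact le_normalizer_map_subtype_of_characteristic Subgroup.le_normalizer (commutator ↥G)
    have hDQ : ⁅D, Q⁆ = ⊥ := hmin D hDlt hBD
    have hDQ' : D ≤ Subgroup.centralizer (Q : Set X) :=
      Subgroup.commutator_eq_bot_iff_le_centralizer.mp hDQ
    have hGD : ⁅G, D⁆ = ⊥ := by
      have h1 : ⁅⁅Q, D⁆, G⁆ = ⊥ := by
        rw [Subgroup.commutator_comm Q D, hDQ]; exact Subgroup.commutator_bot_left _
      have h2 : ⁅⁅D, G⁆, Q⁆ = ⊥ := by
        rw [eq_bot_iff, ← hDQ]
        exact Subgroup.commutator_mono (commutator_le_of_le_normalizer hGD0) le_rfl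
      have h3 := Subgroup.commutator_commutator_eq_bot_of_rotate h1 h2
      rw [hGQ] at h3; exact h3
    have hGD' : G ≤ Subgroup.centralizer (D : Set X) :=
      Subgroup.commutator_eq_bot_iff_le_centralizer.mp hGD
    have hcen : ∀ z : ↥G, z ∈ commutator ↥G → ∀ w : ↥G, z * w = w * z := by
      intro z hz w
      have hzD : (z : X) ∈ D := by rw [hD]; exact Subgroup.mem_map_of_mem G.subtype hz
      apply Subtype.ext
      exact Subgroup.mem_centralizer_iff.mp (hGD' w.2) (z : X) hzD
    have hcl' : ∀ a b c : ↥G, a * b * a⁻¹ * b⁻¹ * c = c * (a * b * a⁻¹ * b⁻¹) := by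
      intro a b c
      exact hcen _ (Subgroup.commutator_mem_commutator (Subgroup.mem_top a) (Subgroup.mem_top b)) c
    obtain ⟨α, hα⟩ : ∃ α : ↥P →* MulAut ↥G,
        ∀ a g, ((α a g : ↥G) : X) = (a : X) * g * (a : X)⁻¹ :=
      ⟨G.normalizerMonoidHom.comp (Subgroup.inclusion hPG), fun _ _ => rfl⟩
    obtain ⟨β, hβ⟩ : ∃ β : ↥Q →* MulAut ↥G,
        ∀ a g, ((β a g : ↥G) : X) = (a : X) * g * (a : X)⁻¹ :=
      ⟨G.normalizerMonoidHom.comp (Subgroup.inclusion hQG), fun _ _ => rfl⟩
    have hQfix : ∀ z : ↥G, z ∈ commutator ↥G → ∀ q : ↥Q, β q z = z := by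
      intro z hz q
      have hzD : (z : X) ∈ D := by rw [hD]; exact Subgroup.mem_map_of_mem G.subtype hz
      have := Subgroup.mem_centralizer_iff.mp (hDQ' hzD) (q : X) q.2
      apply Subtype.ext
      rw [hβ, this]; group
    have hfixmem : ∀ g : ↥G, (g : X) ∈ Subgroup.centralizer (Q : Set X) → g ∈ commutator ↥G := by
      intro g hg
      exact hmem_of_map g (hfix (Subgroup.mem_inf.mpr ⟨g.2, hg⟩))
    have hcentQ : ∀ g : ↥G, (∀ q : ↥Q, β q g = g) → (g : X) ∈ Subgroup.centralizer (Q : Set X) := by
      intro g hg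
      rw [Subgroup.mem_centralizer_iff]
      intro q hq
      have h1 : q * (g : X) * q⁻¹ = g := by
        have := congrArg Subtype.val (hg ⟨q, hq⟩)
        rw [hβ] at this
        exact this
      calc q * (g : X) = (q * g * q⁻¹) * q := by group
        _ = g * q := by rw [h1]
    have hcentP : ∀ g : ↥G, (∀ a : ↥P, α a g = g) → (g : X) ∈ Subgroup.centralizer (P : Set X) := by
      intro g hg
      rw [Subgroup.mem_centralizer_iff]
      intro q hq
      have h1 : q * (g : X) * q⁻¹ = g := by
        have := congrArg Subtype.val (hg ⟨q, hq⟩)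
        rw [hα] at this
        exact this
      calc q * (g : X) = (q * g * q⁻¹) * q := by group
        _ = g * q := by rw [h1]
    -- a fixed point of `P` on the abelianization
    haveI : Finite (Abelianization ↥G) := inferInstance
    obtain ⟨x, hxn, hxfix⟩ : ∃ x : ↥G, x ∉ commutator ↥G ∧
        ∀ a : ↥P, x⁻¹ * α a x ∈ commutator ↥G := by
      letI actP : MulAction ↥P (Abelianization ↥G) :=
        { smul := fun a y => Abelianization.map (α a).toMonoidHom y
          one_smul := fun y => by
            obtain ⟨g, rfl⟩ := QuotientGroup.mk_surjective y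
            show Abelianization.map (α 1).toMonoidHom (Abelianization.of g) = Abelianization.of g
            rw [Abelianization.map_of, map_one]; rfl
          mul_smul := fun a b y => by
            obtain ⟨g, rfl⟩ := QuotientGroup.mk_surjective y
            show Abelianization.map (α (a * b)).toMonoidHom (Abelianization.of g) =
              Abelianization.map (α a).toMonoidHom
                (Abelianization.map (α b).toMonoidHom (Abelianization.of g))
            rw [Abelianization.map_of, Abelianization.map_of, Abelianization.map_of, map_mul]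
            rfl }
      have hdvd : p ∣ Nat.card (Abelianization ↥G) := by
        obtain ⟨k, hk⟩ := hG.index (commutator ↥G)
        have hk0 : k ≠ 0 := by
          rintro rfl
          rw [pow_zero, Subgroup.index_eq_one] at hk
          exact hcl.ne hk
        have : Nat.card (Abelianization ↥G) = p ^ k := hk
        rw [this]; exact dvd_pow_self p hk0
      have h1 : (1 : Abelianization ↥G) ∈ MulAction.fixedPoints ↥P (Abelianization ↥G) := by
        intro a
        show Abelianization.map (α a).toMonoidHom 1 = 1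
        exact map_one _
      obtain ⟨b, hb, hb1⟩ := hP.exists_fixed_point_of_prime_dvd_card_of_fixed_point
        (Abelianization ↥G) hdvd h1
      obtain ⟨x, rfl⟩ := QuotientGroup.mk_surjective b
      refine ⟨x, fun hx => hb1 ?_, fun a => ?_⟩
      · exact ((QuotientGroup.eq_one_iff x).mpr hx).symm
      · have := hb a
        have h2 : Abelianization.map (α a).toMonoidHom (Abelianization.of x) = Abelianization.of x :=
          this
        rw [Abelianization.map_of] at h2
        exact QuotientGroup.eq.mp h2.symm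
    -- the list of elements of `Q`
    haveI : Fintype ↥Q := Fintype.ofFinite _
    obtain ⟨L, hLdef⟩ : ∃ L : List ↥Q, L = (Finset.univ : Finset ↥Q).toList := ⟨_, rfl⟩
    have hLmem : ∀ k : ↥Q, k ∈ L := fun k => by
      rw [hLdef]; exact Finset.mem_toList.mpr (Finset.mem_univ k)
    have hLnd : L.Nodup := by rw [hLdef]; exact Finset.nodup_toList _
    have hLlen : L.length = Nat.card Q := by
      rw [hLdef, Finset.length_toList, Finset.card_univ, Nat.card_eq_fintype_card]
    have hfmap : ∀ (φ : MulAut ↥G) (l : List ↥G),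
        φ (l.prod * l.reverse.prod) = (l.map φ).prod * (l.map φ).reverse.prod := by
      intro φ l
      rw [map_mul, ← List.prod_hom l φ, ← List.prod_hom l.reverse φ, List.map_reverse]
    obtain ⟨c, hc⟩ : ∃ c : ↥Q → ↥G, ∀ k, c k = β k x := ⟨fun k => β k x, fun _ => rfl⟩
    obtain ⟨y, hy⟩ : ∃ y : ↥Q → ↥G, ∀ k, y k = x⁻¹ * β k x := ⟨fun k => x⁻¹ * β k x, fun _ => rfl⟩
    obtain ⟨v, hvdef⟩ : ∃ v : ↥G, v = (L.map c).prod * (L.map c).reverse.prod := ⟨_, rfl⟩
    obtain ⟨u, hudef⟩ : ∃ u : ↥G, u = (L.map y).prod * (L.map y).reverse.prod := ⟨_, rfl⟩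
    have hLperm : ∀ q : ↥Q, (L.map (fun k => q * k)).Perm L := by
      intro q
      rw [List.perm_ext_iff_of_nodup (hLnd.map (mul_right_injective q)) hLnd]
      intro a
      simp only [List.mem_map, hLmem, true_and, iff_true]
      exact ⟨q⁻¹ * a, by group⟩
    have hv : ∀ q : ↥Q, β q v = v := by
      intro q
      rw [hvdef, hfmap]
      have e : (L.map c).map (β q) = (L.map (fun k => q * k)).map c := by
        rw [List.map_map, List.map_map]
        apply List.map_congr_left
        intro k _
        show β q (c k) = c (q * k)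
        rw [hc, hc, map_mul]; rfl
      rw [e]
      exact tpq_perm_prod hcl' ((hLperm q).map c)
    have hvmem : v ∈ commutator ↥G := hfixmem v (hcentQ v hv)
    have hσperm : ∀ a : ↥P, ∃ σ : ↥Q → ↥Q,
        (∀ k, ((σ k : ↥Q) : X) = (a : X) * k * (a : X)⁻¹) ∧ (L.map σ).Perm L := by
      intro a
      have hinj : Function.Injective (fun k : ↥Q =>
          (⟨(a : X) * k * (a : X)⁻¹, conj_mem_of_mem_normalizer (hPQ a.2) k.2⟩ : ↥Q)) := by
        intro k1 k2 h
        have h' : (a : X) * k1 * (a : X)⁻¹ = (a : X) * k2 * (a : X)⁻¹ := congrArg Subtype.val h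
        apply Subtype.ext
        exact mul_left_cancel (mul_right_cancel h')
      refine ⟨fun k => ⟨(a : X) * k * (a : X)⁻¹, conj_mem_of_mem_normalizer (hPQ a.2) k.2⟩,
        fun _ => rfl, ?_⟩
      rw [List.perm_ext_iff_of_nodup (hLnd.map hinj) hLnd]
      intro b
      simp only [List.mem_map, hLmem, true_and, iff_true]
      have hb' : (a : X)⁻¹ * b * (a : X) ∈ Q := by
        have := conj_mem_of_mem_normalizer (inv_mem (hPQ a.2)) b.2
        simpa using this
      refine ⟨⟨(a : X)⁻¹ * b * (a : X), hb'⟩, ?_⟩
      apply Subtype.ext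
      show (a : X) * ((a : X)⁻¹ * b * (a : X)) * (a : X)⁻¹ = b
      group
    have hu : ∀ a : ↥P, α a u = u := by
      intro a
      obtain ⟨σ, hσ, hσp⟩ := hσperm a
      rw [hudef, hfmap]
      have e : (L.map y).map (α a) = (L.map σ).map y := by
        rw [List.map_map, List.map_map]
        apply List.map_congr_left
        intro k _
        show α a (y k) = y (σ k)
        have hz := hxfix a
        obtain ⟨z, hzdef⟩ : ∃ z : ↥G, z = x⁻¹ * α a x := ⟨_, rfl⟩
        rw [← hzdef] at hz
        have hax : α a x = x * z := by rw [hzdef]; group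
        have hzc : ∀ w : ↥G, z * w = w * z := hcen z hz
        have hzQ : β (σ k) z = z := hQfix z hz (σ k)
        have h1 : α a (β k x) = β (σ k) (α a x) := by
          apply Subtype.ext
          simp only [hα, hβ, hσ]
          group
        rw [hy, hy, map_mul, map_inv, h1, hax, map_mul, hzQ]
        have h2 := hzc (x⁻¹ * β (σ k) x)
        calc (x * z)⁻¹ * (β (σ k) x * z) = z⁻¹ * ((x⁻¹ * β (σ k) x) * z) := by group
          _ = z⁻¹ * (z * (x⁻¹ * β (σ k) x)) := by rw [h2]
          _ = x⁻¹ * β (σ k) x := by group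
      rw [e]
      exact tpq_perm_prod hcl' (hσp.map y)
    have humem : u ∈ commutator ↥G :=
      hfixmem u (hC (Subgroup.mem_inf.mpr ⟨u.2, hcentP u hu⟩))
    -- computation in the abelianization
    obtain ⟨W, hW⟩ : ∃ W : Abelianization ↥G, W = ((L.map c).map Abelianization.of).prod :=
      ⟨_, rfl⟩
    obtain ⟨t, ht⟩ : ∃ t : Abelianization ↥G, t = Abelianization.of x := ⟨_, rfl⟩
    have hv1 : W * W = 1 := by
      have h1 : Abelianization.of v = 1 := (QuotientGroup.eq_one_iff v).mpr hvmem
      rw [hvdef, map_mul, ← List.prod_hom (L.map c) Abelianization.of,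
        ← List.prod_hom (L.map c).reverse Abelianization.of, List.map_reverse,
        List.prod_reverse, ← hW] at h1
      exact h1
    have hu1 : (t⁻¹ ^ Nat.card Q * W) * (t⁻¹ ^ Nat.card Q * W) = 1 := by
      have h1 : Abelianization.of u = 1 := (QuotientGroup.eq_one_iff u).mpr humem
      have e : (L.map y).map Abelianization.of =
          L.map (fun k => t⁻¹ * Abelianization.of (c k)) := by
        rw [List.map_map]
        apply List.map_congr_left
        intro k _
        show Abelianization.of (y k) = t⁻¹ * Abelianization.of (c k)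
        rw [hy, hc, map_mul, map_inv, ht]
      have e2 : ((L.map y).map Abelianization.of).prod = t⁻¹ ^ Nat.card Q * W := by
        rw [e, List.prod_map_mul, List.map_const', List.prod_replicate, hLlen, hW, List.map_map]
        rfl
      rw [hudef, map_mul, ← List.prod_hom (L.map y) Abelianization.of,
        ← List.prod_hom (L.map y).reverse Abelianization.of, List.map_reverse,
        List.prod_reverse, e2] at h1
      exact h1
    have ht2 : t ^ (2 * Nat.card Q) = 1 := by
      have h3 : (t⁻¹ ^ Nat.card Q * W) * (t⁻¹ ^ Nat.card Q * W) =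
          (t ^ (2 * Nat.card Q))⁻¹ * (W * W) := by
        rw [two_mul, pow_add, inv_pow]
        generalize t ^ Nat.card ↥Q = T
        rw [mul_inv]
        exact mul_mul_mul_comm _ _ _ _
      rw [h3, hv1, mul_one, inv_eq_one] at hu1
      exact hu1
    have htp : t ^ p = 1 := by
      rw [ht, ← map_pow]
      have : x ^ p = 1 := by
        apply Subtype.ext
        rw [Subgroup.coe_pow]
        exact hexp' _ x.2
      rw [this, map_one]
    have hcop2 : Nat.Coprime (2 * Nat.card Q) p := by
      refine Nat.Coprime.mul_left ?_ hQ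
      exact (Nat.coprime_primes Nat.prime_two (Fact.out : p.Prime)).mpr (Ne.symm hp)
    have ht1 : t = 1 := by
      have := pow_gcd_eq_one.mpr ⟨ht2, htp⟩
      rw [hcop2, pow_one] at this
      exact this
    apply hxn
    rw [ht] at ht1
    exact (QuotientGroup.eq_one_iff x).mp ht1

/-- Thompson's strengthening of the P × Q lemma for odd primes. Let p be an odd prime and let P, Q and G be subgroups of a finite group with P a p-group, Q of order prime to p and normalized by P, and G a p-group normalized by both P and Q. If every element of G centralized by P is centralized by Q, then Q centralizes G. -/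
theorem result {X : Type*} [Group X] [Finite X] {p : ℕ} [Fact p.Prime] (hp : p ≠ 2) (P Q G : Subgroup X) (hP : IsPGroup p P) (hQ : (Nat.card Q).Coprime p) (hPQ : P ≤ Subgroup.normalizer (Q : Set X)) (hG : IsPGroup p G) (hPG : P ≤ Subgroup.normalizer (G : Set X)) (hQG : Q ≤ Subgroup.normalizer (G : Set X)) (hC : G ⊓ Subgroup.centralizer (P : Set X) ≤ Subgroup.centralizer (Q : Set X)) : Q ≤ Subgroup.centralizer (G : Set X) := by
  have h := tpq_core hp P Q hP hQ hPQ (Nat.card G) G le_rfl hG hPG hQG hC
  rw [Subgroup.commutator_comm] at h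
  exact Subgroup.commutator_eq_bot_iff_le_centralizer.mp h

end Cfsg.Agent.S3737
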