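import Cfsg.Statements.S3741
import Mathlib
import Cfsg.Agent.Lib.Helper7.PCore
import Cfsg.Agent.Lib.Helper8.Comm

set_option autoImplicit false
open Cfsg
open Cfsg.Agent.Lib.Helper8

namespace Cfsg.Agent.S3741

theorem fiber {G : Type*} [Group G] [Finite G] {p : ℕ} (hp : p.Prime) (A B Z : Subgroup G)
    (hZ : Nat.card Z = p) (hcomm : ∀ a ∈ A, ∀ b ∈ B, a * b * a⁻¹ * b⁻¹ ∈ Z)
    (hBZ : ∀ b ∈ B, ∀ z ∈ Z, b * z = z * b) (a : G) (ha : a ∈ A) :
    (a ∈ Subgroup.centralizer (B : Set G) →
      Nat.card ↥(B ⊓ Subgroup.centralizer {a}) = Nat.card B) ∧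
    (a ∉ Subgroup.centralizer (B : Set G) →
      Nat.card ↥(B ⊓ Subgroup.centralizer {a}) * p = Nat.card B) := by
  constructor
  · intro hc
    have h1 : B ⊓ Subgroup.centralizer {a} = B := by
      apply inf_eq_left.2
      intro b hb
      rw [Subgroup.mem_centralizer_iff]
      intro y hy
      rw [Set.mem_singleton_iff] at hy
      subst hy
      exact ((Subgroup.mem_centralizer_iff.1 hc) b hb).symm
    rw [h1]
  · intro hc
    let f : ↥B →* ↥Z :=
      { toFun := fun b => ⟨a * b * a⁻¹ * (b : G)⁻¹, hcomm a ha b b.2⟩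
        map_one' := by apply Subtype.ext; simp
        map_mul' := by
          intro b b'
          apply Subtype.ext
          have h1 := hBZ b b.2 _ (hcomm a ha b' b'.2)
          show a * ((b : G) * (b' : G)) * a⁻¹ * ((b : G) * (b' : G))⁻¹ =
            (a * b * a⁻¹ * (b : G)⁻¹) * (a * b' * a⁻¹ * (b' : G)⁻¹)
          calc a * ((b : G) * (b' : G)) * a⁻¹ * ((b : G) * (b' : G))⁻¹
              = (a * b * a⁻¹ * (b : G)⁻¹) * ((b : G) * (a * b' * a⁻¹ * (b' : G)⁻¹)) * (b : G)⁻¹ := by
                group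
            _ = (a * b * a⁻¹ * (b : G)⁻¹) * ((a * b' * a⁻¹ * (b' : G)⁻¹) * b) * (b : G)⁻¹ := by
                rw [h1]
            _ = _ := by group }
    have hker : f.ker = (B ⊓ Subgroup.centralizer {a}).subgroupOf B := by
      ext b
      rw [MonoidHom.mem_ker, Subgroup.mem_subgroupOf, Subgroup.mem_inf]
      constructor
      · intro h
        refine ⟨b.2, ?_⟩
        have h1 : a * b * a⁻¹ * (b : G)⁻¹ = 1 := congrArg Subtype.val h
        rw [Subgroup.mem_centralizer_iff]
        intro y hy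
        rw [Set.mem_singleton_iff] at hy
        subst hy
        calc y * (b : G) = (y * b * y⁻¹ * (b : G)⁻¹) * (b * y) := by group
          _ = b * y := by rw [h1, one_mul]
      · rintro ⟨_, h⟩
        apply Subtype.ext
        have h1 := Subgroup.mem_centralizer_iff.1 h a (Set.mem_singleton a)
        show a * b * a⁻¹ * (b : G)⁻¹ = 1
        rw [h1]; group
    have hidx : (B ⊓ Subgroup.centralizer {a}).relIndex B = Nat.card f.range := by
      rw [← Subgroup.index_ker, hker]; rfl
    have hdvd : Nat.card f.range ∣ p := hZ ▸ Subgroup.card_subgroup_dvd_card f.range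
    have hne1 : Nat.card f.range ≠ 1 := by
      intro h1
      apply hc
      have hbot : f.range = ⊥ := Subgroup.card_eq_one.1 h1
      rw [Subgroup.mem_centralizer_iff]
      intro b hb
      have h3 : f ⟨b, hb⟩ ∈ f.range := ⟨_, rfl⟩
      rw [hbot, Subgroup.mem_bot] at h3
      have h2 : a * b * a⁻¹ * b⁻¹ = 1 := congrArg Subtype.val h3
      calc b * a = (a * b * a⁻¹ * b⁻¹)⁻¹ * (a * b) := by group
        _ = a * b := by rw [h2]; simp
    have hrange : Nat.card f.range = p := ((Nat.dvd_prime hp).1 hdvd).resolve_left hne1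
    have h4 := Cfsg.Agent.Lib.Helper7.card_mul_relIndex_of_le
      (inf_le_left : B ⊓ Subgroup.centralizer {a} ≤ B)
    rw [hidx, hrange] at h4
    exact h4

open Classical in
theorem pT {G : Type*} [Group G] [Fintype G] {p : ℕ} (hp : p.Prime) (A B Z : Subgroup G)
    (hZ : Nat.card Z = p) (hcomm : ∀ a ∈ A, ∀ b ∈ B, a * b * a⁻¹ * b⁻¹ ∈ Z)
    (hBZ : ∀ b ∈ B, ∀ z ∈ Z, b * z = z * b) :
    p * ∑ a ∈ Finset.univ.filter (· ∈ A), ∑ b ∈ Finset.univ.filter (· ∈ B),
        (if a * b = b * a then 1 else 0) =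
      Nat.card A * Nat.card B +
        (p - 1) * (Nat.card B * Nat.card ↥(A ⊓ Subgroup.centralizer (B : Set G))) := by
  rw [Finset.mul_sum]
  have e : ∀ a ∈ Finset.univ.filter (· ∈ A),
      p * ∑ b ∈ Finset.univ.filter (· ∈ B), (if a * b = b * a then 1 else 0) =
      Nat.card B + (if a ∈ Subgroup.centralizer (B : Set G) then (p - 1) * Nat.card B else 0) := by
    intro a ha
    have haA : a ∈ A := (Finset.mem_filter.1 ha).2
    have hcount : ∑ b ∈ Finset.univ.filter (· ∈ B), (if a * b = b * a then 1 else 0) =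
        Nat.card ↥(B ⊓ Subgroup.centralizer {a}) := by
      rw [← Finset.card_filter, Finset.filter_filter, Nat.card_eq_fintype_card]
      symm
      apply Fintype.card_of_subtype
      intro x
      simp only [Finset.mem_filter, Finset.mem_univ, true_and, Subgroup.mem_inf,
        Subgroup.mem_centralizer_iff, Set.mem_singleton_iff, forall_eq]
    rw [hcount]
    obtain ⟨h1, h2⟩ := fiber hp A B Z hZ hcomm hBZ a haA
    by_cases hc : a ∈ Subgroup.centralizer (B : Set G)
    · rw [if_pos hc, h1 hc]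
      obtain ⟨q, rfl⟩ : ∃ q, p = q + 1 := ⟨p - 1, by have := hp.one_lt; omega⟩
      simp
      ring
    · rw [if_neg hc, add_zero, ← h2 hc]; ring
  rw [Finset.sum_congr rfl e, Finset.sum_add_distrib, Finset.sum_const, ← Finset.sum_filter,
    Finset.sum_const, Finset.filter_filter]
  have c1 : (Finset.univ.filter (· ∈ A)).card = Nat.card A := by
    rw [Nat.card_eq_fintype_card]
    symm
    apply Fintype.card_of_subtype
    intro x
    simp
  have c2 : (Finset.univ.filter (fun a => a ∈ A ∧ a ∈ Subgroup.centralizer (B : Set G))).card =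
      Nat.card ↥(A ⊓ Subgroup.centralizer (B : Set G)) := by
    rw [Nat.card_eq_fintype_card]
    symm
    apply Fintype.card_of_subtype
    intro x
    simp [Subgroup.mem_inf]
  rw [c1, c2]
  simp only [smul_eq_mul]
  ring


/-- Let A and B be subgroups of a finite p-group with [A, B] ≤ A ∩ B and [A, B] of order at most p. Then |A : C_A(B)| = |B : C_B(A)|. -/
theorem result {G : Type*} [Group G] [Finite G] {p : ℕ} [Fact p.Prime] (hG : IsPGroup p G) (A B : Subgroup G) (hAB : ⁅A, B⁆ ≤ A ⊓ B) (hcard : Nat.card ↥⁅A, B⁆ ≤ p) : (A ⊓ Subgroup.centralizer (B : Set G)).relIndex A = (B ⊓ Subgroup.centralizer (A : Set G)).relIndex B := by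
  classical
  have hp := (Fact.out : p.Prime)
  haveI : Fintype G := Fintype.ofFinite G
  set Z := ⁅A, B⁆ with hZdef
  by_cases hZ : Z = ⊥
  · have hA : A ⊓ Subgroup.centralizer (B : Set G) = A :=
      inf_eq_left.2 (Subgroup.commutator_eq_bot_iff_le_centralizer.1 hZ)
    have hB : B ⊓ Subgroup.centralizer (A : Set G) = B := by
      apply inf_eq_left.2
      rw [hZdef, Subgroup.commutator_comm] at hZ
      exact Subgroup.commutator_eq_bot_iff_le_centralizer.1 hZ
    rw [hA, hB, Subgroup.relIndex_self, Subgroup.relIndex_self]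
  · have hZcard : Nat.card Z = p := by
      obtain ⟨k, hk⟩ := IsPGroup.iff_card.1 (hG.to_subgroup Z)
      have hk0 : k ≠ 0 := by
        rintro rfl
        rw [pow_zero] at hk
        exact hZ (Subgroup.card_eq_one.1 hk)
      have h1 : p ≤ p ^ k := Nat.le_self_pow hk0 p
      omega
    have hAN : A ≤ Subgroup.normalizer (Z : Set G) := h8_le_normalizer_commutator_left A B
    have hBN : B ≤ Subgroup.normalizer (Z : Set G) := h8_le_normalizer_commutator_right A B
    have hNC := h8_normalizer_le_centralizer_of_card_prime hG Z hZcard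
    have hAZ : ∀ a ∈ A, ∀ z ∈ Z, a * z = z * a := fun a ha z hz =>
      ((Subgroup.mem_centralizer_iff.1 (hNC (hAN ha))) z hz).symm
    have hBZ : ∀ b ∈ B, ∀ z ∈ Z, b * z = z * b := fun b hb z hz =>
      ((Subgroup.mem_centralizer_iff.1 (hNC (hBN hb))) z hz).symm
    have hcomm1 : ∀ a ∈ A, ∀ b ∈ B, a * b * a⁻¹ * b⁻¹ ∈ Z := fun a ha b hb =>
      Subgroup.commutator_mem_commutator ha hb
    have hcomm2 : ∀ b ∈ B, ∀ a ∈ A, b * a * b⁻¹ * a⁻¹ ∈ Z := by
      intro b hb a ha
      have h1 := Z.inv_mem (hcomm1 a ha b hb)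
      simpa [mul_assoc] using h1
    have T1 := pT hp A B Z hZcard hcomm1 hBZ
    have T2 := pT hp B A Z hZcard hcomm2 hAZ
    have hsw : (∑ a ∈ Finset.univ.filter (· ∈ A), ∑ b ∈ Finset.univ.filter (· ∈ B),
        (if a * b = b * a then 1 else 0)) =
        ∑ b ∈ Finset.univ.filter (· ∈ B), ∑ a ∈ Finset.univ.filter (· ∈ A),
        (if b * a = a * b then 1 else 0) := by
      rw [Finset.sum_comm]
      refine Finset.sum_congr rfl fun b _ => Finset.sum_congr rfl fun a _ => ?_
      simp only [eq_comm]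
    rw [hsw] at T1
    have h3 : (p - 1) * (Nat.card B * Nat.card ↥(A ⊓ Subgroup.centralizer (B : Set G))) =
        (p - 1) * (Nat.card A * Nat.card ↥(B ⊓ Subgroup.centralizer (A : Set G))) := by
      have h5 : Nat.card A * Nat.card B = Nat.card B * Nat.card A := mul_comm _ _
      omega
    have h4 := Nat.eq_of_mul_eq_mul_left (by have := hp.one_lt; omega : 0 < p - 1) h3
    have r1 := Cfsg.Agent.Lib.Helper7.card_mul_relIndex_of_le
      (inf_le_left : A ⊓ Subgroup.centralizer (B : Set G) ≤ A)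
    have r2 := Cfsg.Agent.Lib.Helper7.card_mul_relIndex_of_le
      (inf_le_left : B ⊓ Subgroup.centralizer (A : Set G) ≤ B)
    have hCA : 0 < Nat.card ↥(A ⊓ Subgroup.centralizer (B : Set G)) := Nat.card_pos
    have hCB : 0 < Nat.card ↥(B ⊓ Subgroup.centralizer (A : Set G)) := Nat.card_pos
    have h6 : (Nat.card ↥(A ⊓ Subgroup.centralizer (B : Set G)) *
          Nat.card ↥(B ⊓ Subgroup.centralizer (A : Set G))) *
          (B ⊓ Subgroup.centralizer (A : Set G)).relIndex B =
        (Nat.card ↥(A ⊓ Subgroup.centralizer (B : Set G)) *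
          Nat.card ↥(B ⊓ Subgroup.centralizer (A : Set G))) *
          (A ⊓ Subgroup.centralizer (B : Set G)).relIndex A := by
      calc _ = (Nat.card ↥(B ⊓ Subgroup.centralizer (A : Set G)) *
            (B ⊓ Subgroup.centralizer (A : Set G)).relIndex B) *
            Nat.card ↥(A ⊓ Subgroup.centralizer (B : Set G)) := by ring
        _ = Nat.card B * Nat.card ↥(A ⊓ Subgroup.centralizer (B : Set G)) := by rw [r2]
        _ = Nat.card A * Nat.card ↥(B ⊓ Subgroup.centralizer (A : Set G)) := h4
        _ = (Nat.card ↥(A ⊓ Subgroup.centralizer (B : Set G)) *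
            (A ⊓ Subgroup.centralizer (B : Set G)).relIndex A) *
            Nat.card ↥(B ⊓ Subgroup.centralizer (A : Set G)) := by rw [r1]
        _ = _ := by ring
    exact (Nat.eq_of_mul_eq_mul_left (Nat.mul_pos hCA hCB) h6).symm

end Cfsg.Agent.S3741
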