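import Mathlib
import Cfsg.Statements.S5344
import Cfsg.Agent.Lib.Helper2.SymCox

set_option autoImplicit false

open Cfsg

namespace Cfsg.Agent.S5344

theorem normal_s4 : ∀ g : Equiv.Perm (Fin 4), g ≠ 1 → ∃ x y : Equiv.Perm (Fin 4),
    x * (g * (y * g * y⁻¹)) * x⁻¹ = Equiv.swap 0 1 * Equiv.swap 2 3 := by
  decide +kernel

theorem comm_of_sq {G : Type*} [Group G] (x y : G) (hx : x * x = 1) (hy : y * y = 1)
    (h : (x * y) ^ 2 = 1) : Commute x y := by
  have hxi : x⁻¹ = x := inv_eq_of_mul_eq_one_left hx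
  have hyi : y⁻¹ = y := inv_eq_of_mul_eq_one_left hy
  have h1 : x * y = (x * y)⁻¹ := by
    rw [eq_inv_iff_mul_eq_one, ← pow_two]; exact h
  rw [mul_inv_rev, hxi, hyi] at h1
  exact h1

/-- In a set of 3-transpositions, let a, b, c be members with a and c different and commuting, while neither a nor c commutes with b (a 3-string). Then there is an injective homomorphism from the symmetric group of degree 4 into the ambient group sending the transpositions (0 1), (1 2), (2 3) to a, b, c; so a, b, c generate a copy of the symmetric group of degree 4 in which they are transpositions. -/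
theorem result {G : Type*} [Group G] {D : Set G} (hD : Cfsg.IsThreeTranspositionSet D) {a b c : G} (ha : a ∈ D) (hb : b ∈ D) (hc : c ∈ D) (hac : a ≠ c) (hac' : Commute a c) (hab : ¬ Commute a b) (hbc : ¬ Commute b c) : ∃ φ : Equiv.Perm (Fin 4) →* G, Function.Injective φ ∧ φ (Equiv.swap 0 1) = a ∧ φ (Equiv.swap 1 2) = b ∧ φ (Equiv.swap 2 3) = c := by
  obtain ⟨hD2, hD3⟩ := hD
  have a2 : a * a = 1 := by
    have h := hD2 a ha; rw [← pow_two, ← h]; exact pow_orderOf_eq_one a
  have b2 : b * b = 1 := by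
    have h := hD2 b hb; rw [← pow_two, ← h]; exact pow_orderOf_eq_one b
  have c2 : c * c = 1 := by
    have h := hD2 c hc; rw [← pow_two, ← h]; exact pow_orderOf_eq_one c
  have ab3 : (a * b) ^ 3 = 1 :=
    (hD3 a ha b hb).resolve_left (fun h => hab (comm_of_sq a b a2 b2 h))
  have ba3 : (b * a) ^ 3 = 1 :=
    (hD3 b hb a ha).resolve_left (fun h => hab (comm_of_sq b a b2 a2 h).symm)
  have bc3 : (b * c) ^ 3 = 1 :=
    (hD3 b hb c hc).resolve_left (fun h => hbc (comm_of_sq b c b2 c2 h))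
  have cb3 : (c * b) ^ 3 = 1 :=
    (hD3 c hc b hb).resolve_left (fun h => hbc (comm_of_sq c b c2 b2 h).symm)
  have ac2 : (a * c) ^ 2 = 1 := by
    rw [pow_two]
    calc a * c * (a * c) = a * c * (c * a) := by rw [hac'.eq]
      _ = a * (c * c) * a := by group
      _ = 1 := by rw [c2, mul_one, a2]
  have ca2 : (c * a) ^ 2 = 1 := by rw [← hac'.eq]; exact ac2
  obtain ⟨cs, hcs⟩ := Cfsg.Agent.Lib.Helper2.SymCox.sym_coxeter 3
  let f : Fin 3 → G := ![a, b, c]
  have hf : (CoxeterMatrix.A 3).IsLiftable f := by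
    intro i j
    fin_cases i <;> fin_cases j
    · show (a * a) ^ 1 = 1
      rw [pow_one]; exact a2
    · show (a * b) ^ 3 = 1
      exact ab3
    · show (a * c) ^ 2 = 1
      exact ac2
    · show (b * a) ^ 3 = 1
      exact ba3
    · show (b * b) ^ 1 = 1
      rw [pow_one]; exact b2
    · show (b * c) ^ 3 = 1
      exact bc3
    · show (c * a) ^ 2 = 1
      exact ca2
    · show (c * b) ^ 3 = 1
      exact cb3
    · show (c * c) ^ 1 = 1
      rw [pow_one]; exact c2
  have h0 : cs.lift ⟨f, hf⟩ (Equiv.swap 0 1) = a := by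
    have h := cs.lift_apply_simple hf 0
    rw [hcs 0] at h; exact h
  have h1 : cs.lift ⟨f, hf⟩ (Equiv.swap 1 2) = b := by
    have h := cs.lift_apply_simple hf 1
    rw [hcs 1] at h; exact h
  have h2 : cs.lift ⟨f, hf⟩ (Equiv.swap 2 3) = c := by
    have h := cs.lift_apply_simple hf 2
    rw [hcs 2] at h; exact h
  refine ⟨cs.lift ⟨f, hf⟩, ?_, h0, h1, h2⟩
  rw [injective_iff_map_eq_one]
  intro g hg
  by_contra hne
  obtain ⟨x, y, e⟩ := normal_s4 g hne
  have h3 : cs.lift ⟨f, hf⟩ (Equiv.swap 0 1 * Equiv.swap 2 3) = 1 := by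
    rw [← e]
    simp only [map_mul, map_inv, hg, mul_one, one_mul, mul_inv_cancel]
  rw [map_mul, h0, h2] at h3
  apply hac
  have hci : c⁻¹ = c := inv_eq_of_mul_eq_one_left c2
  rw [← hci]
  exact eq_inv_of_mul_eq_one_left h3

end Cfsg.Agent.S5344
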