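import Mathlib
import Cfsg.Statements.S3742
import Cfsg.Agent.Lib.Helper2.SymCox
import Cfsg.Agent.S5344

set_option autoImplicit false

open Cfsg

namespace Cfsg.Agent.S3742

/-- Three involutions satisfying the Coxeter relations of type `A₃` give an embedding of `S₄`. -/
theorem s4_hom {G : Type*} [Group G] (a b c : G) (a2 : a * a = 1) (b2 : b * b = 1)
    (c2 : c * c = 1) (ab3 : (a * b) ^ 3 = 1) (bc3 : (b * c) ^ 3 = 1) (ac2 : (a * c) ^ 2 = 1)
    (hac : a ≠ c) :
    ∃ φ : Equiv.Perm (Fin 4) →* G, Function.Injective φ ∧ φ (Equiv.swap 0 1) = a ∧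
      φ (Equiv.swap 1 2) = b ∧ φ (Equiv.swap 2 3) = c := by
  have hai : a⁻¹ = a := inv_eq_of_mul_eq_one_left a2
  have hbi : b⁻¹ = b := inv_eq_of_mul_eq_one_left b2
  have hci : c⁻¹ = c := inv_eq_of_mul_eq_one_left c2
  have ba3 : (b * a) ^ 3 = 1 := by
    rw [show b * a = (a * b)⁻¹ by rw [mul_inv_rev, hai, hbi], inv_pow, ab3, inv_one]
  have cb3 : (c * b) ^ 3 = 1 := by
    rw [show c * b = (b * c)⁻¹ by rw [mul_inv_rev, hbi, hci], inv_pow, bc3, inv_one]
  have ca2 : (c * a) ^ 2 = 1 := by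
    rw [show c * a = (a * c)⁻¹ by rw [mul_inv_rev, hai, hci], inv_pow, ac2, inv_one]
  obtain ⟨cs, hcs⟩ := Cfsg.Agent.Lib.Helper2.SymCox.sym_coxeter 3
  let f : Fin 3 → G := ![a, b, c]
  have hf : (CoxeterMatrix.A 3).IsLiftable f := by
    intro i j
    fin_cases i <;> fin_cases j
    · show (a * a) ^ 1 = 1
      rw [pow_one]; exact a2
    · show (a * b) ^ 3 = 1
      exact ab3
    · show (a * c) ^ 2 = 1
      exact ac2
    · show (b * a) ^ 3 = 1
      exact ba3
    · show (b * b) ^ 1 = 1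
      rw [pow_one]; exact b2
    · show (b * c) ^ 3 = 1
      exact bc3
    · show (c * a) ^ 2 = 1
      exact ca2
    · show (c * b) ^ 3 = 1
      exact cb3
    · show (c * c) ^ 1 = 1
      rw [pow_one]; exact c2
  have h0 : cs.lift ⟨f, hf⟩ (Equiv.swap 0 1) = a := by
    have h := cs.lift_apply_simple hf 0
    rw [hcs 0] at h; exact h
  have h1 : cs.lift ⟨f, hf⟩ (Equiv.swap 1 2) = b := by
    have h := cs.lift_apply_simple hf 1
    rw [hcs 1] at h; exact h
  have h2 : cs.lift ⟨f, hf⟩ (Equiv.swap 2 3) = c := by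
    have h := cs.lift_apply_simple hf 2
    rw [hcs 2] at h; exact h
  refine ⟨cs.lift ⟨f, hf⟩, ?_, h0, h1, h2⟩
  rw [injective_iff_map_eq_one]
  intro g hg
  by_contra hne
  obtain ⟨x, y, e⟩ := Cfsg.Agent.S5344.normal_s4 g hne
  have h3 : cs.lift ⟨f, hf⟩ (Equiv.swap 0 1 * Equiv.swap 2 3) = 1 := by
    rw [← e]
    simp only [map_mul, map_inv, hg, mul_one, one_mul, mul_inv_cancel]
  rw [map_mul, h0, h2] at h3
  apply hac
  rw [← hci]
  exact eq_inv_of_mul_eq_one_left h3

open QuaternionGroup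

/-- The quaternion group of order 8. -/
abbrev Q8 := QuaternionGroup 2

/-- First involutive automorphism. -/
def f0 : Q8 → Q8
  | a k => (![a 0, a 3, a 2, a 1] : Fin 4 → Q8) k
  | xa k => (![xa 1, xa 0, xa 3, xa 2] : Fin 4 → Q8) k

/-- Second involutive automorphism. -/
def f1 : Q8 → Q8
  | a k => (![a 0, xa 0, a 2, xa 2] : Fin 4 → Q8) k
  | xa k => (![a 1, xa 3, a 3, xa 1] : Fin 4 → Q8) k

/-- Third involutive automorphism. -/
def f2 : Q8 → Q8
  | a k => (![a 0, a 3, a 2, a 1] : Fin 4 → Q8) k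
  | xa k => (![xa 3, xa 2, xa 1, xa 0] : Fin 4 → Q8) k

theorem f0_mul : ∀ x y : Q8, f0 (x * y) = f0 x * f0 y := by decide
theorem f1_mul : ∀ x y : Q8, f1 (x * y) = f1 x * f1 y := by decide
theorem f2_mul : ∀ x y : Q8, f2 (x * y) = f2 x * f2 y := by decide
theorem f0_inv : ∀ x : Q8, f0 (f0 x) = x := by decide
theorem f1_inv : ∀ x : Q8, f1 (f1 x) = x := by decide
theorem f2_inv : ∀ x : Q8, f2 (f2 x) = x := by decide
theorem f01 : ∀ x : Q8, f0 (f1 (f0 (f1 (f0 (f1 x))))) = x := by decide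
theorem f12 : ∀ x : Q8, f1 (f2 (f1 (f2 (f1 (f2 x))))) = x := by decide
theorem f02 : ∀ x : Q8, f0 (f2 (f0 (f2 x))) = x := by decide

/-- The automorphisms. -/
def s0 : MulAut Q8 := { toFun := f0, invFun := f0, left_inv := f0_inv, right_inv := f0_inv, map_mul' := f0_mul }
/-- The automorphisms. -/
def s1 : MulAut Q8 := { toFun := f1, invFun := f1, left_inv := f1_inv, right_inv := f1_inv, map_mul' := f1_mul }
/-- The automorphisms. -/
def s2 : MulAut Q8 := { toFun := f2, invFun := f2, left_inv := f2_inv, right_inv := f2_inv, map_mul' := f2_mul }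

theorem s0_sq : s0 * s0 = 1 := by
  ext x; exact f0_inv x
theorem s1_sq : s1 * s1 = 1 := by
  ext x; exact f1_inv x
theorem s2_sq : s2 * s2 = 1 := by
  ext x; exact f2_inv x
theorem s01 : (s0 * s1) ^ 3 = 1 := by
  rw [pow_succ, pow_succ, pow_one]
  ext x; exact f01 x
theorem s12 : (s1 * s2) ^ 3 = 1 := by
  rw [pow_succ, pow_succ, pow_one]
  ext x; exact f12 x
theorem s02 : (s0 * s2) ^ 2 = 1 := by
  rw [pow_succ, pow_one]
  ext x; exact f02 x
theorem s0_ne_s2 : s0 ≠ s2 := by
  intro h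
  have h1 : f0 (xa 0) = f2 (xa 0) := congrArg (fun s : MulAut Q8 => s (xa 0)) h
  revert h1
  decide

/-- The admissible pairs of images of the generators. -/
def pairs : Finset (Q8 × Q8) :=
  Finset.univ.filter fun p => p.1 * p.1 = a 2 ∧ p.2 * p.2 = a 2 ∧ p.2 ≠ p.1 ∧ p.2 ≠ p.1⁻¹

theorem pairs_card : pairs.card = 24 := by decide

theorem invol : ∀ x : Q8, x * x = 1 → x ≠ 1 → x = a 2 := by decide

theorem gen_a : ∀ k : ZMod 4, (a k : Q8) = (a 1) ^ k.val := by decide
theorem gen_xa : ∀ k : ZMod 4, (xa k : Q8) = xa 0 * (a 1) ^ k.val := by decide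

theorem aut_mem (σ : MulAut Q8) : (σ (a 1), σ (xa 0)) ∈ pairs := by
  have h2 : σ (a 2) = a 2 := by
    apply invol
    · rw [← map_mul]
      have : (a 2 : Q8) * a 2 = 1 := by decide
      rw [this, map_one]
    · intro h
      have h' : σ (a 2) = σ 1 := by rw [h, map_one]
      have := σ.injective h'
      revert this
      decide
  simp only [pairs, Finset.mem_filter, Finset.mem_univ, true_and]
  refine ⟨?_, ?_, ?_, ?_⟩
  · rw [← map_mul]
    have : (a 1 : Q8) * a 1 = a 2 := by decide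
    rw [this, h2]
  · rw [← map_mul]
    have : (xa 0 : Q8) * xa 0 = a 2 := by decide
    rw [this, h2]
  · intro h
    have := σ.injective h
    revert this
    decide
  · intro h
    rw [← map_inv] at h
    have := σ.injective h
    revert this
    decide

theorem aut_inj : Function.Injective
    (fun σ : MulAut Q8 => (⟨(σ (a 1), σ (xa 0)), aut_mem σ⟩ : pairs)) := by
  intro σ τ h
  have h1 : σ (a 1) = τ (a 1) := congrArg (fun p : pairs => p.1.1) h
  have h2 : σ (xa 0) = τ (xa 0) := congrArg (fun p : pairs => p.1.2) h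
  ext x
  cases x with
  | a k => rw [gen_a k, map_pow, map_pow, h1]
  | xa k => rw [gen_xa k, map_mul, map_mul, map_pow, map_pow, h1, h2]

/-- The automorphism group of the quaternion group of order 8 is isomorphic to the symmetric group of degree 4. -/
theorem result : Nonempty (MulAut (QuaternionGroup 2) ≃* Equiv.Perm (Fin 4)) := by
  obtain ⟨φ, hφ, -, -, -⟩ := s4_hom s0 s1 s2 s0_sq s1_sq s2_sq s01 s12 s02 s0_ne_s2
  haveI : Finite (MulAut Q8) := Finite.of_injective _ aut_inj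
  have e1 : Nat.card pairs = 24 := by
    rw [Nat.card_eq_fintype_card, Fintype.card_coe, pairs_card]
  have e2 : Nat.card (Equiv.Perm (Fin 4)) = 24 := by
    rw [Nat.card_perm, Nat.card_fin]; rfl
  have hcard : Nat.card (MulAut Q8) ≤ 24 := by
    have h := Nat.card_le_card_of_injective _ aut_inj
    rw [e1] at h
    exact h
  have hbij : Function.Bijective φ :=
    hφ.bijective_of_nat_card_le (by rw [e2]; exact hcard)
  exact ⟨(MulEquiv.ofBijective φ hbij).symm⟩

end Cfsg.Agent.S3742
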