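import Cfsg.Statements.S3744
import Mathlib
import Cfsg.Agent.Lib.Helper8.PCompl

set_option autoImplicit false
open Cfsg
open Cfsg.Agent.Lib.Helper8

namespace Cfsg.Agent.S3744

/-- A finite p-soluble group has a p-complement, all its p-complements are conjugate, and every subgroup of order prime to p lies in one of them. Here a p-complement is a subgroup of order prime to p whose index is a power of p. -/
theorem result {G : Type*} [Group G] [Finite G] {p : ℕ} [Fact p.Prime] (hG : Cfsg.IsPSolvable p G) : (∃ H : Subgroup G, (Nat.card H).Coprime p ∧ ∃ n : ℕ, H.index = p ^ n) ∧ (∀ H₁ H₂ : Subgroup G, (Nat.card H₁).Coprime p → (∃ n : ℕ, H₁.index = p ^ n) → (Nat.card H₂).Coprime p → (∃ n : ℕ, H₂.index = p ^ n) → ∃ g : G, H₂ = H₁.map (MulAut.conj g).toMonoidHom) ∧ (∀ U : Subgroup G, (Nat.card U).Coprime p → ∃ H : Subgroup G, (Nat.card H).Coprime p ∧ (∃ n : ℕ, H.index = p ^ n) ∧ ∃ g : G, U.map (MulAut.conj g).toMonoidHom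 ≤ H) := by
  obtain ⟨hE, hC, hD⟩ := h8_pCompl_aux p (Nat.card G) G rfl hG
  refine ⟨hE, ?_, ?_⟩
  · intro H₁ H₂ c1 i1 c2 i2
    obtain ⟨g, hg⟩ := hC H₁ H₂ ⟨c1, i1⟩ ⟨c2, i2⟩
    exact ⟨g, hg.symm⟩
  · intro U hU
    obtain ⟨H, hH, g, hg⟩ := hD U hU
    exact ⟨H, hH.1, hH.2, g, hg⟩

end Cfsg.Agent.S3744
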