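import Cfsg.Statements.S3746
import Mathlib
import Cfsg.Agent.Lib.Helper1.QS
import Cfsg.Agent.Lib.Helper8.Subnormal

set_option autoImplicit false
open Cfsg
open Cfsg.Agent.Lib.Helper8

namespace Cfsg.Agent.S3746

open scoped commutatorElement


/-- Let Z ≤ Z(G) be a central subgroup of a finite group G and E a subgroup of G containing Z whose image E/Z is a component of G/Z (subnormal and quasisimple). Then the derived subgroup [E, E] is a component of G. -/
theorem result {G : Type*} [Group G] [Finite G] (Z : Subgroup G) (hZ : Z ≤ Subgroup.center G) [Z.Normal] (E : Subgroup G) (hZE : Z ≤ E) (hE : Cfsg.IsComponent (E.map (QuotientGroup.mk' Z))) : Cfsg.IsComponent ⁅E, E⁆ := by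
  classical
  obtain ⟨hEsn, hEperf, hEsimple⟩ := hE
  set π := QuotientGroup.mk' Z with hπ
  have hker : π.ker = Z := QuotientGroup.ker_mk' Z
  set K : Subgroup G := ⁅E, E⁆ with hK
  have hKE : K ≤ E := Cfsg.Agent.Lib.Helper1.commutator_self_le E
  -- E is subnormal
  have hEsub : E.IsSubnormal := by
    have h1 := hEsn.comap π
    rwa [Subgroup.comap_map_eq, hker, sup_eq_left.2 hZE] at h1
  -- K ⊔ Z = E
  have hKZ : K ⊔ Z = E := by
    have h1 : K.map π = E.map π := by
      rw [hK, Subgroup.map_commutator]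
      exact Subgroup.isPerfect_iff.1 hEperf
    have h2 := congrArg (Subgroup.comap π) h1
    rwa [Subgroup.comap_map_eq, Subgroup.comap_map_eq, hker, sup_eq_left.2 hZE] at h2
  -- K is perfect
  have hKperf : ⁅K, K⁆ = K := by
    apply le_antisymm (Cfsg.Agent.Lib.Helper1.commutator_self_le K)
    rw [hK, Subgroup.commutator_le]
    intro g₁ hg₁ g₂ hg₂
    rw [← hKZ] at hg₁ hg₂
    obtain ⟨a, ha, z, hz, rfl⟩ := Subgroup.mem_sup_of_normal_right.mp hg₁
    obtain ⟨b, hb, w, hw, rfl⟩ := Subgroup.mem_sup_of_normal_right.mp hg₂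
    rw [Cfsg.Agent.Lib.Helper1.commutatorElement_mul_central (hZ hz) (hZ hw)]
    exact Subgroup.commutator_mem_commutator ha hb
  have : Group.IsPerfect ↥K := Subgroup.isPerfect_iff.2 hKperf
  -- K normal in E, hence subnormal
  have hEK : E ≤ Subgroup.normalizer (K : Set G) := by
    apply h8_le_normalizer_of_map_conj_le
    intro e he
    rw [hK, Subgroup.map_commutator,
      h8_map_conj_eq_of_mem_normalizer (Subgroup.le_normalizer he)]
  have hKsub : K.IsSubnormal :=
    Subgroup.IsSubnormal.step K E hKE hEsub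
      ((Subgroup.normal_subgroupOf_iff_le_normalizer hKE).2 hEK)
  refine ⟨hKsub, ?_⟩
  -- the map K → Ē / Z(Ē)
  let ρ : ↥E →* ↥(E.map π) := π.subgroupMap E
  let ι : ↥K →* ↥E := Subgroup.inclusion hKE
  let q : ↥(E.map π) →* ↥(E.map π) ⧸ Subgroup.center ↥(E.map π) := QuotientGroup.mk' _
  let φ : ↥K →* ↥(E.map π) ⧸ Subgroup.center ↥(E.map π) := q.comp (ρ.comp ι)
  have hφs : Function.Surjective φ := by
    intro y
    obtain ⟨y', rfl⟩ := QuotientGroup.mk'_surjective _ y
    obtain ⟨e, he, hy⟩ := y'.2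
    rw [← hKZ] at he
    obtain ⟨k, hk, z, hz, rfl⟩ := Subgroup.mem_sup_of_normal_right.mp he
    refine ⟨⟨k, hk⟩, ?_⟩
    show q (ρ (ι ⟨k, hk⟩)) = q y'
    congr 1
    apply Subtype.ext
    rw [← hy]
    show π k = π (k * z)
    rw [map_mul]
    have : π z = 1 := by
      rw [← MonoidHom.mem_ker, hker]; exact hz
    rw [this, mul_one]
  apply Cfsg.Agent.Lib.Helper1.isQuasisimple_of_surjective hEsimple φ hφs
  intro x hx
  rw [MonoidHom.mem_ker] at hx
  have hx1 : ρ (ι x) ∈ Subgroup.center ↥(E.map π) := (QuotientGroup.eq_one_iff _).1 hx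
  have hcomm : ∀ e ∈ E, π e * π (x : G) = π (x : G) * π e := by
    intro e he
    have h1 := Subgroup.mem_center_iff.1 hx1 ⟨π e, Subgroup.mem_map_of_mem π he⟩
    exact congrArg Subtype.val h1
  have hzmem : ∀ a ∈ E, a⁻¹ * ((x : G) * a * (x : G)⁻¹) ∈ Z := by
    intro a ha
    rw [← hker, MonoidHom.mem_ker]
    simp only [map_mul, map_inv]
    rw [← hcomm a ha]
    group
  have hcent : K ≤ Subgroup.centralizer {(x : G)} := by
    show ⁅E, E⁆ ≤ Subgroup.centralizer {(x : G)}
    rw [Subgroup.commutator_le]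
    intro a ha b hb
    rw [Subgroup.mem_centralizer_iff]
    intro y hy
    rw [Set.mem_singleton_iff] at hy
    subst hy
    have h1 : (x : G) * ⁅a, b⁆ * (x : G)⁻¹ = ⁅a * (a⁻¹ * ((x : G) * a * (x : G)⁻¹)), b * (b⁻¹ * ((x : G) * b * (x : G)⁻¹))⁆ := by
      rw [commutatorElement_def, commutatorElement_def]
      group
    rw [Cfsg.Agent.Lib.Helper1.commutatorElement_mul_central (hZ (hzmem a ha)) (hZ (hzmem b hb))] at h1
    calc (x : G) * ⁅a, b⁆ = ((x : G) * ⁅a, b⁆ * (x : G)⁻¹) * (x : G) := by group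
      _ = ⁅a, b⁆ * (x : G) := by rw [h1]
  refine Subgroup.mem_center_iff.2 ?_
  intro g
  apply Subtype.ext
  have h1 := Subgroup.mem_centralizer_iff.1 (hcent g.2) (x : G) (Set.mem_singleton _)
  exact h1.symm

end Cfsg.Agent.S3746
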