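import Mathlib
import Cfsg.Statements.S3747
import Cfsg.Agent.Lib.Helper1.GenFit2

set_option autoImplicit false
open Cfsg

namespace Cfsg.Agent.S3747

open Cfsg.Agent.Lib.Helper1

universe u

theorem partA {G : Type u} [Group G] [Finite G] (K : Subgroup G) (hK : IsComponent K)
    (hZ : Subgroup.center ↥K = ⊥) :
    Subgroup.normalClosure (K : Set G) ≠ ⊥ ∧ ∀ N : Subgroup G, N.Normal →
      N ≤ Subgroup.normalClosure (K : Set G) →
        N = ⊥ ∨ N = Subgroup.normalClosure (K : Set G) := by
  constructor
  · intro h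
    apply IsComponent.ne_bot hK
    rw [eq_bot_iff, ← h]
    exact Subgroup.le_normalClosure
  intro M hMn hMN
  rcases IsComponent.le_or_commutator_eq_bot hK hMn.isSubnormal with h | h
  · right
    haveI := hMn
    exact le_antisymm hMN (Subgroup.normalClosure_le_normal (SetLike.coe_subset_coe.mpr h))
  · left
    have hcompS : ∀ L ∈ {L : Subgroup G | ∃ g : G, L = K.map (MulAut.conj g).toMonoidHom},
        IsComponent L := by
      rintro L ⟨g, rfl⟩
      exact IsComponent.map_equiv (MulAut.conj g) hK
    have hNS : Subgroup.normalClosure (K : Set G) ≤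
        sSup {L : Subgroup G | ∃ g : G, L = K.map (MulAut.conj g).toMonoidHom} := by
      unfold Subgroup.normalClosure
      rw [Subgroup.closure_le]
      intro a ha
      obtain ⟨x, hx, hxa⟩ := Group.mem_conjugatesOfSet_iff.mp ha
      obtain ⟨c, hc⟩ := isConj_iff.mp hxa
      rw [← hc]
      exact (le_sSup (show K.map (MulAut.conj c).toMonoidHom ∈
        {L : Subgroup G | ∃ g : G, L = K.map (MulAut.conj g).toMonoidHom} from ⟨c, rfl⟩))
        ⟨x, hx, rfl⟩
    have hcommK : ∀ k ∈ K, ∀ m ∈ M, k * m = m * k := by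
      intro k hk m hm
      have h1 := Subgroup.commutator_eq_bot_iff_le_centralizer.mp h hk
      exact (Subgroup.mem_centralizer_iff.mp h1 m hm).symm
    rw [eq_bot_iff]
    intro z hz
    have hzS : z ∈ sSup {L : Subgroup G | ∃ g : G, L = K.map (MulAut.conj g).toMonoidHom} :=
      hNS (hMN hz)
    have hzc : ∀ L ∈ {L : Subgroup G | ∃ g : G, L = K.map (MulAut.conj g).toMonoidHom},
        ∀ l ∈ L, l * z = z * l := by
      rintro L ⟨g, rfl⟩ _ ⟨k, hk, rfl⟩
      show g * k * g⁻¹ * z = z * (g * k * g⁻¹)
      have h1 := hcommK k hk (g⁻¹ * z * g) (by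
        have h0 := hMn.conj_mem z hz g⁻¹
        simpa using h0)
      calc g * k * g⁻¹ * z = g * (k * (g⁻¹ * z * g)) * g⁻¹ := by group
        _ = g * ((g⁻¹ * z * g) * k) * g⁻¹ := by rw [h1]
        _ = z * (g * k * g⁻¹) := by group
    have h2 := central_product_center
      (Set.toFinite {L : Subgroup G | ∃ g : G, L = K.map (MulAut.conj g).toMonoidHom})
      (fun K₁ hK₁ L hL hne =>
        IsComponent.commutator_eq_bot_of_ne (hcompS K₁ hK₁) (hcompS L hL) hne) hzS hzc
    have h3 : (⨆ L ∈ {L : Subgroup G | ∃ g : G, L = K.map (MulAut.conj g).toMonoidHom},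
        (Subgroup.center ↥L).map L.subtype) = ⊥ := by
      rw [eq_bot_iff]
      refine iSup₂_le ?_
      rintro L ⟨g, rfl⟩
      rintro _ ⟨t, hc, rfl⟩
      obtain ⟨k, hk, hkt⟩ := t.2
      have hkt' : g * k * g⁻¹ = (t : G) := hkt
      have hkc : (⟨k, hk⟩ : ↥K) ∈ Subgroup.center ↥K := by
        rw [Subgroup.mem_center_iff]
        intro k'
        have h4 := Subgroup.mem_center_iff.mp hc ⟨g * (k' : G) * g⁻¹, ⟨k', k'.2, rfl⟩⟩
        have h5 : g * (k' : G) * g⁻¹ * (t : G) = (t : G) * (g * (k' : G) * g⁻¹) :=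
          congrArg Subtype.val h4
        rw [← hkt'] at h5
        apply Subtype.ext
        show (k' : G) * k = k * (k' : G)
        calc (k' : G) * k = g⁻¹ * (g * (k' : G) * g⁻¹ * (g * k * g⁻¹)) * g := by group
          _ = g⁻¹ * (g * k * g⁻¹ * (g * (k' : G) * g⁻¹)) * g := by rw [h5]
          _ = k * (k' : G) := by group
      rw [hZ, Subgroup.mem_bot] at hkc
      have hk1 : k = 1 := congrArg Subtype.val hkc
      rw [Subgroup.mem_bot]
      show (t : G) = 1
      rw [← hkt', hk1]; group
    rw [h3] at h2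
    exact h2

/-- Let G be a finite group. (a) If K is a component of G with trivial centre, then the normal closure of K in G is a minimal normal subgroup of G. (b) If the Fitting subgroup of G is trivial, then the layer E(G) is generated by the minimal normal subgroups of G. -/
theorem result {G : Type*} [Group G] [Finite G] : (∀ K : Subgroup G, Cfsg.IsComponent K → Subgroup.center ↥K = ⊥ → (Subgroup.normalClosure (K : Set G) ≠ ⊥ ∧ ∀ N : Subgroup G, N.Normal → N ≤ Subgroup.normalClosure (K : Set G) → N = ⊥ ∨ N = Subgroup.normalClosure (K : Set G))) ∧ (Cfsg.fittingSubgroup G = ⊥ → sSup {N : Subgroup G | N ≠ ⊥ ∧ N.Normal ∧ ∀ N' : Subgroup G, N'.Normal → N' ≤ N → N' = ⊥ ∨ N' = N} = Cfsg.layer G) := by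
  refine ⟨fun K hK hZ => partA K hK hZ, fun hF => ?_⟩
  apply le_antisymm
  · apply sSup_le
    rintro N ⟨hN1, hNn, hNmin⟩
    haveI := hNn
    haveI hLn : (layer G).Normal := layer_normal G
    rcases hNmin (N ⊓ layer G) inferInstance inf_le_left with h | h
    · exfalso
      have h1 : ⁅N, layer G⁆ = ⊥ := by
        rw [eq_bot_iff, ← h]
        exact Subgroup.commutator_le_inf N (layer G)
      have h2 : N ≤ Subgroup.centralizer (layer G : Set G) :=
        Subgroup.commutator_eq_bot_iff_le_centralizer.mp h1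
      have h3 : generalizedFittingSubgroup G = layer G := by
        unfold generalizedFittingSubgroup; rw [hF, sup_bot_eq]
      have h4 := centralizer_genFitting_le G
      rw [h3] at h4
      apply hN1
      rw [eq_bot_iff, ← h]
      exact le_inf le_rfl (h2.trans h4)
    · exact h.symm.le.trans inf_le_right
  · apply sSup_le
    intro K hK
    have hK' : IsComponent K := hK
    have hZ : Subgroup.center ↥K = ⊥ := by
      have h1 := center_component_le_fitting hK'
      rw [hF, le_bot_iff] at h1
      exact (Subgroup.map_eq_bot_iff_of_injective _ K.subtype_injective).mp h1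
    obtain ⟨h1, h2⟩ := partA K hK' hZ
    exact Subgroup.le_normalClosure.trans (le_sSup ⟨h1, Subgroup.normalClosure_normal, h2⟩)

end Cfsg.Agent.S3747
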