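import Cfsg.Statements.S3748
import Cfsg.Agent.Lib.Helper8.Subnormal
import Cfsg.Agent.Lib.Helper7.PCore

set_option autoImplicit false
open Cfsg
open Cfsg.Agent.Lib.Helper8

namespace Cfsg.Agent.S3748

/-- Call a proper subgroup M of G primitive when M = N_G(N) for every non-trivial normal subgroup N of M. If M is a primitive subgroup of the finite group G, then no non-trivial subnormal subgroup of G is contained in M; in particular M ∩ F(G) = 1. -/
theorem result {G : Type*} [Group G] [Finite G] (M : Subgroup G) (hM : M ≠ ⊤) (hprim : ∀ N : Subgroup G, N ≤ M → M ≤ Subgroup.normalizer (N : Set G) → N ≠ ⊥ → Subgroup.normalizer (N : Set G) = M) : (∀ L : Subgroup G, L.IsSubnormal → L ≤ M → L = ⊥) ∧ M ⊓ Cfsg.fittingSubgroup G = ⊥ := by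
  obtain ⟨S, hS, hSM, hMS, hmax, htop⟩ := h8_exists_max_subnormal M
  have hSbot : S = ⊥ := by
    by_contra hne
    have h1 := hprim S hSM hMS hne
    have h2 := htop h1.le
    rw [h2] at hSM
    exact hM (top_le_iff.1 hSM)
  have part1 : ∀ L : Subgroup G, L.IsSubnormal → L ≤ M → L = ⊥ := by
    intro L hL hLM
    have := hmax L hL hLM
    rw [hSbot] at this
    exact le_bot_iff.1 this
  refine ⟨part1, ?_⟩
  apply part1 _ ?_ inf_le_left
  have hFn : (Cfsg.fittingSubgroup G).Normal := Cfsg.Agent.Lib.Helper7.fitting_normal G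
  have : Group.IsNilpotent (Cfsg.fittingSubgroup G) := Cfsg.Agent.Lib.Helper7.fitting_isNilpotent G
  exact Subgroup.IsSubnormal.trans inf_le_right (h8_isSubnormal_of_isNilpotent _) hFn.isSubnormal

end Cfsg.Agent.S3748
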