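import Cfsg.Statements.S3749
import Mathlib
import Cfsg.Agent.Lib.Helper7.PCore
import Cfsg.Agent.Lib.Helper8.CoprimeSylow

set_option autoImplicit false
open Cfsg
open Cfsg.Agent.Lib.Helper8

namespace Cfsg.Agent.S3749

/-- Call a proper subgroup M of G primitive when M = N_G(N) for every non-trivial normal subgroup N of M. Let M be a primitive subgroup of the finite group G, p a prime with O_p(M) ≠ 1, and N a normal subgroup of G with M ∩ N = 1. Then p does not divide the order of N; for every prime q there is exactly one Sylow q-subgroup of N normalized by M; and if the order of N has at least two prime divisors then M is not a maximal subgroup of G. -/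
theorem result {G : Type*} [Group G] [Finite G] (M : Subgroup G) (hM : M ≠ ⊤) (hprim : ∀ N : Subgroup G, N ≤ M → M ≤ Subgroup.normalizer (N : Set G) → N ≠ ⊥ → Subgroup.normalizer (N : Set G) = M) {p : ℕ} [Fact p.Prime] (hOp : Cfsg.pCore p ↥M ≠ ⊥) (N : Subgroup G) [N.Normal] (hMN : M ⊓ N = ⊥) : ¬ p ∣ Nat.card N ∧ (∀ q : ℕ, [Fact q.Prime] → ∃! Q : Sylow q ↥N, M ≤ Subgroup.normalizer ((Q : Subgroup ↥N).map N.subtype : Set G)) ∧ ((∃ q r : ℕ, q.Prime ∧ r.Prime ∧ q ≠ r ∧ q ∣ Nat.card N ∧ r ∣ Nat.card N) → ¬ IsCoatom M) := by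
  classical
  have hp := (Fact.out : p.Prime)
  set P : Subgroup G := (Cfsg.pCore p ↥M).map M.subtype with hPdef
  have hPp : IsPGroup p P := (Cfsg.Agent.Lib.Helper7.pCore_isPGroup p ↥M).map _
  have hPne : P ≠ ⊥ := by
    intro h
    exact hOp ((Subgroup.map_eq_bot_iff_of_injective _ M.subtype_injective).1 h)
  have hPM : P ≤ M := Subgroup.map_subtype_le _
  have hMP : M ≤ Subgroup.normalizer (P : Set G) := by
    have hn : (Cfsg.pCore p ↥M).Normal := Cfsg.Agent.Lib.Helper7.pCore_normal p ↥M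
    have h1 := Subgroup.le_normalizer_map (H := Cfsg.pCore p ↥M) M.subtype
    rw [Subgroup.normalizer_eq_top_iff.2 hn, ← MonoidHom.range_eq_map, Subgroup.range_subtype] at h1
    exact h1
  have hNP : Subgroup.normalizer (P : Set G) = M := hprim P hPM hMP hPne
  have hCN : N ⊓ Subgroup.centralizer (P : Set G) = ⊥ := by
    rw [eq_bot_iff, ← hMN]
    refine le_inf ?_ inf_le_left
    rw [← hNP]
    exact inf_le_right.trans (Subgroup.centralizer_le_normalizer _)
  have hPN : P ≤ Subgroup.normalizer (N : Set G) := by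
    rw [Subgroup.normalizer_eq_top_iff.2 inferInstance]; exact le_top
  have hpN : ¬ p ∣ Nat.card N := fun h => h8_inf_centralizer_ne_bot_of_dvd hPp hPN h hCN
  have hcop : (Nat.card N).Coprime p := ((Nat.Prime.coprime_iff_not_dvd hp).2 hpN).symm
  have key : ∀ q : ℕ, [Fact q.Prime] → ∃ Q : Sylow q ↥N,
      M ≤ Subgroup.normalizer (((Q : Subgroup ↥N).map N.subtype : Subgroup G) : Set G) ∧
      ∀ Q' : Sylow q ↥N,
        P ≤ Subgroup.normalizer (((Q' : Subgroup ↥N).map N.subtype : Subgroup G) : Set G) →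
        Q' = Q := by
    intro q _
    obtain ⟨Q, hQ⟩ := h8_exists_invariant_sylow N hcop P hPp q
    have huniq : ∀ Q' : Sylow q ↥N,
        P ≤ Subgroup.normalizer (((Q' : Subgroup ↥N).map N.subtype : Subgroup G) : Set G) →
        Q' = Q := by
      intro Q' hQ'
      obtain ⟨c, hc, hcQ⟩ := h8_invariant_sylow_conj N hcop P hPp q Q Q' hQ hQ'
      rw [hCN, Subgroup.mem_bot] at hc
      subst hc
      rw [h8_map_conj_one] at hcQ
      exact Sylow.ext (Subgroup.map_injective N.subtype_injective hcQ)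
    refine ⟨Q, ?_, huniq⟩
    apply h8_le_normalizer_of_map_conj_le
    intro m hm
    have h1 := h8_sylow_conjNormal_map N m Q
    have h2 : P ≤ Subgroup.normalizer (((((MulAut.conjNormal m : MulAut ↥N) • Q : Sylow q ↥N) :
        Subgroup ↥N).map N.subtype : Subgroup G) : Set G) := by
      rw [h1]
      exact h8_normalizer_map_conj (hMP hm) hQ
    have h3 := huniq _ h2
    rw [h3] at h1
    exact h1.ge
  refine ⟨hpN, ?_, ?_⟩
  · intro q _
    obtain ⟨Q, hQ, huniq⟩ := key q
    exact ⟨Q, hQ, fun Q' hQ' => huniq Q' (hPM.trans hQ')⟩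
  · rintro ⟨q, r, hq, hr, hqr, hqN, hrN⟩ hcoatom
    haveI := Fact.mk hq
    obtain ⟨Q, hQ, -⟩ := key q
    set A : Subgroup G := (Q : Subgroup ↥N).map N.subtype with hA
    have hAN : A ≤ N := Subgroup.map_subtype_le _
    have hAq : IsPGroup q A := Q.isPGroup'.map _
    have hAne : A ≠ ⊥ := by
      intro h
      have h1 : (Q : Subgroup ↥N) = ⊥ :=
        (Subgroup.map_eq_bot_iff_of_injective _ N.subtype_injective).1 h
      exact Q.ne_bot_of_dvd_card hqN h1
    have hlt : M < M ⊔ A := by
      refine lt_of_le_of_ne le_sup_left ?_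
      intro heq
      have h1 : A ≤ M := by rw [heq]; exact le_sup_right
      have h2 : A ≤ M ⊓ N := le_inf h1 hAN
      rw [hMN] at h2
      exact hAne (le_bot_iff.1 h2)
    have htop := hcoatom.2 _ hlt
    have hNA : N ≤ A := by
      intro x hx
      have hx' : x ∈ A ⊔ M := by rw [sup_comm, htop]; exact Subgroup.mem_top x
      obtain ⟨a, ha, b, hb, rfl⟩ := h8_mem_sup_of_le_normalizer hQ hx'
      have hbN : b ∈ N := by
        have h1 : b = a⁻¹ * (a * b) := by group
        rw [h1]; exact N.mul_mem (N.inv_mem (hAN ha)) hx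
      have h2 : b ∈ M ⊓ N := Subgroup.mem_inf.2 ⟨hb, hbN⟩
      rw [hMN, Subgroup.mem_bot] at h2
      rw [h2, mul_one]; exact ha
    have hNeq : N = A := le_antisymm hNA hAN
    have hcard : Nat.card N = Nat.card A := congrArg (fun H : Subgroup G => Nat.card H) hNeq
    obtain ⟨k, hk⟩ := IsPGroup.iff_card.1 hAq
    rw [hcard, hk] at hrN
    have h3 := (Nat.prime_dvd_prime_iff_eq hr hq).1 (hr.dvd_of_dvd_pow hrN)
    exact hqr h3.symm

end Cfsg.Agent.S3749
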