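import Cfsg.Statements.S3766
import Cfsg.Agent.Lib.Helper1.GenFit

set_option autoImplicit false
open Cfsg

namespace Cfsg.Agent.S3766

open Cfsg.Agent.Lib.Helper7 Cfsg.Agent.Lib.Helper1

/-- Three subgroups lemma modulo a normal subgroup. -/
theorem cfc_three {G : Type*} [Group G] (K : Subgroup G) [K.Normal] (X Y Z : Subgroup G)
    (h1 : ⁅⁅Y, Z⁆, X⁆ ≤ K) (h2 : ⁅⁅Z, X⁆, Y⁆ ≤ K) : ⁅⁅X, Y⁆, Z⁆ ≤ K := by
  have key : ∀ H : Subgroup G, H ≤ K ↔ H.map (QuotientGroup.mk' K) = ⊥ := by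
    intro H
    rw [Subgroup.map_eq_bot_iff, QuotientGroup.ker_mk']
  rw [key] at h1 h2 ⊢
  rw [Subgroup.map_commutator, Subgroup.map_commutator] at h1 h2 ⊢
  exact Subgroup.commutator_commutator_eq_bot_of_rotate h1 h2

/-- Iterated commutator `⁅⁅⋯⁅X, D⁆, D⁆⋯, D⁆`. -/
def cfcIt {G : Type*} [Group G] (D : Subgroup G) (X : Subgroup G) : ℕ → Subgroup G
  | 0 => X
  | (k+1) => ⁅cfcIt D X k, D⁆

theorem cfcIt_normal {G : Type*} [Group G] (D X : Subgroup G) (hD : D.Normal) (hX : X.Normal) :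
    ∀ k, (cfcIt D X k).Normal := by
  intro k
  induction k with
  | zero => exact hX
  | succ k ih =>
    show (⁅cfcIt D X k, D⁆ : Subgroup G).Normal
    infer_instance

theorem cfcIt_mono {G : Type*} [Group G] (D : Subgroup G) {X Y : Subgroup G} (h : X ≤ Y) :
    ∀ k, cfcIt D X k ≤ cfcIt D Y k := by
  intro k
  induction k with
  | zero => exact h
  | succ k ih => exact Subgroup.commutator_mono ih le_rfl

theorem cfcIt_succ' {G : Type*} [Group G] (D X : Subgroup G) :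
    ∀ k, cfcIt D X (k+1) = cfcIt D ⁅X, D⁆ k := by
  intro k
  induction k with
  | zero => rfl
  | succ k ih =>
    show (⁅cfcIt D X (k+1), D⁆ : Subgroup G) = ⁅cfcIt D ⁅X, D⁆ k, D⁆
    rw [ih]

theorem cfcIt_le {G : Type*} [Group G] (D X : Subgroup G) (hD : D.Normal) (hX : X.Normal) :
    ∀ k, cfcIt D X k ≤ X := by
  intro k
  induction k with
  | zero => exact le_rfl
  | succ k ih =>
    have hn := cfcIt_normal D X hD hX k
    exact (Subgroup.commutator_le_left (cfcIt D X k) D).trans ih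

theorem cfcIt_bot {G : Type*} [Group G] (D X : Subgroup G) {k : ℕ} (hk : cfcIt D X k = ⊥) :
    ∀ m, k ≤ m → cfcIt D X m = ⊥ := by
  intro m hm
  induction m, hm using Nat.le_induction with
  | base => exact hk
  | succ m _ ih =>
    show (⁅cfcIt D X m, D⁆ : Subgroup G) = ⊥
    rw [ih, Subgroup.commutator_bot_left]

theorem cfcIt_self {G : Type*} [Group G] (D : Subgroup G) :
    ∀ k, cfcIt D D k = D.lowerCentralSeries k := by
  intro k
  induction k with
  | zero => rfl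
  | succ k ih =>
    show (⁅cfcIt D D k, D⁆ : Subgroup G) = ⁅D.lowerCentralSeries k, D⁆
    rw [ih]

/-- Elements centralizing `X` modulo the normal subgroup `V`. -/
def cfcCent {G : Type*} [Group G] (V : Subgroup G) [V.Normal] (X : Subgroup G) : Subgroup G :=
  (Subgroup.centralizer ((X.map (QuotientGroup.mk' V) : Subgroup (G ⧸ V)) : Set (G ⧸ V))).comap
    (QuotientGroup.mk' V)

theorem cfc_mem_cent {G : Type*} [Group G] (V : Subgroup G) [V.Normal] (X : Subgroup G) (u : G) :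
    u ∈ cfcCent V X ↔ ∀ x ∈ X, u * x * u⁻¹ * x⁻¹ ∈ V := by
  unfold cfcCent
  rw [Subgroup.mem_comap, Subgroup.mem_centralizer_iff]
  constructor
  · intro h x hx
    have h1 := h (QuotientGroup.mk' V x) (Subgroup.mem_map_of_mem _ hx)
    rw [← QuotientGroup.eq_one_iff]
    have h2 : ((u * x * u⁻¹ * x⁻¹ : G) : G ⧸ V) = (QuotientGroup.mk' V u) * (QuotientGroup.mk' V x)
        * (QuotientGroup.mk' V u)⁻¹ * (QuotientGroup.mk' V x)⁻¹ := rfl
    rw [h2, ← h1]
    group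
  · intro h y hy
    obtain ⟨x, hx, rfl⟩ := Subgroup.mem_map.mp hy
    have h1 := h x hx
    rw [← QuotientGroup.eq_one_iff] at h1
    have h2 : ((u * x * u⁻¹ * x⁻¹ : G) : G ⧸ V) = (QuotientGroup.mk' V u) * (QuotientGroup.mk' V x)
        * (QuotientGroup.mk' V u)⁻¹ * (QuotientGroup.mk' V x)⁻¹ := rfl
    rw [h2] at h1
    have h3 := mul_inv_eq_one.mp h1
    have h4 := mul_inv_eq_iff_eq_mul.mp h3
    exact h4.symm

/-- A nilpotent normal subgroup centralizes every chief factor. -/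
theorem cfc_nilp {G : Type*} [Group G] (F : Subgroup G) (hFn : F.Normal)
    (hF : Group.IsNilpotent ↥F)
    (U V : Subgroup G) (hU : U.Normal) (hV : V.Normal) (hVU : V < U)
    (hch : ∀ W : Subgroup G, W.Normal → V ≤ W → W ≤ U → W = V ∨ W = U) :
    ⁅U, F⁆ ≤ V := by
  classical
  obtain ⟨n, hn⟩ := (Subgroup.isNilpotent_iff_lowerCentralSeries F).mp hF
  have hn' : cfcIt F F n = ⊥ := by rw [cfcIt_self]; exact hn
  have hle : ∀ k, cfcIt F U (k+1) ≤ cfcIt F F k := by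
    intro k
    induction k with
    | zero => exact Subgroup.commutator_le_right U F
    | succ k ih => exact Subgroup.commutator_mono ih le_rfl
  have hbot : cfcIt F U (n+1) = ⊥ := le_bot_iff.mp (hn' ▸ hle n)
  have hex : ∃ k, V ⊔ cfcIt F U k = U ∧ V ⊔ cfcIt F U (k+1) ≠ U := by
    by_contra hcon
    push Not at hcon
    have hall : ∀ k, V ⊔ cfcIt F U k = U := by
      intro k
      induction k with
      | zero => exact sup_eq_right.mpr hVU.le
      | succ k ih => exact hcon k ih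
    have h1 := hall (n+1)
    rw [hbot, sup_bot_eq] at h1
    exact hVU.ne h1
  obtain ⟨k, hk1, hk2⟩ := hex
  have hkn : (cfcIt F U (k+1)).Normal := cfcIt_normal F U hFn hU (k+1)
  have hsn : (V ⊔ cfcIt F U (k+1)).Normal := inferInstance
  have hkU : cfcIt F U (k+1) ≤ U := cfcIt_le F U hFn hU (k+1)
  have hkV : cfcIt F U (k+1) ≤ V := by
    rcases hch _ hsn le_sup_left (sup_le hVU.le hkU) with h | h
    · rw [← h]; exact le_sup_right
    · exact absurd h hk2
  rw [Subgroup.commutator_le]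
  intro u hu f hf
  have hsub : V ⊔ cfcIt F U k ≤ cfcCent V F := by
    refine sup_le ?_ ?_
    · intro v hv
      rw [cfc_mem_cent]
      intro x _
      have h1 : x * v⁻¹ * x⁻¹ ∈ V := hV.conj_mem _ (V.inv_mem hv) x
      have h2 := V.mul_mem hv h1
      have e : v * x * v⁻¹ * x⁻¹ = v * (x * v⁻¹ * x⁻¹) := by group
      rw [e]; exact h2
    · intro w hw
      rw [cfc_mem_cent]
      intro x hx
      exact hkV (Subgroup.commutator_mem_commutator hw hx)
  rw [hk1] at hsub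
  exact (cfc_mem_cent V F u).mp (hsub hu) f hf

/-- `C_N(F(N)) ≤ F(N)` for solvable `N`, in subgroup form. -/
theorem cfc_cent_le {G : Type*} [Group G] [Finite G] (hG : Group.IsSolvable G) (N : Subgroup G)
    (X : Subgroup G) (hXN : X ≤ N)
    (hX : ⁅(Cfsg.fittingSubgroup ↥N).map N.subtype, X⁆ = ⊥) :
    X ≤ (Cfsg.fittingSubgroup ↥N).map N.subtype := by
  intro x hx
  have hxN : x ∈ N := hXN hx
  have h1 : (⟨x, hxN⟩ : ↥N) ∈ Subgroup.centralizer (Cfsg.fittingSubgroup ↥N : Set ↥N) := by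
    rw [Subgroup.mem_centralizer_iff]
    intro f hf
    apply Subtype.ext
    show (f : G) * x = x * (f : G)
    have hfF : (f : G) ∈ (Cfsg.fittingSubgroup ↥N).map N.subtype :=
      Subgroup.mem_map.mpr ⟨f, hf, rfl⟩
    have h2 : (f : G) * x * (f : G)⁻¹ * x⁻¹ ∈ ⁅(Cfsg.fittingSubgroup ↥N).map N.subtype, X⁆ :=
      Subgroup.commutator_mem_commutator hfF hx
    rw [hX, Subgroup.mem_bot] at h2
    have h3 := mul_inv_eq_one.mp h2
    exact mul_inv_eq_iff_eq_mul.mp h3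
  have h2 := le_center_fitting_of_solvable (G := ↥N)
    (Subgroup.centralizer (Cfsg.fittingSubgroup ↥N : Set ↥N)) le_rfl Subgroup.le_normalizer
    inferInstance
  have h3 := h2 h1
  obtain ⟨z, _, hzx⟩ := Subgroup.mem_map.mp h3
  refine Subgroup.mem_map.mpr ⟨⟨x, hxN⟩, ?_, rfl⟩
  rw [← hzx]; exact z.2

/-- A normal subgroup `D ≤ N` centralizing every chief factor below `F(N)` lies in `F(N)`. -/
theorem cfc_main {G : Type*} [Group G] [Finite G] (hG : Group.IsSolvable G) (N : Subgroup G)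
    [N.Normal] (D : Subgroup G) (hDn : D.Normal) (hDN : D ≤ N)
    (hD : ∀ U V : Subgroup G, U.Normal → V.Normal → V < U →
      (∀ W : Subgroup G, W.Normal → V ≤ W → W ≤ U → W = V ∨ W = U) →
      U ≤ (Cfsg.fittingSubgroup ↥N).map N.subtype → ⁅U, D⁆ ≤ V) :
    D ≤ (Cfsg.fittingSubgroup ↥N).map N.subtype := by
  classical
  have hcent := cfc_cent_le hG N
  obtain ⟨F, hFdef⟩ : ∃ F, (Cfsg.fittingSubgroup ↥N).map N.subtype = F := ⟨_, rfl⟩
  rw [hFdef] at hD hcent ⊢
  have hFn : F.Normal := by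
    rw [← hFdef]; exact normal_map_subtype_of_characteristic inferInstance _
  -- step 1: D acts nilpotently on F
  have step1 : ∀ m : ℕ, ∀ T : Subgroup G, T.Normal → T ≤ F → Nat.card T ≤ m →
      ∃ k : ℕ, cfcIt D T k = ⊥ := by
    intro m
    induction m with
    | zero =>
      intro T _ _ hc
      have := Nat.card_pos (α := T)
      omega
    | succ m ih =>
      intro T hT hTF hc
      by_cases hbot : T = ⊥
      · exact ⟨0, hbot⟩
      have hne : Nonempty {W : Subgroup G // W.Normal ∧ W < T} :=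
        ⟨⟨⊥, Subgroup.normal_bot, bot_lt_iff_ne_bot.mpr hbot⟩⟩
      obtain ⟨⟨W₀, hW₀n, hW₀T⟩, hmax⟩ :=
        Finite.exists_max (fun W : {W : Subgroup G // W.Normal ∧ W < T} => Nat.card W.1)
      have hTW : ⁅T, D⁆ ≤ W₀ := by
        refine hD T W₀ hT hW₀n hW₀T ?_ hTF
        intro W hWn hW₀W hWT
        by_cases hWeq : W = T
        · exact Or.inr hWeq
        · left
          have hlt : W < T := lt_of_le_of_ne hWT hWeq
          have h1 := hmax ⟨W, hWn, hlt⟩
          exact (Subgroup.eq_of_le_of_card_ge hW₀W h1).symm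
      have hcard : Nat.card W₀ < Nat.card T := by
        by_contra hcon
        push Not at hcon
        exact hW₀T.ne (Subgroup.eq_of_le_of_card_ge hW₀T.le hcon)
      obtain ⟨k, hk⟩ := ih W₀ hW₀n (hW₀T.le.trans hTF) (by omega)
      refine ⟨k+1, ?_⟩
      rw [cfcIt_succ']
      exact le_bot_iff.mp (hk ▸ cfcIt_mono D hTW k)
  obtain ⟨r, hr⟩ := step1 (Nat.card F) F hFn le_rfl le_rfl
  -- step 2: P. Hall
  have hall : ∀ j i : ℕ, ⁅cfcIt D F i, cfcIt D D j⁆ ≤ cfcIt D F (i+j+1) := by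
    intro j
    induction j with
    | zero => intro i; exact le_rfl
    | succ j ih =>
      intro i
      have hKn : (cfcIt D F (i+(j+1)+1)).Normal := cfcIt_normal D F hDn hFn _
      have h1 : ⁅⁅D, cfcIt D F i⁆, cfcIt D D j⁆ ≤ cfcIt D F (i+(j+1)+1) := by
        have h := ih (i+1)
        have e1 : i + 1 + j + 1 = i + (j+1) + 1 := by omega
        rw [e1] at h
        rw [Subgroup.commutator_comm D]
        exact h
      have h2 : ⁅⁅cfcIt D F i, cfcIt D D j⁆, D⁆ ≤ cfcIt D F (i+(j+1)+1) := by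
        have h : ⁅⁅cfcIt D F i, cfcIt D D j⁆, D⁆ ≤ ⁅cfcIt D F (i+j+1), D⁆ :=
          Subgroup.commutator_mono (ih i) le_rfl
        exact h
      have h3 := cfc_three (cfcIt D F (i+(j+1)+1)) (cfcIt D D j) D (cfcIt D F i) h1 h2
      rw [Subgroup.commutator_comm]
      exact h3
  have h0 : ⁅F, cfcIt D D r⁆ = ⊥ := by
    have h := hall r 0
    have hb : cfcIt D F (0+r+1) = ⊥ := cfcIt_bot D F hr _ (by omega)
    rw [hb] at h
    exact le_bot_iff.mp h
  have h1 : cfcIt D D r ≤ F := hcent _ ((cfcIt_le D D hDn hDn r).trans hDN) h0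
  have h2 : ∀ i, cfcIt D D (r+i) ≤ cfcIt D F i := by
    intro i
    induction i with
    | zero => exact h1
    | succ i ih => exact Subgroup.commutator_mono ih le_rfl
  have h3 : cfcIt D D (r+r) = ⊥ := le_bot_iff.mp (hr ▸ h2 r)
  have hnil : Group.IsNilpotent ↥D := by
    rw [Subgroup.isNilpotent_iff_lowerCentralSeries]
    exact ⟨r+r, by rw [← cfcIt_self]; exact h3⟩
  have hsn : (D.subgroupOf N).Normal := inferInstance
  have hnil2 : Group.IsNilpotent ↥(D.subgroupOf N) :=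
    (Group.isNilpotent_congr (Subgroup.subgroupOfEquivOfLe hDN)).mpr hnil
  have h4 : D.subgroupOf N ≤ Cfsg.fittingSubgroup ↥N := le_fitting hsn hnil2
  intro x hx
  rw [← hFdef]
  exact Subgroup.mem_map.mpr ⟨⟨x, hDN hx⟩, h4 (Subgroup.mem_subgroupOf.mpr hx), rfl⟩

/-- The elements of `N` centralizing every chief factor below `F`. -/
def cfcD {G : Type*} [Group G] (N F : Subgroup G) : Subgroup G where
  carrier := {x | x ∈ N ∧ ∀ U V : Subgroup G, (U.Normal ∧ V.Normal ∧ V < U ∧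
    ∀ W : Subgroup G, W.Normal → V ≤ W → W ≤ U → W = V ∨ W = U) → U ≤ F →
    ∀ u ∈ U, u * x * u⁻¹ * x⁻¹ ∈ V}
  mul_mem' := by
    rintro a b ⟨haN, ha⟩ ⟨hbN, hb⟩
    refine ⟨N.mul_mem haN hbN, fun U V hUV hUF u hu => ?_⟩
    have h1 := ha U V hUV hUF u hu
    have h2 := hb U V hUV hUF u hu
    have h3 : a * (u * b * u⁻¹ * b⁻¹) * a⁻¹ ∈ V := hUV.2.1.conj_mem _ h2 a
    have h4 := V.mul_mem h1 h3
    have e : u * (a * b) * u⁻¹ * (a * b)⁻¹
        = (u * a * u⁻¹ * a⁻¹) * (a * (u * b * u⁻¹ * b⁻¹) * a⁻¹) := by group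
    rw [e]; exact h4
  one_mem' := by
    refine ⟨N.one_mem, fun U V _ _ u _ => ?_⟩
    have e : u * 1 * u⁻¹ * (1:G)⁻¹ = 1 := by group
    rw [e]; exact V.one_mem
  inv_mem' := by
    rintro a ⟨haN, ha⟩
    refine ⟨N.inv_mem haN, fun U V hUV hUF u hu => ?_⟩
    have h1 := ha U V hUV hUF u hu
    have h2 : a⁻¹ * (u * a * u⁻¹ * a⁻¹)⁻¹ * a⁻¹⁻¹ ∈ V :=
      hUV.2.1.conj_mem _ (V.inv_mem h1) a⁻¹
    have e : u * a⁻¹ * u⁻¹ * a⁻¹⁻¹ = a⁻¹ * (u * a * u⁻¹ * a⁻¹)⁻¹ * a⁻¹⁻¹ := by group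
    rw [e]; exact h2

theorem cfcD_normal {G : Type*} [Group G] (N F : Subgroup G) [hN : N.Normal] :
    (cfcD N F).Normal := by
  constructor
  rintro a ⟨haN, ha⟩ x
  refine ⟨hN.conj_mem a haN x, fun U V hUV hUF u hu => ?_⟩
  have hu' : x⁻¹ * u * x⁻¹⁻¹ ∈ U := hUV.1.conj_mem u hu x⁻¹
  have h1 := ha U V hUV hUF _ hu'
  have h2 := hUV.2.1.conj_mem _ h1 x
  have e : u * (x * a * x⁻¹) * u⁻¹ * (x * a * x⁻¹)⁻¹
      = x * ((x⁻¹ * u * x⁻¹⁻¹) * a * (x⁻¹ * u * x⁻¹⁻¹)⁻¹ * a⁻¹) * x⁻¹ := by group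
  rw [e]; exact h2

/-- Let G be a finite solvable group and N a normal subgroup of G. Call a pair V < U of normal subgroups of G a chief factor of G when no normal subgroup of G lies strictly between them; an element g centralizes the chief factor U/V when u g u⁻¹ g⁻¹ ∈ V for all u ∈ U. Then an element of G lies in the Fitting subgroup F(N) if and only if it lies in N and centralizes every chief factor of G; and also if and only if it lies in N and centralizes every chief factor U/V of G with U ≤ F(N). -/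
theorem result {G : Type*} [Group G] [Finite G] (hG : Group.IsSolvable G) (N : Subgroup G) [N.Normal] (g : G) : (g ∈ (Cfsg.fittingSubgroup ↥N).map N.subtype ↔ g ∈ N ∧ ∀ U V : Subgroup G, (U.Normal ∧ V.Normal ∧ V < U ∧ ∀ W : Subgroup G, W.Normal → V ≤ W → W ≤ U → W = V ∨ W = U) → ∀ u ∈ U, u * g * u⁻¹ * g⁻¹ ∈ V) ∧ (g ∈ (Cfsg.fittingSubgroup ↥N).map N.subtype ↔ g ∈ N ∧ ∀ U V : Subgroup G, (U.Normal ∧ V.Normal ∧ V < U ∧ ∀ W : Subgroup G, W.Normal → V ≤ W → W ≤ U → W = V ∨ W = U) → U ≤ (Cfsg.fittingSubgroup ↥N).map N.subtype → ∀ u ∈ U, u * g * u⁻¹ * g⁻¹ ∈ V) := by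
  classical
  have hmain := cfc_main hG N (cfcD N ((Cfsg.fittingSubgroup ↥N).map N.subtype))
    (cfcD_normal N _) (fun x hx => hx.1)
  obtain ⟨F, hFdef⟩ : ∃ F, (Cfsg.fittingSubgroup ↥N).map N.subtype = F := ⟨_, rfl⟩
  rw [hFdef] at hmain ⊢
  have hFn : F.Normal := by
    rw [← hFdef]; exact normal_map_subtype_of_characteristic inferInstance _
  have hFN : F ≤ N := by
    rw [← hFdef]; exact Subgroup.map_subtype_le _
  have hFnil : Group.IsNilpotent ↥F := by
    rw [← hFdef]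
    exact (Group.isNilpotent_congr
      ((Cfsg.fittingSubgroup ↥N).equivMapOfInjective N.subtype N.subtype_injective)).mp
      (fitting_isNilpotent ↥N)
  have fwd : g ∈ F → ∀ U V : Subgroup G, (U.Normal ∧ V.Normal ∧ V < U ∧
      ∀ W : Subgroup G, W.Normal → V ≤ W → W ≤ U → W = V ∨ W = U) →
      ∀ u ∈ U, u * g * u⁻¹ * g⁻¹ ∈ V := by
    intro hg U V hUV u hu
    have h := cfc_nilp F hFn hFnil U V hUV.1 hUV.2.1 hUV.2.2.1 hUV.2.2.2
    exact h (Subgroup.commutator_mem_commutator hu hg)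
  have bwd : (g ∈ N ∧ ∀ U V : Subgroup G, (U.Normal ∧ V.Normal ∧ V < U ∧
      ∀ W : Subgroup G, W.Normal → V ≤ W → W ≤ U → W = V ∨ W = U) → U ≤ F →
      ∀ u ∈ U, u * g * u⁻¹ * g⁻¹ ∈ V) → g ∈ F := by
    intro hg
    have hgD : g ∈ cfcD N F := hg
    refine hmain ?_ hgD
    intro U V hU hV hVU hch hUF
    rw [Subgroup.commutator_le]
    intro u hu x hx
    exact hx.2 U V ⟨hU, hV, hVU, hch⟩ hUF u hu
  refine ⟨⟨fun hg => ⟨hFN hg, fwd hg⟩, fun hg => bwd ⟨hg.1, fun U V hUV _ => hg.2 U V hUV⟩⟩,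
    ⟨fun hg => ⟨hFN hg, fun U V hUV _ => fwd hg U V hUV⟩, bwd⟩⟩

end Cfsg.Agent.S3766
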