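import Cfsg.Statements.S3750
import Cfsg.Agent.Lib.Helper1.GenFit
import Cfsg.Agent.S3766

set_option autoImplicit false
open Cfsg

namespace Cfsg.Agent.S3750

open Cfsg.Agent.Lib.Helper7 Cfsg.Agent.Lib.Helper1

/-- A nontrivial nilpotent normal subgroup `F` contains a nontrivial normal subgroup of the
ambient group that is central in `F` (the last nontrivial term of its lower central series). -/
theorem pmf_central_term {G : Type*} [Group G] (F : Subgroup G) (hFn : F.Normal)
    (hF : Group.IsNilpotent ↥F) (hne : F ≠ ⊥) :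
    ∃ Z : Subgroup G, Z.Normal ∧ Z ≠ ⊥ ∧ Z ≤ F ∧ ⁅Z, F⁆ = ⊥ := by
  classical
  have hex : ∃ n, F.lowerCentralSeries n = ⊥ :=
    (Subgroup.isNilpotent_iff_lowerCentralSeries F).mp hF
  have h0 : Nat.find hex ≠ 0 := by
    intro h0
    have h := Nat.find_spec hex
    rw [h0, Subgroup.lowerCentralSeries_zero] at h
    exact hne h
  obtain ⟨m, hm⟩ := Nat.exists_eq_succ_of_ne_zero h0
  have h1 : F.lowerCentralSeries m ≠ ⊥ := Nat.find_min hex (by omega)
  have h2 : ⁅F.lowerCentralSeries m, F⁆ = ⊥ := by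
    have h := Nat.find_spec hex
    rw [hm] at h
    exact h
  refine ⟨F.lowerCentralSeries m, ?_, h1, ?_, h2⟩
  · rw [← Cfsg.Agent.S3766.cfcIt_self]; exact Cfsg.Agent.S3766.cfcIt_normal F F hFn hFn m
  · rw [← Cfsg.Agent.S3766.cfcIt_self]; exact Cfsg.Agent.S3766.cfcIt_le F F hFn hFn m

/-- `F*(N) ≤ F*(G)` for a normal subgroup `N`. -/
theorem pmf_genFitting_le {G : Type*} [Group G] [Finite G] (N : Subgroup G) (hNn : N.Normal) :
    (Cfsg.generalizedFittingSubgroup ↥N).map N.subtype ≤ Cfsg.generalizedFittingSubgroup G := by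
  have h1 : (Cfsg.layer ↥N).map N.subtype ≤ Cfsg.layer G := by
    rw [Subgroup.map_le_iff_le_comap]
    refine sSup_le ?_
    intro L hL
    rw [← Subgroup.map_le_iff_le_comap]
    exact le_sSup (IsComponent.map_subtype hNn.isSubnormal hL)
  have h2 : (Cfsg.fittingSubgroup ↥N).map N.subtype ≤ Cfsg.fittingSubgroup G :=
    fitting_map_subtype_le_of_normal hNn
  have h3 : (Cfsg.generalizedFittingSubgroup ↥N).map N.subtype
      = (Cfsg.layer ↥N).map N.subtype ⊔ (Cfsg.fittingSubgroup ↥N).map N.subtype :=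
    Subgroup.map_sup _ _ _
  rw [h3]
  exact sup_le_sup h1 h2

/-- Call a proper subgroup M of G primitive when M = N_G(N) for every non-trivial normal subgroup N of M. Let M be a primitive subgroup of the finite group G and N a normal subgroup of G with M ∩ F*(N) ≠ 1. Then F(G) = 1 and F*(N) = F*(G) = E(G); in particular every minimal normal subgroup of G is contained in N. -/
theorem result {G : Type*} [Group G] [Finite G] (M : Subgroup G) (hM : M ≠ ⊤) (hprim : ∀ N : Subgroup G, N ≤ M → M ≤ Subgroup.normalizer (N : Set G) → N ≠ ⊥ → Subgroup.normalizer (N : Set G) = M) (N : Subgroup G) [N.Normal] (hMF : M ⊓ (Cfsg.generalizedFittingSubgroup ↥N).map N.subtype ≠ ⊥) : Cfsg.fittingSubgroup G = ⊥ ∧ (Cfsg.generalizedFittingSubgroup ↥N).map N.subtype = Cfsg.generalizedFittingSubgroup G ∧ Cfsg.generalizedFittingSubgroup G = Cfsg.layer G ∧ ∀ K : Subgroup G, K.Normal → K ≠ ⊥ → (∀ K' : Subgroup G, K'.Normal → K' ≤ K → K' = ⊥ ∨ K' = K) → K ≤ N := by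
  classical
  have hNn : N.Normal := inferInstance
  have hKG0 := pmf_genFitting_le N hNn
  obtain ⟨K, hK⟩ : ∃ K, (Cfsg.generalizedFittingSubgroup ↥N).map N.subtype = K := ⟨_, rfl⟩
  rw [hK] at hMF hKG0 ⊢
  have hKn : K.Normal := by
    rw [← hK]; exact normal_map_subtype_of_characteristic hNn _
  have hKN : K ≤ N := by
    rw [← hK]; exact Subgroup.map_subtype_le _
  obtain ⟨X, hX⟩ : ∃ X, M ⊓ K = X := ⟨_, rfl⟩
  rw [hX] at hMF
  have hXM : X ≤ M := by rw [← hX]; exact inf_le_left
  have hXK : X ≤ K := by rw [← hX]; exact inf_le_right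
  have hMX : M ≤ Subgroup.normalizer (X : Set G) := by
    intro m hm
    rw [Subgroup.mem_normalizer_iff]
    intro x
    rw [← hX]
    simp only [Subgroup.mem_inf]
    constructor
    · rintro ⟨h1, h2⟩
      exact ⟨M.mul_mem (M.mul_mem hm h1) (M.inv_mem hm), hKn.conj_mem x h2 m⟩
    · rintro ⟨h1, h2⟩
      have e : m⁻¹ * (m * x * m⁻¹) * m⁻¹⁻¹ = x := by group
      refine ⟨?_, ?_⟩
      · have h3 := M.mul_mem (M.mul_mem (M.inv_mem hm) h1) (M.inv_mem (M.inv_mem hm))
        rw [e] at h3; exact h3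
      · have h3 := hKn.conj_mem _ h2 m⁻¹
        rw [e] at h3; exact h3
  have hNX : Subgroup.normalizer (X : Set G) = M := hprim X hXM hMX hMF
  have keyA : ∀ L : Subgroup G, L.Normal → L ≤ Subgroup.centralizer (X : Set G) → L = ⊥ := by
    intro L hL hLX
    by_contra hne
    have hLM : L ≤ M := by
      rw [← hNX]; exact hLX.trans (Subgroup.centralizer_le_normalizer _)
    have h1 : Subgroup.normalizer (L : Set G) = ⊤ := Subgroup.normalizer_eq_top_iff.mpr hL
    have h2 := hprim L hLM (by rw [h1]; exact le_top) hne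
    rw [h1] at h2
    exact hM h2.symm
  have hcK : Subgroup.centralizer (K : Set G) ≤ Subgroup.centralizer (X : Set G) :=
    Subgroup.centralizer_le (SetLike.coe_subset_coe.mpr hXK)
  have hcN : Subgroup.centralizer (N : Set G) ≤ Subgroup.centralizer (X : Set G) :=
    Subgroup.centralizer_le (SetLike.coe_subset_coe.mpr (hXK.trans hKN))
  have hCN : Subgroup.centralizer (N : Set G) = ⊥ :=
    keyA _ Subgroup.normal_centralizer hcN
  -- (1)
  have hF1 : Cfsg.fittingSubgroup G = ⊥ := by
    by_contra hne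
    obtain ⟨Z, hZn, hZne, hZF, hZc⟩ :=
      pmf_central_term (Cfsg.fittingSubgroup G) (fitting_normal G) (fitting_isNilpotent G) hne
    have h1 : Cfsg.layer G ≤ Subgroup.centralizer (Z : Set G) := by
      rw [← Subgroup.commutator_eq_bot_iff_le_centralizer]
      exact le_bot_iff.mp
        ((layer_commutator_fitting G) ▸ Subgroup.commutator_mono le_rfl hZF)
    have h2 : Cfsg.fittingSubgroup G ≤ Subgroup.centralizer (Z : Set G) := by
      rw [← Subgroup.commutator_eq_bot_iff_le_centralizer, Subgroup.commutator_comm]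
      exact hZc
    have h3 : K ≤ Subgroup.centralizer (Z : Set G) := hKG0.trans (sup_le h1 h2)
    have h4 : Z ≤ Subgroup.centralizer (K : Set G) := Subgroup.le_centralizer_iff.mp h3
    exact hZne (keyA Z hZn (h4.trans hcK))
  have hF3 : Cfsg.generalizedFittingSubgroup G = Cfsg.layer G := by
    unfold Cfsg.generalizedFittingSubgroup
    rw [hF1, sup_bot_eq]
  refine ⟨hF1, ?_, hF3, ?_⟩
  · refine le_antisymm hKG0 ?_
    rw [hF3]
    refine sSup_le ?_
    intro L hL
    rcases IsComponent.le_or_commutator_eq_bot hL hNn.isSubnormal with h | h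
    · have h1 : Cfsg.IsComponent (L.subgroupOf N) := IsComponent.subgroupOf hL h
      have h2 : L.subgroupOf N ≤ Cfsg.generalizedFittingSubgroup ↥N :=
        (IsComponent.le_layer h1).trans (layer_le_genFitting ↥N)
      have h3 := Subgroup.map_mono (f := N.subtype) h2
      rw [Subgroup.map_subgroupOf_eq_of_le h, hK] at h3
      exact h3
    · exfalso
      have h1 : L ≤ Subgroup.centralizer (N : Set G) :=
        Subgroup.commutator_eq_bot_iff_le_centralizer.mp h
      rw [hCN] at h1
      exact IsComponent.ne_bot hL (le_bot_iff.mp h1)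
  · intro K' hK'n hK'ne hmin
    have hinf : (K' ⊓ N).Normal := inferInstance
    rcases hmin (K' ⊓ N) hinf inf_le_left with h | h
    · exfalso
      have h1 : ⁅K', N⁆ ≤ K' ⊓ N :=
        le_inf (Subgroup.commutator_le_left K' N) (Subgroup.commutator_le_right K' N)
      rw [h] at h1
      have h2 : K' ≤ Subgroup.centralizer (N : Set G) :=
        Subgroup.commutator_eq_bot_iff_le_centralizer.mp (le_bot_iff.mp h1)
      rw [hCN] at h2
      exact hK'ne (le_bot_iff.mp h2)
    · exact inf_eq_left.mp h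

end Cfsg.Agent.S3750
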