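import Cfsg.Statements.S3760
import Cfsg.Agent.Lib.Helper8.Basic

set_option autoImplicit false
open Cfsg
open Cfsg.Agent.Lib.Helper8

namespace Cfsg.Agent.S3760

/-- Let the group G act transitively on a set X, let x ∈ X with stabilizer H = G_x, and let K ≤ H. Then N_G(K) acts transitively on the set of fixed points of K if and only if every G-conjugate of K contained in H is already an H-conjugate of K. -/
theorem result {G : Type*} [Group G] {X : Type*} [MulAction G X] (htrans : ∀ a b : X, ∃ g : G, g • a = b) (x : X) (K : Subgroup G) (hK : K ≤ MulAction.stabilizer G x) : (∀ a b : X, (∀ k ∈ K, k • a = a) → (∀ k ∈ K, k • b = b) → ∃ g ∈ Subgroup.normalizer (K : Set G), g • a = b) ↔ ∀ g : G, K.map (MulAut.conj g).toMonoidHom ≤ MulAction.stabilizer G x → ∃ h ∈ MulAction.stabilizer G x, K.map (MulAut.conj g).toMonoidHom = K.map (MulAut.conj h).toMonoidHom := by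
  constructor
  · intro h g hg
    have hfix : ∀ k ∈ K, k • (g⁻¹ • x) = g⁻¹ • x := by
      intro k hk
      have h1 : g * k * g⁻¹ ∈ MulAction.stabilizer G x := hg (h8_conj_mem_map_conj g K hk)
      rw [MulAction.mem_stabilizer_iff] at h1
      calc k • (g⁻¹ • x) = g⁻¹ • ((g * k * g⁻¹) • x) := by simp [mul_smul]
        _ = g⁻¹ • x := by rw [h1]
    have hfx : ∀ k ∈ K, k • x = x := fun k hk => MulAction.mem_stabilizer_iff.1 (hK hk)
    obtain ⟨n, hn, hnx⟩ := h x (g⁻¹ • x) hfx hfix
    refine ⟨g * n, ?_, ?_⟩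
    · rw [MulAction.mem_stabilizer_iff, mul_smul, hnx]; simp
    · rw [h8_map_conj_mul, h8_map_conj_eq_of_mem_normalizer hn]
  · intro h a b ha hb
    have key : ∀ c : X, (∀ k ∈ K, k • c = c) → ∃ n ∈ Subgroup.normalizer (K : Set G), n • x = c := by
      intro c hc
      obtain ⟨u, hu⟩ := htrans x c
      have hle : K.map (MulAut.conj u⁻¹).toMonoidHom ≤ MulAction.stabilizer G x := by
        intro y hy
        rw [h8_mem_map_conj] at hy
        rw [MulAction.mem_stabilizer_iff]
        have h2 := hc _ hy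
        rw [← hu] at h2
        have h3 : y • x = u⁻¹ • ((u⁻¹⁻¹ * y * u⁻¹) • (u • x)) := by simp [mul_smul]
        rw [h3, h2]; simp
      obtain ⟨s, hs, hse⟩ := h u⁻¹ hle
      refine ⟨u * s, ?_, ?_⟩
      · apply h8_mem_normalizer_of_map_conj_eq
        rw [h8_map_conj_mul, ← hse, ← h8_map_conj_mul, mul_inv_cancel, h8_map_conj_one]
      · rw [mul_smul, MulAction.mem_stabilizer_iff.1 hs, hu]
    obtain ⟨n1, hn1, h1⟩ := key a ha
    obtain ⟨n2, hn2, h2⟩ := key b hb
    refine ⟨n2 * n1⁻¹, Subgroup.mul_mem _ hn2 (Subgroup.inv_mem _ hn1), ?_⟩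
    rw [← h1, mul_smul]; simp [h2]

end Cfsg.Agent.S3760
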