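import Cfsg.Statements.S3771
import Mathlib.Tactic

set_option autoImplicit false
open Cfsg

namespace Cfsg.Agent.S3771

/-- Let p be a prime and R a finite p-group of p-rank at most 2 (no elementary abelian subgroup of order p³) in which every element has order dividing p. Then R has order at most p³. -/
theorem result {R : Type*} [Group R] [Finite R] {p : ℕ} [Fact p.Prime] (hR : IsPGroup p R) (hrank : Cfsg.PRankLE p 2 R) (hexp : ∀ x : R, x ^ p = 1) : Nat.card R ≤ p ^ 3 := by
  classical
  by_contra hcon
  push Not at hcon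
  have hp := (Fact.out : p.Prime)
  obtain ⟨n, hn⟩ := IsPGroup.iff_card.1 hR
  have hn4 : 4 ≤ n := by
    by_contra h
    have h3 : n ≤ 3 := by omega
    have := Nat.pow_le_pow_right hp.pos h3
    omega
  have : Nontrivial R := by
    rw [← Finite.one_lt_card_iff_nontrivial, hn]
    exact Nat.one_lt_pow (by omega) hp.one_lt
  have := hR.center_nontrivial
  obtain ⟨⟨z, hzc⟩, hz1⟩ := exists_ne (1 : Subgroup.center R)
  have hz1' : z ≠ 1 := fun h => hz1 (Subtype.ext h)
  have hzord : orderOf z = p := orderOf_eq_prime (hexp z) hz1'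
  set Z : Subgroup R := Subgroup.zpowers z with hZ
  have hZc : Z ≤ Subgroup.center R := Subgroup.zpowers_le.2 hzc
  have hZcard : Nat.card Z = p := by rw [hZ, Nat.card_zpowers, hzord]
  have hZn : Z.Normal := ⟨fun x hx g => by
    have := Subgroup.mem_center_iff.1 (hZc hx) g
    rw [this]; simpa using hx⟩
  have hQ : IsPGroup p (R ⧸ Z) := hR.to_quotient Z
  have hidx : Z.index = p ^ (n - 1) := by
    have h1 := Subgroup.card_mul_index Z
    rw [hZcard, hn] at h1
    have : p ^ n = p * p ^ (n - 1) := by
      rw [← pow_succ']; congr 1; omega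
    rw [this] at h1
    exact Nat.eq_of_mul_eq_mul_left hp.pos h1
  have : Nontrivial (R ⧸ Z) := by
    rw [← Finite.one_lt_card_iff_nontrivial, ← Subgroup.index_eq_card, hidx]
    exact Nat.one_lt_pow (by omega) hp.one_lt
  have := hQ.center_nontrivial
  obtain ⟨⟨abar, habar⟩, hne⟩ := exists_ne (1 : Subgroup.center (R ⧸ Z))
  obtain ⟨a, rfl⟩ := QuotientGroup.mk_surjective abar
  have haZ : a ∉ Z := by
    intro h
    apply hne
    apply Subtype.ext
    exact (QuotientGroup.eq_one_iff a).2 h
  have hcomm : ∀ g : R, a⁻¹ * g⁻¹ * a * g ∈ Z := by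
    intro g
    have h1 := Subgroup.mem_center_iff.1 habar (QuotientGroup.mk g)
    have h2 : ((g * a : R) : R ⧸ Z) = ((a * g : R) : R ⧸ Z) := by
      simpa using h1
    have h3 := QuotientGroup.eq.1 h2
    simpa [mul_assoc] using h3
  let f : R →* Z :=
    { toFun := fun g => ⟨a⁻¹ * g⁻¹ * a * g, hcomm g⟩
      map_one' := by apply Subtype.ext; simp
      map_mul' := by
        intro g h
        apply Subtype.ext
        have hc := Subgroup.mem_center_iff.1 (hZc (hcomm g)) (a⁻¹ * h⁻¹ * a)
        show a⁻¹ * (g * h)⁻¹ * a * (g * h) = (a⁻¹ * g⁻¹ * a * g) * (a⁻¹ * h⁻¹ * a * h)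
        calc a⁻¹ * (g * h)⁻¹ * a * (g * h) = (a⁻¹ * h⁻¹ * a) * (a⁻¹ * g⁻¹ * a * g) * h := by group
          _ = (a⁻¹ * g⁻¹ * a * g) * (a⁻¹ * h⁻¹ * a) * h := by rw [hc]
          _ = _ := by group }
  have hfker : ∀ g : R, g ∈ f.ker ↔ a * g = g * a := by
    intro g
    rw [MonoidHom.mem_ker]
    constructor
    · intro h
      have h1 : a⁻¹ * g⁻¹ * a * g = 1 := congrArg Subtype.val h
      calc a * g = g * a * (a⁻¹ * g⁻¹ * a * g) := by group
        _ = g * a := by rw [h1, mul_one]
    · intro h
      apply Subtype.ext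
      show a⁻¹ * g⁻¹ * a * g = 1
      rw [mul_assoc, h]; group
  set C : Subgroup R := f.ker with hC
  have hCidx : C.index ≤ p := by
    rw [hC, Subgroup.index_ker]
    calc Nat.card f.range ≤ Nat.card Z := Subgroup.card_le_card_group _
      _ = p := hZcard
  have hCcard : p ^ 3 ≤ Nat.card C := by
    have h1 := Subgroup.card_mul_index C
    rw [hn] at h1
    have h2 : p ^ n ≤ Nat.card C * p := by
      rw [← h1]; exact Nat.mul_le_mul_left _ hCidx
    have h3 : p ^ 4 ≤ p ^ n := Nat.pow_le_pow_right hp.pos hn4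
    have h4 : p ^ 4 = p ^ 3 * p := by ring
    rw [h4] at h3
    exact Nat.le_of_mul_le_mul_right (h3.trans h2) hp.pos
  have hza : a * z = z * a := Subgroup.mem_center_iff.1 hzc a
  have hzC : z ∈ C := (hfker z).2 hza
  have haC : a ∈ C := (hfker a).2 rfl
  set B : Subgroup R := Subgroup.closure {z, a} with hB
  have hBC : B ≤ C := by
    rw [hB, Subgroup.closure_le]
    intro y hy
    rcases hy with rfl | rfl
    · exact hzC
    · exact haC
  have hBcomm : IsMulCommutative B := by
    apply Subgroup.isMulCommutative_closure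
    intro u hu v hv
    rcases hu with rfl | rfl <;> rcases hv with rfl | rfl
    · rfl
    · exact hza.symm
    · exact hza
    · rfl
  have hBcard : Nat.card B ≤ p ^ 2 := hrank B hBcomm (fun b _ => hexp b)
  obtain ⟨x, hxC, hxB⟩ : ∃ x ∈ C, x ∉ B := by
    by_contra hall
    push Not at hall
    have hle : C ≤ B := fun y hy => hall y hy
    have := Subgroup.card_le_of_le hle
    have h5 : p ^ 2 < p ^ 3 := Nat.pow_lt_pow_right hp.one_lt (by norm_num)
    omega
  have hax : a * x = x * a := (hfker x).1 hxC
  have hzx : x * z = z * x := Subgroup.mem_center_iff.1 hzc x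
  set A : Subgroup R := Subgroup.closure {z, a, x} with hA
  have hAcomm : IsMulCommutative A := by
    apply Subgroup.isMulCommutative_closure
    intro u hu v hv
    rcases hu with rfl | rfl | rfl <;> rcases hv with rfl | rfl | rfl
    · rfl
    · exact hza.symm
    · exact hzx.symm
    · exact hza
    · rfl
    · exact hax
    · exact hzx
    · exact hax.symm
    · rfl
  have hAcard : Nat.card A ≤ p ^ 2 := hrank A hAcomm (fun b _ => hexp b)
  have hBA : B ≤ A := by
    rw [hB, Subgroup.closure_le]
    intro y hy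
    apply Subgroup.subset_closure
    rcases hy with rfl | rfl
    · simp
    · simp
  have hxA : x ∈ A := Subgroup.subset_closure (by simp)
  have hZB : Z ≤ B := by
    rw [hZ, Subgroup.zpowers_le]
    exact Subgroup.subset_closure (by simp)
  have haB : a ∈ B := Subgroup.subset_closure (by simp)
  have h1 : Nat.card Z < Nat.card B := by
    by_contra hge
    push Not at hge
    have := Subgroup.eq_of_le_of_card_ge hZB hge
    exact haZ (this ▸ haB)
  have h2 : Nat.card B < Nat.card A := by
    by_contra hge
    push Not at hge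
    have := Subgroup.eq_of_le_of_card_ge hBA hge
    exact hxB (this ▸ hxA)
  obtain ⟨k, hk⟩ := IsPGroup.iff_card.1 (hR.to_subgroup B)
  have hk2 : 2 ≤ k := by
    by_contra h
    have hk1 : k ≤ 1 := by omega
    have := Nat.pow_le_pow_right hp.pos hk1
    rw [pow_one] at this
    omega
  have := Nat.pow_le_pow_right hp.pos hk2
  omega

end Cfsg.Agent.S3771
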