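import Cfsg.Statements.S3774
import Mathlib

set_option autoImplicit false
open Cfsg

namespace Cfsg.Agent.S3774

/-- Let G be a nontrivial finite 2-group whose automorphism group permutes the involutions of G transitively. Then every involution of G is central, so that the involutions together with 1 form the subgroup Ω₁(Z(G)), and if this subgroup has order q then |G| is a power of q. -/
theorem result {G : Type*} [Group G] [Finite G] [Nontrivial G] (hG : IsPGroup 2 G) (htrans : ∀ x y : G, x ≠ 1 → x ^ 2 = 1 → y ≠ 1 → y ^ 2 = 1 → ∃ a : MulAut G, a x = y) : (∀ x : G, x ^ 2 = 1 → x ∈ Subgroup.center G) ∧ ∃ m : ℕ, Nat.card G = Nat.card {z : G // z ^ 2 = 1} ^ m := by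
  classical
  have : Fintype G := Fintype.ofFinite G
  have : Fact (Nat.Prime 2) := ⟨Nat.prime_two⟩
  have hZ : Nontrivial (Subgroup.center G) := hG.center_nontrivial
  have hZ2 : 2 ∣ Nat.card (Subgroup.center G) := by
    obtain ⟨n, hn⟩ := (hG.to_subgroup (Subgroup.center G)).exists_card_eq
    have hn0 : n ≠ 0 := by
      rintro rfl
      rw [pow_zero] at hn
      have := Finite.one_lt_card (α := Subgroup.center G)
      omega
    rw [hn]; exact dvd_pow_self 2 hn0
  obtain ⟨z, hz⟩ := exists_prime_orderOf_dvd_card' (G := Subgroup.center G) 2 hZ2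
  have hz1 : (z : G) ≠ 1 := by
    intro h
    have : z = 1 := Subtype.ext h
    rw [this, orderOf_one] at hz; omega
  have hz2 : (z : G) ^ 2 = 1 := by
    have := pow_orderOf_eq_one z
    rw [hz] at this
    have h2 := congrArg Subtype.val this
    simpa using h2
  have hcent : ∀ x : G, x ^ 2 = 1 → x ∈ Subgroup.center G := by
    intro x hx
    by_cases hx1 : x = 1
    · rw [hx1]; exact Subgroup.one_mem _
    obtain ⟨a, ha⟩ := htrans z x hz1 hz2 hx1 hx
    rw [← ha, Subgroup.mem_center_iff]
    intro g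
    have := Subgroup.mem_center_iff.1 z.2 (a.symm g)
    have h2 := congrArg a this
    simpa using h2
  refine ⟨hcent, ?_⟩
  let Ω : Subgroup G :=
    { carrier := {z | z ^ 2 = 1}
      mul_mem' := by
        intro a b ha hb
        have hc : Commute a b := (Subgroup.mem_center_iff.1 (hcent a ha) b).symm
        show (a * b) ^ 2 = 1
        rw [hc.mul_pow]
        have ha' : a ^ 2 = 1 := ha
        have hb' : b ^ 2 = 1 := hb
        rw [ha', hb', one_mul]
      one_mem' := one_pow 2
      inv_mem' := by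
        intro a ha
        have ha' : a ^ 2 = 1 := ha
        show a⁻¹ ^ 2 = 1
        rw [inv_pow, ha', inv_one] }
  have hΩcard : Nat.card Ω = Nat.card {z : G // z ^ 2 = 1} := rfl
  obtain ⟨k, hk⟩ := (hG.to_subgroup Ω).exists_card_eq
  obtain ⟨N, hN⟩ := hG.exists_card_eq
  rw [← hΩcard, hk, hN]
  -- order of elements
  have hord : ∀ x : G, x ≠ 1 → ∃ j, orderOf x = 2 ^ (j + 1) := by
    intro x hx
    obtain ⟨j, hj⟩ := (Nat.dvd_prime_pow Nat.prime_two).1 (hN ▸ orderOf_dvd_natCard x)
    rcases j with _ | j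
    · rw [pow_zero, orderOf_eq_one_iff] at hj
      exact absurd hj.2 hx
    · exact ⟨j, hj.2⟩
  let φ : G → G := fun x => x ^ (orderOf x / 2)
  have hφ1 : ∀ x : G, x ≠ 1 → φ x ≠ 1 := by
    intro x hx
    obtain ⟨j, hj⟩ := hord x hx
    have e : orderOf x / 2 = 2 ^ j := by
      rw [hj, pow_succ, Nat.mul_div_cancel _ (by norm_num)]
    show x ^ (orderOf x / 2) ≠ 1
    rw [e]
    apply pow_ne_one_of_lt_orderOf (by positivity)
    rw [hj, pow_succ]
    have : 0 < 2 ^ j := by positivity
    omega
  have hφ2 : ∀ x : G, x ≠ 1 → φ x ^ 2 = 1 := by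
    intro x hx
    obtain ⟨j, hj⟩ := hord x hx
    have e : orderOf x / 2 = 2 ^ j := by
      rw [hj, pow_succ, Nat.mul_div_cancel _ (by norm_num)]
    show (x ^ (orderOf x / 2)) ^ 2 = 1
    rw [e, ← pow_mul, ← pow_succ, ← hj, pow_orderOf_eq_one]
  have hφa : ∀ (a : MulAut G) (x : G), φ (a x) = a (φ x) := by
    intro a x
    show (a x) ^ (orderOf (a x) / 2) = a (x ^ (orderOf x / 2))
    rw [MulEquiv.orderOf_eq, map_pow]
  -- counting
  let S : Finset G := Finset.univ.filter (fun x => x ≠ 1)
  let T : Finset G := Finset.univ.filter (fun y => y ≠ 1 ∧ y ^ 2 = 1)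
  have hmaps : Set.MapsTo φ ↑S ↑T := by
    intro x hx
    have hx1 : x ≠ 1 := by simpa [S] using hx
    simp only [T, Finset.mem_coe, Finset.mem_filter, Finset.mem_univ, true_and]
    exact ⟨hφ1 x hx1, hφ2 x hx1⟩
  have hcount := Finset.card_eq_sum_card_fiberwise hmaps
  have hfib : ∀ b ∈ T, (S.filter (fun a => φ a = b)).card =
      (S.filter (fun a => φ a = (z : G))).card := by
    intro b hb
    have hb' : b ≠ 1 ∧ b ^ 2 = 1 := by simpa [T] using hb
    obtain ⟨a, ha⟩ := htrans z b hz1 hz2 hb'.1 hb'.2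
    refine Finset.card_nbij' (fun x => a.symm x) (fun x => a x) ?_ ?_ ?_ ?_
    · intro x hx
      simp only [S, Finset.mem_coe, Finset.mem_filter, Finset.mem_univ, true_and] at hx ⊢
      refine ⟨?_, ?_⟩
      · intro h
        apply hx.1
        have := congrArg a h
        simpa using this
      · have h1 := hφa a.symm x
        rw [h1, hx.2, ← ha]
        simp
    · intro x hx
      simp only [S, Finset.mem_coe, Finset.mem_filter, Finset.mem_univ, true_and] at hx ⊢
      refine ⟨?_, ?_⟩
      · intro h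
        apply hx.1
        have := congrArg a.symm h
        simpa using this
      · rw [hφa a x, hx.2, ha]
    · intro x _
      simp
    · intro x _
      simp
  rw [Finset.sum_congr rfl hfib, Finset.sum_const, smul_eq_mul] at hcount
  have hS : S.card = 2 ^ N - 1 := by
    show (Finset.univ.filter (fun x : G => x ≠ 1)).card = _
    rw [Finset.filter_ne', Finset.card_erase_of_mem (Finset.mem_univ _), Finset.card_univ,
      ← Nat.card_eq_fintype_card, hN]
  have hT : T.card = 2 ^ k - 1 := by
    have e : T = (Finset.univ.filter (fun y : G => y ^ 2 = 1)).erase 1 := by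
      ext y
      simp [T]
    rw [e, Finset.card_erase_of_mem (by simp), ← hk, hΩcard, Nat.card_eq_fintype_card,
      Fintype.card_subtype]
  rw [hS, hT] at hcount
  have hdvd : 2 ^ k - 1 ∣ 2 ^ N - 1 := ⟨_, hcount⟩
  have hgcd := Nat.pow_sub_one_gcd_pow_sub_one 2 k N
  rw [Nat.gcd_eq_left hdvd] at hgcd
  have h1 : 2 ^ k = 2 ^ (Nat.gcd k N) := by
    have a1 : 0 < 2 ^ k := by positivity
    have a2 : 0 < 2 ^ (Nat.gcd k N) := by positivity
    omega
  have h2 : k = Nat.gcd k N := Nat.pow_right_injective (le_refl 2) h1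
  have h3 : k ∣ N := by
    rw [h2]; exact Nat.gcd_dvd_right _ _
  obtain ⟨m, hm⟩ := h3
  exact ⟨m, by rw [hm, pow_mul]⟩

end Cfsg.Agent.S3774
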