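import Cfsg.Statements.S3784
import Mathlib.Tactic
import Mathlib.NumberTheory.Fermat

set_option autoImplicit false
open Cfsg

namespace Cfsg.Agent.S3784


theorem h_sq_mod4 (x : ℕ) (hx : Odd x) : x ^ 2 % 4 = 1 := by
  obtain ⟨k, rfl⟩ := hx
  have : (2 * k + 1) ^ 2 = 4 * (k * k + k) + 1 := by ring
  rw [this]; omega

theorem h_geom_parity (p : ℕ) (hp : p % 2 = 1) (n : ℕ) :
    (∑ i ∈ Finset.range n, p ^ i) % 2 = n % 2 := by
  induction n with
  | zero => simp
  | succ n ih =>
    rw [Finset.sum_range_succ, Nat.add_mod, ih, Nat.pow_mod, hp]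
    simp

theorem h_two_pow_mod4 (a : ℕ) (ha : 2 ≤ a) : 2 ^ a % 4 = 0 := by
  obtain ⟨c, rfl⟩ := Nat.exists_eq_add_of_le ha
  rw [pow_add]; omega

theorem h_two_pow_odd (j : ℕ) (h : 2 ^ j % 2 = 1) : j = 0 := by
  by_contra hj
  obtain ⟨c, rfl⟩ := Nat.exists_eq_add_of_le (show 1 ≤ j by omega)
  rw [pow_add] at h; omega


/-- Let p, q be primes and a, b positive integers with p^a = q^b + 1. Then either p = 2, b = 1, a is prime and q = 2^a − 1; or q = 2, a = 1, b is a power of 2 and p = 2^b + 1; or p^a = 9 and q^b = 8. -/
theorem result (p q a b : ℕ) (hp : p.Prime) (hq : q.Prime) (ha : 1 ≤ a) (hb : 1 ≤ b) (h : p ^ a = q ^ b + 1) : (p = 2 ∧ b = 1 ∧ a.Prime ∧ q + 1 = 2 ^ a) ∨ (q = 2 ∧ a = 1 ∧ (∃ m : ℕ, b = 2 ^ m) ∧ p = 2 ^ b + 1) ∨ (p ^ a = 9 ∧ q ^ b = 8) := by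
  rcases hp.eq_two_or_odd' with rfl | hpodd
  · left
    have hqb_odd : Odd (q ^ b) := by
      have h2 : Even (q ^ b + 1) := by
        rw [← h]; exact (Nat.even_pow.2 ⟨even_two, by omega⟩)
      rcases Nat.even_or_odd (q ^ b) with he | ho
      · exact absurd h2 (by rw [Nat.even_add_one]; simpa using he)
      · exact ho
    have hqodd : Odd q := (Nat.odd_pow_iff (by omega)).1 hqb_odd
    have hq3 : 3 ≤ q := by
      have := hq.two_le
      rcases hqodd with ⟨k, rfl⟩
      omega
    have hb1 : b = 1 := by
      by_contra hb1
      rcases Nat.even_or_odd b with hbe | hbo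
      · obtain ⟨k, rfl⟩ := hbe
        have hsq : (q ^ (k + k)) % 4 = 1 := by
          have : q ^ (k + k) = (q ^ k) ^ 2 := by ring
          rw [this]
          exact h_sq_mod4 _ hqodd.pow
        have h4 : 2 ^ a % 4 = 2 := by rw [h]; omega
        have ha1 : a = 1 := by
          by_contra hne
          have := h_two_pow_mod4 a (by omega)
          omega
        subst ha1
        have h1 : q ^ (k + k) = 1 := by omega
        have h2 : 1 < q ^ (k + k) := Nat.one_lt_pow (by omega) hq.one_lt
        omega
      · have hb3 : 3 ≤ b := by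
          rcases hbo with ⟨k, rfl⟩
          omega
        have hdvd : q + 1 ∣ q ^ b + 1 := by simpa using hbo.nat_add_dvd_pow_add_pow q 1
        rw [← h] at hdvd
        obtain ⟨c, hca, hc⟩ := (Nat.dvd_prime_pow Nat.prime_two).1 hdvd
        -- q^b > q
        have hlt : q < q ^ b := by
          calc q = q ^ 1 := (pow_one q).symm
            _ < q ^ b := Nat.pow_lt_pow_right hq.one_lt (by omega)
        have hca' : c < a := by
          by_contra hge
          have : a = c := by omega
          subst this
          omega
        have hdvd2 : 2 ^ (c + 1) ∣ q ^ b + 1 := by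
          rw [← h]; exact pow_dvd_pow 2 (by omega)
        -- 2^(c+1) ∣ q^2 - 1
        have hq2 : 2 ^ (c + 1) ∣ q ^ 2 - 1 := by
          have e1 : q ^ 2 - 1 = (q + 1) * (q - 1) := by
            have := Nat.sq_sub_sq q 1
            simpa using this
          rw [e1, hc, pow_succ]
          apply Nat.mul_dvd_mul_left
          rcases hqodd with ⟨k, rfl⟩
          exact ⟨k, by omega⟩
        obtain ⟨k, hk⟩ : ∃ k, b = 2 * k + 1 := hbo
        have hq3' : 2 ^ (c + 1) ∣ (q ^ 2) ^ k - 1 := by
          have := Nat.sub_dvd_pow_sub_pow (q ^ 2) 1 k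
          rw [one_pow] at this
          exact hq2.trans this
        -- q^b + 1 = q * ((q^2)^k - 1) + (q + 1)
        have hge1 : 1 ≤ (q ^ 2) ^ k := Nat.one_le_pow _ _ (by positivity)
        have e2 : q ^ b + 1 = q * ((q ^ 2) ^ k - 1) + (q + 1) := by
          obtain ⟨m, hm⟩ := Nat.exists_eq_add_of_le hge1
          rw [hk, pow_succ, pow_mul, hm]
          simp
          ring
        rw [e2] at hdvd2
        have h3 : 2 ^ (c + 1) ∣ q + 1 :=
          (Nat.dvd_add_right (Dvd.dvd.mul_left hq3' q)).1 hdvd2
        rw [hc] at h3
        have := Nat.le_of_dvd (by positivity) h3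
        have h4 : 2 ^ c < 2 ^ (c + 1) := Nat.pow_lt_pow_right (by norm_num) (by omega)
        omega
    subst hb1
    rw [pow_one] at h
    refine ⟨rfl, rfl, ?_, h.symm⟩
    have hq' : (2 ^ a - 1).Prime := by
      have : 2 ^ a - 1 = q := by omega
      rw [this]; exact hq
    have ha1 : a ≠ 1 := by
      rintro rfl
      simp at h
      omega
    exact (Nat.prime_of_pow_sub_one_prime ha1 hq').2
  · right
    have hp2 : p % 2 = 1 := Nat.odd_iff.1 hpodd
    have hq2 : q = 2 := by
      have hpa : Odd (p ^ a) := hpodd.pow
      rw [h] at hpa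
      have hqe : Even (q ^ b) := by
        rcases Nat.even_or_odd (q ^ b) with he | ho
        · exact he
        · exact absurd hpa (by rw [Nat.not_odd_iff_even]; exact ho.add_one)
      have : Even q := (Nat.even_pow.1 hqe).1
      exact (Nat.Prime.even_iff hq).1 this
    subst hq2
    by_cases ha1 : a = 1
    · left
      subst ha1
      rw [pow_one] at h
      refine ⟨rfl, rfl, ?_, h⟩
      exact Nat.pow_of_pow_add_prime (by norm_num) (by omega) (h ▸ hp)
    · right
      have ha2 : 2 ≤ a := by omega
      rcases Nat.even_or_odd a with hae | hao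
      · obtain ⟨k, rfl⟩ := hae
        have hk : 1 ≤ k := by omega
        set x := p ^ k with hx
        have hxodd : x % 2 = 1 := by rw [hx, Nat.pow_mod, hp2]; simp
        have hx3 : 3 ≤ x := by
          have : 1 < p ^ k := Nat.one_lt_pow (by omega) hp.one_lt
          omega
        have e1 : (x - 1) * (x + 1) = 2 ^ b := by
          have : p ^ (k + k) = x * x := by rw [hx, ← pow_add]
          rw [this] at h
          obtain ⟨m, hm⟩ := Nat.exists_eq_add_of_le (show 1 ≤ x by omega)
          rw [hm] at h ⊢
          simp
          nlinarith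
        have d1 : x - 1 ∣ 2 ^ b := ⟨x + 1, e1.symm⟩
        have d2 : x + 1 ∣ 2 ^ b := ⟨x - 1, by rw [mul_comm]; exact e1.symm⟩
        obtain ⟨i, hib, hi⟩ := (Nat.dvd_prime_pow Nat.prime_two).1 d1
        obtain ⟨j, hjb, hj⟩ := (Nat.dvd_prime_pow Nat.prime_two).1 d2
        have hij : 2 ^ j = 2 ^ i + 2 := by omega
        have hi1 : i = 1 := by
          by_contra hne
          rcases Nat.lt_or_ge i 1 with h0 | h2
          · have : i = 0 := by omega
            subst this
            simp at hi
            omega
          · have hi4 := h_two_pow_mod4 i (by omega)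
            have hj4 : 2 ^ j % 4 = 2 := by omega
            have hj1 : j = 1 := by
              by_contra hne2
              rcases Nat.lt_or_ge j 1 with h0 | h2'
              · have : j = 0 := by omega
                subst this
                simp at hj4
              · have := h_two_pow_mod4 j (by omega)
                omega
            subst hj1
            have : 4 ≤ 2 ^ i := by
              calc 4 = 2 ^ 2 := by norm_num
                _ ≤ 2 ^ i := Nat.pow_le_pow_right (by norm_num) (by omega)
            omega
        subst hi1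
        have hx3' : x = 3 := by omega
        have hp3 : p = 3 := by
          have : p ∣ 3 := by
            rw [← hx3', hx]; exact dvd_pow_self p (by omega)
          exact (Nat.prime_dvd_prime_iff_eq hp Nat.prime_three).1 this
        subst hp3
        have hk1 : k = 1 := by
          by_contra hne
          have : 3 ^ 2 ≤ 3 ^ k := Nat.pow_le_pow_right (by norm_num) (by omega)
          omega
        subst hk1
        constructor
        · norm_num
        · have : (3:ℕ) ^ (1 + 1) = 9 := by norm_num
          omega
      · exfalso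
        have hgs := geom_sum_mul_add (p - 1) a
        have hp1 : p - 1 + 1 = p := by have := hp.two_le; omega
        rw [hp1] at hgs
        set S := ∑ i ∈ Finset.range a, p ^ i with hS
        have hSodd : S % 2 = 1 := by
          rw [hS, h_geom_parity p hp2 a]; exact Nat.odd_iff.1 hao
        have e : S * (p - 1) = 2 ^ b := by omega
        have dS : S ∣ 2 ^ b := ⟨p - 1, e.symm⟩
        obtain ⟨j, hjb, hj⟩ := (Nat.dvd_prime_pow Nat.prime_two).1 dS
        have hj0 : j = 0 := h_two_pow_odd j (by rw [← hj]; exact hSodd)
        subst hj0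
        simp at hj
        have hS2 : 1 + p ≤ S := by
          obtain ⟨c, rfl⟩ := Nat.exists_eq_add_of_le ha2
          rw [hS, add_comm 2 c, Finset.sum_range_succ, Finset.sum_range_succ]
          have : 0 < p ^ (c + 1) := pow_pos hp.pos _
          have h0 : 1 ≤ ∑ x ∈ Finset.range c, p ^ x + p ^ c := by
            have : 0 < p ^ c := pow_pos hp.pos _
            omega
          have h1 : p ≤ p ^ (c + 1) := by
            calc p = p ^ 1 := (pow_one p).symm
              _ ≤ p ^ (c + 1) := Nat.pow_le_pow_right hp.pos (by omega)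
          omega
        have := hp.two_le
        omega

end Cfsg.Agent.S3784
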