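import Cfsg.Statements.S3790
import Cfsg.Agent.Lib.Helper3.PLen2

set_option autoImplicit false
open Cfsg

namespace Cfsg.Agent.S3790

open Cfsg.Agent.Lib.Helper3

universe u

theorem relIndex_comap_mk {G : Type u} [Group G] (N : Subgroup G) [N.Normal]
    (C : Subgroup (G ⧸ N)) : N.relIndex (C.comap (QuotientGroup.mk' N)) = Nat.card C := by
  have h1 : N = (⊥ : Subgroup (G ⧸ N)).comap (QuotientGroup.mk' N) := by
    rw [MonoidHom.comap_bot, QuotientGroup.ker_mk']
  have h2 := congrArg (fun X : Subgroup G => X.relIndex (C.comap (QuotientGroup.mk' N))) h1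
  have h3 : N.relIndex (C.comap (QuotientGroup.mk' N)) =
      ((⊥ : Subgroup (G ⧸ N)).comap (QuotientGroup.mk' N)).relIndex
        (C.comap (QuotientGroup.mk' N)) := h2
  rw [h3, Subgroup.relIndex_comap, Subgroup.map_comap_eq_self_of_surjective
    (QuotientGroup.mk'_surjective _), Subgroup.relIndex_bot_left]

/-- order of a factor of the upper series, even position -/
theorem factor_card_even {G : Type u} [Group G] [Finite G] (s : ℕ) (n : ℕ) (hn : Even n) :
    Nat.card (↥(Cfsg.upperPSeries s G (n + 1)).1 ⧸
      ((Cfsg.upperPSeries s G n).1).subgroupOf (Cfsg.upperPSeries s G (n + 1)).1) =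
    Nat.card (Cfsg.pPrimeCore s (G ⧸ (Cfsg.upperPSeries s G n).1)) := by
  rw [← Subgroup.index_eq_card]
  show ((Cfsg.upperPSeries s G n).1).relIndex (Cfsg.upperPSeries s G (n + 1)).1 = _
  rw [Cfsg.Agent.Lib.Helper1.upperPSeries_succ_even s G n hn]
  exact relIndex_comap_mk _ _

theorem factor_card_odd {G : Type u} [Group G] [Finite G] (s : ℕ) (n : ℕ) (hn : ¬ Even n) :
    Nat.card (↥(Cfsg.upperPSeries s G (n + 1)).1 ⧸
      ((Cfsg.upperPSeries s G n).1).subgroupOf (Cfsg.upperPSeries s G (n + 1)).1) =
    Nat.card (Cfsg.pCore s (G ⧸ (Cfsg.upperPSeries s G n).1)) := by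
  rw [← Subgroup.index_eq_card]
  show ((Cfsg.upperPSeries s G n).1).relIndex (Cfsg.upperPSeries s G (n + 1)).1 = _
  rw [Cfsg.Agent.Lib.Helper1.upperPSeries_succ_odd s G n hn]
  exact relIndex_comap_mk _ _

theorem plen_prod_aux (p : ℕ) [hp : Fact p.Prime] : ∀ (r : ℕ) (q : Fin r → ℕ),
    (∀ i, (q i).Prime ∧ q i ≠ p) →
    ∀ (G : Type u) [Group G] [Finite G], Group.IsSolvable G →
      (∀ s : ℕ, s.Prime → s ∣ Nat.card G → s ≠ p → ∃ i, q i = s) →
      ∀ l : Fin r → ℕ, (∀ i, Cfsg.PLengthLE (q i) (l i) G) →
      Cfsg.PLengthLE p (Finset.univ.prod fun i => 1 + l i) G := by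
  intro r
  induction r with
  | zero =>
    intro q hq G _ _ hsolv hcover l hl
    have hpg : IsPGroup p G := by
      have h1 : Nat.card G = p ^ (Nat.card G).primeFactorsList.length := by
        apply Nat.eq_prime_pow_of_unique_prime_dvd Nat.card_pos.ne'
        intro s hs hsd
        by_contra hne
        obtain ⟨i, -⟩ := hcover s hs hsd hne
        exact i.elim0
      exact IsPGroup.of_card h1
    have h2 := plen_one_of_pgroup p hpg
    simpa using h2
  | succ r ih =>
    intro q hq G _ _ hsolv hcover l hl
    obtain ⟨qs, hqs⟩ : ∃ qs, qs = q (Fin.last r) := ⟨_, rfl⟩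
    obtain ⟨ls, hls⟩ : ∃ ls, ls = l (Fin.last r) := ⟨_, rfl⟩
    obtain ⟨M, hM⟩ : ∃ M, M = Finset.univ.prod (fun i : Fin r => 1 + l (Fin.castSucc i)) :=
      ⟨_, rfl⟩
    have hqsp : qs.Prime := hqs ▸ (hq (Fin.last r)).1
    have hqsne : qs ≠ p := hqs ▸ (hq (Fin.last r)).2
    have hFq : Fact qs.Prime := ⟨hqsp⟩
    have hFact : ∀ i, Fact (q i).Prime := fun i => ⟨(hq i).1⟩
    have key : ∀ n, Cfsg.PLengthLE p (M * ((n + 1) / 2)) ↥(Cfsg.upperPSeries qs G n).1 := by
      intro n
      induction n with
      | zero =>
        have h0 : M * ((0 + 1) / 2) = 0 := by norm_num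
        rw [h0]
        apply plen_zero_of_coprime
        rw [Cfsg.Agent.Lib.Helper1.upperPSeries_zero, Subgroup.card_bot]
        exact Nat.coprime_one_left p
      | succ n ihn =>
        have hle : (Cfsg.upperPSeries qs G n).1 ≤ (Cfsg.upperPSeries qs G (n + 1)).1 :=
          plen_upper_le_succ qs n
        have hN : Cfsg.PLengthLE p (M * ((n + 1) / 2))
            ↥(((Cfsg.upperPSeries qs G n).1).subgroupOf (Cfsg.upperPSeries qs G (n + 1)).1) :=
          plen_quot p (Subgroup.subgroupOfEquivOfLe hle).symm.toMonoidHom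
            (Subgroup.subgroupOfEquivOfLe hle).symm.surjective _ ihn
        by_cases hn : Even n
        · -- a `qs'`-factor: use the induction hypothesis on `r`
          have hcardQ := factor_card_even (G := G) qs n hn
          have hcop : (Nat.card (↥(Cfsg.upperPSeries qs G (n + 1)).1 ⧸
              ((Cfsg.upperPSeries qs G n).1).subgroupOf (Cfsg.upperPSeries qs G (n + 1)).1)).Coprime
              qs := by
            rw [hcardQ]; exact Cfsg.Agent.Lib.Helper7.pPrimeCore_coprime qs _
          have hQ : Cfsg.PLengthLE p M (↥(Cfsg.upperPSeries qs G (n + 1)).1 ⧸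
              ((Cfsg.upperPSeries qs G n).1).subgroupOf (Cfsg.upperPSeries qs G (n + 1)).1) := by
            have h3 := ih (fun i => q (Fin.castSucc i)) (fun i => hq (Fin.castSucc i))
              (↥(Cfsg.upperPSeries qs G (n + 1)).1 ⧸
                ((Cfsg.upperPSeries qs G n).1).subgroupOf (Cfsg.upperPSeries qs G (n + 1)).1)
              inferInstance ?_ (fun i => l (Fin.castSucc i)) ?_
            · rw [hM]; exact h3
            · intro s hs hsd hsp
              have hsG : s ∣ Nat.card G :=
                (hsd.trans (Subgroup.card_dvd_of_surjective (QuotientGroup.mk' _)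
                  (QuotientGroup.mk'_surjective _))).trans (Subgroup.card_subgroup_dvd_card _)
              obtain ⟨i, hi⟩ := hcover s hs hsG hsp
              have hi' : i ≠ Fin.last r := by
                rintro rfl
                rw [← hqs] at hi
                subst hi
                have h4 : qs ∣ Nat.gcd (Nat.card (↥(Cfsg.upperPSeries qs G (n + 1)).1 ⧸
                    ((Cfsg.upperPSeries qs G n).1).subgroupOf
                      (Cfsg.upperPSeries qs G (n + 1)).1)) qs := Nat.dvd_gcd hsd dvd_rfl
                rw [hcop] at h4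
                exact hs.one_lt.ne' (Nat.dvd_one.mp h4)
              obtain ⟨j, hj⟩ := Fin.exists_castSucc_eq.mpr hi'
              exact ⟨j, by rw [hj]; exact hi⟩
            · intro i
              have := hFact (Fin.castSucc i)
              have h5 : Cfsg.PLengthLE (q (Fin.castSucc i)) (l (Fin.castSucc i))
                  ↥(Cfsg.upperPSeries qs G (n + 1)).1 :=
                plen_subgroup (q (Fin.castSucc i)) (Subgroup.subtype _)
                  (Subgroup.subtype_injective _) _ (hl (Fin.castSucc i))
              exact plen_quot (q (Fin.castSucc i)) (QuotientGroup.mk' _)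
                (QuotientGroup.mk'_surjective _) _ h5
          have h6 := plen_ext p
            (((Cfsg.upperPSeries qs G n).1).subgroupOf (Cfsg.upperPSeries qs G (n + 1)).1)
            _ _ hN hQ
          obtain ⟨t, ht⟩ := hn
          have h7 : M * ((n + 1 + 1) / 2) = M * ((n + 1) / 2) + M := by
            have h8 : (n + 1 + 1) / 2 = (n + 1) / 2 + 1 := by omega
            rw [h8, Nat.mul_add, Nat.mul_one]
          rw [h7]; exact h6
        · -- a `qs`-factor: a `p'`-group
          have hcardQ := factor_card_odd (G := G) qs n hn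
          have hQ : Cfsg.PLengthLE p 0 (↥(Cfsg.upperPSeries qs G (n + 1)).1 ⧸
              ((Cfsg.upperPSeries qs G n).1).subgroupOf (Cfsg.upperPSeries qs G (n + 1)).1) := by
            apply plen_zero_of_coprime
            rw [hcardQ]
            obtain ⟨k, hk⟩ := IsPGroup.iff_card.mp
              (Cfsg.Agent.Lib.Helper7.pCore_isPGroup qs (G ⧸ (Cfsg.upperPSeries qs G n).1))
            rw [hk]
            exact Nat.Coprime.pow_left k ((Nat.coprime_primes hqsp hp.out).mpr hqsne)
          have h6 := plen_ext p
            (((Cfsg.upperPSeries qs G n).1).subgroupOf (Cfsg.upperPSeries qs G (n + 1)).1)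
            _ _ hN hQ
          have hodd : Odd n := Nat.not_even_iff_odd.mp hn
          obtain ⟨t, ht⟩ := hodd
          have h7 : M * ((n + 1 + 1) / 2) = M * ((n + 1) / 2) + 0 := by
            have h8 : (n + 1 + 1) / 2 = (n + 1) / 2 := by omega
            rw [h8]; exact (Nat.add_zero _).symm
          rw [h7]; exact h6
    have hfin := key (2 * ls + 1)
    have htop : (Cfsg.upperPSeries qs G (2 * ls + 1)).1 = ⊤ := by
      have h9 := hl (Fin.last r)
      rw [← hqs, ← hls] at h9
      exact h9
    have htrans : ∀ X : Subgroup G, X = ⊤ → ∀ c, Cfsg.PLengthLE p c ↥X → Cfsg.PLengthLE p c G := by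
      intro X hX c h
      subst hX
      exact plen_quot p (Subgroup.topEquiv : (⊤ : Subgroup G) ≃* G).toMonoidHom
        (Subgroup.topEquiv : (⊤ : Subgroup G) ≃* G).surjective _ h
    have h10 := htrans _ htop _ hfin
    have h11 : (2 * ls + 1 + 1) / 2 = 1 + ls := by omega
    rw [h11] at h10
    rw [Fin.prod_univ_castSucc, ← hM, ← hls]
    exact h10

/-- Let G be a finite solvable group and p a prime. Suppose p₁, …, p_r are distinct primes, all different from p, that include every prime dividing the order of G other than p, and that G has p_i-length at most l_i for each i. Then G has p-length at most the product of the numbers 1 + l_i. -/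
theorem result {G : Type*} [Group G] [Finite G] (hG : Group.IsSolvable G) (p : ℕ) [Fact p.Prime] (r : ℕ) (q : Fin r → ℕ) (hq : ∀ i, (q i).Prime ∧ q i ≠ p) (hinj : Function.Injective q) (hcover : ∀ s : ℕ, s.Prime → s ∣ Nat.card G → s ≠ p → ∃ i, q i = s) (l : Fin r → ℕ) (hl : ∀ i, Cfsg.PLengthLE (q i) (l i) G) : Cfsg.PLengthLE p (Finset.univ.prod fun i => 1 + l i) G := by
  exact plen_prod_aux p r q hq G hG hcover l hl

end Cfsg.Agent.S3790
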