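import Cfsg.Statements.S3791
import Cfsg.Agent.Lib.Helper3.PLen

set_option autoImplicit false
open Cfsg

namespace Cfsg.Agent.S3791

open Cfsg.Agent.Lib.Helper3

universe u

theorem hh_derived_aux (r : ℕ) (q : Fin r → ℕ) (hq : ∀ i, (q i).Prime) (d : Fin r → ℕ) :
    ∀ (n : ℕ) (G : Type u) [Group G] [Finite G], Nat.card G ≤ n → Group.IsSolvable G →
      (∀ s : ℕ, s.Prime → s ∣ Nat.card G → ∃ i, q i = s) →
      (∀ i, ∀ P : Subgroup G, IsPGroup (q i) P → derivedSeries ↥P (d i) = ⊥) →
      ∀ l : Fin r → ℕ, (∀ i, Cfsg.PLengthLE (q i) (l i) G) →
      derivedSeries G (Finset.univ.sum fun i => d i * l i) = ⊥ := by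
  classical
  intro n
  induction n with
  | zero =>
    intro G _ _ hcard
    exact absurd hcard (by have := Nat.card_pos (α := G); omega)
  | succ n ih =>
    intro G _ _ hcard hsolv hcover hdl l hl
    by_cases htriv : Subsingleton G
    · exact Subsingleton.elim _ _
    · rw [not_subsingleton_iff_nontrivial] at htriv
      obtain ⟨p, hp, hPne⟩ := exists_pCore_ne_bot_of_solvable (G := G) hsolv
      have hFp := Fact.mk hp
      have hPp : IsPGroup p (Cfsg.pCore p G) := Cfsg.Agent.Lib.Helper7.pCore_isPGroup p G
      have hpdvd : p ∣ Nat.card G := by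
        obtain ⟨k, hk⟩ := IsPGroup.iff_card.mp hPp
        have hk0 : k ≠ 0 := by
          rintro rfl
          rw [pow_zero] at hk
          exact hPne (Subgroup.eq_bot_of_card_eq _ hk)
        have h1 : p ∣ Nat.card (Cfsg.pCore p G) := by
          rw [hk]; exact dvd_pow_self p hk0
        exact h1.trans (Subgroup.card_subgroup_dvd_card _)
      obtain ⟨i, hi⟩ := hcover p hp hpdvd
      subst hi
      have hFact : ∀ j, Fact (q j).Prime := fun j => Fact.mk (hq j)
      have hPn : (Cfsg.pCore (q i) G).Normal := Cfsg.Agent.Lib.Helper7.pCore_normal (q i) G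
      have hKn : (Cfsg.pPrimeCore (q i) G).Normal :=
        Cfsg.Agent.Lib.Helper7.pPrimeCore_normal (q i) G
      have hquot : ∀ (N : Subgroup G) [N.Normal], N ≠ ⊥ → ∀ l' : Fin r → ℕ,
          (∀ j, Cfsg.PLengthLE (q j) (l' j) (G ⧸ N)) →
          derivedSeries (G ⧸ N) (Finset.univ.sum fun j => d j * l' j) = ⊥ := by
        intro N _ hN l' hl'
        have hcardN : Nat.card (G ⧸ N) ≤ n := by
          have h1 := Subgroup.card_eq_card_quotient_mul_card_subgroup N
          have h2 : 1 < Nat.card N := by
            have h3 : Nat.card N ≠ 1 := fun h => hN (Subgroup.eq_bot_of_card_eq _ h)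
            have h4 := Nat.card_pos (α := N)
            omega
          have h5 := Nat.card_pos (α := G ⧸ N)
          have h6 : Nat.card (G ⧸ N) * 2 ≤ Nat.card (G ⧸ N) * Nat.card N :=
            Nat.mul_le_mul_left _ h2
          omega
        refine ih (G ⧸ N) hcardN inferInstance ?_ ?_ l' hl'
        · intro s hs hsd
          exact hcover s hs (hsd.trans (Subgroup.card_dvd_of_surjective (QuotientGroup.mk' N)
            (QuotientGroup.mk'_surjective N)))
        · intro j P' hP'
          have := hFact j
          exact dl_pgroups_image (q j) (QuotientGroup.mk' N) (QuotientGroup.mk'_surjective N)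
            (d j) (hdl j) P' hP'
      have hplq : ∀ (N : Subgroup G) [N.Normal], ∀ j, Cfsg.PLengthLE (q j) (l j) (G ⧸ N) := by
        intro N _ j
        have := hFact j
        exact plen_quot (q j) (QuotientGroup.mk' N) (QuotientGroup.mk'_surjective N) (l j) (hl j)
      by_cases hK : Cfsg.pPrimeCore (q i) G = ⊥
      · rcases Nat.eq_zero_or_pos (l i) with hli | hli
        · exfalso
          have h1 := hl i
          rw [hli] at h1
          exact (not_subsingleton_iff_nontrivial.mpr htriv) (plen_zero_subsingleton (q i) hK h1)
        · obtain ⟨k, hk⟩ : ∃ k, l i = k + 1 := ⟨l i - 1, by omega⟩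
          have h1 := hquot (Cfsg.pCore (q i) G) hPne (Function.update l i k) (by
            intro j
            by_cases hj : j = i
            · subst hj
              rw [Function.update_self]
              have h2 := hl j
              rw [hk] at h2
              exact plen_quot_pCore (q j) hK k h2
            · rw [Function.update_of_ne hj]
              exact hplq _ j)
          have h2 := hdl i (Cfsg.pCore (q i) G) hPp
          have h3 := dl_of_quot (Cfsg.pCore (q i) G) _ (d i) h1 h2
          have hsum : (Finset.univ.sum fun j => d j * l j) =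
              (Finset.univ.sum fun j => d j * Function.update l i k j) + d i := by
            rw [← Finset.add_sum_erase _ _ (Finset.mem_univ i),
              ← Finset.add_sum_erase (f := fun j => d j * Function.update l i k j) _
                (Finset.mem_univ i)]
            have h4 : (Finset.univ.erase i).sum (fun j => d j * Function.update l i k j) =
                (Finset.univ.erase i).sum (fun j => d j * l j) := by
              apply Finset.sum_congr rfl
              intro j hj
              rw [Function.update_of_ne (Finset.ne_of_mem_erase hj)]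
            rw [h4]
            simp only [Function.update_self]
            rw [hk]
            ring
          rw [hsum]
          exact h3
      · have h1 := hquot (Cfsg.pCore (q i) G) hPne l (fun j => hplq _ j)
        have h2 := hquot (Cfsg.pPrimeCore (q i) G) hK l (fun j => hplq _ j)
        refine dl_of_two_quot _ _ _ h1 h2 ?_
        apply disjoint_iff.mp
        apply Subgroup.disjoint_of_coprime_natCard
        obtain ⟨k, hk⟩ := IsPGroup.iff_card.mp hPp
        rw [hk]
        exact Nat.Coprime.pow_left k
          (Nat.Coprime.symm (Cfsg.Agent.Lib.Helper7.pPrimeCore_coprime (q i) G))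

/-- The Hall–Higman bound on derived length: let G be a finite solvable group, let p₁, …, p_r be distinct primes that include every prime dividing the order of G, and suppose that for each i the Sylow p_i-subgroups of G have derived length at most d_i and G has p_i-length at most l_i. Then G has derived length at most Σ d_i l_i. -/
theorem result {G : Type*} [Group G] [Finite G] (hG : Group.IsSolvable G) (r : ℕ) (q : Fin r → ℕ) (hq : ∀ i, (q i).Prime) (hinj : Function.Injective q) (hcover : ∀ s : ℕ, s.Prime → s ∣ Nat.card G → ∃ i, q i = s) (d l : Fin r → ℕ) (hd : ∀ i, ∀ P : Subgroup G, (haveI := Fact.mk (hq i); ∃ S : Sylow (q i) G, (S : Subgroup G) = P) → derivedSeries ↥P (d i) = ⊥) (hl : ∀ i, Cfsg.PLengthLE (q i) (l i) G) : derivedSeries G (Finset.univ.sum fun i => d i * l i) = ⊥ := by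
  refine hh_derived_aux r q hq d (Nat.card G) G le_rfl hG hcover ?_ l hl
  intro i P hP
  have := Fact.mk (hq i)
  obtain ⟨S, hS⟩ := hP.exists_le_sylow
  exact dl_subgroup P (S : Subgroup G) hS (d i) (hd i (S : Subgroup G) ⟨S, rfl⟩)

end Cfsg.Agent.S3791
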