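import Mathlib
import Cfsg.Statements.S3799
import Cfsg.Agent.Lib.Helper6.Frattini
import Cfsg.Agent.Lib.Helper2.PGroup

set_option autoImplicit false
open Cfsg

namespace Cfsg.Agent.S3799

open Matrix
open scoped commutatorElement

theorem es_crit {P : Type*} [Group P] [Finite P] {p : ℕ} [hp : Fact p.Prime] (m : ℕ)
    (hcard : Nat.card P = p ^ m) (hZ : Nat.card (Subgroup.center P) = p)
    (hcomm : ∀ a b g : P, g * (a * b * a⁻¹ * b⁻¹) = (a * b * a⁻¹ * b⁻¹) * g)
    (hexp : ∀ x : P, x ^ p = 1) (hnc : ∃ a b : P, a * b ≠ b * a) :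
    Cfsg.IsExtraspecial p P := by
  have hpp := hp.out
  have hP : IsPGroup p P := IsPGroup.of_card hcard
  have hcommZ : ∀ a b : P, a * b * a⁻¹ * b⁻¹ ∈ Subgroup.center P := by
    intro a b
    rw [Subgroup.mem_center_iff]
    intro g
    exact hcomm a b g
  have hcomm_le : commutator P ≤ Subgroup.center P := by
    rw [commutator_def, Subgroup.commutator_le]
    intro a _ b _
    rw [commutatorElement_def]
    exact hcommZ a b
  have hcomm_ne : commutator P ≠ ⊥ := by
    intro h
    obtain ⟨a, b, hab⟩ := hnc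
    have hmem : ⁅a, b⁆ ∈ commutator P := by
      rw [commutator_def]
      exact Subgroup.commutator_mem_commutator (Subgroup.mem_top a) (Subgroup.mem_top b)
    rw [h, Subgroup.mem_bot, commutatorElement_eq_one_iff_mul_comm] at hmem
    exact hab hmem
  have hcomm_eq : commutator P = Subgroup.center P := by
    have hd : Nat.card (commutator P) ∣ p := hZ ▸ Subgroup.card_dvd_of_le hcomm_le
    rcases (Nat.dvd_prime hpp).mp hd with h1 | h1
    · exact absurd (Subgroup.card_eq_one.mp h1) hcomm_ne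
    · exact Subgroup.eq_of_le_of_card_ge hcomm_le (by rw [h1, hZ])
  have hfr : frattini P = Subgroup.center P := by
    apply le_antisymm
    · exact Cfsg.Agent.Lib.Helper6.fr_le_of_elem_quotient (p := p) _ hcommZ
        (fun a => by rw [hexp a]; exact Subgroup.one_mem _)
    · rw [← hcomm_eq]; exact Cfsg.Agent.Lib.Helper2.commutator_le_frattini_of_pGroup hP
  exact ⟨⟨hP, hfr, hcomm_eq⟩, hZ⟩

/-- The abstract Heisenberg group. -/
@[ext] structure Heis (n p : ℕ) where
  a : Fin n → ZMod p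
  b : Fin n → ZMod p
  c : ZMod p

namespace Heis
variable {n p : ℕ}

instance : Mul (Heis n p) :=
  ⟨fun x y => ⟨x.a + y.a, x.b + y.b, x.c + y.c + dotProduct x.a y.b⟩⟩
instance : One (Heis n p) := ⟨⟨0, 0, 0⟩⟩
instance : Inv (Heis n p) := ⟨fun x => ⟨-x.a, -x.b, -x.c + dotProduct x.a x.b⟩⟩

theorem mul_a (x y : Heis n p) : (x * y).a = x.a + y.a := rfl
theorem mul_b (x y : Heis n p) : (x * y).b = x.b + y.b := rfl
theorem mul_c (x y : Heis n p) : (x * y).c = x.c + y.c + dotProduct x.a y.b := rfl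
theorem one_a : (1 : Heis n p).a = 0 := rfl
theorem one_b : (1 : Heis n p).b = 0 := rfl
theorem one_c : (1 : Heis n p).c = 0 := rfl
theorem inv_a (x : Heis n p) : (x⁻¹).a = -x.a := rfl
theorem inv_b (x : Heis n p) : (x⁻¹).b = -x.b := rfl
theorem inv_c (x : Heis n p) : (x⁻¹).c = -x.c + dotProduct x.a x.b := rfl

instance : Group (Heis n p) where
  mul_assoc x y z := by
    apply Heis.ext
    · simp only [mul_a]; exact add_assoc _ _ _
    · simp only [mul_b]; exact add_assoc _ _ _
    · simp only [mul_a, mul_b, mul_c, add_dotProduct, dotProduct_add]; ring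
  one_mul x := by
    apply Heis.ext
    · simp only [mul_a, one_a, zero_add]
    · simp only [mul_b, one_b, zero_add]
    · simp only [mul_c, one_a, one_c, zero_dotProduct, zero_add, add_zero]
  mul_one x := by
    apply Heis.ext
    · simp only [mul_a, one_a, add_zero]
    · simp only [mul_b, one_b, add_zero]
    · simp only [mul_c, one_b, one_c, dotProduct_zero, add_zero]
  inv_mul_cancel x := by
    apply Heis.ext
    · simp only [mul_a, inv_a, one_a, neg_add_cancel]
    · simp only [mul_b, inv_b, one_b, neg_add_cancel]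
    · simp only [mul_c, inv_a, inv_c, one_c, neg_dotProduct]; ring

theorem pow_formula (x : Heis n p) (k : ℕ) :
    (x ^ k).a = (k : ZMod p) • x.a ∧ (x ^ k).b = (k : ZMod p) • x.b ∧
      (x ^ k).c = (k : ZMod p) * x.c + ((k.choose 2 : ℕ) : ZMod p) * dotProduct x.a x.b := by
  induction k with
  | zero =>
    refine ⟨?_, ?_, ?_⟩
    · rw [pow_zero, one_a, Nat.cast_zero, zero_smul]
    · rw [pow_zero, one_b, Nat.cast_zero, zero_smul]
    · rw [pow_zero, one_c]; simp
  | succ k ih =>
    obtain ⟨iha, ihb, ihc⟩ := ih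
    have hch : (k + 1).choose 2 = k + k.choose 2 := by
      rw [Nat.choose_succ_succ', Nat.choose_one_right]
    refine ⟨?_, ?_, ?_⟩
    · rw [pow_succ, mul_a, iha]
      funext i
      simp only [Pi.add_apply, Pi.smul_apply, smul_eq_mul, Nat.cast_succ]; ring
    · rw [pow_succ, mul_b, ihb]
      funext i
      simp only [Pi.add_apply, Pi.smul_apply, smul_eq_mul, Nat.cast_succ]; ring
    · rw [pow_succ, mul_c, ihc, iha, smul_dotProduct, hch]
      push_cast
      simp only [smul_eq_mul]; ring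

theorem pow_p [hp : Fact p.Prime] (hp2 : p ≠ 2) (x : Heis n p) : x ^ p = 1 := by
  obtain ⟨ha, hb, hc⟩ := pow_formula x p
  have h0 : ((p : ℕ) : ZMod p) = 0 := ZMod.natCast_self p
  have hd : p ∣ p.choose 2 := hp.out.dvd_choose_self (by norm_num) (by
    have := hp.out.two_le; omega)
  have h1 : ((p.choose 2 : ℕ) : ZMod p) = 0 := (ZMod.natCast_eq_zero_iff _ _).mpr hd
  apply Heis.ext
  · rw [ha, h0, zero_smul]; rfl
  · rw [hb, h0, zero_smul]; rfl
  · rw [hc, h0, h1, zero_mul, zero_mul, add_zero]; rfl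

def equivProd : Heis n p ≃ (Fin n → ZMod p) × (Fin n → ZMod p) × ZMod p where
  toFun x := (x.a, x.b, x.c)
  invFun t := ⟨t.1, t.2.1, t.2.2⟩
  left_inv _ := rfl
  right_inv _ := rfl

instance [NeZero p] : Finite (Heis n p) := Finite.of_equiv _ equivProd.symm

theorem card_eq [NeZero p] : Nat.card (Heis n p) = p ^ (1 + 2 * n) := by
  rw [Nat.card_congr equivProd, Nat.card_prod, Nat.card_prod, Nat.card_fun, Nat.card_zmod,
    Nat.card_fin]
  ring

theorem mem_center_iff' (z : Heis n p) :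
    z ∈ Subgroup.center (Heis n p) ↔ z.a = 0 ∧ z.b = 0 := by
  classical
  rw [Subgroup.mem_center_iff]
  constructor
  · intro h
    constructor
    · funext i
      show z.a i = 0
      have e : (0 : ZMod p) + z.c + dotProduct (0 : Fin n → ZMod p) z.b
          = z.c + 0 + dotProduct z.a (Pi.single i 1) :=
        congrArg Heis.c (h ⟨0, Pi.single i 1, 0⟩)
      simp only [zero_dotProduct, dotProduct_single, mul_one, zero_add, add_zero] at e
      linear_combination -e
    · funext i
      show z.b i = 0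
      have e : (0 : ZMod p) + z.c + dotProduct (Pi.single i 1) z.b
          = z.c + 0 + dotProduct z.a (0 : Fin n → ZMod p) :=
        congrArg Heis.c (h ⟨Pi.single i 1, 0, 0⟩)
      simp only [single_dotProduct, one_mul, dotProduct_zero, zero_add, add_zero] at e
      linear_combination e
  · rintro ⟨ha, hb⟩ g
    apply Heis.ext
    · rw [mul_a, mul_a]; exact add_comm _ _
    · rw [mul_b, mul_b]; exact add_comm _ _
    · rw [mul_c, mul_c, ha, hb, dotProduct_zero, zero_dotProduct]; ring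

theorem card_center [NeZero p] : Nat.card (Subgroup.center (Heis n p)) = p := by
  have e : Nat.card (Subgroup.center (Heis n p)) = Nat.card (ZMod p) := by
    apply Nat.card_congr
    refine ⟨fun z => z.1.c, fun t => ⟨⟨0, 0, t⟩, (mem_center_iff' _).mpr ⟨rfl, rfl⟩⟩, ?_, ?_⟩
    · rintro ⟨z, hz⟩
      obtain ⟨ha, hb⟩ := (mem_center_iff' z).mp hz
      apply Subtype.ext
      apply Heis.ext
      · exact ha.symm
      · exact hb.symm
      · rfl
    · intro t; rfl
  rw [e, Nat.card_zmod]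

theorem comm_central (x y g : Heis n p) :
    g * (x * y * x⁻¹ * y⁻¹) = (x * y * x⁻¹ * y⁻¹) * g := by
  have ha : (x * y * x⁻¹ * y⁻¹).a = 0 := by
    simp only [mul_a, inv_a]; abel
  have hb : (x * y * x⁻¹ * y⁻¹).b = 0 := by
    simp only [mul_b, inv_b]; abel
  obtain ⟨w, hw⟩ : ∃ w, w = x * y * x⁻¹ * y⁻¹ := ⟨_, rfl⟩
  rw [← hw] at ha hb ⊢
  apply Heis.ext
  · rw [mul_a, mul_a, ha, add_zero, zero_add]
  · rw [mul_b, mul_b, hb, add_zero, zero_add]
  · rw [mul_c, mul_c, ha, hb, dotProduct_zero, zero_dotProduct]; ring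

theorem noncomm [hp : Fact p.Prime] (hn : 1 ≤ n) : ∃ x y : Heis n p, x * y ≠ y * x := by
  classical
  refine ⟨⟨Pi.single ⟨0, hn⟩ 1, 0, 0⟩, ⟨0, Pi.single ⟨0, hn⟩ 1, 0⟩, ?_⟩
  intro h
  have e : (0 : ZMod p) + 0 + dotProduct (Pi.single (⟨0, hn⟩ : Fin n) (1 : ZMod p))
      (Pi.single ⟨0, hn⟩ 1) = 0 + 0 + dotProduct (0 : Fin n → ZMod p) 0 := congrArg Heis.c h
  rw [single_dotProduct, Pi.single_eq_same, dotProduct_zero] at e
  simp at e

/-- the linear action on `K × K^n × K` -/
def L (x : Heis n p) : Module.End (ZMod p) (ZMod p × (Fin n → ZMod p) × ZMod p) where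
  toFun t := (t.1 + dotProduct x.a t.2.1 + x.c * t.2.2, t.2.1 + t.2.2 • x.b, t.2.2)
  map_add' s t := by
    refine Prod.ext ?_ (Prod.ext ?_ rfl)
    · show (s.1 + t.1) + dotProduct x.a (s.2.1 + t.2.1) + x.c * (s.2.2 + t.2.2)
        = (s.1 + dotProduct x.a s.2.1 + x.c * s.2.2) + (t.1 + dotProduct x.a t.2.1 + x.c * t.2.2)
      rw [dotProduct_add]; ring
    · show (s.2.1 + t.2.1) + (s.2.2 + t.2.2) • x.b
        = (s.2.1 + s.2.2 • x.b) + (t.2.1 + t.2.2 • x.b)
      rw [add_smul]; abel
  map_smul' r t := by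
    refine Prod.ext ?_ (Prod.ext ?_ rfl)
    · show r * t.1 + dotProduct x.a (r • t.2.1) + x.c * (r * t.2.2)
        = r * (t.1 + dotProduct x.a t.2.1 + x.c * t.2.2)
      rw [dotProduct_smul, smul_eq_mul]; ring
    · show r • t.2.1 + (r * t.2.2) • x.b = r • (t.2.1 + t.2.2 • x.b)
      rw [smul_add, mul_smul]

theorem L_mul (x y : Heis n p) : L (x * y) = L x * L y := by
  apply LinearMap.ext
  intro t
  refine Prod.ext ?_ (Prod.ext ?_ rfl)
  · show t.1 + dotProduct (x.a + y.a) t.2.1 + (x.c + y.c + dotProduct x.a y.b) * t.2.2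
      = (t.1 + dotProduct y.a t.2.1 + y.c * t.2.2) + dotProduct x.a (t.2.1 + t.2.2 • y.b)
        + x.c * t.2.2
    rw [add_dotProduct, dotProduct_add, dotProduct_smul, smul_eq_mul]; ring
  · show t.2.1 + t.2.2 • (x.b + y.b) = (t.2.1 + t.2.2 • y.b) + t.2.2 • x.b
    rw [smul_add]; abel

theorem L_one : L (1 : Heis n p) = 1 := by
  apply LinearMap.ext
  intro t
  refine Prod.ext ?_ (Prod.ext ?_ rfl)
  · show t.1 + dotProduct (0 : Fin n → ZMod p) t.2.1 + 0 * t.2.2 = t.1
    rw [zero_dotProduct, zero_mul, add_zero, add_zero]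
  · show t.2.1 + t.2.2 • (0 : Fin n → ZMod p) = t.2.1
    rw [smul_zero, add_zero]

def Lhom : Heis n p →* Module.End (ZMod p) (ZMod p × (Fin n → ZMod p) × ZMod p) where
  toFun := L
  map_one' := L_one
  map_mul' := L_mul

theorem L_inj : Function.Injective (L : Heis n p → _) := by
  classical
  intro x y h
  have h1 := congrArg
    (fun f : Module.End (ZMod p) (ZMod p × (Fin n → ZMod p) × ZMod p) => f (0, 0, 1)) h
  have hc : x.c = y.c := by
    have e' : (0 : ZMod p) + dotProduct x.a (0 : Fin n → ZMod p) + x.c * 1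
        = 0 + dotProduct y.a (0 : Fin n → ZMod p) + y.c * 1 := congrArg Prod.fst h1
    rw [dotProduct_zero, dotProduct_zero] at e'
    linear_combination e'
  have hb : x.b = y.b := by
    have e' : (0 : Fin n → ZMod p) + (1 : ZMod p) • x.b = 0 + (1 : ZMod p) • y.b :=
      congrArg (fun t : ZMod p × (Fin n → ZMod p) × ZMod p => t.2.1) h1
    rw [one_smul, one_smul, zero_add, zero_add] at e'
    exact e'
  have ha : x.a = y.a := by
    funext i
    have e' : (0 : ZMod p) + dotProduct x.a (Pi.single i 1) + x.c * 0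
        = 0 + dotProduct y.a (Pi.single i 1) + y.c * 0 :=
      congrArg (fun f : Module.End (ZMod p) (ZMod p × (Fin n → ZMod p) × ZMod p) =>
        (f (0, Pi.single i 1, 0)).1) h
    rw [dotProduct_single, dotProduct_single] at e'
    linear_combination e'
  exact Heis.ext ha hb hc

end Heis

/-- For every odd prime p and every n ≥ 1 there is an extraspecial p-group of order p^(1+2n) and exponent p; concretely, the general linear group of degree n + 2 over the field with p elements contains such a subgroup. -/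
theorem result (p : ℕ) [Fact p.Prime] (hp : p ≠ 2) (n : ℕ) (hn : 1 ≤ n) : ∃ E : Subgroup (Matrix.GeneralLinearGroup (Fin (n + 2)) (ZMod p)), Cfsg.IsExtraspecial p ↥E ∧ Nat.card E = p ^ (1 + 2 * n) ∧ ∀ x ∈ E, x ^ p = 1 := by
  haveI : NeZero p := ⟨(Fact.out : p.Prime).ne_zero⟩
  obtain ⟨e⟩ : Nonempty ((ZMod p × (Fin n → ZMod p) × ZMod p) ≃ₗ[ZMod p]
      (Fin (n + 2) → ZMod p)) :=
    ⟨LinearEquiv.ofFinrankEq _ _ (by simp <;> omega)⟩
  obtain ⟨Φ⟩ : Nonempty (Module.End (ZMod p) (ZMod p × (Fin n → ZMod p) × ZMod p) ≃*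
      Matrix (Fin (n + 2)) (Fin (n + 2)) (ZMod p)) :=
    ⟨(e.conjRingEquiv.toMulEquiv).trans (LinearMap.toMatrixAlgEquiv').toMulEquiv⟩
  obtain ⟨f, hf⟩ : ∃ f : Heis n p →* Matrix.GeneralLinearGroup (Fin (n + 2)) (ZMod p),
      Function.Injective f := by
    refine ⟨(Units.mapEquiv Φ).toMonoidHom.comp (Heis.Lhom.toHomUnits), ?_⟩
    intro x y h
    have h' : Heis.Lhom.toHomUnits x = Heis.Lhom.toHomUnits y := (Units.mapEquiv Φ).injective h
    exact Heis.L_inj (congrArg Units.val h')
  obtain ⟨φ⟩ : Nonempty (Heis n p ≃* ↥f.range) := ⟨MonoidHom.ofInjective hf⟩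
  refine ⟨f.range, ?_, ?_, ?_⟩
  · haveI : Finite ↥f.range := Finite.of_equiv _ φ.toEquiv
    apply Cfsg.Agent.S3799.es_crit (1 + 2 * n)
    · rw [← Nat.card_congr φ.toEquiv]; exact Heis.card_eq
    · rw [← Nat.card_congr (Subgroup.centerCongr φ).toEquiv]; exact Heis.card_center
    · intro a b g
      obtain ⟨x, rfl⟩ := φ.surjective a
      obtain ⟨y, rfl⟩ := φ.surjective b
      obtain ⟨w, rfl⟩ := φ.surjective g
      simp only [← map_mul, ← map_inv]
      exact congrArg φ (Heis.comm_central x y w)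
    · intro a
      obtain ⟨x, rfl⟩ := φ.surjective a
      rw [← map_pow, Heis.pow_p hp x, map_one]
    · obtain ⟨x, y, hxy⟩ := Heis.noncomm (p := p) hn
      refine ⟨φ x, φ y, ?_⟩
      intro h
      rw [← map_mul, ← map_mul] at h
      exact hxy (φ.injective h)
  · rw [← Nat.card_congr φ.toEquiv]; exact Heis.card_eq
  · intro g hg
    obtain ⟨x, rfl⟩ := hg
    rw [← map_pow, Heis.pow_p hp x, map_one]

end Cfsg.Agent.S3799
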