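import Cfsg.Statements.S3800
import Mathlib.Tactic
import Cfsg.Agent.Lib.Helper8.Frattini

set_option autoImplicit false
open Cfsg
open Cfsg.Agent.Lib.Helper8

namespace Cfsg.Agent.S3800

/-- Let G be a finite group, N a normal subgroup of G whose order is prime to p, and P a p-subgroup of G. Then in G/N the normalizer of the image of P is the image of N_G(P), and the centralizer of the image of P is the image of C_G(P). -/
theorem result {G : Type*} [Group G] [Finite G] {p : ℕ} [Fact p.Prime] (N : Subgroup G) [N.Normal] (hN : (Nat.card N).Coprime p) (P : Subgroup G) (hP : IsPGroup p P) : Subgroup.normalizer ((P.map (QuotientGroup.mk' N)) : Set (G ⧸ N)) = (Subgroup.normalizer (P : Set G)).map (QuotientGroup.mk' N) ∧ Subgroup.centralizer ((P.map (QuotientGroup.mk' N)) : Set (G ⧸ N)) = (Subgroup.centralizer (P : Set G)).map (QuotientGroup.mk' N) := by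
  set π := QuotientGroup.mk' N with hπ
  have hker : π.ker = N := QuotientGroup.ker_mk' N
  have hsurj : Function.Surjective π := QuotientGroup.mk'_surjective N
  have key : ∀ g : G, π g ∈ Subgroup.normalizer ((P.map π : Subgroup (G ⧸ N)) : Set (G ⧸ N)) →
      ∃ x ∈ Subgroup.normalizer (P : Set G), π x = π g := by
    intro g hg
    have h1 : g ∈ (Subgroup.normalizer ((P.map π : Subgroup (G ⧸ N)) : Set (G ⧸ N))).comap π := hg
    rw [Subgroup.comap_normalizer_eq_of_surjective _ hsurj, Subgroup.comap_map_eq, hker] at h1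
    have h2 : P.map (MulAut.conj g).toMonoidHom ≤ P ⊔ N := by
      have h3 := h8_map_conj_eq_of_mem_normalizer h1
      rw [← h3]; exact Subgroup.map_mono le_sup_left
    obtain ⟨n, hn, hPn⟩ := h8_conj_eq_of_le_sup N hN P hP g h2
    refine ⟨n⁻¹ * g, ?_, ?_⟩
    · apply h8_mem_normalizer_of_map_conj_eq
      rw [h8_map_conj_mul, hPn, ← h8_map_conj_mul, inv_mul_cancel, h8_map_conj_one]
    · rw [map_mul, map_inv]
      have h3 : π n = 1 := by rw [← MonoidHom.mem_ker, hker]; exact hn
      rw [h3]; simp
  constructor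
  · apply le_antisymm
    · intro y hy
      obtain ⟨g, rfl⟩ := hsurj y
      obtain ⟨x, hx, hxg⟩ := key g hy
      exact ⟨x, hx, hxg⟩
    · exact Subgroup.le_normalizer_map π
  · apply le_antisymm
    · intro y hy
      obtain ⟨g, rfl⟩ := hsurj y
      have hyn : π g ∈ Subgroup.normalizer ((P.map π : Subgroup (G ⧸ N)) : Set (G ⧸ N)) :=
        Subgroup.centralizer_le_normalizer _ hy
      obtain ⟨x, hx, hxg⟩ := key g hyn
      refine ⟨x, ?_, hxg⟩
      rw [SetLike.mem_coe, Subgroup.mem_centralizer_iff]
      intro u hu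
      have hinf := h8_inf_eq_bot_of_coprime hP hN
      have h1 : x * u * x⁻¹ * u⁻¹ ∈ P ⊓ N := by
        refine Subgroup.mem_inf.2 ⟨?_, ?_⟩
        · exact P.mul_mem ((Subgroup.mem_normalizer_iff.1 hx u).1 hu) (P.inv_mem hu)
        · rw [← hker, MonoidHom.mem_ker]
          simp only [map_mul, map_inv]
          rw [hxg]
          have h4 := Subgroup.mem_centralizer_iff.1 hy (π u) (Subgroup.mem_map_of_mem π hu)
          rw [← h4]; group
      rw [hinf, Subgroup.mem_bot] at h1
      calc u * x = (x * u * x⁻¹ * u⁻¹)⁻¹ * (x * u) := by group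
        _ = x * u := by rw [h1]; simp
    · have h5 := Subgroup.map_centralizer_le_centralizer_image (P : Set G) π
      rwa [← Subgroup.coe_map] at h5

end Cfsg.Agent.S3800
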