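import Cfsg.Statements.S3951
import Mathlib
import Cfsg.Agent.Lib.Helper8.ZModProdSchur

set_option autoImplicit false
open Cfsg
open Cfsg.Agent.Lib.Helper8

namespace Cfsg.Agent.S3951

/-- For positive integers `m` and `n` with `n` dividing `m`, the Schur multiplier of the abelian group `ZMod m × ZMod n` (written multiplicatively) is cyclic of order `n`. In particular the elementary abelian group of order `p ^ 2` has multiplier of order `p`. -/
theorem result (m n : ℕ) [NeZero m] [NeZero n] (hnm : n ∣ m) : Cfsg.HasCyclicSchurMultiplier (Multiplicative (ZMod m × ZMod n)) n := by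
  refine ⟨⟨h8_BExt (h8_zβ m n hnm), inferInstance, inferInstance, h8_BExt.proj _,
    h8_zprod_ext_isStem m n hnm, ⟨h8_BExt.kerEquiv _⟩⟩, fun Γ _ _ σ hσ => h8_zmod_prod_stem σ hσ⟩

end Cfsg.Agent.S3951
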