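import Mathlib
import Cfsg.Statements.S3962

set_option autoImplicit false
open Cfsg

namespace Cfsg.Agent.S3962

/-- Let `G` be a perfect group and `π : G →* Q` a surjective homomorphism whose kernel is central. Then `π` maps the centre of `G` onto the centre of `Q`. Taking `π` to be the map to `G ⧸ Z(G)` shows that the central quotient of a perfect group has trivial centre. -/
theorem result {G Q : Type*} [Group G] [Group Q] (hG : Group.IsPerfect G) (π : G →* Q) (hπ : Function.Surjective π) (hker : π.ker ≤ Subgroup.center G) : (Subgroup.center G).map π = Subgroup.center Q := by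
  ext q
  constructor
  · rintro ⟨z, hz, rfl⟩
    rw [Subgroup.mem_center_iff]
    intro q'
    obtain ⟨g, rfl⟩ := hπ q'
    rw [← map_mul, ← map_mul, Subgroup.mem_center_iff.mp hz g]
  · intro hq
    obtain ⟨g, rfl⟩ := hπ q
    refine ⟨g, ?_, rfl⟩
    have hc : ∀ x : G, g * x * g⁻¹ * x⁻¹ ∈ Subgroup.center G := by
      intro x
      apply hker
      rw [MonoidHom.mem_ker]
      simp only [map_mul, map_inv]
      rw [← Subgroup.mem_center_iff.mp hq (π x)]
      simp
    let c : G →* G := MonoidHom.mk' (fun x => g * x * g⁻¹ * x⁻¹) (by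
      intro x y
      have h1 := Subgroup.mem_center_iff.mp (hc y) x
      have h2 : g * (x * y) * g⁻¹ * (x * y)⁻¹ = (g * x * g⁻¹ * x⁻¹) * (x * (g * y * g⁻¹ * y⁻¹)) * x⁻¹ := by
        group
      have h3 : (g * x * g⁻¹ * x⁻¹) * ((g * y * g⁻¹ * y⁻¹) * x) * x⁻¹
          = (g * x * g⁻¹ * x⁻¹) * (g * y * g⁻¹ * y⁻¹) := by group
      rw [h2, h1, h3])
    have hcx : ∀ x, c x = g * x * g⁻¹ * x⁻¹ := fun x => rfl
    have hk : commutator G ≤ c.ker := by
      rw [commutator_eq_closure, Subgroup.closure_le]
      rintro _ ⟨x, y, rfl⟩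
      rw [SetLike.mem_coe, MonoidHom.mem_ker, commutatorElement_def, map_mul, map_mul, map_mul, map_inv, map_inv]
      have h1 := Subgroup.mem_center_iff.mp (hc x) (c y)
      rw [hcx x]
      rw [← h1]
      group
    rw [hG.commutator_eq_top] at hk
    change g ∈ Subgroup.center G
    rw [Subgroup.mem_center_iff]
    intro x
    have hx : c x = 1 := MonoidHom.mem_ker.mp (hk (Subgroup.mem_top x))
    have hx' : g * x * g⁻¹ * x⁻¹ = 1 := hx
    have : g * x = x * g := by
      have h3 : g * x = (g * x * g⁻¹ * x⁻¹) * (x * g) := by group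
      rw [h3, hx', one_mul]
    exact this.symm

end Cfsg.Agent.S3962
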