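import Cfsg.Statements.S3964
import Mathlib
import Cfsg.Agent.Lib.Helper8.DihedralSchur

set_option autoImplicit false
open Cfsg
open Cfsg.Agent.Lib.Helper8

namespace Cfsg.Agent.S3964

/-- For odd `n` the dihedral group of order `2 n` has trivial Schur multiplier. -/
theorem result (n : ℕ) (hn : Odd n) : Cfsg.HasCyclicSchurMultiplier (DihedralGroup n) 1 := by
  have hn0 : NeZero n := ⟨by rintro rfl; simp at hn⟩
  apply h8_schur_one_of_forall_ker_bot
  intro Γ _ _ σ hσ
  exact (h8_dihedral_stem_ker n σ hσ).2 hn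

end Cfsg.Agent.S3964
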