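import Cfsg.Statements.S3965
import Mathlib
import Cfsg.Agent.Lib.Helper8.DihedralSchur

set_option autoImplicit false
open Cfsg
open Cfsg.Agent.Lib.Helper8

namespace Cfsg.Agent.S3965

/-- For even `n ≥ 2` the dihedral group of order `2 n` has Schur multiplier cyclic of order `2`. -/
theorem result (n : ℕ) [NeZero n] (hn : Even n) : Cfsg.HasCyclicSchurMultiplier (DihedralGroup n) 2 := by
  refine ⟨⟨QuaternionGroup n, inferInstance, inferInstance, h8_dicToDih n,
    h8_dicToDih_isStem n hn, ?_⟩, ?_⟩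
  · have hc : Nat.card (h8_dicToDih n).ker = 2 := h8_dicToDih_card_ker n
    have : Fact (Nat.Prime 2) := ⟨Nat.prime_two⟩
    have hcyc : IsCyclic (h8_dicToDih n).ker := isCyclic_of_prime_card hc
    have e := zmodCyclicMulEquiv hcyc
    rw [hc] at e
    exact ⟨e.symm⟩
  · intro Γ _ _ σ hσ
    exact h8_exists_surj_zmod_of_card_dvd_prime Nat.prime_two (h8_dihedral_stem_ker n σ hσ).1

end Cfsg.Agent.S3965
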