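import Cfsg.Statements.S3968
import Cfsg.Agent.Lib.Lead.CharFrobP
import Cfsg.Agent.Lib.Lead.CharMGroup
import Cfsg.Agent.Lib.Lead.CharCentral2

set_option autoImplicit false

namespace Cfsg.Agent.S3968

open Cfsg Cfsg.Agent.Lib.Lead Module
open scoped ComplexConjugate

theorem result {G : Type*} [Group G] [Finite G] (p : ℕ) (hp : p.Prime) (χ : Cfsg.IrrCharacter G) (hdeg : χ.1 1 = p) (hfaith : ∀ g : G, χ.1 g = χ.1 1 → g = 1) (hdiv : p ^ 2 ∣ Nat.card G) : Subgroup.center G ≠ ⊥ := by
  classical
  letI := Fintype.ofFinite G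
  haveI : Fact p.Prime := ⟨hp⟩
  intro hbot
  obtain ⟨n, ρ, hirr, hρ⟩ := id χ.2
  haveI := hirr
  have hfin : finrank ℂ (Fin n → ℂ) = p := by
    have := Representation.char_one ρ
    rw [hρ, hdeg] at this
    exact_mod_cast this.symm
  have hinj : ∀ a b : G, ρ a = ρ b → a = b := by
    intro a b h
    have h1 : ρ (a * b⁻¹) = LinearMap.id := by
      rw [map_mul, h, ← map_mul, mul_inv_cancel, map_one]; rfl
    have h2 : χ.1 (a * b⁻¹) = χ.1 1 := by
      rw [← hρ, Representation.char_one, char_eq_finrank_iff]; exact h1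
    exact mul_inv_eq_one.mp (hfaith _ h2)
  have hscal : ∀ x : G, (∃ c : ℂ, ρ x = c • LinearMap.id) → x = 1 := by
    rintro x ⟨c, hc⟩
    have hx : x ∈ Subgroup.center G := by
      rw [Subgroup.mem_center_iff]
      intro g
      apply hinj
      rw [map_mul, map_mul, hc]
      ext v
      simp
    rw [hbot] at hx
    exact Subgroup.mem_bot.mp hx
  obtain ⟨P⟩ : Nonempty (Sylow p G) := inferInstance
  have hvan : ∀ x : G, x ≠ 1 → (P : Subgroup G) ≤ Subgroup.centralizer {x} → χ.1 x = 0 := by
    intro x hx1 hle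
    have hcop : Nat.Coprime (finrank ℂ (Fin n → ℂ))
        (Subgroup.centralizer ({x} : Set G)).index := by
      rw [hfin]
      apply (Nat.Prime.coprime_iff_not_dvd hp).mpr
      intro hdvd
      exact P.not_dvd_index (dvd_trans hdvd (Subgroup.index_dvd_of_le hle))
    rcases char_zero_or_norm_eq_of_coprime ρ x hcop with h0 | h0
    · rw [← hρ]; exact h0
    · exfalso
      exact hx1 (hscal x ((norm_char_eq_finrank_iff ρ x).mp h0))
  have hP2 : p ^ 2 ∣ Nat.card P := by
    have h1 : p ^ 2 ∣ Nat.card P * (P : Subgroup G).index := by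
      rw [Subgroup.card_mul_index]; exact hdiv
    exact (Nat.Coprime.pow_left 2
      ((Nat.Prime.coprime_iff_not_dvd hp).mpr P.not_dvd_index)).dvd_of_dvd_mul_right h1
  obtain ⟨j, hj⟩ := (P.2).exists_card_eq
  obtain ⟨Q, hQP, hQ2, hQj, hQpg⟩ : ∃ Q : Subgroup G, Q = (P : Subgroup G) ∧ p ^ 2 ∣ Nat.card Q ∧
      Nat.card Q = p ^ j ∧ IsPGroup p Q := ⟨P, rfl, hP2, hj, P.2⟩
  rw [← hQP] at hvan
  letI : Fintype Q := Fintype.ofFinite Q
  have hres : IsCharacter Q (fun x : Q => χ.1 x) :=
    isCharacter_res Q (isCharacter_of_isIrrCharacter χ.2)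
  have hres1 : (fun x : Q => χ.1 x) 1 = (p : ℂ) := by
    show χ.1 ((1 : Q) : G) = _
    rw [Subgroup.coe_one, hdeg]
  have hresdeg : charDegree (fun x : Q => χ.1 x) = p := charDegree_of_one_eq hres1
  have hle2 : p ^ 2 ≤ Nat.card Q := Nat.le_of_dvd Nat.card_pos hQ2
  by_cases hab : ∀ a b : Q, a * b = b * a
  · have hv : ∀ x : Q, x ≠ 1 → χ.1 x = 0 := by
      intro x hx
      apply hvan x (fun h => hx (Subtype.ext h))
      intro y hy
      rw [Subgroup.mem_centralizer_iff]
      intro z hz
      rw [Set.mem_singleton_iff] at hz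
      subst hz
      exact congrArg Subtype.val (hab x ⟨y, hy⟩)
    obtain ⟨m, hm⟩ := classInner_isCharacter_nat hres (isCharacter_one (G := Q))
    unfold classInner at hm
    have hsum : ∑ g : Q, (fun x : Q => χ.1 x) g * conj ((fun _ : Q => (1:ℂ)) g) = (p : ℂ) := by
      rw [Finset.sum_eq_single (1 : Q)]
      · simp [hdeg]
      · intro b _ hb; simp [hv b hb]
      · intro h; exact absurd (Finset.mem_univ _) h
    rw [hsum] at hm
    have hQ0 : (Nat.card Q : ℂ) ≠ 0 := by exact_mod_cast (Nat.card_pos (α := Q)).ne'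
    have hpm : p = m * Nat.card Q := by
      have : (p : ℂ) = (m : ℂ) * (Nat.card Q : ℂ) := by
        rw [← hm]; field_simp
      exact_mod_cast this
    rcases Nat.eq_zero_or_pos m with h0 | h0
    · rw [h0, zero_mul] at hpm; exact hp.ne_zero hpm
    · nlinarith [hp.one_lt]
  · push Not at hab
    obtain ⟨a, b, hab⟩ := hab
    by_cases hlin : ∀ θ : IrrCharacter Q, classInner (fun x : Q => χ.1 x) θ ≠ 0 →
        (θ : Q → ℂ) 1 = 1
    · haveI : Finite (IrrCharacter Q) := irr_finite
      letI : Fintype (IrrCharacter Q) := Fintype.ofFinite _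
      have hexp := expansion (fun x : Q => χ.1 x) (isClassFunction_of_isCharacter hres)
      obtain ⟨c, hc⟩ : ∃ c : Q, c = a * b * a⁻¹ * b⁻¹ := ⟨_, rfl⟩
      have hval : ∀ θ : IrrCharacter Q, classInner (fun x : Q => χ.1 x) θ ≠ 0 →
          (θ : Q → ℂ) c = (θ : Q → ℂ) 1 := by
        intro θ hθ
        obtain ⟨lam, hl⟩ := exists_hom_of_linear θ.2 (hlin θ hθ)
        rw [hl, hl, hc]
        simp
      have e1 := congrFun hexp c
      have e2 := congrFun hexp 1
      have h3 : (fun x : Q => χ.1 x) c = (fun x : Q => χ.1 x) 1 := by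
        show χ.1 (c : G) = χ.1 ((1 : Q) : G)
        rw [e1, e2]
        simp only [Finset.sum_apply, Pi.smul_apply, smul_eq_mul]
        apply Finset.sum_congr rfl
        intro θ _
        by_cases hθ : classInner (fun x : Q => χ.1 x) θ = 0
        · rw [hθ, zero_mul, zero_mul]
        · rw [hval θ hθ]
      have hc1 : (c : G) = 1 := hfaith _ h3
      apply hab
      have h4 : c = 1 := Subtype.ext hc1
      rw [hc] at h4
      calc a * b = (a * b * a⁻¹ * b⁻¹) * (b * a) := by group
        _ = b * a := by rw [h4, one_mul]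
    · push Not at hlin
      obtain ⟨θ, hθ, hθ1⟩ := hlin
      obtain ⟨k, σ, hσirr, hσ⟩ := id θ.2
      haveI := hσirr
      have hθd : (θ : Q → ℂ) 1 = (k : ℂ) := by
        rw [← hσ, Representation.char_one]; simp
      have hkle : k ≤ p := by
        have := charDegree_le_of_inner_ne_zero hres θ hθ
        rw [hresdeg, charDegree_of_one_eq hθd] at this; exact this
      have hkdvd : k ∣ Nat.card Q := irr_degree_dvd_card θ k hθd
      have hk : k = p := by
        rw [hQj] at hkdvd
        obtain ⟨i, hi, rfl⟩ := (Nat.dvd_prime_pow hp).mp hkdvd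
        rcases i with _ | i
        · exfalso; apply hθ1; rw [hθd]; simp
        · rcases i with _ | i
          · simp
          · exfalso
            have : p ^ 2 ≤ p ^ (i + 1 + 1) := Nat.pow_le_pow_right hp.pos (by omega)
            nlinarith [hp.one_lt]
      have heq : (fun x : Q => χ.1 x) = (θ : Q → ℂ) :=
        eq_of_inner_ne_zero_of_charDegree_le hres θ hθ
          (by rw [hresdeg, charDegree_of_one_eq hθd, hk])
      haveI : Nontrivial Q := by
        rw [← Finite.one_lt_card_iff_nontrivial]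
        nlinarith [hp.one_lt]
      obtain ⟨z, hz, hz1⟩ : ∃ z ∈ Subgroup.center Q, z ≠ 1 := by
        haveI := hQpg.center_nontrivial
        obtain ⟨⟨z, hz⟩, hne⟩ := exists_ne (1 : Subgroup.center Q)
        exact ⟨z, hz, fun h => hne (Subtype.ext h)⟩
      have hz0 : χ.1 (z : G) = 0 := by
        apply hvan (z : G) (fun h => hz1 (Subtype.ext h))
        intro y hy
        rw [Subgroup.mem_centralizer_iff]
        intro w hw
        rw [Set.mem_singleton_iff] at hw
        subst hw
        have := Subgroup.mem_center_iff.mp hz ⟨y, hy⟩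
        exact (congrArg Subtype.val this).symm
      obtain ⟨c, hc, -⟩ := exists_central_scalar σ z hz
      have hnorm := (norm_char_eq_finrank_iff σ z).mpr ⟨c, hc⟩
      have h5 : (θ : Q → ℂ) z = 0 := by rw [← heq]; exact hz0
      rw [hσ, h5, norm_zero] at hnorm
      have h6 : finrank ℂ (Fin k → ℂ) = 0 := by exact_mod_cast hnorm.symm
      rw [Module.finrank_fin_fun, hk] at h6
      exact hp.ne_zero h6

end Cfsg.Agent.S3968
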