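import Cfsg.Statements.S3997
import Mathlib
import Cfsg.Agent.Lib.Helper8.PElem

set_option autoImplicit false
open Cfsg
open Cfsg.Agent.Lib.Helper8

namespace Cfsg.Agent.S3997

/-- Let G and H be finite groups with the same order type: for every m they have the same number of elements of order m. If G is nilpotent then so is H. -/
theorem result {G H : Type*} [Group G] [Finite G] [Group H] [Finite H] (hT : (∀ m : ℕ, Nat.card {g : G // orderOf g = m} = Nat.card {h : H // orderOf h = m})) (hG : Group.IsNilpotent G) :
    Group.IsNilpotent H := by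
  classical
  -- an order-preserving bijection
  let e : G ≃ H := Equiv.ofFiberEquiv (f := (orderOf : G → ℕ)) (g := (orderOf : H → ℕ))
    (fun m => (Finite.card_eq.1 (hT m)).some)
  have he : ∀ g : G, orderOf (e g) = orderOf g := fun g => Equiv.ofFiberEquiv_map _ g
  have hcard : Nat.card H = Nat.card G := (Nat.card_congr e).symm
  have hGs := ((isNilpotent_of_finite_tfae (G := G)).out 0 3).1 hG
  apply ((isNilpotent_of_finite_tfae (G := H)).out 0 3).2
  intro p hp Q
  obtain ⟨P⟩ : Nonempty (Sylow p G) := inferInstance
  have hPn : (P : Subgroup G).Normal := hGs p hp P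
  -- the set of p-elements of H is Q
  have hQP : Nat.card (Q : Subgroup H) = Nat.card (P : Subgroup G) := by
    rw [Sylow.card_eq_multiplicity, Sylow.card_eq_multiplicity, hcard]
  have hsub : ((Q : Subgroup H) : Set H) ⊆ e '' ((P : Subgroup G) : Set G) → 
      ((Q : Subgroup H) : Set H) = e '' ((P : Subgroup G) : Set G) := by
    intro hs
    apply Set.eq_of_subset_of_ncard_le hs _ (Set.toFinite _)
    rw [Set.ncard_image_of_injective _ e.injective, ← Nat.card_coe_set_eq, ← Nat.card_coe_set_eq]
    exact hQP.symm.le
  have hQe : ((Q : Subgroup H) : Set H) = e '' ((P : Subgroup G) : Set G) := by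
    apply hsub
    intro y hy
    obtain ⟨k, hk⟩ := h8_exists_orderOf_eq_pow Q.isPGroup' hy
    refine ⟨e.symm y, ?_, by simp⟩
    apply h8_mem_of_normal_sylow P hPn (k := k)
    rw [← he, Equiv.apply_symm_apply, hk]
  have hmem : ∀ y : H, y ∈ (Q : Subgroup H) ↔ ∃ k : ℕ, orderOf y = p ^ k := by
    intro y
    constructor
    · intro hy
      exact h8_exists_orderOf_eq_pow Q.isPGroup' hy
    · rintro ⟨k, hk⟩
      have : y ∈ ((Q : Subgroup H) : Set H) := by
        rw [hQe]
        refine ⟨e.symm y, ?_, by simp⟩
        apply h8_mem_of_normal_sylow P hPn (k := k)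
        rw [← he, Equiv.apply_symm_apply, hk]
      exact this
  constructor
  intro y hy h
  rw [hmem] at hy ⊢
  obtain ⟨k, hk⟩ := hy
  exact ⟨k, by rw [h8_orderOf_conj, hk]⟩

end Cfsg.Agent.S3997
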