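import Cfsg.Statements.S4200
-- import your own Cfsg.Agent.* helpers here
import Mathlib
import Cfsg.Agent.Lib.Helper7.CommCount

set_option autoImplicit false
open Cfsg

namespace Cfsg.Agent.S4200

open Cfsg.Agent.Lib.Helper7

/-- Let Y be a subgroup of the finite group X, of index m. Then the numbers of conjugacy classes satisfy k(Y) ≤ m·k(X) and k(X) ≤ m·k(Y), and the second inequality is strict unless Y is normal in X. -/
theorem result {X : Type*} [Group X] [Finite X] (Y : Subgroup X) : Nat.card (ConjClasses Y) ≤ Y.index * Nat.card (ConjClasses X) ∧ Nat.card (ConjClasses X) ≤ Y.index * Nat.card (ConjClasses Y) ∧ (¬ Y.Normal → Nat.card (ConjClasses X) < Y.index * Nat.card (ConjClasses Y)) := by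
  classical
  haveI := Fintype.ofFinite X
  haveI : Fintype Y := Fintype.ofFinite Y
  obtain ⟨m, hm⟩ : ∃ m, m = Y.index := ⟨_, rfl⟩
  rw [← hm]
  have hXY : Nat.card X = Nat.card Y * m := by rw [hm]; exact (Y.card_mul_index).symm
  have hYpos : 0 < Nat.card Y := Nat.card_pos
  have hmpos : 0 < m := by rw [hm]; exact Nat.pos_of_ne_zero Subgroup.index_ne_zero_of_finite
  have hcX0 := card_comm_eq_card_conjClasses_mul_card X
  have hcY := card_comm_eq_card_conjClasses_mul_card Y
  obtain ⟨kX, hkX⟩ : ∃ kX, kX = Nat.card (ConjClasses X) := ⟨_, rfl⟩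
  obtain ⟨kY, hkY⟩ : ∃ kY, kY = Nat.card (ConjClasses Y) := ⟨_, rfl⟩
  rw [← hkX, ← hkY]
  rw [← hkX] at hcX0
  rw [← hkY] at hcY
  have hc : ∀ p : {p : Y × Y // Commute p.1 p.2}, Commute ((p.1.1 : X)) (p.1.2 : X) :=
    fun p => congrArg Subtype.val p.2
  have hinj : Nat.card {p : Y × Y // Commute p.1 p.2} ≤ Nat.card {p : X × X // Commute p.1 p.2} := by
    refine Nat.card_le_card_of_injective
      (fun p : {p : Y × Y // Commute p.1 p.2} =>
        (⟨((p.1.1 : X), (p.1.2 : X)), hc p⟩ : {p : X × X // Commute p.1 p.2})) ?_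
    intro p q h
    have h1 : ((p.1.1 : X), (p.1.2 : X)) = ((q.1.1 : X), (q.1.2 : X)) := congrArg Subtype.val h
    have h2 := (Prod.mk.injEq _ _ _ _).mp h1
    exact Subtype.ext (Prod.ext (Subtype.ext h2.1) (Subtype.ext h2.2))
  have hcX := hcX0
  rw [cm_card_comm_eq_sum] at hcX
  have hcY' : ∑ y : Y, ∑ y' : Y, (if Commute (y : X) (y' : X) then 1 else 0) = kY * Nat.card Y := by
    rw [← hcY, cm_card_comm_eq_sum]
    refine Finset.sum_congr rfl fun y _ => Finset.sum_congr rfl fun y' _ => ?_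
    refine if_congr ?_ rfl rfl
    constructor
    · intro h
      exact Subtype.ext h
    · intro h
      exact congrArg Subtype.val h
  obtain ⟨P, hP⟩ : ∃ P, P = ∑ x : X, ∑ y : Y, (if Commute x (y : X) then 1 else 0) := ⟨_, rfl⟩
  have hcore := fun x : X => cm_core Y x
  have hA : (∑ a : X, ∑ b : X, if Commute a b then 1 else 0) ≤ m * P := by
    rw [hP, Finset.mul_sum]
    refine Finset.sum_le_sum fun x _ => ?_
    obtain ⟨s, o, h1, _, h2, h3, _⟩ := hcore x
    rw [h1]
    calc s * o ≤ (∑ y : Y, if Commute x (y : X) then 1 else 0) * m := Nat.mul_le_mul h2 (hm ▸ h3)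
      _ = _ := mul_comm _ _
  have hP' : P = ∑ y : Y, ∑ x : X, (if Commute (y : X) x then 1 else 0) := by
    rw [hP, Finset.sum_comm]
    refine Finset.sum_congr rfl fun y _ => Finset.sum_congr rfl fun x _ => ?_
    exact if_congr ⟨Commute.symm, Commute.symm⟩ rfl rfl
  have hBterm : ∀ y : Y, (∑ x : X, if Commute (y : X) x then 1 else 0) ≤
      m * ∑ y' : Y, (if Commute (y : X) (y' : X) then 1 else 0) := by
    intro y
    obtain ⟨s, o, h1, _, h2, h3, _⟩ := hcore (y : X)
    rw [h1]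
    calc s * o ≤ (∑ y' : Y, if Commute (y : X) (y' : X) then 1 else 0) * m := Nat.mul_le_mul h2 (hm ▸ h3)
      _ = _ := mul_comm _ _
  have hB : P ≤ m * (kY * Nat.card Y) := by
    rw [hP', ← hcY', Finset.mul_sum]
    exact Finset.sum_le_sum fun y _ => hBterm y
  refine ⟨?_, ?_, ?_⟩
  · rw [hcY, hcX0, hXY] at hinj
    have h1 : kY * Nat.card Y ≤ (m * kX) * Nat.card Y := by
      calc kY * Nat.card Y ≤ kX * (Nat.card Y * m) := hinj
        _ = (m * kX) * Nat.card Y := by ring
    exact Nat.le_of_mul_le_mul_right h1 hYpos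
  · have h1 : kX * (Nat.card Y * m) ≤ (m * kY) * (Nat.card Y * m) := by
      calc kX * (Nat.card Y * m) = kX * Nat.card X := by rw [hXY]
        _ ≤ m * P := hcX ▸ hA
        _ ≤ m * (m * (kY * Nat.card Y)) := Nat.mul_le_mul_left _ hB
        _ = (m * kY) * (Nat.card Y * m) := by ring
    exact Nat.le_of_mul_le_mul_right h1 (Nat.mul_pos hYpos hmpos)
  · intro hnn
    obtain ⟨n, hn, g, hg⟩ : ∃ n ∈ Y, ∃ g : X, g * n * g⁻¹ ∉ Y := by
      by_contra hcon
      push Not at hcon
      exact hnn ⟨fun n hn g => hcon n hn g⟩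
    have hstrict : P < m * (kY * Nat.card Y) := by
      rw [hP', ← hcY', Finset.mul_sum]
      refine Finset.sum_lt_sum (fun y _ => hBterm y) ⟨⟨n, hn⟩, Finset.mem_univ _, ?_⟩
      obtain ⟨s, o, h1, hs, h2, h3, h4⟩ := hcore n
      have ho : o < m := by
        rw [hm]
        apply h4
        refine ⟨g⁻¹, fun c hc hy => hg ?_⟩
        have h5 : g * n * g⁻¹ = (c⁻¹ * g⁻¹)⁻¹ * n * (c⁻¹ * g⁻¹) := by
          have h6 : (c⁻¹ * g⁻¹)⁻¹ * n * (c⁻¹ * g⁻¹) = g * (c * n * c⁻¹) * g⁻¹ := by group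
          have h7 : c * n * c⁻¹ = n := by
            have h8 : c * n = n * c := hc.eq.symm
            rw [h8]; group
          rw [h6, h7]
        rw [h5]
        exact Y.mul_mem (Y.mul_mem (Y.inv_mem hy) hn) hy
      show (∑ x : X, if Commute n x then 1 else 0) < m * ∑ y' : Y, (if Commute n (y' : X) then 1 else 0)
      rw [h1]
      calc s * o < s * m := Nat.mul_lt_mul_of_pos_left ho hs
        _ ≤ (∑ y' : Y, if Commute n (y' : X) then 1 else 0) * m := Nat.mul_le_mul_right _ h2
        _ = _ := mul_comm _ _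
    have h1 : kX * (Nat.card Y * m) < (m * kY) * (Nat.card Y * m) := by
      calc kX * (Nat.card Y * m) = kX * Nat.card X := by rw [hXY]
        _ ≤ m * P := hcX ▸ hA
        _ < m * (m * (kY * Nat.card Y)) := Nat.mul_lt_mul_of_pos_left hstrict hmpos
        _ = (m * kY) * (Nat.card Y * m) := by ring
    exact Nat.lt_of_mul_lt_mul_right h1

end Cfsg.Agent.S4200
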