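import Cfsg.Statements.S4201
-- import your own Cfsg.Agent.* helpers here
import Mathlib
import Cfsg.Agent.Lib.Helper7.CommCount

set_option autoImplicit false
open Cfsg

namespace Cfsg.Agent.S4201

open Cfsg.Agent.Lib.Helper7

/-- If N is a normal subgroup of the finite group X then k(X) ≤ k(N)·k(X ⧸ N), where k denotes the number of conjugacy classes. -/
theorem result {X : Type*} [Group X] [Finite X] (N : Subgroup X) [N.Normal] : Nat.card (ConjClasses X) ≤ Nat.card (ConjClasses N) * Nat.card (ConjClasses (X ⧸ N)) := by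
  classical
  haveI := Fintype.ofFinite X
  haveI : Fintype N := Fintype.ofFinite N
  haveI : Fintype (X ⧸ N) := Fintype.ofFinite _
  have hcX := card_comm_eq_card_conjClasses_mul_card X
  have hcN := card_comm_eq_card_conjClasses_mul_card N
  have hcQ := card_comm_eq_card_conjClasses_mul_card (X ⧸ N)
  rw [cm_card_comm_eq_sum] at hcX hcQ
  obtain ⟨cN, hcNdef⟩ : ∃ cN, cN = ∑ y : N, ∑ y' : N, (if Commute (y : X) (y' : X) then 1 else 0) := ⟨_, rfl⟩
  have hcN' : cN = Nat.card (ConjClasses N) * Nat.card N := by
    rw [hcNdef, ← hcN, cm_card_comm_eq_sum]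
    refine Finset.sum_congr rfl fun y _ => Finset.sum_congr rfl fun y' _ => ?_
    refine if_congr ?_ rfl rfl
    constructor
    · intro h
      exact Subtype.ext h.eq
    · intro h
      exact congrArg Subtype.val h.eq
  obtain ⟨π, hπ⟩ : ∃ π : X → X ⧸ N, π = QuotientGroup.mk := ⟨_, rfl⟩
  have hL : ∀ (a : X) (q : X ⧸ N),
      (∑ b ∈ Finset.univ.filter (fun b : X => π b = q), if Commute a b then 1 else 0) ≤
        ∑ n : N, if Commute a (n : X) then 1 else 0 := by
    intro a q
    rw [← Finset.card_filter, ← Finset.card_filter]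
    by_cases hne : ((Finset.univ.filter (fun b : X => π b = q)).filter (fun b => Commute a b)).Nonempty
    · obtain ⟨b₀, hb₀⟩ := hne
      rw [Finset.mem_filter, Finset.mem_filter] at hb₀
      obtain ⟨⟨_, hb₀q⟩, hb₀c⟩ := hb₀
      have hmemN : ∀ b ∈ (Finset.univ.filter (fun b : X => π b = q)).filter (fun b => Commute a b),
          b₀⁻¹ * b ∈ N := by
        intro b hb
        rw [Finset.mem_filter, Finset.mem_filter] at hb
        obtain ⟨⟨_, hbq⟩, hbc⟩ := hb
        rw [← QuotientGroup.eq]
        rw [hπ] at hb₀q hbq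
        rw [hb₀q, hbq]
      apply Finset.card_le_card_of_injOn (fun b => if h : b₀⁻¹ * b ∈ N then (⟨b₀⁻¹ * b, h⟩ : N) else 1)
      · intro b hb
        have hb := Finset.mem_coe.mp hb
        have hmem := hmemN b hb
        rw [Finset.mem_filter, Finset.mem_filter] at hb
        obtain ⟨⟨_, hbq⟩, hbc⟩ := hb
        apply Finset.mem_coe.mpr
        show (if h : b₀⁻¹ * b ∈ N then (⟨b₀⁻¹ * b, h⟩ : N) else 1) ∈ _
        rw [dif_pos hmem]
        refine Finset.mem_filter.mpr ⟨Finset.mem_univ _, ?_⟩
        exact (hb₀c.inv_right).mul_right hbc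
      · intro b hb b' hb' h
        have hmem := hmemN b (Finset.mem_coe.mp hb)
        have hmem' := hmemN b' (Finset.mem_coe.mp hb')
        simp only [dif_pos hmem, dif_pos hmem'] at h
        have h2 := congrArg Subtype.val h
        exact mul_left_cancel h2
    · rw [Finset.not_nonempty_iff_eq_empty] at hne
      rw [hne, Finset.card_empty]
      exact Nat.zero_le _
  have hF : ∀ q₁ q₂ : X ⧸ N,
      (∑ a ∈ Finset.univ.filter (fun a : X => π a = q₁),
        ∑ b ∈ Finset.univ.filter (fun b : X => π b = q₂), if Commute a b then 1 else 0) ≤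
        (if Commute q₁ q₂ then 1 else 0) * cN := by
    intro q₁ q₂
    by_cases hq : Commute q₁ q₂
    · rw [if_pos hq, one_mul]
      calc (∑ a ∈ Finset.univ.filter (fun a : X => π a = q₁),
              ∑ b ∈ Finset.univ.filter (fun b : X => π b = q₂), if Commute a b then 1 else 0)
          ≤ ∑ a ∈ Finset.univ.filter (fun a : X => π a = q₁),
              ∑ n : N, (if Commute a (n : X) then 1 else 0) :=
            Finset.sum_le_sum fun a _ => hL a q₂
        _ = ∑ n : N, ∑ a ∈ Finset.univ.filter (fun a : X => π a = q₁),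
              (if Commute (n : X) a then 1 else 0) := by
            rw [Finset.sum_comm]
            refine Finset.sum_congr rfl fun n _ => Finset.sum_congr rfl fun a _ => ?_
            exact if_congr ⟨Commute.symm, Commute.symm⟩ rfl rfl
        _ ≤ cN := by
            rw [hcNdef]
            exact Finset.sum_le_sum fun n _ => hL (n : X) q₁
    · rw [if_neg hq, zero_mul]
      apply le_of_eq
      apply Finset.sum_eq_zero
      intro a ha
      apply Finset.sum_eq_zero
      intro b hb
      rw [if_neg]
      intro hab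
      apply hq
      rw [← (Finset.mem_filter.mp ha).2, ← (Finset.mem_filter.mp hb).2, hπ]
      exact hab.map (QuotientGroup.mk' N)
  have hdecomp : (∑ a : X, ∑ b : X, if Commute a b then 1 else 0) =
      ∑ q₁ : X ⧸ N, ∑ q₂ : X ⧸ N, ∑ a ∈ Finset.univ.filter (fun a : X => π a = q₁),
        ∑ b ∈ Finset.univ.filter (fun b : X => π b = q₂), if Commute a b then 1 else 0 := by
    rw [← Finset.sum_fiberwise Finset.univ π (fun a => ∑ b : X, if Commute a b then 1 else 0)]
    refine Finset.sum_congr rfl fun q₁ _ => ?_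
    conv_rhs => rw [Finset.sum_comm]
    refine Finset.sum_congr rfl fun a _ => ?_
    exact (Finset.sum_fiberwise Finset.univ π (fun b => if Commute a b then 1 else 0)).symm
  have hfinal : (∑ a : X, ∑ b : X, if Commute a b then 1 else 0) ≤
      (∑ q₁ : X ⧸ N, ∑ q₂ : X ⧸ N, if Commute q₁ q₂ then 1 else 0) * cN := by
    rw [hdecomp, Finset.sum_mul]
    refine Finset.sum_le_sum fun q₁ _ => ?_
    rw [Finset.sum_mul]
    exact Finset.sum_le_sum fun q₂ _ => hF q₁ q₂
  rw [hcX, hcQ, hcN'] at hfinal
  have hcard : Nat.card X = Nat.card (X ⧸ N) * Nat.card N :=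
    Subgroup.card_eq_card_quotient_mul_card_subgroup N
  have hlast : Nat.card (ConjClasses X) * Nat.card X ≤
      (Nat.card (ConjClasses N) * Nat.card (ConjClasses (X ⧸ N))) * Nat.card X := by
    calc Nat.card (ConjClasses X) * Nat.card X
        ≤ Nat.card (ConjClasses (X ⧸ N)) * Nat.card (X ⧸ N) * (Nat.card (ConjClasses N) * Nat.card N) := hfinal
      _ = (Nat.card (ConjClasses N) * Nat.card (ConjClasses (X ⧸ N))) * Nat.card X := by
          rw [hcard]; ring
  exact Nat.le_of_mul_le_mul_right hlast Nat.card_pos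

end Cfsg.Agent.S4201
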