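import Cfsg.Statements.S4203
-- import your own Cfsg.Agent.* helpers here
import Mathlib
import Cfsg.Agent.Lib.Lead.CharBurnside
import Cfsg.Agent.Lib.Helper7.Hall
import Cfsg.Agent.Lib.Helper7.SylowCount

set_option autoImplicit false
open Cfsg

namespace Cfsg.Agent.S4203

section
universe u
open Cfsg.Agent.Lib.Helper7

theorem isCoatom_comap {G : Type*} [Group G] (N : Subgroup G) [N.Normal] (M : Subgroup (G ⧸ N))
    (hM : IsCoatom M) : IsCoatom (M.comap (QuotientGroup.mk' N)) := by
  have hf := QuotientGroup.mk'_surjective N
  constructor
  · intro h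
    apply hM.1
    rw [← Subgroup.map_comap_eq_self_of_surjective hf M, h, Subgroup.map_top_of_surjective _ hf]
  · intro K hK
    have hNK : (QuotientGroup.mk' N).ker ≤ K := by
      rw [QuotientGroup.ker_mk']
      exact (le_comap_mk' N M).trans hK.le
    have h1 : M < K.map (QuotientGroup.mk' N) := by
      refine lt_of_le_of_ne ?_ ?_
      · rw [← Subgroup.map_comap_eq_self_of_surjective hf M]
        exact Subgroup.map_mono hK.le
      · intro h
        have h2 : K = M.comap (QuotientGroup.mk' N) := by
          rw [h, Subgroup.comap_map_eq_self hNK]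
        exact hK.ne' h2
    have h2 := hM.2 _ h1
    rw [← Subgroup.comap_map_eq_self hNK, h2, Subgroup.comap_top]

theorem main : ∀ (n : ℕ) (G : Type u) [Group G] [Finite G], Nat.card G ≤ n →
    (∀ M : Subgroup G, IsCoatom M → ∃ p : ℕ, p.Prime ∧ (M.index = p ∨ M.index = p ^ 2)) →
    Group.IsSolvable G := by
  intro n
  induction n with
  | zero =>
    intro G _ _ h
    have := Nat.card_pos (α := G)
    omega
  | succ n ih =>
    intro G _ _ hn h
    by_cases htriv : Subsingleton G
    · exact isSolvable_of_comm (fun a b => Subsingleton.elim _ _)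
    have hnt : Nontrivial G := not_subsingleton_iff_nontrivial.mp htriv
    have hG0 : Nat.card G ≠ 0 := Nat.card_pos.ne'
    have hG1 : Nat.card G ≠ 1 := (Finite.one_lt_card (α := G)).ne'
    have hne : (Nat.card G).primeFactors.Nonempty := by
      obtain ⟨r, hr, hrd⟩ := Nat.exists_prime_and_dvd hG1
      exact ⟨r, Nat.mem_primeFactors.mpr ⟨hr, hrd, hG0⟩⟩
    obtain ⟨p, hp⟩ : ∃ p : ℕ, p = (Nat.card G).primeFactors.max' hne := ⟨_, rfl⟩
    have hpmem : p ∈ (Nat.card G).primeFactors := hp ▸ Finset.max'_mem _ hne
    have hpp : p.Prime := Nat.prime_of_mem_primeFactors hpmem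
    have hpd : p ∣ Nat.card G := Nat.dvd_of_mem_primeFactors hpmem
    have hmax : ∀ q : ℕ, q.Prime → q ∣ Nat.card G → q ≤ p := by
      intro q hq hqd
      rw [hp]
      exact Finset.le_max' _ q (Nat.mem_primeFactors.mpr ⟨hq, hqd, hG0⟩)
    have := Fact.mk hpp
    obtain ⟨P⟩ : Nonempty (Sylow p G) := inferInstance
    by_cases hPn : (P : Subgroup G).Normal
    · have hPne : (P : Subgroup G) ≠ ⊥ := P.ne_bot_of_dvd_card hpd
      have hq : Nat.card (G ⧸ (P : Subgroup G)) ≤ n := by
        have e1 := Subgroup.card_eq_card_quotient_mul_card_subgroup (P : Subgroup G)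
        have e2 : 2 ≤ Nat.card (P : Subgroup G) := (Subgroup.one_lt_card_iff_ne_bot _).mpr hPne
        have e3 : 0 < Nat.card (G ⧸ (P : Subgroup G)) := Nat.card_pos
        nlinarith
      have hquot : ∀ M : Subgroup (G ⧸ (P : Subgroup G)), IsCoatom M →
          ∃ q : ℕ, q.Prime ∧ (M.index = q ∨ M.index = q ^ 2) := by
        intro M hM
        obtain ⟨q, hq, hidx⟩ := h _ (isCoatom_comap (P : Subgroup G) M hM)
        refine ⟨q, hq, ?_⟩
        rwa [Subgroup.index_comap_of_surjective _ (QuotientGroup.mk'_surjective _)] at hidx
      have hsolQ := ih (G ⧸ (P : Subgroup G)) hq hquot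
      have hsolP : Group.IsSolvable (P : Subgroup G) := by
        have : Group.IsNilpotent (P : Subgroup G) := P.isPGroup'.isNilpotent
        infer_instance
      exact solvable_of_ker_le_range (P : Subgroup G).subtype (QuotientGroup.mk' (P : Subgroup G))
        (by rw [QuotientGroup.ker_mk', Subgroup.range_subtype])
    · have hNP : Subgroup.normalizer ((P : Subgroup G) : Set G) ≠ ⊤ := fun h =>
        hPn (Subgroup.normalizer_eq_top_iff.mp h)
      obtain ⟨M, hM, hle⟩ := (eq_top_or_exists_le_coatom _).resolve_left hNP
      obtain ⟨q, hq, hidx⟩ := h M hM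
      have hmod : M.index ≡ 1 [MOD p] := by
        have h1 : Nat.card (Sylow p G) = (Subgroup.normalizer ((P : Subgroup G) : Set G)).index :=
          P.card_eq_index_normalizer
        have hPM : (P : Subgroup G) ≤ M := Subgroup.le_normalizer.trans hle
        have h2 := card_sylow_of_le P M hPM
        have h3 := Subgroup.relIndex_mul_index hle
        have e1 : Nat.card (Sylow p G) ≡ 1 [MOD p] := card_sylow_modEq_one p G
        have e2 : Nat.card (Sylow p M) ≡ 1 [MOD p] := card_sylow_modEq_one p M
        rw [h1, ← h3] at e1
        rw [h2] at e2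
        have e3 := e2.mul_right M.index
        rw [one_mul] at e3
        exact e3.symm.trans e1
      have hqG : q ∣ Nat.card G := by
        rcases hidx with h1 | h1
        · rw [← h1]; exact Subgroup.index_dvd_card M
        · exact (dvd_pow_self q two_ne_zero).trans (h1 ▸ Subgroup.index_dvd_card M)
      have hqp : q ≤ p := hmax q hq hqG
      have key : p = 3 ∧ q = 2 := by
        rcases hidx with h1 | h1
        · exfalso
          rw [h1] at hmod
          unfold Nat.ModEq at hmod
          rw [Nat.mod_eq_of_lt hpp.one_lt] at hmod
          rcases Nat.lt_or_eq_of_le hqp with h2 | h2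
          · rw [Nat.mod_eq_of_lt h2] at hmod
            exact hq.one_lt.ne' hmod
          · rw [h2, Nat.mod_self] at hmod
            omega
        · rw [h1] at hmod
          have hq2 := hq.two_le
          have h1le : 1 ≤ q ^ 2 := Nat.one_le_pow _ _ (by omega)
          have hdvd : p ∣ q ^ 2 - 1 := (Nat.modEq_iff_dvd' h1le).mp hmod.symm
          have hfac : q ^ 2 - 1 = (q - 1) * (q + 1) := by
            obtain ⟨k, rfl⟩ : ∃ k, q = k + 1 := ⟨q - 1, by omega⟩
            simp only [Nat.add_sub_cancel]
            have : (k + 1) ^ 2 = k * (k + 1 + 1) + 1 := by ring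
            rw [this, Nat.add_sub_cancel]
          rw [hfac] at hdvd
          rcases (Nat.Prime.dvd_mul hpp).mp hdvd with h2 | h2
          · have h3 := Nat.le_of_dvd (by omega) h2
            omega
          · have h3 := Nat.le_of_dvd (by omega) h2
            have h4 : p ≠ q := by
              intro h
              rw [h] at h2
              have h5 := (Nat.dvd_add_right (dvd_refl q)).mp h2
              exact hq.one_lt.ne' (Nat.dvd_one.mp h5)
            have h5 : p = q + 1 := by omega
            have hq2' : q = 2 := by
              rcases hq.eq_two_or_odd with h6 | h6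
              · exact h6
              · exfalso
                have h7 : 2 ∣ p := by rw [h5]; omega
                have h8 := (Nat.prime_dvd_prime_iff_eq Nat.prime_two hpp).mp h7
                omega
            exact ⟨by omega, hq2'⟩
      obtain ⟨hp3, hq2⟩ := key
      have hcard : Nat.card G = 2 ^ (Nat.card G).factorization 2 * 3 ^ (Nat.card G).factorization 3 := by
        have hpf : (Nat.card G).primeFactors ⊆ {2, 3} := by
          intro r hr
          have hr' := Nat.prime_of_mem_primeFactors hr
          have h1 := hmax r hr' (Nat.dvd_of_mem_primeFactors hr)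
          rw [hp3] at h1
          have h2 := hr'.two_le
          simp only [Finset.mem_insert, Finset.mem_singleton]
          omega
        have h1 := Nat.prod_primeFactors_pow_factorization hG0
        rw [Finset.prod_subset hpf] at h1
        · rw [Finset.prod_pair (by norm_num)] at h1
          exact h1
        · intro x hx hx'
          have hxp : x.Prime := by
            simp only [Finset.mem_insert, Finset.mem_singleton] at hx
            rcases hx with rfl | rfl
            · exact Nat.prime_two
            · exact Nat.prime_three
          have hnd : ¬ x ∣ Nat.card G := fun hd => hx' (Nat.mem_primeFactors.mpr ⟨hxp, hd, hG0⟩)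
          rw [Nat.factorization_eq_zero_of_not_dvd hnd, pow_zero]
      exact Cfsg.Agent.Lib.Lead.burnside_paqb 2 3 _ _ Nat.prime_two Nat.prime_three hcard

end

/-- A finite group in which every maximal subgroup has index a prime or the square of a prime is solvable. -/
theorem result {G : Type*} [Group G] [Finite G] (h : ∀ M : Subgroup G, IsCoatom M → ∃ p : ℕ, p.Prime ∧ (M.index = p ∨ M.index = p ^ 2)) : Group.IsSolvable G := by
  exact main (Nat.card G) G le_rfl h

end Cfsg.Agent.S4203
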