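import Cfsg.Statements.S4204
-- import your own Cfsg.Agent.* helpers here
import Mathlib

set_option autoImplicit false
open Cfsg

namespace Cfsg.Agent.S4204

section
universe u
variable {G : Type u} [Group G]

theorem comm_le_iff (N T : Subgroup G) [N.Normal] [T.Normal] :
    ∃ N' : Subgroup G, N'.Normal ∧ ∀ X : Subgroup G, X ≤ N' ↔ ⁅X, T⁆ ≤ N := by
  have hTn : (T.map (QuotientGroup.mk' N)).Normal :=
    Subgroup.Normal.map inferInstance _ (QuotientGroup.mk'_surjective N)
  refine ⟨(Subgroup.centralizer ((T.map (QuotientGroup.mk' N) : Subgroup (G ⧸ N)) :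
    Set (G ⧸ N))).comap (QuotientGroup.mk' N), ?_, ?_⟩
  · infer_instance
  · intro X
    rw [← Subgroup.map_le_iff_le_comap, ← Subgroup.commutator_eq_bot_iff_le_centralizer,
      ← Subgroup.map_commutator, ← le_bot_iff, Subgroup.map_le_iff_le_comap, MonoidHom.comap_bot,
      QuotientGroup.ker_mk']

theorem sup_comm_le (N T X Y : Subgroup G) [N.Normal] [T.Normal]
    (hX : ⁅X, T⁆ ≤ N) (hY : ⁅Y, T⁆ ≤ N) : ⁅X ⊔ Y, T⁆ ≤ N := by
  obtain ⟨N', -, hN'⟩ := comm_le_iff N T
  rw [← hN'] at hX hY ⊢
  exact sup_le hX hY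

/-- shifted lower central series: `A S 0 = ⊤`, `A S (i+1) = L_i(S)` -/
def shiftLCS (S : Subgroup G) : ℕ → Subgroup G
  | 0 => ⊤
  | (i + 1) => S.lowerCentralSeries i

theorem shiftLCS_normal (S : Subgroup G) [S.Normal] (i : ℕ) : (shiftLCS S i).Normal := by
  cases i with
  | zero => exact Subgroup.normal_top
  | succ i => exact Subgroup.lowerCentralSeries_normal S i

theorem shiftLCS_comm (S : Subgroup G) [S.Normal] (i : ℕ) :
    ⁅shiftLCS S i, S⁆ ≤ shiftLCS S (i + 1) := by
  cases i with
  | zero => exact Subgroup.commutator_le_right _ _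
  | succ i => exact le_of_eq rfl

theorem lcs_sup_le (H K : Subgroup G) [H.Normal] [K.Normal] (n : ℕ) :
    ∀ N : Subgroup G, N.Normal → (∀ a b, a + b = n + 1 → shiftLCS H a ⊓ shiftLCS K b ≤ N) →
      (H ⊔ K).lowerCentralSeries n ≤ N := by
  induction n with
  | zero =>
    intro N hN h
    rw [Subgroup.lowerCentralSeries_zero]
    refine sup_le ?_ ?_
    · have := h 1 0 rfl
      simpa [shiftLCS] using this
    · have := h 0 1 rfl
      simpa [shiftLCS] using this
  | succ n ih =>
    intro N hN h
    rw [Subgroup.lowerCentralSeries_succ]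
    obtain ⟨N', hN'n, hN'⟩ := comm_le_iff N (H ⊔ K)
    rw [← hN']
    refine ih N' hN'n ?_
    intro a b hab
    rw [hN']
    have h1 := shiftLCS_normal H a
    have h2 := shiftLCS_normal K b
    rw [Subgroup.commutator_comm]
    refine sup_comm_le N _ H K ?_ ?_
    · rw [Subgroup.commutator_comm]
      refine le_trans ?_ (h (a + 1) b (by omega))
      refine le_inf ?_ ?_
      · exact le_trans (Subgroup.commutator_mono inf_le_left le_rfl) (shiftLCS_comm H a)
      · exact le_trans (Subgroup.commutator_mono inf_le_right le_rfl) (Subgroup.commutator_le_left _ _)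
    · rw [Subgroup.commutator_comm]
      refine le_trans ?_ (h a (b + 1) (by omega))
      refine le_inf ?_ ?_
      · exact le_trans (Subgroup.commutator_mono inf_le_left le_rfl) (Subgroup.commutator_le_left _ _)
      · exact le_trans (Subgroup.commutator_mono inf_le_right le_rfl) (shiftLCS_comm K b)

end

/-- If `H` and `K` are normal subgroups of a finite group with `H` nilpotent of class at most `c` and `K` nilpotent of class at most `d` (the terms with index `c`, respectively `d`, of their lower central series are trivial, indices starting at `0`), then `HK` is nilpotent of class at most `c + d`. -/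
theorem result {G : Type*} [Group G] [Finite G] (H K : Subgroup G) [H.Normal] [K.Normal] (c d : ℕ) (hH : H.lowerCentralSeries c = ⊥) (hK : K.lowerCentralSeries d = ⊥) : (H ⊔ K).lowerCentralSeries (c + d) = ⊥ := by
  rw [eq_bot_iff]
  refine lcs_sup_le H K (c + d) ⊥ Subgroup.normal_bot ?_
  intro a b hab
  by_cases ha : c + 1 ≤ a
  · obtain ⟨a', rfl⟩ : ∃ a', a = a' + 1 := ⟨a - 1, by omega⟩
    refine le_trans inf_le_left ?_
    show H.lowerCentralSeries a' ≤ ⊥
    rw [← hH]
    exact H.lowerCentralSeries_antitone (by omega)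
  · obtain ⟨b', rfl⟩ : ∃ b', b = b' + 1 := ⟨b - 1, by omega⟩
    refine le_trans inf_le_right ?_
    show K.lowerCentralSeries b' ≤ ⊥
    rw [← hK]
    exact K.lowerCentralSeries_antitone (by omega)

end Cfsg.Agent.S4204
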