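import Cfsg.Statements.S4205
-- import your own Cfsg.Agent.* helpers here
import Mathlib

set_option autoImplicit false
open Cfsg

namespace Cfsg.Agent.S4205

section
universe u
variable {G : Type u} [Group G]
open scoped commutatorElement

theorem ucs_le_iter_normalizer (H : Subgroup G) (i : ℕ) :
    Subgroup.upperCentralSeries G i ≤
      (fun K : Subgroup G => Subgroup.normalizer (K : Set G))^[i] H := by
  induction i with
  | zero => simp
  | succ i ih =>
    rw [Function.iterate_succ_apply']
    intro z hz
    rw [Subgroup.mem_upperCentralSeries_succ_iff] at hz
    rw [Subgroup.mem_normalizer_iff]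
    intro h
    have hzh := ih (hz h)
    constructor
    · intro hh
      have := mul_mem hzh hh
      have e : ⁅z, h⁆ * h = z * h * z⁻¹ := by rw [commutatorElement_def]; group
      rw [e] at this
      exact this
    · intro hh
      have := mul_mem (inv_mem hzh) hh
      have e : ⁅z, h⁆⁻¹ * (z * h * z⁻¹) = h := by rw [commutatorElement_def]; group
      rw [e] at this
      exact this

end

/-- In a finite group whose upper central series reaches the whole group at step `c` (nilpotent of class at most `c`), starting from any subgroup and taking normalizers `c` times reaches the whole group. -/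
theorem result {G : Type*} [Group G] [Finite G] (c : ℕ) (hG : Subgroup.upperCentralSeries G c = ⊤) (H : Subgroup G) : (fun K : Subgroup G => Subgroup.normalizer (K : Set G))^[c] H = ⊤ := by
  rw [eq_top_iff, ← hG]
  exact ucs_le_iter_normalizer H c

end Cfsg.Agent.S4205
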