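import Cfsg.Statements.S4207
-- import your own Cfsg.Agent.* helpers here
import Mathlib

set_option autoImplicit false
open Cfsg

namespace Cfsg.Agent.S4207

section
universe u

theorem card_dvd_of_free {A X : Type*} [Group A] [MulAction A X] [Finite A] [Finite X]
    (h : ∀ (a : A) (x : X), a • x = x → a = 1) : Nat.card A ∣ Nat.card X := by
  rw [Nat.card_congr (MulAction.selfEquivSigmaOrbitsQuotientStabilizer A X)]
  let _ := Fintype.ofFinite (MulAction.orbitRel.Quotient A X)
  rw [Nat.card_sigma]
  refine Finset.dvd_sum fun ω _ => ?_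
  have hs : MulAction.stabilizer A ω.out = ⊥ := by
    rw [Subgroup.eq_bot_iff_forall]
    intro a ha
    exact h a _ ha
  rw [hs]
  change Nat.card A ∣ (⊥ : Subgroup A).index
  rw [Subgroup.index_bot]

theorem exists_gens (p : ℕ) [Fact p.Prime] : ∀ (r : ℕ) (Q : Type u) [Group Q] [Finite Q],
    Nat.card Q = p ^ r → ∃ f : Fin r → Q, Subgroup.closure (Set.range f) = ⊤ := by
  have hp : p.Prime := Fact.out
  intro r
  induction r with
  | zero =>
    intro Q _ _ hQ
    refine ⟨Fin.elim0, ?_⟩
    have : Subsingleton Q := (Nat.card_eq_one_iff_unique.mp (by simpa using hQ)).1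
    exact Subsingleton.elim _ _
  | succ r ih =>
    intro Q _ _ hQ
    obtain ⟨M, hM⟩ := Sylow.exists_subgroup_card_pow_prime p (G := Q) (n := r)
      (by rw [hQ]; exact pow_dvd_pow p (Nat.le_succ r))
    obtain ⟨f, hf⟩ := ih M hM
    have hMi : M.index = p := by
      have := M.card_mul_index
      rw [hM, hQ, pow_succ] at this
      exact Nat.eq_of_mul_eq_mul_left (pow_pos hp.pos r) this
    have hMne : M ≠ ⊤ := by
      intro h
      rw [h, Subgroup.index_top] at hMi
      exact hp.one_lt.ne hMi
    obtain ⟨x, hx⟩ : ∃ x, x ∉ M := by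
      by_contra hc
      exact hMne (eq_top_iff.mpr fun y _ => by_contra fun hy => hc ⟨y, hy⟩)
    refine ⟨Fin.snoc (fun i => (f i : Q)) x, ?_⟩
    obtain ⟨K, hK⟩ : ∃ K, K = Subgroup.closure
      (Set.range (Fin.snoc (fun i => (f i : Q)) x : Fin (r+1) → Q)) := ⟨_, rfl⟩
    rw [← hK]
    have hMK : M ≤ K := by
      have h1 : M = (Subgroup.closure (Set.range f)).map M.subtype := by
        rw [hf, ← MonoidHom.range_eq_map, Subgroup.range_subtype]
      rw [h1, MonoidHom.map_closure, hK]
      apply Subgroup.closure_mono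
      rintro _ ⟨_, ⟨i, rfl⟩, rfl⟩
      exact ⟨Fin.castSucc i, by simp⟩
    have hxK : x ∈ K := by
      rw [hK]
      exact Subgroup.subset_closure ⟨Fin.last r, by simp⟩
    have hKi : K.index ∣ p := hMi ▸ Subgroup.index_dvd_of_le hMK
    rcases (Nat.dvd_prime hp).mp hKi with h1 | h2
    · exact Subgroup.index_eq_one.mp h1
    · exfalso
      have hcard : Nat.card K = Nat.card M := by
        have h1 := K.card_mul_index
        have h3 := M.card_mul_index
        rw [h2] at h1; rw [hMi] at h3
        exact Nat.eq_of_mul_eq_mul_right hp.pos (h1.trans h3.symm)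
      have := Subgroup.eq_of_le_of_card_ge hMK hcard.le
      exact hx (this ▸ hxK)

variable {P : Type u} [Group P]

/-- tuples congruent to `f` modulo the Frattini subgroup -/
def Tup {r : ℕ} (f : Fin r → P) : Type u := {g : Fin r → P // ∀ i, g i * (f i)⁻¹ ∈ frattini P}

def tupEquiv {r : ℕ} (f : Fin r → P) : Tup f ≃ (Fin r → frattini P) where
  toFun g := fun i => ⟨g.1 i * (f i)⁻¹, g.2 i⟩
  invFun h := ⟨fun i => (h i : P) * f i, fun i => by simp⟩
  left_inv g := by
    apply Subtype.ext
    funext i
    simp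
  right_inv h := by
    funext i
    apply Subtype.ext
    simp

def tupAction {r : ℕ} (f : Fin r → P) (A : Subgroup (MulAut P))
    (hA : ∀ α ∈ A, ∀ x : P, α x * x⁻¹ ∈ frattini P) : MulAction A (Tup f) where
  smul α g := ⟨fun i => (α : MulAut P) (g.1 i), fun i => by
    have h1 := hA α α.2 (g.1 i)
    have h2 := g.2 i
    have := mul_mem h1 h2
    simpa [mul_assoc] using this⟩
  one_smul g := Subtype.ext (funext fun i => rfl)
  mul_smul a b g := Subtype.ext (funext fun i => rfl)

theorem main [Finite P] {p n r : ℕ} [Fact p.Prime] (hP : Nat.card P = p ^ n)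
    (hr : (frattini P).index = p ^ r) (A : Subgroup (MulAut P))
    (hA : ∀ α ∈ A, ∀ x : P, α x * x⁻¹ ∈ frattini P) : Nat.card A ∣ p ^ (r * (n - r)) := by
  have hp : p.Prime := Fact.out
  have hΦn : (frattini P).Normal := inferInstance
  have hQ : Nat.card (P ⧸ frattini P) = p ^ r := hr
  obtain ⟨fb, hfb⟩ := exists_gens p r (P ⧸ frattini P) hQ
  obtain ⟨f, hf⟩ : ∃ f : Fin r → P, ∀ i, (QuotientGroup.mk (f i) : P ⧸ frattini P) = fb i :=
    ⟨fun i => (fb i).out, fun i => QuotientGroup.out_eq' _⟩
  have hgen : ∀ g : Fin r → P, (∀ i, g i * (f i)⁻¹ ∈ frattini P) →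
      Subgroup.closure (Set.range g) = ⊤ := by
    intro g hg
    apply frattini_nongenerating
    rw [eq_top_iff]
    have hmap : (Subgroup.closure (Set.range g)).map (QuotientGroup.mk' (frattini P)) = ⊤ := by
      rw [MonoidHom.map_closure, ← Set.range_comp]
      have : (QuotientGroup.mk' (frattini P)) ∘ g = fb := by
        funext i
        rw [← hf i]
        simp only [Function.comp, QuotientGroup.mk'_apply]
        have h1 : ((g i * (f i)⁻¹ : P) : P ⧸ frattini P) = 1 :=
          (QuotientGroup.eq_one_iff _).mpr (hg i)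
        rw [QuotientGroup.mk_mul, QuotientGroup.mk_inv, mul_inv_eq_one] at h1
        exact h1
      rw [this, hfb]
    intro x _
    have hx : (QuotientGroup.mk' (frattini P)) x ∈
        (Subgroup.closure (Set.range g)).map (QuotientGroup.mk' (frattini P)) := by
      rw [hmap]; trivial
    obtain ⟨y, hy, hyx⟩ := hx
    have h2 : y⁻¹ * x ∈ frattini P := QuotientGroup.eq.mp hyx
    have h3 : x = y * (y⁻¹ * x) := by group
    rw [h3]
    exact mul_mem (Subgroup.mem_sup_left hy) (Subgroup.mem_sup_right h2)
  let _ : MulAction A (Tup f) := tupAction f A hA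
  have hfin : Finite (Tup f) := Finite.of_equiv _ (tupEquiv f).symm
  have hfree : ∀ (a : A) (x : Tup f), a • x = x → a = 1 := by
    intro a x hax
    have h1 : ∀ i, (a : MulAut P) (x.1 i) = x.1 i := fun i => congrFun (congrArg Subtype.val hax) i
    have h2 : ((a : MulAut P) : P ≃* P).toMonoidHom = MonoidHom.id P := by
      apply MonoidHom.eq_of_eqOn_dense (hgen x.1 x.2)
      rintro _ ⟨i, rfl⟩
      exact h1 i
    apply Subtype.ext
    apply MulEquiv.ext
    intro y
    exact DFunLike.congr_fun h2 y
  have hdvd := card_dvd_of_free hfree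
  have hX : Nat.card (Tup f) = Nat.card (frattini P) ^ r := by
    rw [Nat.card_congr (tupEquiv f), Nat.card_fun, Nat.card_fin]
  have hΦ : Nat.card (frattini P) * p ^ r = p ^ n := by
    rw [← hr, ← hP]
    exact (frattini P).card_mul_index
  have hrn : r ≤ n := by
    have : p ^ r ∣ p ^ n := Dvd.intro_left _ hΦ
    exact (Nat.pow_dvd_pow_iff_le_right hp.one_lt).mp this
  have hΦ' : Nat.card (frattini P) = p ^ (n - r) := by
    have : p ^ n = p ^ (n - r) * p ^ r := by rw [← pow_add, Nat.sub_add_cancel hrn]
    rw [this] at hΦ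
    exact Nat.eq_of_mul_eq_mul_right (pow_pos hp.pos r) hΦ
  rw [hX, hΦ', ← pow_mul, mul_comm] at hdvd
  exact hdvd

end

/-- Let `P` be a group of order `p^n` whose Frattini subgroup has index `p^r`. Then any group of automorphisms of `P` each of which induces the identity on the Frattini quotient has order dividing `p^(r(n-r))`; in particular it is a `p`-group. -/
theorem result {P : Type*} [Group P] [Finite P] {p n r : ℕ} [Fact p.Prime] (hP : Nat.card P = p ^ n) (hr : (frattini P).index = p ^ r) (A : Subgroup (MulAut P)) (hA : ∀ α ∈ A, ∀ x : P, α x * x⁻¹ ∈ frattini P) : Nat.card A ∣ p ^ (r * (n - r)) := by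
  exact main hP hr A hA

end Cfsg.Agent.S4207
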