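import Cfsg.Statements.S4208
-- import your own Cfsg.Agent.* helpers here
import Mathlib
import Cfsg.Agent.S4207
import Cfsg.Agent.Lib.Helper7.PCore
import Cfsg.Agent.Lib.Helper2.PGroup

set_option autoImplicit false
open Cfsg

namespace Cfsg.Agent.S4208

section
universe u
open Cfsg.Agent.Lib.Helper7 Cfsg.Agent.Lib.Helper2
variable {P : Type u} [Group P]

def Wsub {j : ℕ} (g : Fin j → P) : Subgroup P := frattini P ⊔ Subgroup.closure (Set.range g)

theorem Wsub_cons {j : ℕ} (v : P) (g : Fin j → P) :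
    Wsub (Fin.cons v g : Fin (j + 1) → P) = Wsub g ⊔ Subgroup.zpowers v := by
  unfold Wsub
  rw [Fin.range_cons, Set.insert_eq, Subgroup.closure_union, ← Subgroup.zpowers_eq_closure,
    sup_assoc, sup_comm (Subgroup.zpowers v)]

theorem frattini_le_Wsub {j : ℕ} (g : Fin j → P) : frattini P ≤ Wsub g := le_sup_left

theorem card_sup_zpowers [Finite P] {p : ℕ} [Fact p.Prime] (hP : IsPGroup p P) (W : Subgroup P)
    (hW : frattini P ≤ W) (v : P) (hv : v ∉ W) :
    Nat.card (W ⊔ Subgroup.zpowers v : Subgroup P) = Nat.card W * p := by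
  have hWn : W.Normal :=
    @Subgroup.Normal.of_commutator_le P _ W (le_trans (commutator_le_frattini_of_pGroup hP) hW)
  have h1 := card_mul_relIndex_of_le (le_sup_left : W ≤ W ⊔ Subgroup.zpowers v)
  rw [← h1]
  congr 1
  have h2 := Subgroup.relIndex_ker (K := W ⊔ Subgroup.zpowers v) (QuotientGroup.mk' W)
  rw [QuotientGroup.ker_mk'] at h2
  rw [h2, Subgroup.map_sup, QuotientGroup.map_mk'_self, bot_sup_eq, MonoidHom.map_zpowers,
    Nat.card_zpowers]
  have h3 : (QuotientGroup.mk' W v) ^ p = 1 := by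
    rw [← map_pow]
    exact (QuotientGroup.eq_one_iff _).mpr (hW (pow_mem_frattini_of_pGroup hP v))
  have h4 : QuotientGroup.mk' W v ≠ 1 := fun h => hv ((QuotientGroup.eq_one_iff _).mp h)
  exact orderOf_eq_prime h3 h4

theorem card_Wsub_le [Finite P] {p : ℕ} [hpf : Fact p.Prime] (hP : IsPGroup p P) :
    ∀ (j : ℕ) (g : Fin j → P), Nat.card (Wsub g) ≤ Nat.card (frattini P) * p ^ j := by
  intro j
  induction j with
  | zero =>
    intro g
    have h0 : Wsub g = frattini P := by
      unfold Wsub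
      rw [Set.range_eq_empty, Subgroup.closure_empty, sup_bot_eq]
    rw [h0]; simp
  | succ j ih =>
    intro g
    rw [← Fin.cons_self_tail g, Wsub_cons]
    by_cases hv : g 0 ∈ Wsub (Fin.tail g)
    · rw [sup_eq_left.mpr (Subgroup.zpowers_le.mpr hv)]
      calc Nat.card (Wsub (Fin.tail g)) ≤ Nat.card (frattini P) * p ^ j := ih _
        _ ≤ Nat.card (frattini P) * p ^ (j + 1) :=
          Nat.mul_le_mul_left _ (Nat.pow_le_pow_right hpf.out.pos (Nat.le_succ j))
    · rw [card_sup_zpowers hP (Wsub (Fin.tail g)) (frattini_le_Wsub _) _ hv, pow_succ, ← mul_assoc]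
      exact Nat.mul_le_mul_right _ (ih _)

theorem card_Wsub_cons_iff [Finite P] {p : ℕ} [hpf : Fact p.Prime] (hP : IsPGroup p P) (j : ℕ)
    (g : Fin j → P) (v : P) :
    Nat.card (Wsub (Fin.cons v g : Fin (j + 1) → P)) = Nat.card (frattini P) * p ^ (j + 1) ↔
      Nat.card (Wsub g) = Nat.card (frattini P) * p ^ j ∧ v ∉ Wsub g := by
  have hp : p.Prime := hpf.out
  rw [Wsub_cons]
  constructor
  · intro h
    by_cases hv : v ∈ Wsub g
    · exfalso
      rw [sup_eq_left.mpr (Subgroup.zpowers_le.mpr hv)] at h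
      have h1 := card_Wsub_le hP j g
      rw [h, pow_succ] at h1
      have hpos : 0 < Nat.card (frattini P) * p ^ j :=
        Nat.mul_pos Nat.card_pos (pow_pos hp.pos j)
      have h2 := hp.two_le
      nlinarith
    · refine ⟨?_, hv⟩
      rw [card_sup_zpowers hP (Wsub g) (frattini_le_Wsub _) _ hv, pow_succ, ← mul_assoc] at h
      exact Nat.eq_of_mul_eq_mul_right hp.pos h
  · rintro ⟨h, hv⟩
    rw [card_sup_zpowers hP (Wsub g) (frattini_le_Wsub _) _ hv, h, pow_succ, mul_assoc]

/-- tuples whose span with the Frattini subgroup has the maximal possible order -/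
def Good (P : Type u) [Group P] (p j : ℕ) : Type u :=
  {g : Fin j → P // Nat.card (Wsub g) = Nat.card (frattini P) * p ^ j}

theorem finite_Good [Finite P] (p j : ℕ) : Finite (Good P p j) := by
  unfold Good; infer_instance

theorem card_good [Finite P] {p : ℕ} [hpf : Fact p.Prime] (hP : IsPGroup p P) : ∀ j : ℕ,
    Nat.card (Good P p j) =
      ∏ i ∈ Finset.range j, (Nat.card P - Nat.card (frattini P) * p ^ i) := by
  classical
  intro j
  induction j with
  | zero =>
    rw [Finset.range_zero, Finset.prod_empty, Nat.card_eq_one_iff_unique]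
    refine ⟨⟨fun a b => Subtype.ext (Subsingleton.elim _ _)⟩, ⟨⟨Fin.elim0, ?_⟩⟩⟩
    have h0 : Wsub (Fin.elim0 : Fin 0 → P) = frattini P := by
      unfold Wsub
      rw [Set.range_eq_empty, Subgroup.closure_empty, sup_bot_eq]
    rw [h0]; simp
  | succ j ih =>
    rw [Finset.prod_range_succ, ← ih]
    have hchar : ∀ g : Fin (j + 1) → P,
        Nat.card (Wsub g) = Nat.card (frattini P) * p ^ (j + 1) ↔
          Nat.card (Wsub (Fin.tail g)) = Nat.card (frattini P) * p ^ j ∧
            g 0 ∉ Wsub (Fin.tail g) := by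
      intro g
      have h0 := card_Wsub_cons_iff hP j (Fin.tail g) (g 0)
      rw [Fin.cons_self_tail] at h0
      exact h0
    obtain ⟨F, hF⟩ : ∃ F : Good P p (j + 1) → {x : Good P p j × P // x.2 ∉ Wsub x.1.1},
        ∀ g : Good P p (j + 1), ((F g).1.1.1 = Fin.tail g.1 ∧ (F g).1.2 = g.1 0) :=
      ⟨fun g => ⟨(⟨Fin.tail g.1, ((hchar g.1).mp g.2).1⟩, g.1 0), ((hchar g.1).mp g.2).2⟩,
        fun g => ⟨rfl, rfl⟩⟩
    have hFb : Function.Bijective F := by
      constructor
      · intro g g' h
        have h1 : Fin.tail g.1 = Fin.tail g'.1 := by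
          rw [← (hF g).1, ← (hF g').1, h]
        have h2 : g.1 0 = g'.1 0 := by
          rw [← (hF g).2, ← (hF g').2, h]
        apply Subtype.ext
        rw [← Fin.cons_self_tail g.1, ← Fin.cons_self_tail g'.1, h1, h2]
      · rintro ⟨⟨⟨g, hg⟩, v⟩, hv⟩
        refine ⟨⟨Fin.cons v g, (card_Wsub_cons_iff hP j g v).mpr ⟨hg, hv⟩⟩, ?_⟩
        apply Subtype.ext
        apply Prod.ext
        · apply Subtype.ext
          have h0 := (hF ⟨Fin.cons v g, (card_Wsub_cons_iff hP j g v).mpr ⟨hg, hv⟩⟩).1
          rw [h0]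
          exact Fin.tail_cons (α := fun _ => P) v g
        · have h0 := (hF ⟨Fin.cons v g, (card_Wsub_cons_iff hP j g v).mpr ⟨hg, hv⟩⟩).2
          rw [h0]
          show (Fin.cons v g : Fin (j + 1) → P) 0 = v
          exact Fin.cons_zero (α := fun _ => P) v g
    have hfin := finite_Good (P := P) p j
    rw [Nat.card_congr (Equiv.ofBijective F hFb),
      Nat.card_congr (Equiv.subtypeProdEquivSigmaSubtype
        (fun (g : Good P p j) (v : P) => v ∉ Wsub g.1))]
    let _ := Fintype.ofFinite (Good P p j)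
    rw [Nat.card_sigma]
    have hsum : ∀ g : Good P p j, Nat.card {v : P // v ∉ Wsub g.1} =
        Nat.card P - Nat.card (frattini P) * p ^ j := by
      intro g
      have h3 : Nat.card (Wsub g.1) = Nat.card (frattini P) * p ^ j := g.2
      have h1 : Nat.card P = Nat.card {v : P // v ∈ Wsub g.1} +
          Nat.card {v : P // ¬ v ∈ Wsub g.1} := by
        rw [← Nat.card_sum]
        exact Nat.card_congr (Equiv.sumCompl (fun v => v ∈ Wsub g.1)).symm
      have h2 : Nat.card {v : P // v ∈ Wsub g.1} = Nat.card (Wsub g.1) := rfl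
      omega
    rw [Finset.sum_congr rfl (fun g _ => hsum g), Finset.sum_const, Finset.card_univ,
      smul_eq_mul, ← Nat.card_eq_fintype_card]

/-- generating tuples -/
def GenT (P : Type u) [Group P] (r : ℕ) : Type u :=
  {g : Fin r → P // Subgroup.closure (Set.range g) = ⊤}

theorem finite_GenT [Finite P] (r : ℕ) : Finite (GenT P r) := by
  unfold GenT; infer_instance

def genAction (P : Type u) [Group P] (r : ℕ) : MulAction (MulAut P) (GenT P r) where
  smul α g := ⟨fun i => α (g.1 i), by
    have h0 : (fun i => α (g.1 i)) = (α.toMonoidHom : P → P) ∘ g.1 := rfl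
    rw [h0, Set.range_comp, ← MonoidHom.map_closure, g.2]
    exact Subgroup.map_top_of_surjective _ α.surjective⟩
  one_smul g := Subtype.ext (funext fun i => rfl)
  mul_smul a b g := Subtype.ext (funext fun i => rfl)

theorem main [Finite P] {p n r : ℕ} [hpf : Fact p.Prime] (hP : Nat.card P = p ^ n)
    (hr : (frattini P).index = p ^ r) :
    Nat.card (MulAut P) ∣ p ^ (r * (n - r)) * ∏ i ∈ Finset.range r, (p ^ r - p ^ i) := by
  have hp : p.Prime := hpf.out
  have hPp : IsPGroup p P := IsPGroup.of_card hP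
  have hΦ : Nat.card (frattini P) * p ^ r = p ^ n := by
    rw [← hr, ← hP]
    exact (frattini P).card_mul_index
  have hrn : r ≤ n := by
    have h0 : p ^ r ∣ p ^ n := Dvd.intro_left _ hΦ
    exact (Nat.pow_dvd_pow_iff_le_right hp.one_lt).mp h0
  have hΦ' : Nat.card (frattini P) = p ^ (n - r) := by
    have h0 : p ^ n = p ^ (n - r) * p ^ r := by rw [← pow_add, Nat.sub_add_cancel hrn]
    rw [h0] at hΦ
    exact Nat.eq_of_mul_eq_mul_right (pow_pos hp.pos r) hΦ
  let _ : MulAction (MulAut P) (GenT P r) := genAction P r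
  have hfin := finite_GenT (P := P) r
  have hfree : ∀ (a : MulAut P) (x : GenT P r), a • x = x → a = 1 := by
    intro a x hax
    have h1 : ∀ i, a (x.1 i) = x.1 i := fun i => congrFun (congrArg Subtype.val hax) i
    have h2 : (a : P ≃* P).toMonoidHom = MonoidHom.id P := by
      apply MonoidHom.eq_of_eqOn_dense x.2
      rintro _ ⟨i, rfl⟩
      exact h1 i
    apply MulEquiv.ext
    intro y
    exact DFunLike.congr_fun h2 y
  have hdvd := Cfsg.Agent.S4207.card_dvd_of_free hfree
  have hequiv : ∀ g : Fin r → P, Nat.card (Wsub g) = Nat.card (frattini P) * p ^ r ↔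
      Subgroup.closure (Set.range g) = ⊤ := by
    intro g
    rw [hΦ, ← hP, Subgroup.card_eq_iff_eq_top]
    unfold Wsub
    constructor
    · intro h
      apply frattini_nongenerating
      rw [sup_comm]; exact h
    · intro h
      rw [h, sup_top_eq]
  have hcard : Nat.card (GenT P r) = Nat.card (Good P p r) :=
    Nat.card_congr (Equiv.subtypeEquivRight (fun g => (hequiv g).symm))
  rw [hcard, card_good hPp r, hP, hΦ'] at hdvd
  have harith : ∏ i ∈ Finset.range r, (p ^ n - p ^ (n - r) * p ^ i) =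
      p ^ (r * (n - r)) * ∏ i ∈ Finset.range r, (p ^ r - p ^ i) := by
    have h0 : ∀ i ∈ Finset.range r, p ^ n - p ^ (n - r) * p ^ i = p ^ (n - r) * (p ^ r - p ^ i) := by
      intro i _
      have e1 : p ^ n = p ^ (n - r) * p ^ r := by rw [← pow_add, Nat.sub_add_cancel hrn]
      rw [Nat.mul_sub, ← e1]
    rw [Finset.prod_congr rfl h0, Finset.prod_mul_distrib, Finset.prod_const, Finset.card_range,
      ← pow_mul, mul_comm (n - r) r]
  rw [harith] at hdvd
  exact hdvd

end

/-- Let `P` be a group of order `p^n` whose Frattini subgroup has index `p^r`. Then the order of the automorphism group of `P` divides `p^(r(n-r)) · (p^r - 1)(p^r - p) ⋯ (p^r - p^(r-1))`. -/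
theorem result {P : Type*} [Group P] [Finite P] {p n r : ℕ} [Fact p.Prime] (hP : Nat.card P = p ^ n) (hr : (frattini P).index = p ^ r) : Nat.card (MulAut P) ∣ p ^ (r * (n - r)) * ∏ i ∈ Finset.range r, (p ^ r - p ^ i) := by
  exact main hP hr

end Cfsg.Agent.S4208
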