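import Cfsg.Statements.S4216
import Cfsg.Agent.Lib.Helper2.Alperin

set_option autoImplicit false
open Cfsg

namespace Cfsg.Agent.S4216

open scoped commutatorElement
open Cfsg.Agent.Lib.Helper2

universe u

theorem gruen_le {G : Type u} [Group G] [Finite G] {p : ℕ} [Fact p.Prime] (P : Sylow p G)
    (R : Subgroup G)
    (hR1 : (P : Subgroup G) ⊓ ⁅Subgroup.normalizer ((P : Subgroup G) : Set G),
      Subgroup.normalizer ((P : Subgroup G) : Set G)⁆ ≤ R)
    (hR2 : ∀ z : G, (P : Subgroup G) ⊓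
      (⁅(P : Subgroup G), (P : Subgroup G)⁆).map (MulAut.conj z).toMonoidHom ≤ R) :
    (P : Subgroup G) ⊓ commutator G ≤ R := by
  have key : ∀ (A : Set G) (g : G), Dec (AlpSt P) A g →
      ∀ a ∈ A, a⁻¹ * (g⁻¹ * a * g) ∈ R := by
    intro A g h
    induction h with
    | nil A => intro a _; simp
    | cons A T x g hSt hA h ih =>
      intro a ha
      obtain ⟨Q, hT, hx, ht1, ht2, hor⟩ := hSt
      have hc : x⁻¹ * a * x ∈ cj A x := ⟨a, ha, rfl⟩
      have h1 := ih _ hc
      have haT : a ∈ (P : Subgroup G) ⊓ (Q : Subgroup G) := by rw [← hT]; exact hA ha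
      have hxa : x⁻¹ * a * x ∈ (P : Subgroup G) ⊓ (Q : Subgroup G) := by
        have h0 := (Subgroup.mem_normalizer_iff.mp (Subgroup.inv_mem _ hx) a).mp haT
        simpa using h0
      have hP : a⁻¹ * (x⁻¹ * a * x) ∈ (P : Subgroup G) :=
        Subgroup.mul_mem _ (Subgroup.inv_mem _ haT.1) hxa.1
      have h2 : a⁻¹ * (x⁻¹ * a * x) ∈ R := by
        rcases hor with hQP | ⟨k, hk⟩
        · apply hR1
          refine Subgroup.mem_inf.mpr ⟨hP, ?_⟩
          have e : a⁻¹ * (x⁻¹ * a * x) = ⁅a⁻¹, x⁻¹⁆ := by rw [commutatorElement_def]; group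
          rw [e]
          apply Subgroup.commutator_mem_commutator
          · exact Subgroup.le_normalizer (Subgroup.inv_mem _ haT.1)
          · apply Subgroup.inv_mem
            rw [hQP, inf_idem] at hx
            exact hx
        · have hzx : IsPGroup p (Subgroup.zpowers x) := by
            apply IsPGroup.of_card (n := k)
            rw [Nat.card_zpowers, hk]
          obtain ⟨r, hr, hrx⟩ := exists_pElt_closure_conj_le (p := p)
            (Subgroup.normalizer ((((P : Subgroup G) ⊓ (Q : Subgroup G)) : Subgroup G) : Set G))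
            ((P : Subgroup G) ⊓ Subgroup.normalizer
              ((((P : Subgroup G) ⊓ (Q : Subgroup G)) : Subgroup G) : Set G))
            (Subgroup.zpowers x) (P.2.to_le inf_le_left) ht1 (Subgroup.zpowers_le.mpr hx) hzx
          have hrN : r ∈ Subgroup.normalizer
              ((((P : Subgroup G) ⊓ (Q : Subgroup G)) : Subgroup G) : Set G) :=
            (Subgroup.closure_le _).mpr (fun z hz => hz.1) hr
          have hy : r * x * r⁻¹ ∈ (P : Subgroup G) := (hrx x (Subgroup.mem_zpowers x)).1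
          have hb : r * a * r⁻¹ ∈ (P : Subgroup G) :=
            ((Subgroup.mem_normalizer_iff.mp hrN a).mp haT).1
          apply hR2 r⁻¹
          refine Subgroup.mem_inf.mpr ⟨hP, ?_⟩
          refine ⟨⁅(r * a * r⁻¹)⁻¹, (r * x * r⁻¹)⁻¹⁆,
            Subgroup.commutator_mem_commutator (Subgroup.inv_mem _ hb) (Subgroup.inv_mem _ hy), ?_⟩
          show r⁻¹ * ⁅(r * a * r⁻¹)⁻¹, (r * x * r⁻¹)⁻¹⁆ * r⁻¹⁻¹ = a⁻¹ * (x⁻¹ * a * x)
          rw [commutatorElement_def]; group
      have e2 : a⁻¹ * ((x * g)⁻¹ * a * (x * g)) =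
          (a⁻¹ * (x⁻¹ * a * x)) * ((x⁻¹ * a * x)⁻¹ * (g⁻¹ * (x⁻¹ * a * x) * g)) := by group
      rw [e2]
      exact R.mul_mem h2 h1
  rw [inf_comm, Subgroup.commutator_inf_eq_focalSubgroup, Subgroup.focalSubgroup_def,
    Subgroup.closure_le]
  rintro y ⟨hyP, x, hxP, u, rfl⟩
  have hmem : x⁻¹ ∈ (((P : Subgroup G) ⊓ ((u⁻¹ • P : Sylow p G) : Subgroup G) : Subgroup G) :
      Set G) := by
    refine Subgroup.mem_inf.mpr ⟨Subgroup.inv_mem _ hxP, ?_⟩
    rw [Cfsg.Agent.Lib.Helper2.mem_sylow_smul_iff]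
    have e : u⁻¹⁻¹ * x⁻¹ * u⁻¹ = x⁻¹ * ⁅x, u⁆ := by rw [commutatorElement_def]; group
    rw [e]
    exact Subgroup.mul_mem _ (Subgroup.inv_mem _ hxP) hyP
  have hfin := key _ _ (alperin_dec P u⁻¹) _ hmem
  have e : x⁻¹⁻¹ * (u⁻¹⁻¹ * x⁻¹ * u⁻¹) = ⁅x, u⁆ := by rw [commutatorElement_def]; group
  rw [e] at hfin
  exact hfin

/-- Grün's first Theorem: if `P` is a Sylow `p`-subgroup of the finite group `G`, then `P ∩ G'` is the subgroup generated by `P ∩ N_G(P)'` together with the subgroups `P ∩ z P' z⁻¹` for all `z ∈ G`, where `'` denotes the derived subgroup and `N_G(P)` the normalizer of `P`. -/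
theorem result {G : Type*} [Group G] [Finite G] {p : ℕ} [Fact p.Prime] (P : Sylow p G) : (P : Subgroup G) ⊓ commutator G = ((P : Subgroup G) ⊓ ⁅Subgroup.normalizer ((P : Subgroup G) : Set G), Subgroup.normalizer ((P : Subgroup G) : Set G)⁆) ⊔ ⨆ z : G, (P : Subgroup G) ⊓ (⁅(P : Subgroup G), (P : Subgroup G)⁆).map (MulAut.conj z).toMonoidHom := by
  apply le_antisymm
  · apply gruen_le P
    · exact le_sup_left
    · intro z
      exact le_sup_of_le_right (le_iSup (fun z : G => (P : Subgroup G) ⊓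
        (⁅(P : Subgroup G), (P : Subgroup G)⁆).map (MulAut.conj z).toMonoidHom) z)
  · apply sup_le
    · apply inf_le_inf_left
      rw [commutator_def]
      exact Subgroup.commutator_mono le_top le_top
    · apply iSup_le
      intro z
      apply inf_le_inf_left
      rintro _ ⟨c, hc, rfl⟩
      have hcG : c ∈ commutator G := by
        rw [commutator_def]; exact Subgroup.commutator_mono le_top le_top hc
      exact (inferInstance : (commutator G).Normal).conj_mem c hcG z

end Cfsg.Agent.S4216
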