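import Cfsg.Statements.S4219
-- import your own Cfsg.Agent.* helpers here
import Mathlib
import Cfsg.Agent.Lib.Helper7.Compl

set_option autoImplicit false
open Cfsg

namespace Cfsg.Agent.S4219

section
open Pointwise

theorem sylow_sub_conj {G : Type*} [Group G] [Finite G] {p : ℕ} [Fact p.Prime] (H : Subgroup G)
    (P : Sylow p H) (Q : Subgroup G) (hQH : Q ≤ H) (hcard : Nat.card Q = Nat.card P) :
    ∃ h ∈ H, ∀ y : G, y ∈ Q ↔ h⁻¹ * y * h ∈ (P : Subgroup H).map H.subtype := by
  have hc : Nat.card (Q.subgroupOf H) = p ^ (Nat.card H).factorization p := by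
    rw [← Sylow.card_eq_multiplicity P, ← hcard]
    exact Nat.card_congr (Subgroup.subgroupOfEquivOfLe hQH).toEquiv
  obtain ⟨h, hh⟩ := MulAction.exists_smul_eq H P (Sylow.ofCard (Q.subgroupOf H) hc)
  refine ⟨h, h.2, fun y => ?_⟩
  constructor
  · intro hy
    have h1 : (⟨y, hQH hy⟩ : H) ∈ ((Sylow.ofCard (Q.subgroupOf H) hc : Sylow p H) : Subgroup H) := by
      rw [Sylow.coe_ofCard]; exact Subgroup.mem_subgroupOf.mpr hy
    rw [← hh, Sylow.smul_def, Sylow.pointwise_smul_def,
      Subgroup.mem_pointwise_smul_iff_inv_smul_mem] at h1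
    refine ⟨_, h1, ?_⟩
    simp [MulAut.smul_def]
  · rintro ⟨z, hz, hzy⟩
    have h1 : h * z * h⁻¹ ∈ ((h • P : Sylow p H) : Subgroup H) := by
      rw [Sylow.smul_def, Sylow.pointwise_smul_def, Subgroup.mem_pointwise_smul_iff_inv_smul_mem]
      have h2 : (MulAut.conj h)⁻¹ • (h * z * h⁻¹) = z := by
        rw [MulAut.smul_def, MulAut.conj_inv_apply]; group
      rw [h2]; exact hz
    rw [hh, Sylow.coe_ofCard, Subgroup.mem_subgroupOf] at h1
    have h3 : ((h * z * h⁻¹ : H) : G) = y := by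
      have h4 : (z : G) = (h : G)⁻¹ * y * h := hzy
      push_cast
      rw [h4]; group
    rwa [h3] at h1

end
open Pointwise

/-- Let a finite group `G` act `t`-fold transitively on a finite set, let `H` be the stabilizer of `t` distinct points and `P` a Sylow `p`-subgroup of `H`. Then the normalizer of `P` in `G` is `t`-fold transitive on the fixed points of `P`: any `t` distinct fixed points of `P` can be carried to any other `t` distinct fixed points of `P` by an element normalizing `P`. -/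
theorem result {G : Type*} [Group G] [Finite G] {α : Type*} [Fintype α] [MulAction G α] {t : ℕ} (hG : MulAction.IsMultiplyPretransitive G α t) (x : Fin t ↪ α) {p : ℕ} [Fact p.Prime] (P : Sylow p (MulAction.stabilizer G x)) (a b : Fin t ↪ α) (ha : ∀ i, a i ∈ MulAction.fixedPoints ((P : Subgroup (MulAction.stabilizer G x)).map (MulAction.stabilizer G x).subtype) α) (hb : ∀ i, b i ∈ MulAction.fixedPoints ((P : Subgroup (MulAction.stabilizer G x)).map (MulAction.stabilizer G x).subtype) α) : ∃ g ∈ Subgroup.normalizer ((((P : Subgroup (MulAction.stabilizer G x)).map (MulAction.stabilizer G x).subtype) : Subgroup G) : Set G), g • a = b := by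
  classical
  obtain ⟨H, hH⟩ : ∃ H : Subgroup G, H = MulAction.stabilizer G x := ⟨_, rfl⟩
  subst hH
  obtain ⟨P', hP'⟩ : ∃ P' : Subgroup G, P' = (P : Subgroup (MulAction.stabilizer G x)).map (MulAction.stabilizer G x).subtype := ⟨_, rfl⟩
  rw [← hP'] at ha hb ⊢
  have key : ∀ c : Fin t ↪ α, (∀ i, c i ∈ MulAction.fixedPoints P' α) →
      ∃ g ∈ Subgroup.normalizer (P' : Set G), g • x = c := by
    intro c hc
    obtain ⟨g₁, hg₁⟩ := MulAction.exists_smul_eq G x c
    obtain ⟨Q, hQ⟩ : ∃ Q : Subgroup G, Q = MulAut.conj g₁⁻¹ • P' := ⟨_, rfl⟩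
    have hQmem : ∀ y : G, y ∈ Q ↔ g₁ * y * g₁⁻¹ ∈ P' := by
      intro y
      rw [hQ, Subgroup.mem_pointwise_smul_iff_inv_smul_mem]
      have h3 : (MulAut.conj g₁⁻¹)⁻¹ • y = g₁ * y * g₁⁻¹ := by
        simp [MulAut.smul_def]
      rw [h3]
    have hQH : Q ≤ MulAction.stabilizer G x := by
      intro y hy
      have hy' : g₁ * y * g₁⁻¹ ∈ P' := (hQmem y).mp hy
      rw [MulAction.mem_stabilizer_iff]
      have h1 : (g₁ * y * g₁⁻¹) • c = c := by
        ext i
        exact hc i ⟨_, hy'⟩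
      rw [← hg₁] at h1
      have h2 := congrArg (fun z => g₁⁻¹ • z) h1
      simp only [smul_smul] at h2
      have h3 : g₁⁻¹ * (g₁ * y * g₁⁻¹ * g₁) = y := by group
      rw [h3, inv_mul_cancel, one_smul] at h2
      exact h2
    have hcard : Nat.card Q = Nat.card P := by
      rw [hQ, Cfsg.Agent.Lib.Helper7.card_conj_smul, hP']
      exact Subgroup.card_map_of_injective (Subgroup.subtype_injective _)
    obtain ⟨h, hhH, hh⟩ := sylow_sub_conj (MulAction.stabilizer G x) P Q hQH hcard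
    rw [← hP'] at hh
    refine ⟨g₁ * h, ?_, ?_⟩
    · rw [Subgroup.mem_normalizer_iff]
      intro y
      have h1 := hh (h * y * h⁻¹)
      have h2 : h⁻¹ * (h * y * h⁻¹) * h = y := by group
      rw [h2] at h1
      rw [← h1, hQmem]
      have h3 : g₁ * (h * y * h⁻¹) * g₁⁻¹ = g₁ * h * y * (g₁ * h)⁻¹ := by group
      rw [h3]
    · rw [mul_smul, MulAction.mem_stabilizer_iff.mp hhH, hg₁]
  obtain ⟨g₁, hg₁n, hg₁⟩ := key a ha
  obtain ⟨g₂, hg₂n, hg₂⟩ := key b hb
  refine ⟨g₂ * g₁⁻¹, Subgroup.mul_mem _ hg₂n (Subgroup.inv_mem _ hg₁n), ?_⟩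
  rw [← hg₁, smul_smul, inv_mul_cancel_right, hg₂]

end Cfsg.Agent.S4219
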