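import Cfsg.Statements.S4222
-- import your own Cfsg.Agent.* helpers here
import Mathlib

set_option autoImplicit false
open Cfsg

namespace Cfsg.Agent.S4222

/-- If a normal subgroup `N` of a finite group is complete (its centre is trivial and every automorphism of `N` is inner), then the group is the internal direct product of `N` and the centralizer of `N`: the centralizer is a complement to `N`. -/
theorem result {T : Type*} [Group T] [Finite T] (N : Subgroup T) [N.Normal] (hz : Subgroup.center ↥N = ⊥) (ha : Function.Surjective (MulAut.conj : ↥N →* MulAut ↥N)) : (Subgroup.centralizer (N : Set T)).IsComplement' N := by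
  apply Subgroup.isComplement'_of_disjoint_and_mul_eq_univ
  · rw [disjoint_iff, Subgroup.eq_bot_iff_forall]
    intro x hx
    obtain ⟨hxC, hxN⟩ := Subgroup.mem_inf.mp hx
    have h1 : (⟨x, hxN⟩ : N) ∈ Subgroup.center ↥N := by
      rw [Subgroup.mem_center_iff]
      intro m
      apply Subtype.ext
      exact Subgroup.mem_centralizer_iff.mp hxC m m.2
    rw [hz, Subgroup.mem_bot] at h1
    exact congrArg Subtype.val h1
  · rw [Set.eq_univ_iff_forall]
    intro t
    obtain ⟨n, hn⟩ := ha (MulAut.conjNormal t)
    have hkey : ∀ m : N, (n : T) * (m : T) * (n : T)⁻¹ = t * (m : T) * t⁻¹ := by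
      intro m
      have h1 := congrArg (fun φ : MulAut N => ((φ m : N) : T)) hn
      simpa using h1
    refine Set.mem_mul.mpr ⟨t * (n : T)⁻¹, ?_, (n : T), n.2, by group⟩
    rw [SetLike.mem_coe, Subgroup.mem_centralizer_iff]
    intro m hm
    have h2 := hkey ⟨(n : T)⁻¹ * m * (n : T), N.mul_mem (N.mul_mem (N.inv_mem n.2) hm) n.2⟩
    have h3 : (n : T) * ((n : T)⁻¹ * m * (n : T)) * (n : T)⁻¹ = m := by group
    rw [h3] at h2
    calc m * (t * (n : T)⁻¹) = (t * ((n : T)⁻¹ * m * (n : T)) * t⁻¹) * (t * (n : T)⁻¹) := by rw [← h2]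
      _ = t * (n : T)⁻¹ * m := by group

end Cfsg.Agent.S4222
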