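import Cfsg.Statements.S4225
import Mathlib
import Cfsg.Agent.Lib.Helper3.RegP

set_option autoImplicit false
open Cfsg

namespace Cfsg.Agent.S4225

/-- In a regular `p`-group, for every `k` the elements whose `p^k`-th power is `1` form a characteristic subgroup. -/
theorem result {G : Type*} [Group G] [Finite G] {p : ℕ} [Fact p.Prime] (hG : Cfsg.IsRegularPGroup p G) (k : ℕ) : ∃ H : Subgroup G, H.Characteristic ∧ (H : Set G) = {x : G | x ^ p ^ k = 1} := by
  have hW := Cfsg.Agent.Lib.Helper3.regp_wk hG
  refine ⟨{ carrier := {x : G | x ^ p ^ k = 1}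
            mul_mem' := fun {x y} hx hy => Cfsg.Agent.Lib.Helper3.regp_omega_mul hG.1 hW k x y hx hy
            one_mem' := one_pow _
            inv_mem' := fun {x} hx => by
              show (x⁻¹) ^ p ^ k = 1
              rw [inv_pow, show x ^ p ^ k = 1 from hx, inv_one] }, ?_, rfl⟩
  refine ⟨fun φ => ?_⟩
  ext x
  show (φ x) ^ p ^ k = 1 ↔ x ^ p ^ k = 1
  rw [← map_pow]
  exact map_eq_one_iff φ φ.injective

end Cfsg.Agent.S4225
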