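import Cfsg.Statements.S4275
-- import your own Cfsg.Agent.* helpers here
import Mathlib

set_option autoImplicit false
open Cfsg

namespace Cfsg.Agent.S4275

/-- Let G be a transitive group of permutations of a finite set Ω, let o ∈ Ω, and let α be an automorphism of G. Then α is induced by conjugation by a permutation of Ω normalizing G if and only if the image under α of the stabilizer of o fixes some point of Ω. -/
theorem result {Ω : Type*} [Fintype Ω] (G : Subgroup (Equiv.Perm Ω)) (htr : MulAction.IsPretransitive G Ω) (o : Ω) (α : G ≃* G) : (∃ σ : Equiv.Perm Ω, σ ∈ Subgroup.normalizer (G : Set (Equiv.Perm Ω)) ∧ ∀ g : G, ((α g : G) : Equiv.Perm Ω) = σ * (g : Equiv.Perm Ω) * σ⁻¹) ↔ ∃ ω : Ω, ∀ g ∈ (MulAction.stabilizer G o).map α.toMonoidHom, g • ω = ω := by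
  classical
  haveI := htr
  constructor
  · rintro ⟨σ, hσ, hα⟩
    refine ⟨σ o, ?_⟩
    rintro g ⟨h, hh, rfl⟩
    have h1 : ((α h : G) : Equiv.Perm Ω) = σ * (h : Equiv.Perm Ω) * σ⁻¹ := hα h
    have h2 : (h : Equiv.Perm Ω) o = o := hh
    show ((α h : G) : Equiv.Perm Ω) (σ o) = σ o
    rw [h1]
    simp [h2]
  · rintro ⟨ω, hω⟩
    have hω' : ∀ h : G, (h : Equiv.Perm Ω) o = o → ((α h : G) : Equiv.Perm Ω) ω = ω := by
      intro h hh
      exact hω (α h) ⟨h, hh, rfl⟩
    have hex : ∀ ω' : Ω, ∃ g : G, (g : Equiv.Perm Ω) o = ω' :=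
      fun ω' => MulAction.exists_smul_eq G o ω'
    choose c hc using hex
    obtain ⟨f, hfdef⟩ : ∃ f : Ω → Ω, f = fun ω' => ((α (c ω') : G) : Equiv.Perm Ω) ω := ⟨_, rfl⟩
    have hf : ∀ g : G, f ((g : Equiv.Perm Ω) o) = ((α g : G) : Equiv.Perm Ω) ω := by
      intro g
      rw [hfdef]
      show ((α (c ((g : Equiv.Perm Ω) o)) : G) : Equiv.Perm Ω) ω = _
      obtain ⟨g', hg'⟩ : ∃ g', g' = c ((g : Equiv.Perm Ω) o) := ⟨_, rfl⟩
      rw [← hg']
      have h1 : (g' : Equiv.Perm Ω) o = (g : Equiv.Perm Ω) o := by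
        rw [hg']; exact hc _
      have h2 : ((g⁻¹ * g' : G) : Equiv.Perm Ω) o = o := by
        rw [Subgroup.coe_mul, Subgroup.coe_inv, Equiv.Perm.mul_apply, h1]; simp
      have h3 := hω' _ h2
      rw [map_mul, map_inv, Subgroup.coe_mul, Subgroup.coe_inv, Equiv.Perm.mul_apply,
        Equiv.Perm.inv_eq_iff_eq] at h3
      exact h3
    have hsurj : Function.Surjective f := by
      intro ω'
      obtain ⟨g, hg⟩ := MulAction.exists_smul_eq G ω ω'
      obtain ⟨g0, rfl⟩ := α.surjective g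
      exact ⟨(g0 : Equiv.Perm Ω) o, by rw [hf]; exact hg⟩
    have hbij : Function.Bijective f := ⟨Finite.injective_iff_surjective.mpr hsurj, hsurj⟩
    obtain ⟨σ, hσdef⟩ : ∃ σ : Equiv.Perm Ω, σ = Equiv.ofBijective f hbij := ⟨_, rfl⟩
    have hσf : ∀ w, σ w = f w := by
      intro w
      rw [hσdef]; rfl
    have hσ : ∀ g : G, ((α g : G) : Equiv.Perm Ω) = σ * (g : Equiv.Perm Ω) * σ⁻¹ := by
      intro g
      rw [eq_mul_inv_iff_mul_eq]
      ext ω'
      rw [← hc ω', Equiv.Perm.mul_apply, Equiv.Perm.mul_apply, hσf, hσf, hf]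
      have h5 : (g : Equiv.Perm Ω) ((c ω' : Equiv.Perm Ω) o) = ((g * c ω' : G) : Equiv.Perm Ω) o := rfl
      rw [h5, hf, map_mul]
      rfl
    refine ⟨σ, ?_, hσ⟩
    rw [Subgroup.mem_normalizer_iff]
    intro h
    constructor
    · intro hh
      have h6 := hσ ⟨h, hh⟩
      rw [← h6]; exact (α ⟨h, hh⟩).2
    · intro hh
      obtain ⟨g, hg⟩ := α.surjective ⟨_, hh⟩
      have h1 := hσ g
      rw [hg] at h1
      have h2 : h = (g : Equiv.Perm Ω) := by
        have h7 := congrArg (fun z => σ⁻¹ * z * σ) h1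
        simpa [mul_assoc] using h7
      rw [h2]; exact g.2

end Cfsg.Agent.S4275
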