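import Cfsg.Statements.S4283
-- import your own Cfsg.Agent.* helpers here
import Cfsg.Agent.Lib.Helper7.FrobCount

set_option autoImplicit false
open Cfsg

namespace Cfsg.Agent.S4283

open Cfsg.Agent.Lib.Helper7

section
variable {G : Type*} [Group G]

theorem index_centralizer_conj (x t : G) :
    (Subgroup.centralizer ({t⁻¹ * x * t} : Set G)).index =
      (Subgroup.centralizer ({x} : Set G)).index := by
  have h : Subgroup.centralizer ({t⁻¹ * x * t} : Set G) =
      (Subgroup.centralizer ({x} : Set G)).comap (MulAut.conj t).toMonoidHom := by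
    ext g
    rw [Subgroup.mem_comap, Subgroup.mem_centralizer_singleton_iff,
      Subgroup.mem_centralizer_singleton_iff]
    show _ ↔ t * g * t⁻¹ * x = x * (t * g * t⁻¹)
    constructor
    · intro h
      have h2 : t * g * t⁻¹ * x = t * (g * (t⁻¹ * x * t)) * t⁻¹ := by group
      rw [h2, h]; group
    · intro h
      have h2 : g * (t⁻¹ * x * t) = t⁻¹ * (t * g * t⁻¹ * x) * t := by group
      rw [h2, h]; group
  rw [h]
  exact Subgroup.index_comap_of_surjective _ (MulAut.conj t).surjective

theorem core [Finite G] (Z : Subgroup G) [hZn : Z.Normal] (hZ : Z = Subgroup.center G)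
    (K H : Subgroup G) (hZK : Z ≤ K) (hZH : Z ≤ H) (hK : IsMulCommutative K)
    (hH : IsMulCommutative H)
    (hFrob : Cfsg.IsFrobeniusComplement (H.map (QuotientGroup.mk' Z)))
    (hker : Cfsg.frobeniusKernel (H.map (QuotientGroup.mk' Z)) =
      (K.map (QuotientGroup.mk' Z) : Set (G ⧸ Z))) :
    Set.range (fun x : G => (Subgroup.centralizer ({x} : Set G)).index) =
      ({1, K.index, H.index} : Set ℕ) ∧ K.index.Coprime H.index := by
  classical
  obtain ⟨π, hπ⟩ : ∃ π : G →* G ⧸ Z, π = QuotientGroup.mk' Z := ⟨_, rfl⟩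
  rw [← hπ] at hFrob hker
  have hπsurj : Function.Surjective π := by rw [hπ]; exact QuotientGroup.mk'_surjective Z
  have hπker : π.ker = Z := by rw [hπ]; exact QuotientGroup.ker_mk' Z
  have hmemZ : ∀ g : G, π g = 1 ↔ g ∈ Z := by
    intro g
    rw [← MonoidHom.mem_ker, hπker]
  have hmemof : ∀ L : Subgroup G, Z ≤ L → ∀ g : G, π g ∈ L.map π ↔ g ∈ L := by
    intro L hL g
    constructor
    · rintro ⟨h, hh, hhg⟩
      have h1 : h⁻¹ * g ∈ Z := by
        rw [← hmemZ, map_mul, map_inv, hhg]; group
      have h2 : g = h * (h⁻¹ * g) := by group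
      rw [h2]; exact L.mul_mem hh (hL h1)
    · intro hg; exact ⟨g, hg, rfl⟩
  have hmemH := hmemof H hZH
  have hmemK := hmemof K hZK
  have hconjπ : ∀ t g : G, (π t)⁻¹ * π g * π t = π (t⁻¹ * g * t) := by
    intro t g; simp
  have hkerK : ∀ g : G, g ∈ K ↔ (π g = 1 ∨ ∀ t : G, t⁻¹ * g * t ∉ H) := by
    intro g
    rw [← hmemK, ← SetLike.mem_coe, ← hker, fc_mem_kernel_iff]
    constructor
    · rintro (h | h)
      · exact Or.inl h
      · right; intro t ht
        apply h (π t)
        rw [hconjπ, hmemH]; exact ht
    · rintro (h | h)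
      · exact Or.inl h
      · right; intro q
        obtain ⟨t, rfl⟩ := hπsurj q
        intro hq
        rw [hconjπ, hmemH] at hq; exact h t hq
  have hmal : ∀ g x : G, x ∈ H → x ∉ Z → g⁻¹ * x * g ∈ H → g ∈ H := by
    intro g x hx hxZ hgx
    rw [← hmemH]
    apply fc_mal _ hFrob (π g) (π x) ((hmemH x).mpr hx)
    · intro h; exact hxZ ((hmemZ x).mp h)
    · rw [hconjπ, hmemH]; exact hgx
  have hcentH : ∀ x : G, x ∈ H → x ∉ Z → Subgroup.centralizer ({x} : Set G) = H := by
    intro x hx hxZ
    apply le_antisymm
    · intro g hg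
      rw [Subgroup.mem_centralizer_singleton_iff] at hg
      apply hmal g x hx hxZ
      have h1 : g⁻¹ * x * g = x := by rw [mul_assoc, ← hg]; group
      rw [h1]; exact hx
    · intro g hg
      rw [Subgroup.mem_centralizer_singleton_iff]
      have h1 := hH.is_comm.comm ⟨g, hg⟩ ⟨x, hx⟩
      exact congrArg Subtype.val h1
  have hcentK : ∀ x : G, x ∈ K → x ∉ Z → Subgroup.centralizer ({x} : Set G) = K := by
    intro x hx hxZ
    apply le_antisymm
    · intro g hg
      rw [Subgroup.mem_centralizer_singleton_iff] at hg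
      by_contra hgK
      rw [hkerK] at hgK
      push Not at hgK
      obtain ⟨hg1, t, ht⟩ := hgK
      have hg'Z : t⁻¹ * g * t ∉ Z := by
        intro h
        apply hg1
        rw [hmemZ]
        have h2 := hZn.conj_mem _ h t
        have h3 : t * (t⁻¹ * g * t) * t⁻¹ = g := by group
        rw [h3] at h2; exact h2
      have hx'H : t⁻¹ * x * t ∉ H := by
        rcases (hkerK x).mp hx with h | h
        · exact absurd ((hmemZ x).mp h) hxZ
        · exact h t
      apply hx'H
      apply hmal (t⁻¹ * x * t) (t⁻¹ * g * t) ht hg'Z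
      have h4 : (t⁻¹ * x * t)⁻¹ * (t⁻¹ * g * t) * (t⁻¹ * x * t) = t⁻¹ * (x⁻¹ * g * x) * t := by
        group
      have h5 : x⁻¹ * g * x = g := by rw [mul_assoc, hg]; group
      rw [h4, h5]; exact ht
    · intro g hg
      rw [Subgroup.mem_centralizer_singleton_iff]
      have h1 := hK.is_comm.comm ⟨g, hg⟩ ⟨x, hx⟩
      exact congrArg Subtype.val h1
  have hcentZ : ∀ x : G, x ∈ Z → (Subgroup.centralizer ({x} : Set G)).index = 1 := by
    intro x hx
    have h1 : Subgroup.centralizer ({x} : Set G) = ⊤ := by
      rw [eq_top_iff]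
      intro g _
      rw [Subgroup.mem_centralizer_singleton_iff]
      rw [hZ, Subgroup.mem_center_iff] at hx
      exact hx g
    rw [h1, Subgroup.index_top]
  -- existence of elements
  have hexH : ∃ h : G, h ∈ H ∧ h ∉ Z := by
    by_contra hcon
    push Not at hcon
    apply hFrob.1
    rw [eq_bot_iff]
    rintro _ ⟨h, hh, rfl⟩
    rw [Subgroup.mem_bot, hmemZ]
    exact hcon h hh
  have hcardK : Nat.card (K.map π) = (H.map π).index := by
    have h1 := fc_kernel_card (H.map π) hFrob
    rw [hker] at h1
    exact h1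
  have hexK : ∃ x : G, x ∈ K ∧ x ∉ Z := by
    by_contra hcon
    push Not at hcon
    apply hFrob.2.1
    rw [← Subgroup.index_eq_one, ← hcardK]
    have h1 : K.map π = ⊥ := by
      rw [eq_bot_iff]
      rintro _ ⟨h, hh, rfl⟩
      rw [Subgroup.mem_bot, hmemZ]
      exact hcon h hh
    rw [h1]
    exact Subgroup.card_bot
  have hidxK : (K.map π).index = K.index := Subgroup.index_map_eq _ hπsurj (by rw [hπker]; exact hZK)
  have hidxH : (H.map π).index = H.index := Subgroup.index_map_eq _ hπsurj (by rw [hπker]; exact hZH)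
  constructor
  · ext n
    simp only [Set.mem_range, Set.mem_insert_iff, Set.mem_singleton_iff]
    constructor
    · rintro ⟨x, rfl⟩
      by_cases hxZ : x ∈ Z
      · exact Or.inl (hcentZ x hxZ)
      · by_cases hxK : x ∈ K
        · right; left; rw [hcentK x hxK hxZ]
        · right; right
          have h1 := hxK
          rw [hkerK] at h1
          push Not at h1
          obtain ⟨hx1, t, ht⟩ := h1
          have hx'Z : t⁻¹ * x * t ∉ Z := by
            intro h
            apply hxZ
            have h2 := hZn.conj_mem _ h t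
            have h3 : t * (t⁻¹ * x * t) * t⁻¹ = x := by group
            rw [h3] at h2; exact h2
          rw [← index_centralizer_conj x t, hcentH _ ht hx'Z]
    · rintro (h | h | h)
      · refine ⟨1, ?_⟩
        rw [h]; exact hcentZ 1 Z.one_mem
      · obtain ⟨x, hxK, hxZ⟩ := hexK
        exact ⟨x, by rw [hcentK x hxK hxZ, h]⟩
      · obtain ⟨x, hxH, hxZ⟩ := hexH
        exact ⟨x, by rw [hcentH x hxH hxZ, h]⟩
  · rw [← hidxK, ← hidxH]
    have h1 := Subgroup.card_mul_index (K.map π)
    have h2 := Subgroup.card_mul_index (H.map π)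
    have h3 := fc_index_mod (H.map π) hFrob
    have hpos : 0 < (H.map π).index := Nat.pos_of_ne_zero Subgroup.index_ne_zero_of_finite
    have h4 : (K.map π).index = Nat.card (H.map π) := by
      rw [hcardK] at h1
      rw [← h2, mul_comm] at h1
      exact Nat.eq_of_mul_eq_mul_right hpos h1
    rw [h4]
    show Nat.gcd _ _ = 1
    rw [Nat.gcd_rec, h3, ← Nat.gcd_rec, Nat.gcd_one_right]

end

/-- Let G be a finite group with centre Z and let K, H be abelian subgroups of G containing Z such that G/Z is a Frobenius group with complement H/Z and kernel K/Z. Then the conjugacy class sizes of G are exactly 1, [G : K] and [G : H], and these two indices are coprime. (This is the converse half of the characterization of finite groups whose conjugacy class sizes are exactly 1, m and n with m and n coprime.) -/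
theorem result {G : Type*} [Group G] [Finite G] (K H : Subgroup G) (hZK : Subgroup.center G ≤ K) (hZH : Subgroup.center G ≤ H) (hK : IsMulCommutative K) (hH : IsMulCommutative H) (hFrob : Cfsg.IsFrobeniusComplement (H.map (QuotientGroup.mk' (Subgroup.center G)))) (hker : Cfsg.frobeniusKernel (H.map (QuotientGroup.mk' (Subgroup.center G))) = (K.map (QuotientGroup.mk' (Subgroup.center G)) : Set (G ⧸ Subgroup.center G))) : Set.range (fun x : G => (Subgroup.centralizer ({x} : Set G)).index) = ({1, K.index, H.index} : Set ℕ) ∧ K.index.Coprime H.index := by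
  exact core (Subgroup.center G) rfl K H hZK hZH hK hH hFrob hker

end Cfsg.Agent.S4283
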