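import Cfsg.Statements.S4300
-- import your own Cfsg.Agent.* helpers here
import Mathlib

set_option autoImplicit false
open Cfsg

namespace Cfsg.Agent.S4300

section
universe u v

theorem main {G : Type u} [Group G] {X : Type v} [MulAction G X] [FaithfulSMul G X]
    (hprim : MulAction.IsPreprimitive G X) (x : X)
    (hsimple : IsSimpleGroup (MulAction.stabilizer G x)) :
    IsSimpleGroup G ∨ ∃ N : Subgroup G, N.Normal ∧ N ≠ ⊥ ∧ N ≠ ⊤ ∧
      MulAction.IsPretransitive N X ∧ ∀ y : X, MulAction.stabilizer N y = ⊥ := by
  by_cases hG : ∀ N : Subgroup G, N.Normal → N = ⊥ ∨ N = ⊤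
  · left
    have hnt : Nontrivial G := by
      obtain ⟨a, b, hab⟩ := hsimple.toNontrivial
      exact ⟨⟨(a : G), (b : G), fun h => hab (Subtype.ext h)⟩⟩
    exact { toNontrivial := hnt, eq_bot_or_eq_top_of_normal := hG }
  · right
    push Not at hG
    obtain ⟨N, hN, hbot, htop⟩ := hG
    have hfix : MulAction.fixedPoints N X ≠ Set.univ := by
      intro h
      apply hbot
      rw [Subgroup.eq_bot_iff_forall]
      intro n hn
      apply FaithfulSMul.eq_of_smul_eq_smul (α := X)
      intro y
      have hy : y ∈ MulAction.fixedPoints N X := by rw [h]; exact Set.mem_univ y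
      have := hy ⟨n, hn⟩
      rw [one_smul]
      exact this
    have htrans : MulAction.IsPretransitive N X :=
      MulAction.IsQuasiPreprimitive.isPretransitive_of_normal (N := N) hfix
    refine ⟨N, hN, hbot, htop, htrans, ?_⟩
    have hK : (N.subgroupOf (MulAction.stabilizer G x)).Normal := hN.subgroupOf _
    have hdisj : ∀ g : G, g ∈ N → g • x = x → g = 1 := by
      rcases hsimple.eq_bot_or_eq_top_of_normal _ hK with h | h
      · rw [Subgroup.subgroupOf_eq_bot] at h
        intro g hgN hgx
        have : g ∈ N ⊓ MulAction.stabilizer G x := ⟨hgN, hgx⟩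
        rw [h.eq_bot] at this
        exact this
      · exfalso
        rw [Subgroup.subgroupOf_eq_top] at h
        apply htop
        rw [eq_top_iff]
        intro g _
        obtain ⟨n, hn⟩ := MulAction.exists_smul_eq N x (g • x)
        have h1 : ((n : G)⁻¹ * g) • x = x := by
          rw [mul_smul, ← hn, Subgroup.smul_def, inv_smul_smul]
        have h2 : (n : G)⁻¹ * g ∈ N := h h1
        have h3 := mul_mem n.2 h2
        rwa [mul_inv_cancel_left] at h3
    intro y
    rw [Subgroup.eq_bot_iff_forall]
    intro n hn
    have hpt := hprim.toIsPretransitive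
    obtain ⟨g, hg⟩ := MulAction.exists_smul_eq G x y
    rw [MulAction.mem_stabilizer_iff, Subgroup.smul_def] at hn
    have h1 : (g⁻¹ * (n : G) * g) • x = x := by
      rw [mul_smul, mul_smul, hg, hn, ← hg, inv_smul_smul]
    have h2 : g⁻¹ * (n : G) * g ∈ N := by
      have := hN.conj_mem (n : G) n.2 g⁻¹
      simpa using this
    have h3 := hdisj _ h2 h1
    apply Subtype.ext
    have h4 : (n : G) = g * (g⁻¹ * (n : G) * g) * g⁻¹ := by group
    rw [h4, h3]
    simp

end

/-- Let G act faithfully and primitively on a set X, and suppose the stabilizer of some point is a simple group. Then either G is simple, or G has a normal subgroup, neither trivial nor the whole group, that acts regularly on X (transitively with trivial point stabilizers). -/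
theorem result {G : Type*} [Group G] {X : Type*} [MulAction G X] [FaithfulSMul G X]
    (hprim : MulAction.IsPreprimitive G X) (x : X) (hsimple : IsSimpleGroup (MulAction.stabilizer G x)) :
    IsSimpleGroup G ∨ ∃ N : Subgroup G, N.Normal ∧ N ≠ ⊥ ∧ N ≠ ⊤ ∧
      MulAction.IsPretransitive N X ∧ ∀ y : X, MulAction.stabilizer N y = ⊥ := by
  exact main hprim x hsimple

end Cfsg.Agent.S4300
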