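import Mathlib
import Cfsg.Statements.S4301

set_option autoImplicit false
open Cfsg

namespace Cfsg.Agent.S4301

theorem inv_app {α : Type*} (f : Equiv.Perm α) (z : α) : f⁻¹ (f z) = z := by
  rw [← Equiv.Perm.mul_apply, inv_mul_cancel]; rfl

section
variable {X : Type*} (G : Subgroup (Equiv.Perm (Option X)))

theorem tr2 (k : ℕ) (hk : 2 ≤ k) (hkX : Nonempty (Fin k ↪ X))
    (htrans : ∀ a b : Fin k ↪ X, ∃ f ∈ G, ∀ i, f (some (a i)) = some (b i))
    (u v u' v' : X) (huv : u ≠ v) (huv' : u' ≠ v') :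
    ∃ f ∈ G, f (some u) = some u' ∧ f (some v) = some v' := by
  classical
  obtain ⟨e₀⟩ := hkX
  have key : ∀ u₁ v₁ : X, u₁ ≠ v₁ →
      ∃ a : Fin k ↪ X, a ⟨0, by omega⟩ = u₁ ∧ a ⟨1, by omega⟩ = v₁ := by
    intro u₁ v₁ huv₁
    obtain ⟨p, hp⟩ : ∃ p, p = e₀ ⟨0, by omega⟩ := ⟨_, rfl⟩
    obtain ⟨q, hq⟩ : ∃ q, q = e₀ ⟨1, by omega⟩ := ⟨_, rfl⟩
    have hpq : p ≠ q := by
      intro e
      rw [hp, hq] at e
      have e' := e₀.injective e
      simp [Fin.ext_iff] at e'
    have hs₁ : Equiv.swap p u₁ p = u₁ := Equiv.swap_apply_left p u₁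
    have hw : Equiv.swap p u₁ q ≠ u₁ := by
      intro e
      have e' : Equiv.swap p u₁ q = Equiv.swap p u₁ p := by rw [hs₁]; exact e
      exact hpq ((Equiv.swap p u₁).injective e').symm
    refine ⟨e₀.trans ((Equiv.swap p u₁).trans (Equiv.swap (Equiv.swap p u₁ q) v₁)).toEmbedding,
      ?_, ?_⟩
    · show Equiv.swap (Equiv.swap p u₁ q) v₁ (Equiv.swap p u₁ (e₀ ⟨0, by omega⟩)) = u₁
      rw [← hp, hs₁]
      exact Equiv.swap_apply_of_ne_of_ne hw.symm huv₁
    · show Equiv.swap (Equiv.swap p u₁ q) v₁ (Equiv.swap p u₁ (e₀ ⟨1, by omega⟩)) = v₁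
      rw [← hq]
      exact Equiv.swap_apply_left _ v₁
  obtain ⟨a, ha0, ha1⟩ := key u v huv
  obtain ⟨b, hb0, hb1⟩ := key u' v' huv'
  obtain ⟨f, hf, hfi⟩ := htrans a b
  refine ⟨f, hf, ?_, ?_⟩
  · have e := hfi ⟨0, by omega⟩
    rwa [ha0, hb0] at e
  · have e := hfi ⟨1, by omega⟩
    rwa [ha1, hb1] at e

theorem main (hfix : ∀ f ∈ G, f none = none)
    (k : ℕ) (hk : 2 ≤ k) (hkX : Nonempty (Fin k ↪ X))
    (htrans : ∀ a b : Fin k ↪ X, ∃ f ∈ G, ∀ i, f (some (a i)) = some (b i))
    (h g : Equiv.Perm (Option X)) (hg : g ∈ G) (x y : X)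
    (h2 : h (some x) = none) (h3 : h (some y) = some y)
    (h4 : g (some x) = some y)
    (h6 : (g * h) ^ 3 ∈ G) (h7 : h ^ 2 ∈ G)
    (h8 : ∀ f ∈ G, f (some x) = some x → h * f * h ∈ G ∧ (h * f * h) (some x) = some x) :
    ∀ f ∈ Subgroup.closure ((G : Set (Equiv.Perm (Option X))) ∪ {h}),
      f ∈ G ∨ ∃ a ∈ G, ∃ b ∈ G, f = a * h * b := by
  have hxy : x ≠ y := by
    rintro rfl
    rw [h2] at h3
    simp at h3
  have hsome : ∀ f ∈ G, ∀ w : X, ∃ w', f (some w) = some w' := by
    intro f hf w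
    apply Option.ne_none_iff_exists'.mp
    intro e
    have e' := f.injective (e.trans (hfix f hf).symm)
    simp at e'
  have A2 : ∀ f ∈ G, h * f * h ∈ G ∨ ∃ a ∈ G, ∃ b ∈ G, h * f * h = a * h * b := by
    intro f hf
    by_cases hfx : f (some x) = some x
    · exact Or.inl (h8 f hf hfx).1
    · right
      obtain ⟨w, hw⟩ := hsome f hf x
      have hwx : x ≠ w := by
        rintro rfl
        exact hfx hw
      obtain ⟨a, ha, hax, hay⟩ := tr2 G k hk hkX htrans x y x w hxy hwx
      have hb : g⁻¹ * a⁻¹ * f ∈ G := G.mul_mem (G.mul_mem (G.inv_mem hg) (G.inv_mem ha)) hf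
      have e1 : a⁻¹ (some w) = some y := by rw [← hay, inv_app]
      have e2 : g⁻¹ (some y) = some x := by rw [← h4, inv_app]
      have hbx : (g⁻¹ * a⁻¹ * f) (some x) = some x := by
        show g⁻¹ (a⁻¹ (f (some x))) = some x
        rw [hw, e1, e2]
      have ha' := (h8 a ha hax).1
      have hb' := (h8 _ hb hbx).1
      have e3 : (g * h) ^ 3 = g * h * (g * h) * (g * h) := by rw [pow_succ, pow_two]
      rw [e3] at h6
      refine ⟨(h * a * h) * ((h ^ 2)⁻¹ * g⁻¹ * (g * h * (g * h) * (g * h)) * (h ^ 2)⁻¹), ?_,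
        g⁻¹ * (h ^ 2)⁻¹ * (h * (g⁻¹ * a⁻¹ * f) * h), ?_, ?_⟩
      · exact G.mul_mem ha' (G.mul_mem (G.mul_mem (G.mul_mem (G.inv_mem h7) (G.inv_mem hg)) h6)
          (G.inv_mem h7))
      · exact G.mul_mem (G.mul_mem (G.inv_mem hg) (G.inv_mem h7)) hb'
      · group
  intro f hf
  induction hf using Subgroup.closure_induction with
  | mem f hf =>
    rcases hf with hf | hf
    · exact Or.inl hf
    · rw [Set.mem_singleton_iff] at hf
      rw [hf]
      exact Or.inr ⟨1, G.one_mem, 1, G.one_mem, by group⟩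
  | one => exact Or.inl G.one_mem
  | mul f₁ f₂ _ _ ih₁ ih₂ =>
    rcases ih₁ with i1 | ⟨a, ha, b, hb, rfl⟩ <;> rcases ih₂ with i2 | ⟨a', ha', b', hb', rfl⟩
    · exact Or.inl (G.mul_mem i1 i2)
    · exact Or.inr ⟨f₁ * a', G.mul_mem i1 ha', b', hb', by group⟩
    · exact Or.inr ⟨a, ha, b * f₂, G.mul_mem hb i2, by group⟩
    · have e0 : a * h * b * (a' * h * b') = a * (h * (b * a') * h) * b' := by group
      rcases A2 (b * a') (G.mul_mem hb ha') with i | ⟨a'', ha'', b'', hb'', e⟩
      · left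
        rw [e0]
        exact G.mul_mem (G.mul_mem ha i) hb'
      · right
        refine ⟨a * a'', G.mul_mem ha ha'', b'' * b', G.mul_mem hb'' hb', ?_⟩
        rw [e0, e]; group
  | inv f _ ih =>
    rcases ih with i | ⟨a, ha, b, hb, rfl⟩
    · exact Or.inl (G.inv_mem i)
    · exact Or.inr ⟨b⁻¹ * (h ^ 2)⁻¹, G.mul_mem (G.inv_mem hb) (G.inv_mem h7), a⁻¹, G.inv_mem ha,
        by group⟩

end

/-- One-point extension of a multiply transitive group. Let X be a set and G a group of permutations of Option X (the set X with one extra point ∗ = none) all of whose elements fix ∗, such that G is k-transitive on the points of X for some k ≥ 2, X having at least k points. Suppose a permutation h of Option X and an element g of G satisfy: h interchanges ∗ with a point x of X and fixes a point y of X; g interchanges x and y; (g h)³ and h² lie in G; and for every f in G fixing x, the product h f h lies in G and fixes x. Then an element of the group generated by G and h fixes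 ∗ exactly when it lies in G, and that group acts (k+1)-transitively on Option X. -/
theorem result {X : Type*} (G : Subgroup (Equiv.Perm (Option X))) (hfix : ∀ f ∈ G, f none = none)
    (k : ℕ) (hk : 2 ≤ k) (hkX : Nonempty (Fin k ↪ X))
    (htrans : ∀ a b : Fin k ↪ X, ∃ f ∈ G, ∀ i, f (some (a i)) = some (b i))
    (h g : Equiv.Perm (Option X)) (hg : g ∈ G) (x y : X)
    (h1 : h none = some x) (h2 : h (some x) = none) (h3 : h (some y) = some y)
    (h4 : g (some x) = some y) (h5 : g (some y) = some x)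
    (h6 : (g * h) ^ 3 ∈ G) (h7 : h ^ 2 ∈ G)
    (h8 : ∀ f ∈ G, f (some x) = some x → h * f * h ∈ G ∧ (h * f * h) (some x) = some x) :
    (∀ f ∈ Subgroup.closure ((G : Set (Equiv.Perm (Option X))) ∪ {h}), f none = none ↔ f ∈ G) ∧
      MulAction.IsMultiplyPretransitive (Subgroup.closure ((G : Set (Equiv.Perm (Option X))) ∪ {h})) (Option X) (k + 1) := by
  have hD := main G hfix k hk hkX htrans h g hg x y h2 h3 h4 h6 h7 h8
  have hGM : G ≤ Subgroup.closure ((G : Set (Equiv.Perm (Option X))) ∪ {h}) :=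
    fun f hf => Subgroup.subset_closure (Or.inl hf)
  have hhM : h ∈ Subgroup.closure ((G : Set (Equiv.Perm (Option X))) ∪ {h}) :=
    Subgroup.subset_closure (Or.inr rfl)
  have hxy : x ≠ y := by
    rintro rfl
    rw [h2] at h3
    simp at h3
  refine ⟨?_, ?_⟩
  · intro f hf
    constructor
    · intro hfn
      rcases hD f hf with i | ⟨a, ha, b, hb, rfl⟩
      · exact i
      · exfalso
        have e : (a * h * b) none = a (some x) := by
          show a (h (b none)) = a (some x)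
          rw [hfix b hb, h1]
        rw [e] at hfn
        have e' := a.injective (hfn.trans (hfix a ha).symm)
        simp at e'
    · exact hfix f
  · rw [MulAction.isMultiplyPretransitive_iff]
    obtain ⟨M, hM⟩ : ∃ M, M = Subgroup.closure ((G : Set (Equiv.Perm (Option X))) ∪ {h}) :=
      ⟨_, rfl⟩
    rw [← hM] at hGM hhM ⊢
    have tr1 : ∀ u : X, ∃ f ∈ G, f (some u) = some x := by
      intro u
      by_cases hux : u = x
      · exact ⟨1, G.one_mem, by rw [hux]; rfl⟩
      · obtain ⟨f, hf, e1, _⟩ := Cfsg.Agent.S4301.tr2 G k hk hkX htrans u x x y hux hxy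
        exact ⟨f, hf, e1⟩
    have T : ∀ a : Fin (k + 1) ↪ Option X, ∃ m ∈ M, ∃ a' : Fin k ↪ X,
        (∀ i : Fin k, m (a i.succ) = some (a' i)) ∧ m (a 0) = none := by
      intro a
      have hm : ∃ m ∈ M, m (a 0) = none := by
        obtain ha0 | ⟨w, ha0⟩ : a 0 = none ∨ ∃ w, a 0 = some w := by
          cases a 0 with
          | none => exact Or.inl rfl
          | some w => exact Or.inr ⟨w, rfl⟩
        · exact ⟨1, M.one_mem, by rw [Equiv.Perm.one_apply]; exact ha0⟩
        · obtain ⟨f, hf, e⟩ := tr1 w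
          exact ⟨h * f, M.mul_mem hhM (hGM hf), by rw [Equiv.Perm.mul_apply, ha0, e, h2]⟩
      obtain ⟨m, hmM, hm0⟩ := hm
      have hex : ∀ i : Fin k, ∃ w, m (a i.succ) = some w := by
        intro i
        apply Option.ne_none_iff_exists'.mp
        intro e
        have e' := a.injective (m.injective (e.trans hm0.symm))
        exact Fin.succ_ne_zero i e'
      choose a' ha' using hex
      refine ⟨m, hmM, ⟨a', ?_⟩, ha', hm0⟩
      intro i j hij
      have e : m (a i.succ) = m (a j.succ) := by rw [ha' i, ha' j, hij]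
      exact Fin.succ_injective _ (a.injective (m.injective e))
    intro a b
    obtain ⟨m₁, hm₁, a', ha', ha0⟩ := T a
    obtain ⟨m₂, hm₂, b', hb', hb0⟩ := T b
    obtain ⟨f, hf, hfi⟩ := htrans a' b'
    refine ⟨⟨m₂⁻¹ * f * m₁, M.mul_mem (M.mul_mem (M.inv_mem hm₂) (hGM hf)) hm₁⟩, ?_⟩
    ext i : 1
    show m₂⁻¹ (f (m₁ (a i))) = b i
    refine Fin.cases ?_ (fun j => ?_) i
    · rw [ha0, hfix f hf, ← hb0, Cfsg.Agent.S4301.inv_app]
    · rw [ha', hfi, ← hb', Cfsg.Agent.S4301.inv_app]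

end Cfsg.Agent.S4301
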