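import Cfsg.Statements.S4303
-- import your own Cfsg.Agent.* helpers here
import Mathlib
import Cfsg.Agent.Lib.Helper7.Compl
import Cfsg.Agent.Lib.Helper7.SylowCount
import Cfsg.Agent.Lib.Helper7.SylowCoprime

set_option autoImplicit false
universe u
open Cfsg

namespace Cfsg.Agent.S4303

section

/-- a good factor -/
def Good (p : ℕ) (m : ℕ) : Prop :=
  (IsPrimePow m ∧ m % p = 1) ∨
    ∃ (S : Type u) (_ : Group S) (_ : Finite S), IsSimpleGroup S ∧ m = Nat.card (Sylow p S)

/-- a product of good factors -/
def Phi (p : ℕ) (n : ℕ) : Prop := ∃ l : List ℕ, l.prod = n ∧ ∀ m ∈ l, Good.{u} p m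

theorem Phi_one (p : ℕ) : Phi.{u} p 1 := ⟨[], rfl, by simp⟩

theorem Phi_mul (p : ℕ) {a b : ℕ} (ha : Phi.{u} p a) (hb : Phi.{u} p b) : Phi.{u} p (a * b) := by
  obtain ⟨l₁, h1, h1'⟩ := ha
  obtain ⟨l₂, h2, h2'⟩ := hb
  refine ⟨l₁ ++ l₂, by rw [List.prod_append, h1, h2], ?_⟩
  intro m hm
  rcases List.mem_append.mp hm with h | h
  · exact h1' m h
  · exact h2' m h

theorem Phi_of_local (p : ℕ) (hp : p.Prime) (n : ℕ) (hn : n ≠ 0)
    (h : ∀ q : ℕ, q.Prime → q ^ n.factorization q ≡ 1 [MOD p]) : Phi.{u} p n := by
  refine ⟨n.primeFactors.toList.map (fun q => q ^ n.factorization q), ?_, ?_⟩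
  · rw [Finset.prod_map_toList]
    exact (Nat.prod_primeFactors_pow_factorization hn).symm
  · intro m hm
    obtain ⟨q, hq, rfl⟩ := List.mem_map.mp hm
    rw [Finset.mem_toList] at hq
    have hqp := Nat.prime_of_mem_primeFactors hq
    have hqd := Nat.dvd_of_mem_primeFactors hq
    left
    constructor
    · rw [isPrimePow_nat_iff]
      exact ⟨q, n.factorization q, hqp, hqp.factorization_pos_of_dvd hn hqd, rfl⟩
    · have h1 := h q hqp
      unfold Nat.ModEq at h1
      rw [h1]
      exact Nat.mod_eq_of_lt hp.one_lt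

open Cfsg.Agent.Lib.Helper7 Subgroup in
theorem main (p : ℕ) [Fact p.Prime] : ∀ (n : ℕ) (G : Type u) [Group G] [Finite G],
    Nat.card G ≤ n → Phi.{u} p (Nat.card (Sylow p G)) := by
  intro n
  induction n with
  | zero =>
    intro G _ _ h
    have := Nat.card_pos (α := G)
    omega
  | succ n ih =>
    intro G _ _ hn
    by_cases htriv : Subsingleton G
    · have h1 : Nat.card (Sylow p G) = 1 := by
        have : Subsingleton (Sylow p G) := ⟨fun A B => Sylow.ext (Subsingleton.elim _ _)⟩
        exact Nat.card_unique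
      rw [h1]
      exact Phi_one p
    have hnt : Nontrivial G := not_subsingleton_iff_nontrivial.mp htriv
    by_cases hs : IsSimpleGroup G
    · refine ⟨[Nat.card (Sylow p G)], by simp, fun m hm => ?_⟩
      rw [List.mem_singleton] at hm
      exact Or.inr ⟨G, inferInstance, inferInstance, hs, hm⟩
    obtain ⟨K, hKn, hKb, hKt⟩ : ∃ K : Subgroup G, K.Normal ∧ K ≠ ⊥ ∧ K ≠ ⊤ := by
      by_contra hcon
      push Not at hcon
      exact hs ⟨fun K hK => by
        by_cases hb : K = ⊥
        · exact Or.inl hb
        · exact Or.inr (hcon K hK hb)⟩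
    obtain ⟨P⟩ : Nonempty (Sylow p G) := inferInstance
    have hquot : Nat.card (G ⧸ K) ≤ n := by
      have e1 := Subgroup.card_eq_card_quotient_mul_card_subgroup K
      have e2 : 2 ≤ Nat.card K := (Subgroup.one_lt_card_iff_ne_bot _).mpr hKb
      have e3 : 0 < Nat.card (G ⧸ K) := Nat.card_pos
      nlinarith
    have ihQ := ih (G ⧸ K) hquot
    by_cases hPK : (P : Subgroup G) ⊔ K = ⊤
    swap
    · rw [card_sylow_eq_mul P K]
      have h2 : Nat.card ((P : Subgroup G) ⊔ K : Subgroup G) ≤ n := by
        have := card_lt_of_ne_top hPK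
        omega
      exact Phi_mul p ihQ (ih _ h2)
    · by_cases hD : (P : Subgroup G) ⊓ K = ⊥
      · have hpK : ¬ p ∣ Nat.card K := by
          intro hdvd
          have h1 := (sylowInfNormal P K).dvd_card_of_dvd_card hdvd
          have h2 : Nat.card ((sylowInfNormal P K : Sylow p K) : Subgroup K) = 1 := by
            rw [coe_sylowInfNormal, ← Subgroup.inf_subgroupOf_right, hD]
            simp
          rw [h2] at h1
          exact (Fact.out : p.Prime).one_lt.ne' (Nat.dvd_one.mp h1)
        have e1 : Nat.card (Sylow p G) =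
            (normalizer ((P : Subgroup G) : Set G)).relIndex K := by
          have h0 : Nat.card (Sylow p G) = (normalizer ((P : Subgroup G) : Set G)).index :=
            P.card_eq_index_normalizer
          have h1 := relIndex_eq_relIndex_sup (normalizer ((P : Subgroup G) : Set G)) K
          have h2 : normalizer ((P : Subgroup G) : Set G) ⊔ K = ⊤ :=
            top_le_iff.mp (hPK ▸ sup_le_sup_right le_normalizer K)
          rw [h2, Subgroup.relIndex_top_right] at h1
          rw [h0, h1]
        rw [e1]
        refine Phi_of_local p Fact.out _ ?_ (fun q hq => coprime_relIndex_modEq P K hpK q hq)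
        intro h
        have h1 := Subgroup.relIndex_dvd_card (normalizer ((P : Subgroup G) : Set G)) K
        rw [h] at h1
        exact Nat.card_pos.ne' (zero_dvd_iff.mp h1)
      · have hnorm : (((P : Subgroup G) ⊓ K).subgroupOf (((P : Subgroup G) ⊔ K) ⊓
            normalizer (((P : Subgroup G) ⊓ K : Subgroup G) : Set G))).Normal :=
          Subgroup.normal_subgroupOf_of_le_normalizer inf_le_right
        rw [card_sylow_eq_mul_mul P K]
        have h2 : Nat.card K ≤ n := by
          have := card_lt_of_ne_top hKt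
          omega
        have hDN : (P : Subgroup G) ⊓ K ≤ ((P : Subgroup G) ⊔ K) ⊓
            normalizer (((P : Subgroup G) ⊓ K : Subgroup G) : Set G) :=
          le_inf (inf_le_left.trans le_sup_left) le_normalizer
        have h3 : Nat.card ((((P : Subgroup G) ⊔ K) ⊓
            normalizer (((P : Subgroup G) ⊓ K : Subgroup G) : Set G) : Subgroup G) ⧸
            ((P : Subgroup G) ⊓ K).subgroupOf (((P : Subgroup G) ⊔ K) ⊓
            normalizer (((P : Subgroup G) ⊓ K : Subgroup G) : Set G))) ≤ n := by
          have e1 := Subgroup.card_eq_card_quotient_mul_card_subgroup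
            (((P : Subgroup G) ⊓ K).subgroupOf (((P : Subgroup G) ⊔ K) ⊓
            normalizer (((P : Subgroup G) ⊓ K : Subgroup G) : Set G)))
          rw [card_subgroupOf_of_le hDN] at e1
          have e2 : 2 ≤ Nat.card ((P : Subgroup G) ⊓ K : Subgroup G) :=
            (Subgroup.one_lt_card_iff_ne_bot _).mpr hD
          have e3 : Nat.card ((((P : Subgroup G) ⊔ K) ⊓
            normalizer (((P : Subgroup G) ⊓ K : Subgroup G) : Set G) : Subgroup G)) ≤
            Nat.card G := Subgroup.card_le_card_group _
          have e4 : 0 < Nat.card ((((P : Subgroup G) ⊔ K) ⊓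
            normalizer (((P : Subgroup G) ⊓ K : Subgroup G) : Set G) : Subgroup G) ⧸
            ((P : Subgroup G) ⊓ K).subgroupOf (((P : Subgroup G) ⊔ K) ⊓
            normalizer (((P : Subgroup G) ⊓ K : Subgroup G) : Set G))) := Nat.card_pos
          nlinarith
        exact Phi_mul p (Phi_mul p ihQ (ih _ h2)) (ih _ h3)

end

/-- For a finite group `G` and a prime `p`, the number of Sylow `p`-subgroups of `G` is a product of natural numbers each of which is either a prime power congruent to 1 modulo `p` or the number of Sylow `p`-subgroups of some finite simple group. -/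
theorem result {G : Type u} [Group G] [Finite G]
    (p : ℕ) [Fact p.Prime] :
    ∃ l : List ℕ, l.prod = Nat.card (Sylow p G) ∧
      ∀ m ∈ l, (IsPrimePow m ∧ m % p = 1) ∨
        ∃ (S : Type u) (_ : Group S) (_ : Finite S), IsSimpleGroup S ∧ m = Nat.card (Sylow p S) := by
  exact main p (Nat.card G) G le_rfl

end Cfsg.Agent.S4303
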