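import Mathlib
import Cfsg.Statements.S4416
import Cfsg.Agent.S0099
import Cfsg.Agent.S3763

set_option autoImplicit false

namespace Cfsg.Agent.S4416

open scoped commutatorElement Pointwise
open Cfsg.Agent.S0099

universe u v w

theorem card_split {G : Type*} [Finite G] (A Q : G → Prop) :
    Nat.card {g // A g} = Nat.card {g // A g ∧ Q g} + Nat.card {g // A g ∧ ¬ Q g} := by
  classical
  rw [← Nat.card_congr (Equiv.subtypeSubtypeEquivSubtypeInter A Q),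
    ← Nat.card_congr (Equiv.subtypeSubtypeEquivSubtypeInter A (fun g => ¬ Q g)),
    ← Nat.card_sum]
  exact Nat.card_congr (Equiv.sumCompl (fun a : {g // A g} => Q a.1)).symm

theorem card_coset_split {G : Type*} [Group G] [Finite G] (K H : Subgroup G) (hHK : H ≤ K)
    (t : G) (htK : t ∈ K) (htH : t ∉ H) (hidx : ∀ g ∈ K, g ∉ H → g * t⁻¹ ∈ H) (P : G → Prop) :
    Nat.card {g // g ∈ K ∧ P g} =
      Nat.card {g // g ∈ H ∧ P g} + Nat.card {g // g ∈ H ∧ P (g * t)} := by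
  rw [card_split (fun g => g ∈ K ∧ P g) (fun g => g ∈ H)]
  congr 1
  · exact Nat.card_congr (Equiv.subtypeEquivRight
      (fun g => ⟨fun h => ⟨h.2, h.1.2⟩, fun h => ⟨⟨hHK h.1, h.2⟩, h.1⟩⟩))
  · refine Nat.card_congr ⟨fun g => ⟨g.1 * t⁻¹, hidx g.1 g.2.1.1 g.2.2, ?_⟩,
      fun h => ⟨h.1 * t, ⟨K.mul_mem (hHK h.2.1) htK, h.2.2⟩,
        fun hmem => htH ((Subgroup.mul_mem_cancel_left H h.2.1).1 hmem)⟩, ?_, ?_⟩
    · rw [inv_mul_cancel_right]; exact g.2.1.2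
    · intro g; exact Subtype.ext (inv_mul_cancel_right g.1 t)
    · intro h; exact Subtype.ext (mul_inv_cancel_right h.1 t)

theorem count_card_two {A : Type*} [Group A] (h : Nat.card A = 2) :
    Nat.card {g : A // g ^ 2 = 1} = 2 :=
  (Nat.card_congr (Equiv.subtypeUnivEquiv (fun g => by
    have h1 : g ^ Nat.card A = 1 := pow_card_eq_one'
    rw [h] at h1; exact h1))).trans h

section count

variable {E : Type u} [Group E] [Finite E]

theorem eq_of_ne_one (hXS : XS 2 E) (a b : ↥(Subgroup.center E)) (ha : a ≠ 1) (hb : b ≠ 1) :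
    a = b := by
  obtain ⟨y, -, hy⟩ := (Nat.card_eq_two_iff' (1 : ↥(Subgroup.center E))).1 hXS.2.2
  exact (hy a ha).trans (hy b hb).symm

theorem step_idx (hXS : XS 2 E) (u g t : E) (hg : g * u ≠ u * g) (ht : t * u ≠ u * t) :
    (g * t⁻¹) * u = u * (g * t⁻¹) := by
  have h1 : kap hXS.2.1 u g ≠ 1 := fun h =>
    hg ((Cfsg.Agent.S3763.mem_ker_kap hXS.2.1 u g).1 (MonoidHom.mem_ker.2 h))
  have h2 : kap hXS.2.1 u t ≠ 1 := fun h =>
    ht ((Cfsg.Agent.S3763.mem_ker_kap hXS.2.1 u t).1 (MonoidHom.mem_ker.2 h))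
  have h3 := eq_of_ne_one hXS _ _ h1 h2
  apply (Cfsg.Agent.S3763.mem_ker_kap hXS.2.1 u (g * t⁻¹)).1
  rw [MonoidHom.mem_ker, map_mul, map_inv, h3, mul_inv_cancel]

theorem count_decomp (hXS : XS 2 E) (x y : E) (hz : ⁅x, y⁆ ≠ 1) :
    Nat.card {g : E // g ^ 2 = 1} =
      Nat.card {g : E // g ∈ Cxy hXS.2.1 x y ∧ g ^ 2 = 1} +
      Nat.card {g : E // g ∈ Cxy hXS.2.1 x y ∧ (g * x) ^ 2 = 1} +
      (Nat.card {g : E // g ∈ Cxy hXS.2.1 x y ∧ (g * y) ^ 2 = 1} +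
      Nat.card {g : E // g ∈ Cxy hXS.2.1 x y ∧ (g * x * y) ^ 2 = 1}) := by
  have hxy : x * y ≠ y * x := fun h => hz (commutatorElement_eq_one_iff_commute.2 h)
  have hCK : Cxy hXS.2.1 x y ≤ (kap hXS.2.1 x).ker := fun g hg =>
    (Cfsg.Agent.S3763.mem_ker_kap hXS.2.1 x g).2 ((mem_Cxy hXS.2.1 x y g).1 hg).1
  have hxK : x ∈ (kap hXS.2.1 x).ker := (Cfsg.Agent.S3763.mem_ker_kap hXS.2.1 x x).2 rfl
  have hxC : x ∉ Cxy hXS.2.1 x y := fun h => hxy ((mem_Cxy hXS.2.1 x y x).1 h).2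
  have hyK : y ∉ (kap hXS.2.1 x).ker := fun h =>
    hxy ((Cfsg.Agent.S3763.mem_ker_kap hXS.2.1 x y).1 h).symm
  have hidx1 : ∀ g ∈ (⊤ : Subgroup E), g ∉ (kap hXS.2.1 x).ker →
      g * y⁻¹ ∈ (kap hXS.2.1 x).ker := by
    intro g _ hg
    apply (Cfsg.Agent.S3763.mem_ker_kap hXS.2.1 x (g * y⁻¹)).2
    exact step_idx hXS x g y (fun h => hg ((Cfsg.Agent.S3763.mem_ker_kap hXS.2.1 x g).2 h))
      (fun h => hxy h.symm)
  have hidx2 : ∀ g ∈ (kap hXS.2.1 x).ker, g ∉ Cxy hXS.2.1 x y →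
      g * x⁻¹ ∈ Cxy hXS.2.1 x y := by
    intro g hgK hgC
    have hgx : g * x = x * g := (Cfsg.Agent.S3763.mem_ker_kap hXS.2.1 x g).1 hgK
    have hgy : g * y ≠ y * g := fun h => hgC ((mem_Cxy hXS.2.1 x y g).2 ⟨hgx, h⟩)
    refine (mem_Cxy hXS.2.1 x y (g * x⁻¹)).2 ⟨?_, step_idx hXS y g x hgy hxy⟩
    rw [inv_mul_cancel_right, ← mul_assoc, ← hgx, mul_inv_cancel_right]
  have e0 : Nat.card {g : E // g ^ 2 = 1}
      = Nat.card {g : E // g ∈ (⊤ : Subgroup E) ∧ g ^ 2 = 1} :=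
    Nat.card_congr (Equiv.subtypeEquivRight
      (fun g => ⟨fun h => ⟨Subgroup.mem_top g, h⟩, fun h => h.2⟩))
  rw [e0, card_coset_split ⊤ (kap hXS.2.1 x).ker le_top y (Subgroup.mem_top y) hyK hidx1
      (fun g => g ^ 2 = 1),
    card_coset_split (kap hXS.2.1 x).ker (Cxy hXS.2.1 x y) hCK x hxK hxC hidx2
      (fun g => g ^ 2 = 1),
    card_coset_split (kap hXS.2.1 x).ker (Cxy hXS.2.1 x y) hCK x hxK hxC hidx2
      (fun g => (g * y) ^ 2 = 1)]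

theorem xy_sq (hXS : XS 2 E) (x y : E) : (x * y) ^ 2 = ⁅x, y⁆⁻¹ * x ^ 2 * y ^ 2 := by
  have hw : x * ⁅x, y⁆⁻¹ = ⁅x, y⁆⁻¹ * x :=
    (Subgroup.mem_center_iff.1 (inv_mem (hXS.2.1 x y))) x
  calc (x * y) ^ 2 = x * (⁅x, y⁆⁻¹ * (x * y)) * y := by
        rw [pow_two]; simp only [commutatorElement_def]; group
    _ = (x * ⁅x, y⁆⁻¹) * x * y * y := by simp only [mul_assoc]
    _ = ⁅x, y⁆⁻¹ * x * x * y * y := by rw [hw]
    _ = ⁅x, y⁆⁻¹ * x ^ 2 * y ^ 2 := by rw [pow_two, pow_two]; simp only [mul_assoc]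

theorem sq_mul_iff (hXS : XS 2 E) (z : E) (hz : z ∈ Subgroup.center E) (hz1 : z ≠ 1) (g : E) :
    g ^ 2 * z = 1 ↔ ¬ g ^ 2 = 1 := by
  constructor
  · intro h h1
    rw [h1, one_mul] at h
    exact hz1 h
  · intro h
    rcases central_cases hXS z hz hz1 (g ^ 2) (sq_central hXS g) with h1 | h1
    · exact absurd h1 h
    · rw [h1, ← pow_two]; exact central_sq hXS z hz

theorem count_ab (C : Subgroup E) :
    Nat.card {g : E // g ∈ C ∧ g ^ 2 = 1} + Nat.card {g : E // g ∈ C ∧ ¬ g ^ 2 = 1}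
      = Nat.card ↥C ∧
    Nat.card {g : E // g ∈ C ∧ g ^ 2 = 1} = Nat.card {c : ↥C // c ^ 2 = 1} := by
  refine ⟨(card_split (fun g => g ∈ C) (fun g => g ^ 2 = 1)).symm, ?_⟩
  exact Nat.card_congr ⟨fun g => ⟨⟨g.1, g.2.1⟩, Subtype.ext g.2.2⟩,
    fun c => ⟨c.1.1, c.1.2, congrArg Subtype.val c.2⟩, fun _ => rfl, fun _ => rfl⟩

theorem count_hyp (hXS : XS 2 E) (x y : E) (hz : ⁅x, y⁆ ≠ 1) (hx2 : x ^ 2 = 1)
    (hy2 : y ^ 2 = 1) :
    ∃ a b : ℕ, a + b = Nat.card ↥(Cxy hXS.2.1 x y) ∧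
      a = Nat.card {c : ↥(Cxy hXS.2.1 x y) // c ^ 2 = 1} ∧
      Nat.card {g : E // g ^ 2 = 1} = a + a + (a + b) := by
  obtain ⟨hab, ha⟩ := count_ab (Cxy hXS.2.1 x y)
  refine ⟨_, _, hab, ha, ?_⟩
  rw [count_decomp hXS x y hz]
  have hzc := hXS.2.1 x y
  have hz2 : ⁅x, y⁆⁻¹ = ⁅x, y⁆ :=
    inv_eq_of_mul_eq_one_right (by rw [← pow_two]; exact central_sq hXS _ hzc)
  have e2 : Nat.card {g : E // g ∈ Cxy hXS.2.1 x y ∧ (g * x) ^ 2 = 1}
      = Nat.card {g : E // g ∈ Cxy hXS.2.1 x y ∧ g ^ 2 = 1} :=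
    Nat.card_congr (Equiv.subtypeEquivRight (fun g => and_congr_right (fun hg => by
      have hc : Commute g x := ((mem_Cxy hXS.2.1 x y g).1 hg).1
      rw [hc.mul_pow, hx2, mul_one])))
  have e3 : Nat.card {g : E // g ∈ Cxy hXS.2.1 x y ∧ (g * y) ^ 2 = 1}
      = Nat.card {g : E // g ∈ Cxy hXS.2.1 x y ∧ g ^ 2 = 1} :=
    Nat.card_congr (Equiv.subtypeEquivRight (fun g => and_congr_right (fun hg => by
      have hc : Commute g y := ((mem_Cxy hXS.2.1 x y g).1 hg).2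
      rw [hc.mul_pow, hy2, mul_one])))
  have e4 : Nat.card {g : E // g ∈ Cxy hXS.2.1 x y ∧ (g * x * y) ^ 2 = 1}
      = Nat.card {g : E // g ∈ Cxy hXS.2.1 x y ∧ ¬ g ^ 2 = 1} :=
    Nat.card_congr (Equiv.subtypeEquivRight (fun g => and_congr_right (fun hg => by
      have hcx : g * x = x * g := ((mem_Cxy hXS.2.1 x y g).1 hg).1
      have hcy : g * y = y * g := ((mem_Cxy hXS.2.1 x y g).1 hg).2
      have hc : Commute g (x * y) := by
        show g * (x * y) = x * y * g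
        rw [← mul_assoc, hcx, mul_assoc, hcy, mul_assoc]
      rw [mul_assoc, hc.mul_pow, xy_sq hXS x y, hx2, hy2, mul_one, mul_one, hz2]
      exact sq_mul_iff hXS _ hzc hz g)))
  rw [e2, e3, e4]

theorem count_Q (hXS : XS 2 E) (x y : E) (hz : ⁅x, y⁆ ≠ 1) (hx2 : x ^ 2 = ⁅x, y⁆)
    (hy2 : y ^ 2 = ⁅x, y⁆) :
    ∃ a b : ℕ, a + b = Nat.card ↥(Cxy hXS.2.1 x y) ∧
      a = Nat.card {c : ↥(Cxy hXS.2.1 x y) // c ^ 2 = 1} ∧
      Nat.card {g : E // g ^ 2 = 1} = a + b + (b + b) := by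
  obtain ⟨hab, ha⟩ := count_ab (Cxy hXS.2.1 x y)
  refine ⟨_, _, hab, ha, ?_⟩
  rw [count_decomp hXS x y hz]
  have hzc := hXS.2.1 x y
  have e2 : Nat.card {g : E // g ∈ Cxy hXS.2.1 x y ∧ (g * x) ^ 2 = 1}
      = Nat.card {g : E // g ∈ Cxy hXS.2.1 x y ∧ ¬ g ^ 2 = 1} :=
    Nat.card_congr (Equiv.subtypeEquivRight (fun g => and_congr_right (fun hg => by
      have hc : Commute g x := ((mem_Cxy hXS.2.1 x y g).1 hg).1
      rw [hc.mul_pow, hx2]
      exact sq_mul_iff hXS _ hzc hz g)))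
  have e3 : Nat.card {g : E // g ∈ Cxy hXS.2.1 x y ∧ (g * y) ^ 2 = 1}
      = Nat.card {g : E // g ∈ Cxy hXS.2.1 x y ∧ ¬ g ^ 2 = 1} :=
    Nat.card_congr (Equiv.subtypeEquivRight (fun g => and_congr_right (fun hg => by
      have hc : Commute g y := ((mem_Cxy hXS.2.1 x y g).1 hg).2
      rw [hc.mul_pow, hy2]
      exact sq_mul_iff hXS _ hzc hz g)))
  have e4 : Nat.card {g : E // g ∈ Cxy hXS.2.1 x y ∧ (g * x * y) ^ 2 = 1}
      = Nat.card {g : E // g ∈ Cxy hXS.2.1 x y ∧ ¬ g ^ 2 = 1} :=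
    Nat.card_congr (Equiv.subtypeEquivRight (fun g => and_congr_right (fun hg => by
      have hcx : g * x = x * g := ((mem_Cxy hXS.2.1 x y g).1 hg).1
      have hcy : g * y = y * g := ((mem_Cxy hXS.2.1 x y g).1 hg).2
      have hc : Commute g (x * y) := by
        show g * (x * y) = x * y * g
        rw [← mul_assoc, hcx, mul_assoc, hcy, mul_assoc]
      have hxy2 : (x * y) ^ 2 = ⁅x, y⁆ := by
        rw [xy_sq hXS x y, hx2, hy2, inv_mul_cancel, one_mul]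
      rw [mul_assoc, hc.mul_pow, hxy2]
      exact sq_mul_iff hXS _ hzc hz g)))
  rw [e2, e3, e4]

end count

theorem count_main : ∀ n : ℕ, ∀ (E : Type u) [Group E] [Finite E], XS 2 E → Nat.card E = n →
    ∃ m : ℕ, n = 2 ^ (2 * m + 1) ∧
      (Nat.card {g : E // g ^ 2 = 1} = 2 ^ (2 * m) + 2 ^ m ∨
        (1 ≤ m ∧ Nat.card {g : E // g ^ 2 = 1} + 2 ^ m = 2 ^ (2 * m))) := by
  intro n
  induction n using Nat.strong_induction_on with
  | _ n ih =>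
    intro E _ _ hXS hn
    by_cases hab : ∀ a b : E, a * b = b * a
    · have hc : Nat.card E = 2 := (abelian_iff_card hXS).1 hab
      refine ⟨0, by rw [← hn, hc]; norm_num, Or.inl ?_⟩
      rw [count_card_two hc]; norm_num
    · have hna : ∃ a b : E, a * b ≠ b * a := by
        by_contra hcon
        push Not at hcon
        exact hab hcon
      obtain ⟨z, hzc, hz1⟩ := exists_central_ne_one hXS
      rcases pair_type hXS hna z hzc hz1 with ⟨x, y, e, hx2, hy2⟩ | ⟨x, y, e, hx2, hy2⟩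
      · subst e
        have hm : Nat.card ↥(Cxy hXS.2.1 x y) * (2 * 2) = n := by
          rw [← index_Cxy hXS x y hz1, Subgroup.card_mul_index, hn]
        have hpos : 0 < Nat.card ↥(Cxy hXS.2.1 x y) := Nat.card_pos
        obtain ⟨m', hm', hcnt⟩ := ih _ (by omega) ↥(Cxy hXS.2.1 x y) (XS_Cxy hXS x y hz1) rfl
        obtain ⟨a, b, hab', ha, hN⟩ := count_hyp hXS x y hz1 hx2 hy2
        refine ⟨m' + 1, ?_, ?_⟩
        · rw [← hm, hm']; ring
        · rw [← ha] at hcnt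
          rw [hm'] at hab'
          have e1 : 2 ^ (2 * m' + 1) = 2 * 2 ^ (2 * m') := by ring
          have e2 : 2 ^ (2 * (m' + 1)) = 4 * 2 ^ (2 * m') := by ring
          have e3 : 2 ^ (m' + 1) = 2 * 2 ^ m' := by ring
          rw [hN, e2, e3]
          rw [e1] at hab'
          rcases hcnt with h | ⟨_, h⟩
          · left; omega
          · right; exact ⟨by omega, by omega⟩
      · subst e
        have hm : Nat.card ↥(Cxy hXS.2.1 x y) * (2 * 2) = n := by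
          rw [← index_Cxy hXS x y hz1, Subgroup.card_mul_index, hn]
        have hpos : 0 < Nat.card ↥(Cxy hXS.2.1 x y) := Nat.card_pos
        obtain ⟨m', hm', hcnt⟩ := ih _ (by omega) ↥(Cxy hXS.2.1 x y) (XS_Cxy hXS x y hz1) rfl
        obtain ⟨a, b, hab', ha, hN⟩ := count_Q hXS x y hz1 hx2 hy2
        refine ⟨m' + 1, ?_, ?_⟩
        · rw [← hm, hm']; ring
        · rw [← ha] at hcnt
          rw [hm'] at hab'
          have e1 : 2 ^ (2 * m' + 1) = 2 * 2 ^ (2 * m') := by ring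
          have e2 : 2 ^ (2 * (m' + 1)) = 4 * 2 ^ (2 * m') := by ring
          have e3 : 2 ^ (m' + 1) = 2 * 2 ^ m' := by ring
          rw [hN, e2, e3]
          rw [e1] at hab'
          rcases hcnt with h | ⟨_, h⟩
          · right; exact ⟨by omega, by omega⟩
          · left; omega

theorem main4 : ∀ n : ℕ, ∀ (E₁ : Type u) (E₂ : Type v) [Group E₁] [Group E₂]
    [Finite E₁] [Finite E₂], XS 2 E₁ → XS 2 E₂ →
    Nat.card E₁ = n → Nat.card E₂ = n →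
    Nat.card {g : E₁ // g ^ 2 = 1} = Nat.card {g : E₂ // g ^ 2 = 1} →
    ∀ (z₁ : E₁) (z₂ : E₂), z₁ ∈ Subgroup.center E₁ → z₁ ≠ 1 →
      z₂ ∈ Subgroup.center E₂ → z₂ ≠ 1 → ∃ φ : E₁ ≃* E₂, φ z₁ = z₂ := by
  intro n
  induction n using Nat.strong_induction_on with
  | _ n ih =>
    intro E₁ E₂ _ _ _ _ h₁ h₂ hn₁ hn₂ hcnt z₁ z₂ hz₁c hz₁ hz₂c hz₂
    by_cases hab : ∀ a b : E₁, a * b = b * a
    · have hc₁ : Nat.card E₁ = 2 := (abelian_iff_card h₁).1 hab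
      have hc₂ : Nat.card E₂ = 2 := by rw [hn₂, ← hn₁, hc₁]
      exact iso_card_two hc₁ hc₂ z₁ z₂ hz₁ hz₂
    · have hna₁ : ∃ a b : E₁, a * b ≠ b * a := by
        by_contra hcon
        push Not at hcon
        exact hab hcon
      have hn2 : n ≠ 2 := fun h => hab ((abelian_iff_card h₁).2 (hn₁.trans h))
      have hna₂ : ∃ a b : E₂, a * b ≠ b * a := by
        by_contra hcon
        push Not at hcon
        exact hn2 (hn₂.symm.trans ((abelian_iff_card h₂).1 hcon))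
      by_cases h8 : n = 8
      · have c₁ := hn₁.trans h8
        have c₂ := hn₂.trans h8
        rcases pair_type h₁ hna₁ z₁ hz₁c hz₁ with ⟨x₁, y₁, e₁, a₁, b₁⟩ | ⟨x₁, y₁, e₁, a₁, b₁⟩ <;>
        rcases pair_type h₂ hna₂ z₂ hz₂c hz₂ with ⟨x₂, y₂, e₂, a₂, b₂⟩ | ⟨x₂, y₂, e₂, a₂, b₂⟩
        · exact glue_small h₁ h₂ c₁ c₂ z₁ z₂ hz₁ hz₂ x₁ y₁ x₂ y₂ e₁ e₂
            (Or.inl ⟨a₁, b₁, a₂, b₂⟩)
        · exfalso
          subst e₁ e₂
          have hC₁ : Nat.card ↥(Cxy h₁.2.1 x₁ y₁) = 2 := by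
            have h := Subgroup.card_mul_index (Cxy h₁.2.1 x₁ y₁)
            rw [index_Cxy h₁ x₁ y₁ hz₁, c₁] at h
            omega
          have hC₂ : Nat.card ↥(Cxy h₂.2.1 x₂ y₂) = 2 := by
            have h := Subgroup.card_mul_index (Cxy h₂.2.1 x₂ y₂)
            rw [index_Cxy h₂ x₂ y₂ hz₂, c₂] at h
            omega
          obtain ⟨p₁, q₁, hpq₁, hp₁, hN₁⟩ := count_hyp h₁ x₁ y₁ hz₁ a₁ b₁
          obtain ⟨p₂, q₂, hpq₂, hp₂, hN₂⟩ := count_Q h₂ x₂ y₂ hz₂ a₂ b₂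
          rw [count_card_two hC₁] at hp₁
          rw [count_card_two hC₂] at hp₂
          rw [hN₁, hN₂] at hcnt
          omega
        · exfalso
          subst e₁ e₂
          have hC₁ : Nat.card ↥(Cxy h₁.2.1 x₁ y₁) = 2 := by
            have h := Subgroup.card_mul_index (Cxy h₁.2.1 x₁ y₁)
            rw [index_Cxy h₁ x₁ y₁ hz₁, c₁] at h
            omega
          have hC₂ : Nat.card ↥(Cxy h₂.2.1 x₂ y₂) = 2 := by
            have h := Subgroup.card_mul_index (Cxy h₂.2.1 x₂ y₂)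
            rw [index_Cxy h₂ x₂ y₂ hz₂, c₂] at h
            omega
          obtain ⟨p₁, q₁, hpq₁, hp₁, hN₁⟩ := count_Q h₁ x₁ y₁ hz₁ a₁ b₁
          obtain ⟨p₂, q₂, hpq₂, hp₂, hN₂⟩ := count_hyp h₂ x₂ y₂ hz₂ a₂ b₂
          rw [count_card_two hC₁] at hp₁
          rw [count_card_two hC₂] at hp₂
          rw [hN₁, hN₂] at hcnt
          omega
        · exact glue_small h₁ h₂ c₁ c₂ z₁ z₂ hz₁ hz₂ x₁ y₁ x₂ y₂ e₁ e₂
            (Or.inr ⟨a₁, b₁, a₂, b₂⟩)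
      · obtain ⟨x₁, y₁, e₁, a₁, b₁⟩ := hyp_pair_big h₁ hna₁ z₁ hz₁c hz₁ (by rw [hn₁]; exact h8)
        obtain ⟨x₂, y₂, e₂, a₂, b₂⟩ := hyp_pair_big h₂ hna₂ z₂ hz₂c hz₂ (by rw [hn₂]; exact h8)
        subst e₁ e₂
        have hm₁ : Nat.card ↥(Cxy h₁.2.1 x₁ y₁) * (2 * 2) = n := by
          rw [← index_Cxy h₁ x₁ y₁ hz₁, Subgroup.card_mul_index, hn₁]
        have hm₂ : Nat.card ↥(Cxy h₂.2.1 x₂ y₂) * (2 * 2) = n := by
          rw [← index_Cxy h₂ x₂ y₂ hz₂, Subgroup.card_mul_index, hn₂]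
        have hpos : 0 < Nat.card ↥(Cxy h₁.2.1 x₁ y₁) := Nat.card_pos
        have hlt : Nat.card ↥(Cxy h₁.2.1 x₁ y₁) < n := by omega
        have hceq₂ : Nat.card ↥(Cxy h₂.2.1 x₂ y₂) = Nat.card ↥(Cxy h₁.2.1 x₁ y₁) := by omega
        have hz1C := center_le_Cxy h₁ x₁ y₁ _ hz₁c
        have hz2C := center_le_Cxy h₂ x₂ y₂ _ hz₂c
        have hcen₁ : (⟨⁅x₁, y₁⁆, hz1C⟩ : ↥(Cxy h₁.2.1 x₁ y₁)) ∈
            Subgroup.center ↥(Cxy h₁.2.1 x₁ y₁) :=
          Subgroup.mem_center_iff.2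
            (fun g => Subtype.ext ((Subgroup.mem_center_iff.1 hz₁c) (g : E₁)))
        have hcen₂ : (⟨⁅x₂, y₂⁆, hz2C⟩ : ↥(Cxy h₂.2.1 x₂ y₂)) ∈
            Subgroup.center ↥(Cxy h₂.2.1 x₂ y₂) :=
          Subgroup.mem_center_iff.2
            (fun g => Subtype.ext ((Subgroup.mem_center_iff.1 hz₂c) (g : E₂)))
        obtain ⟨p₁, q₁, hpq₁, hp₁, hN₁⟩ := count_hyp h₁ x₁ y₁ hz₁ a₁ b₁
        obtain ⟨p₂, q₂, hpq₂, hp₂, hN₂⟩ := count_hyp h₂ x₂ y₂ hz₂ a₂ b₂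
        have hcntC : Nat.card {c : ↥(Cxy h₁.2.1 x₁ y₁) // c ^ 2 = 1}
            = Nat.card {c : ↥(Cxy h₂.2.1 x₂ y₂) // c ^ 2 = 1} := by
          rw [← hp₁, ← hp₂]
          rw [hN₁, hN₂] at hcnt
          omega
        obtain ⟨ψ, hψ⟩ := ih _ hlt ↥(Cxy h₁.2.1 x₁ y₁) ↥(Cxy h₂.2.1 x₂ y₂)
          (XS_Cxy h₁ x₁ y₁ hz₁) (XS_Cxy h₂ x₂ y₂ hz₂) rfl hceq₂ hcntC
          ⟨⁅x₁, y₁⁆, hz1C⟩ ⟨⁅x₂, y₂⁆, hz2C⟩
          hcen₁ (fun h => hz₁ (congrArg Subtype.val h))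
          hcen₂ (fun h => hz₂ (congrArg Subtype.val h))
        refine step2 h₁ h₂ (hn₁.trans hn₂.symm) x₁ y₁ x₂ y₂ hz₁ hz₂
          (Or.inl ⟨a₁, b₁, a₂, b₂⟩) ψ ?_
        intro c hc
        have e : c = ⟨⁅x₁, y₁⁆, hz1C⟩ := Subtype.ext hc
        rw [e, hψ]

/-- Classification of extraspecial 2-groups in intrinsic form. An extraspecial 2-group has order 2^(2m+1) for some m ≥ 1, and the number of its elements squaring to the identity is either 2^(2m) + 2^m or 2^(2m) − 2^m; two extraspecial 2-groups of the same order with the same number of such elements are isomorphic. (The two cases are the central products of m dihedral groups of order 8, and of m − 1 dihedral groups with one quaternion group.) -/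
theorem result (E : Type*) [Group E] [Finite E] (hE : Cfsg.IsExtraspecial 2 E) :
    (∃ m : ℕ, 1 ≤ m ∧ Nat.card E = 2 ^ (2 * m + 1) ∧
      (Nat.card {x : E // x ^ 2 = 1} = 2 ^ (2 * m) + 2 ^ m ∨ Nat.card {x : E // x ^ 2 = 1} = 2 ^ (2 * m) - 2 ^ m)) ∧
    ∀ (E' : Type*) [Group E'] [Finite E'], Cfsg.IsExtraspecial 2 E' → Nat.card E' = Nat.card E →
      Nat.card {x : E' // x ^ 2 = 1} = Nat.card {x : E // x ^ 2 = 1} → Nonempty (E ≃* E') := by
  have hX : XS 2 E := xs_of_extraspecial hE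
  have hna : ¬ ∀ a b : E, a * b = b * a := by
    intro hab
    have h1 : commutator E = ⊥ := by
      show ⁅(⊤ : Subgroup E), ⊤⁆ = ⊥
      rw [eq_bot_iff, Subgroup.commutator_le]
      intro a _ b _
      rw [Subgroup.mem_bot]
      exact commutatorElement_eq_one_iff_commute.2 (hab a b)
    have h2 := hE.2
    rw [← hE.1.2.2, h1, Subgroup.card_bot] at h2
    norm_num at h2
  refine ⟨?_, ?_⟩
  · obtain ⟨m, hm, hcnt⟩ := count_main (Nat.card E) E hX rfl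
    have hm1 : 1 ≤ m := by
      by_contra hcon
      have hm0 : m = 0 := by omega
      subst hm0
      exact hna ((abelian_iff_card hX).2 (by rw [hm]; norm_num))
    refine ⟨m, hm1, hm, ?_⟩
    rcases hcnt with h | ⟨_, h⟩
    · exact Or.inl h
    · exact Or.inr (Nat.eq_sub_of_add_eq h)
  · intro E' _ _ hE' hcard hcnt
    have hX' : XS 2 E' := xs_of_extraspecial hE'
    obtain ⟨z₁, hz₁⟩ := exists_central_ne_one hX
    obtain ⟨z₂, hz₂⟩ := exists_central_ne_one hX'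
    obtain ⟨φ, -⟩ := main4 (Nat.card E) E E' hX hX' rfl hcard hcnt.symm z₁ z₂
      hz₁.1 hz₁.2 hz₂.1 hz₂.2
    exact ⟨φ⟩

end Cfsg.Agent.S4416
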