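import Cfsg.Statements.S4421
-- import your own Cfsg.Agent.* helpers here
import Mathlib

set_option autoImplicit false
open Cfsg

namespace Cfsg.Agent.S4421

section
universe u
variable {G : Type u} [Group G]

theorem mem_map_conj {K : Subgroup G} {g x : G} :
    x ∈ K.map (MulAut.conj g).toMonoidHom ↔ g⁻¹ * x * g ∈ K := by
  constructor
  · rintro ⟨k, hk, rfl⟩
    have : g⁻¹ * ((MulAut.conj g).toMonoidHom k) * g = k := by
      simp [MulAut.conj_apply, mul_assoc]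
    rw [this]; exact hk
  · intro h
    refine ⟨g⁻¹ * x * g, h, ?_⟩
    simp [MulAut.conj_apply, mul_assoc]

theorem main (A S H : Subgroup G)
    (hAS : A ≤ S) (hSH : S ≤ H)
    (h1 : ∀ g : G, A.map (MulAut.conj g).toMonoidHom ≤ S →
      ∃ s ∈ S, A.map (MulAut.conj g).toMonoidHom = A.map (MulAut.conj s).toMonoidHom)
    (h2 : ∀ g : G, S.map (MulAut.conj g).toMonoidHom ≤ H →
      ∃ y ∈ H, S.map (MulAut.conj g).toMonoidHom = S.map (MulAut.conj y).toMonoidHom)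
    (h3 : ∀ x ∈ Subgroup.normalizer (A : Set G), S.map (MulAut.conj x).toMonoidHom ≤ H) :
    ∀ x ∈ Subgroup.normalizer (A : Set G), ∃ y ∈ H ⊓ Subgroup.normalizer (A : Set G),
      ∃ z ∈ Subgroup.normalizer (S : Set G) ⊓ Subgroup.normalizer (A : Set G), x = y * z := by
  intro x hx
  obtain ⟨y₁, hy₁, hxy⟩ := h2 x (h3 x hx)
  have hnS : y₁⁻¹ * x ∈ Subgroup.normalizer (S : Set G) := by
    rw [Subgroup.mem_normalizer_iff]
    intro s
    have e1 : x * s * x⁻¹ ∈ S.map (MulAut.conj x).toMonoidHom ↔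
        x * s * x⁻¹ ∈ S.map (MulAut.conj y₁).toMonoidHom := by rw [hxy]
    rw [mem_map_conj, mem_map_conj] at e1
    have e2 : x⁻¹ * (x * s * x⁻¹) * x = s := by group
    have e3 : y₁⁻¹ * (x * s * x⁻¹) * y₁ = y₁⁻¹ * x * s * (y₁⁻¹ * x)⁻¹ := by group
    rw [e2, e3] at e1
    exact e1
  have hnA : A.map (MulAut.conj (y₁⁻¹ * x)).toMonoidHom ≤ S := by
    intro u hu
    rw [mem_map_conj] at hu
    have h4 := (Subgroup.mem_normalizer_iff.mp hnS _).mp (hAS hu)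
    have e : y₁⁻¹ * x * ((y₁⁻¹ * x)⁻¹ * u * (y₁⁻¹ * x)) * (y₁⁻¹ * x)⁻¹ = u := by group
    rwa [e] at h4
  obtain ⟨s, hs, hns⟩ := h1 (y₁⁻¹ * x) hnA
  have hzA : s⁻¹ * (y₁⁻¹ * x) ∈ Subgroup.normalizer (A : Set G) := by
    rw [Subgroup.mem_normalizer_iff]
    intro a
    have e1 : (y₁⁻¹ * x) * a * (y₁⁻¹ * x)⁻¹ ∈ A.map (MulAut.conj (y₁⁻¹ * x)).toMonoidHom ↔
        (y₁⁻¹ * x) * a * (y₁⁻¹ * x)⁻¹ ∈ A.map (MulAut.conj s).toMonoidHom := by rw [hns]
    rw [mem_map_conj, mem_map_conj] at e1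
    have e2 : (y₁⁻¹ * x)⁻¹ * ((y₁⁻¹ * x) * a * (y₁⁻¹ * x)⁻¹) * (y₁⁻¹ * x) = a := by group
    have e3 : s⁻¹ * ((y₁⁻¹ * x) * a * (y₁⁻¹ * x)⁻¹) * s
        = s⁻¹ * (y₁⁻¹ * x) * a * (s⁻¹ * (y₁⁻¹ * x))⁻¹ := by group
    rw [e2, e3] at e1
    exact e1
  have hzS : s⁻¹ * (y₁⁻¹ * x) ∈ Subgroup.normalizer (S : Set G) :=
    mul_mem (Subgroup.le_normalizer (inv_mem hs)) hnS
  refine ⟨y₁ * s, ⟨mul_mem hy₁ (hSH hs), ?_⟩, s⁻¹ * (y₁⁻¹ * x), ⟨hzS, hzA⟩, by group⟩
  have e : y₁ * s = x * (s⁻¹ * (y₁⁻¹ * x))⁻¹ := by group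
  show y₁ * s ∈ Subgroup.normalizer (A : Set G)
  rw [e]
  exact mul_mem hx (inv_mem hzA)

end

/-- A factorization of a normalizer from two-step control of fusion. Let `G` be a finite group and `A ≤ S ≤ H` subgroups of `G` such that: (i) `S` controls the `G`-fusion of `A` in the sense that every `G`-conjugate of `A` lying in `S` is an `S`-conjugate of `A`; (ii) `H` controls the `G`-fusion of `S` in the same sense; (iii) every conjugate of `S` by an element of the normalizer of `A` lies in `H`. Then `N_G(A) = N_H(A) · (N_G(S) ∩ N_G(A))`: every element of the normalizer of `A` is a product of an element of `H` normalizing `A` and an element normalizing both `S` and `A`. -/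
theorem result {G : Type*} [Group G] [Finite G] (A S H : Subgroup G)
    (hAS : A ≤ S) (hSH : S ≤ H)
    (h1 : ∀ g : G, A.map (MulAut.conj g).toMonoidHom ≤ S → ∃ s ∈ S, A.map (MulAut.conj g).toMonoidHom = A.map (MulAut.conj s).toMonoidHom)
    (h2 : ∀ g : G, S.map (MulAut.conj g).toMonoidHom ≤ H → ∃ y ∈ H, S.map (MulAut.conj g).toMonoidHom = S.map (MulAut.conj y).toMonoidHom)
    (h3 : ∀ x ∈ Subgroup.normalizer (A : Set G), S.map (MulAut.conj x).toMonoidHom ≤ H) :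
    ∀ x ∈ Subgroup.normalizer (A : Set G), ∃ y ∈ H ⊓ Subgroup.normalizer (A : Set G),
      ∃ z ∈ Subgroup.normalizer (S : Set G) ⊓ Subgroup.normalizer (A : Set G), x = y * z := by
  exact main A S H hAS hSH h1 h2 h3

end Cfsg.Agent.S4421
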