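import Cfsg.Statements.S4422
-- import your own Cfsg.Agent.* helpers here
import Mathlib

set_option autoImplicit false
open Cfsg

namespace Cfsg.Agent.S4422

theorem prime_case (q e r : ℕ) (hq : 2 ≤ q) (he : 1 ≤ e) (hr : r.Prime) (hre : r ∣ q ^ e - 1)
    (hcop : ∀ i : ℕ, 1 ≤ i → i < e → ¬ r ∣ q ^ i - 1) : r % e = 1 % e := by
  have := Fact.mk hr
  have hqe : 1 ≤ q ^ e := Nat.one_le_pow _ _ (by omega)
  have h1 : (q : ZMod r) ^ e = 1 := by
    have h0 : ((q ^ e - 1 : ℕ) : ZMod r) = 0 := (ZMod.natCast_eq_zero_iff _ _).2 hre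
    rw [Nat.cast_sub hqe, Nat.cast_pow, Nat.cast_one, sub_eq_zero] at h0
    exact h0
  obtain ⟨d, hd⟩ : ∃ d, d = orderOf (q : ZMod r) := ⟨_, rfl⟩
  have hde : d ∣ e := hd ▸ orderOf_dvd_of_pow_eq_one h1
  have hdpos : 0 < d := by
    rcases Nat.eq_zero_or_pos d with h0 | h0
    · rw [h0, zero_dvd_iff] at hde; omega
    · exact h0
  have hde' : d = e := by
    by_contra hne
    have hlt : d < e := lt_of_le_of_ne (Nat.le_of_dvd (by omega) hde) hne
    apply hcop d hdpos hlt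
    rw [← ZMod.natCast_eq_zero_iff, Nat.cast_sub (Nat.one_le_pow _ _ (by omega)), Nat.cast_pow,
      Nat.cast_one, sub_eq_zero, hd]
    exact pow_orderOf_eq_one _
  have hq0 : (q : ZMod r) ≠ 0 := by
    intro h0
    rw [h0, zero_pow (by omega)] at h1
    exact zero_ne_one h1
  have hdiv : d ∣ r - 1 := hd ▸ ZMod.orderOf_dvd_card_sub_one hq0
  rw [hde'] at hdiv
  obtain ⟨k, hk⟩ := hdiv
  have hr1 : 1 ≤ r := hr.one_lt.le
  have h2 : r = e * k + 1 := by omega
  rw [h2]
  simp [Nat.add_mod]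

theorem aux (e : ℕ) : ∀ m : ℕ, m ≠ 0 → (∀ r : ℕ, r.Prime → r ∣ m → r % e = 1 % e) →
    m % e = 1 % e := by
  intro m
  induction m using Nat.strong_induction_on with
  | _ m ih =>
    intro hm0 h
    by_cases hm1 : m = 1
    · rw [hm1]
    · obtain ⟨r, hr, hrm⟩ := Nat.exists_prime_and_dvd hm1
      obtain ⟨m', rfl⟩ := hrm
      have hm'0 : m' ≠ 0 := by
        rintro rfl; simp at hm0
      have hlt : m' < r * m' := by
        nlinarith [hr.two_le, Nat.pos_of_ne_zero hm'0]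
      have h1 := ih m' hlt hm'0 (fun s hs hsm => h s hs (Dvd.dvd.mul_left hsm r))
      have h2 := h r hr (Dvd.intro _ rfl)
      have h3 : (r * m') % e = ((r % e) * (m' % e)) % e := Nat.mul_mod _ _ _
      rw [h3, h1, h2, ← Nat.mul_mod, mul_one]

/-- Primitive divisors of `q^e - 1` are congruent to 1 modulo `e`. Let `q ≥ 2` and `e ≥ 1` be natural numbers and let `m` be a divisor of `q^e - 1` that is coprime to `q^i - 1` for every `1 ≤ i < e` (so `m` divides the primitive part of `q^e - 1`, the largest such divisor). Then `m ≡ 1 (mod e)`. -/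
theorem result (q e m : ℕ) (hq : 2 ≤ q) (he : 1 ≤ e)
    (hm : m ∣ q ^ e - 1) (hcop : ∀ i : ℕ, 1 ≤ i → i < e → Nat.Coprime m (q ^ i - 1)) :
    m % e = 1 % e := by
  have hqe : 1 ≤ q ^ e - 1 := by
    have : 2 ^ 1 ≤ q ^ e := (Nat.pow_le_pow_left hq 1).trans (Nat.pow_le_pow_right (by omega) he)
    omega
  apply aux e m
  · rintro rfl
    rw [zero_dvd_iff] at hm
    omega
  · intro r hr hrm
    apply prime_case q e r hq he hr (hrm.trans hm)
    intro i hi1 hie hri
    have := Nat.dvd_gcd hrm hri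
    rw [hcop i hi1 hie] at this
    exact hr.one_lt.ne' (Nat.dvd_one.1 this)

end Cfsg.Agent.S4422
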