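import Cfsg.Statements.S4425
import Cfsg.Agent.Lib.Lead.CharPReg2
import Cfsg.Agent.Lib.Lead.CharDeg

set_option autoImplicit false
set_option maxHeartbeats 800000

namespace Cfsg.Agent.S4425

open Cfsg Cfsg.Agent.Lib.Lead Cfsg.Agent.Lib.Helper2
open scoped ComplexConjugate

theorem result {G : Type*} [Group G] [Finite G] (p : ℕ) [Fact p.Prime] (χ : Cfsg.IrrCharacter G) : Cfsg.IsGeneralizedCharacter G (fun x : G => if p ∣ orderOf x then (0 : ℂ) else ((p ^ ((Nat.card G).factorization p - (Cfsg.charDegree (χ : G → ℂ)).factorization p) : ℕ) : ℂ) * (χ : G → ℂ) x) ∧ ¬ Cfsg.IsGeneralizedCharacter G (fun x : G => if p ∣ orderOf x then (0 : ℂ) else ((p ^ (Nat.card G).factorization p : ℕ) : ℂ) / ((p ^ ((Cfsg.charDegree (χ : G → ℂ)).factorization p + 1) : ℕ) : ℂ) * (χ : G → ℂ) x) := by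
  classical
  letI := Fintype.ofFinite G
  have hp : p.Prime := Fact.out
  have hd1 := isIrrCharacter_one_eq_charDegree χ.2
  refine ⟨preg_gc_sharp p χ.2 (Cfsg.charDegree (χ : G → ℂ)) hd1, ?_⟩
  obtain ⟨d, hd⟩ : ∃ d, d = Cfsg.charDegree (χ : G → ℂ) := ⟨_, rfl⟩
  obtain ⟨a, ha⟩ : ∃ a, a = (Nat.card G).factorization p := ⟨_, rfl⟩
  rw [← hd] at hd1 ⊢
  rw [← ha]
  have hdpos : 0 < d := by rw [hd]; exact charDegree_pos_of_irr χ.2
  intro hgc
  obtain ⟨a1, a2, h1, h2, heq⟩ := hgc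
  obtain ⟨P⟩ : Nonempty (Sylow p G) := inferInstance
  letI : Fintype (P : Subgroup G) := Fintype.ofFinite _
  have r1 := isCharacter_res (P : Subgroup G) h1
  have r2 := isCharacter_res (P : Subgroup G) h2
  obtain ⟨n1, hn1⟩ := classInner_isCharacter_nat r1 (isCharacter_one (G := (P : Subgroup G)))
  obtain ⟨n2, hn2⟩ := classInner_isCharacter_nat r2 (isCharacter_one (G := (P : Subgroup G)))
  have hcardP : Nat.card (P : Subgroup G) = p ^ a := by rw [ha]; exact Sylow.card_eq_multiplicity P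
  have hval : ∀ y : (P : Subgroup G), a1 (y : G) - a2 (y : G) =
      if y = 1 then ((p ^ a : ℕ) : ℂ) / ((p ^ (d.factorization p + 1) : ℕ) : ℂ) * (d : ℂ)
        else 0 := by
    intro y
    have h3 := congrFun heq (y : G)
    simp only [Pi.sub_apply] at h3
    rw [← h3]
    by_cases hy : y = 1
    · rw [if_pos hy, hy]
      have h4 : ¬ p ∣ orderOf (((1 : (P : Subgroup G)) : G)) := by
        rw [Subgroup.coe_one, orderOf_one]; exact fun h => hp.one_lt.ne' (Nat.dvd_one.mp h)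
      rw [if_neg h4, Subgroup.coe_one, hd1]
    · rw [if_neg hy]
      obtain ⟨k, hk⟩ := (IsPGroup.iff_orderOf.mp P.isPGroup') y
      have hk0 : k ≠ 0 := by
        intro h0
        rw [h0, pow_zero, orderOf_eq_one_iff] at hk
        exact hy hk
      have h4 : p ∣ orderOf (y : G) := by
        rw [Subgroup.orderOf_coe, hk]; exact dvd_pow_self p hk0
      rw [if_pos h4]
  have hinner : (n1 : ℂ) - (n2 : ℂ) = (d : ℂ) / ((p ^ (d.factorization p + 1) : ℕ) : ℂ) := by
    rw [← hn1, ← hn2]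
    unfold classInner
    rw [← mul_sub, ← Finset.sum_sub_distrib]
    have h3 : ∀ y : (P : Subgroup G), a1 (y : G) * conj ((fun _ : (P : Subgroup G) => (1 : ℂ)) y) -
        a2 (y : G) * conj ((fun _ : (P : Subgroup G) => (1 : ℂ)) y) =
        if y = 1 then ((p ^ a : ℕ) : ℂ) / ((p ^ (d.factorization p + 1) : ℕ) : ℂ) * (d : ℂ)
        else 0 := by
      intro y
      rw [← hval y]; simp
    rw [Finset.sum_congr rfl (fun y _ => h3 y), Finset.sum_ite_eq' Finset.univ 1, 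
      if_pos (Finset.mem_univ _), hcardP]
    have hpa : ((p ^ a : ℕ) : ℂ) ≠ 0 := by exact_mod_cast (pow_pos hp.pos a).ne'
    have hpb : ((p ^ (d.factorization p + 1) : ℕ) : ℂ) ≠ 0 := by
      exact_mod_cast (pow_pos hp.pos _).ne'
    field_simp
  have hpb : ((p ^ (d.factorization p + 1) : ℕ) : ℂ) ≠ 0 := by
    exact_mod_cast (pow_pos hp.pos _).ne'
  have h4 : (d : ℂ) = ((n1 : ℂ) - (n2 : ℂ)) * ((p ^ (d.factorization p + 1) : ℕ) : ℂ) := by
    rw [hinner]; field_simp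
  have h5 : (d : ℤ) = ((n1 : ℤ) - (n2 : ℤ)) * ((p ^ (d.factorization p + 1) : ℕ) : ℤ) := by
    exact_mod_cast h4
  have h6 : ((p ^ (d.factorization p + 1) : ℕ) : ℤ) ∣ (d : ℤ) := ⟨(n1 : ℤ) - (n2 : ℤ), by rw [h5]; ring⟩
  exact Nat.pow_succ_factorization_not_dvd hdpos.ne' hp (Int.natCast_dvd_natCast.mp h6)

end Cfsg.Agent.S4425
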