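import Cfsg.Statements.S4476
import Cfsg.Agent.Lib.Lead.CharFS2
import Cfsg.Agent.Lib.Lead.CharRing

set_option autoImplicit false
open Cfsg

namespace Cfsg.Agent.S4476

open Cfsg.Agent.Lib.Lead in
theorem result {G : Type*} [Group G] [Fintype G] (heven : Even (Nat.card G)) (t : ℕ) (ht : Nat.card {x : G // orderOf x = 2} = t) : (∃ x : G, x ≠ 1 ∧ ((Subgroup.centralizer ({x} : Set G)).index : ℚ) ≤ (((Nat.card G : ℚ) - 1) / t) ^ 2) ∧ ∃ χ : Cfsg.IrrCharacter G, (χ : G → ℂ) ≠ (fun _ => 1) ∧ (∀ g : G, ((χ : G → ℂ) g).im = 0) ∧ (Cfsg.charDegree (χ : G → ℂ) : ℚ) ≤ ((Nat.card G : ℚ) - 1) / t := by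
  classical
  haveI : Finite (Cfsg.IrrCharacter G) := irr_finite
  letI : Fintype (Cfsg.IrrCharacter G) := Fintype.ofFinite _
  set one : Cfsg.IrrCharacter G := ⟨fun _ => 1, isIrrCharacter_one G⟩ with hone
  set RR : Finset (Cfsg.IrrCharacter G) :=
    Finset.univ.filter (fun χ : Cfsg.IrrCharacter G => ∀ g, ((χ : G → ℂ) g).im = 0) with hRR
  set R : Finset (Cfsg.IrrCharacter G) := RR.erase one with hR
  set d : Cfsg.IrrCharacter G → ℕ := fun χ => Cfsg.charDegree (χ : G → ℂ) with hd
  -- t ≥ 1
  have ht1 : 1 ≤ t := by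
    haveI : Fact (Nat.Prime 2) := ⟨Nat.prime_two⟩
    obtain ⟨z, hz⟩ := exists_prime_orderOf_dvd_card' (G := G) 2 heven.two_dvd
    rw [← ht]
    haveI : Nonempty {x : G // orderOf x = 2} := ⟨⟨z, hz⟩⟩
    exact Nat.card_pos
  -- N1
  have N1 : t ≤ ∑ χ ∈ R, d χ := by
    have h := card_involutions_le (G := G)
    rw [ht] at h
    exact_mod_cast h
  -- N2
  have hone_mem : one ∈ RR := by
    rw [hRR, Finset.mem_filter]
    exact ⟨Finset.mem_univ _, fun g => by simp [hone]⟩
  have hd1 : d one = 1 := charDegree_of_one_eq (by simp [hone])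
  have hsq : ∑ χ : Cfsg.IrrCharacter G, (d χ) ^ 2 = Fintype.card G := by
    have h := sum_sq_degree (G := G)
    rw [Nat.card_eq_fintype_card] at h
    have h2 : ∑ χ : Cfsg.IrrCharacter G, (χ : G → ℂ) 1 ^ 2 =
        ((∑ χ : Cfsg.IrrCharacter G, (d χ) ^ 2 : ℕ) : ℂ) := by
      push_cast
      apply Finset.sum_congr rfl; intro χ _
      rw [isIrrCharacter_one_eq_charDegree χ.2]
    rw [h2] at h
    exact_mod_cast h
  have N2 : ∑ χ ∈ R, (d χ) ^ 2 + 1 ≤ Fintype.card G := by
    rw [← hsq, ← Finset.add_sum_erase _ _ (Finset.mem_univ one), hd1, one_pow, add_comm]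
    apply Nat.add_le_add_left
    apply Finset.sum_le_sum_of_subset
    exact Finset.erase_subset_erase _ (Finset.filter_subset _ _)
  have hRne : R.Nonempty := by
    by_contra hemp
    rw [Finset.not_nonempty_iff_eq_empty] at hemp
    rw [hemp, Finset.sum_empty] at N1
    omega
  have hcardG : (Nat.card G : ℚ) = (Fintype.card G : ℚ) := by rw [Nat.card_eq_fintype_card]
  have htpos : (0 : ℚ) < (t : ℚ) := by exact_mod_cast ht1
  have hGsub : ((Fintype.card G - 1 : ℕ) : ℚ) = (Fintype.card G : ℚ) - 1 := by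
    rw [Nat.cast_sub Fintype.card_pos]; simp
  constructor
  · -- Brauer–Fowler
    have hCS : t ^ 2 ≤ R.card * (Fintype.card G - 1) := by
      have h1 : (∑ χ ∈ R, d χ) ^ 2 ≤ R.card * ∑ χ ∈ R, (d χ) ^ 2 := sq_sum_le_card_mul_sum_sq
      calc t ^ 2 ≤ (∑ χ ∈ R, d χ) ^ 2 := Nat.pow_le_pow_left N1 2
        _ ≤ R.card * ∑ χ ∈ R, (d χ) ^ 2 := h1
        _ ≤ R.card * (Fintype.card G - 1) := Nat.mul_le_mul_left _ (by omega)
    -- real classes
    set RC : Finset (ConjClasses G) :=
      Finset.univ.filter (fun C : ConjClasses G => ∀ g : G, ConjClasses.mk g = C → IsConj g g⁻¹)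
      with hRC
    have hcount : RC.card = RR.card := by
      have h := card_real_irr_eq_card_real_classes (G := G)
      rw [Nat.card_eq_fintype_card, Nat.card_eq_fintype_card, Fintype.card_subtype,
        Fintype.card_subtype] at h
      exact h.symm
    have hmk1 : ConjClasses.mk (1 : G) ∈ RC := by
      rw [hRC, Finset.mem_filter]
      refine ⟨Finset.mem_univ _, fun g hg => ?_⟩
      have : g = 1 := by
        have := ConjClasses.mk_eq_mk_iff_isConj.mp hg
        exact isConj_one_left.mp this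
      rw [this, inv_one]
    set RC' : Finset (ConjClasses G) := RC.erase (ConjClasses.mk 1) with hRC'
    have hcard' : RC'.card = R.card := by
      rw [hRC', hR, Finset.card_erase_of_mem hmk1, Finset.card_erase_of_mem hone_mem, hcount]
    set c : ConjClasses G → ℕ := fun C => (classFinset (Quotient.out C)).card with hc
    have hsumc : ∑ C : ConjClasses G, c C = Fintype.card G := by
      have h := sum_eq_sum_conjClasses (G := G) (fun _ => (1 : ℂ))
      simp only [Finset.sum_const, nsmul_eq_mul, mul_one, Finset.card_univ] at h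
      have h2 : ∑ C : ConjClasses G, ((classFinset (Quotient.out C)).card : ℂ) =
          ((∑ C : ConjClasses G, c C : ℕ) : ℂ) := by push_cast; rfl
      rw [h2] at h
      exact_mod_cast h.symm
    have hc1 : c (ConjClasses.mk 1) = 1 := by
      rw [hc]
      simp only
      have h1 : classFinset (Quotient.out (ConjClasses.mk (1 : G))) = {1} := by
        ext x
        rw [mem_classFinset, Finset.mem_singleton]
        have h2 : Quotient.out (ConjClasses.mk (1 : G)) = 1 := by
          have := ConjClasses.mk_eq_mk_iff_isConj.mp (Quotient.out_eq (ConjClasses.mk (1 : G)))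
          exact isConj_one_left.mp this
        rw [h2]
        exact isConj_one_right
      rw [h1, Finset.card_singleton]
    have hsumc' : ∑ C ∈ RC', c C + 1 ≤ Fintype.card G := by
      rw [← hsumc, ← Finset.add_sum_erase _ _ (Finset.mem_univ (ConjClasses.mk (1 : G))), hc1,
        add_comm]
      apply Nat.add_le_add_left
      apply Finset.sum_le_sum_of_subset
      exact Finset.erase_subset_erase _ (Finset.filter_subset _ _)
    have hRC'ne : RC'.Nonempty := by
      rw [← Finset.card_pos, hcard']; exact Finset.card_pos.mpr hRne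
    obtain ⟨C0, hC0, hmin⟩ := Finset.exists_min_image RC' c hRC'ne
    have hrc : R.card * c C0 ≤ Fintype.card G - 1 := by
      have h1 : RC'.card * c C0 ≤ ∑ C ∈ RC', c C := by
        rw [← smul_eq_mul, ← Finset.sum_const]
        exact Finset.sum_le_sum hmin
      rw [hcard'] at h1
      omega
    refine ⟨Quotient.out C0, ?_, ?_⟩
    · intro h1
      have h2 : C0 = ConjClasses.mk 1 := by rw [← h1]; exact (Quotient.out_eq C0).symm
      rw [hRC', Finset.mem_erase] at hC0
      exact hC0.1 h2
    · rw [← card_classFinset]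
      have hcc : (classFinset (Quotient.out C0)).card = c C0 := rfl
      rw [hcc, hcardG, div_pow, le_div_iff₀ (by positivity)]
      have h3 : c C0 * t ^ 2 ≤ (Fintype.card G - 1) ^ 2 := by
        calc c C0 * t ^ 2 ≤ c C0 * (R.card * (Fintype.card G - 1)) := Nat.mul_le_mul_left _ hCS
          _ = (R.card * c C0) * (Fintype.card G - 1) := by ring
          _ ≤ (Fintype.card G - 1) * (Fintype.card G - 1) := Nat.mul_le_mul_right _ hrc
          _ = (Fintype.card G - 1) ^ 2 := by ring
      rw [← hGsub]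
      exact_mod_cast h3
  · obtain ⟨χ0, hχ0, hmin⟩ := Finset.exists_min_image R d hRne
    have hχ0' := Finset.mem_erase.mp hχ0
    refine ⟨χ0, ?_, ?_, ?_⟩
    · intro h
      apply hχ0'.1
      exact Subtype.ext h
    · exact (Finset.mem_filter.mp hχ0'.2).2
    · have h1 : d χ0 * t ≤ Fintype.card G - 1 := by
        calc d χ0 * t ≤ d χ0 * ∑ χ ∈ R, d χ := Nat.mul_le_mul_left _ N1
          _ = ∑ χ ∈ R, d χ0 * d χ := Finset.mul_sum _ _ _
          _ ≤ ∑ χ ∈ R, (d χ) ^ 2 := by
            apply Finset.sum_le_sum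
            intro χ hχ
            rw [sq]
            exact Nat.mul_le_mul_right _ (hmin χ hχ)
          _ ≤ Fintype.card G - 1 := by omega
      rw [hcardG, le_div_iff₀ htpos, ← hGsub]
      exact_mod_cast h1

end Cfsg.Agent.S4476
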