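import Cfsg.Statements.S4478
import Cfsg.Agent.Lib.Helper6.BlockDZ
import Cfsg.Agent.Lib.Lead.CharPMod2
import Cfsg.Agent.Lib.Lead.CharFS
import Cfsg.Agent.Lib.Lead.CharMore
import Cfsg.Agent.Lib.Lead.CharApps
import Cfsg.Agent.Lib.Lead.CharBurnside
import Cfsg.Agent.Lib.Lead.CharRing
import Cfsg.Agent.Lib.Lead.CharDeg
import Cfsg.Agent.Lib.Lead.CharOrtho

set_option autoImplicit false
set_option maxHeartbeats 800000
open Cfsg

namespace Cfsg.Agent.S4478

open Cfsg.Agent.Lib.Lead
open scoped ComplexConjugate

/-- Let G be a finite group of even order and χ an irreducible character of G whose degree x is divisible by the full power of 2 dividing the order of G and, for every odd prime p such that G has an element of order 2p, by the full power of p dividing the order of G. Then all involutions of G are conjugate, the centralizer of every involution has order exactly x with x coprime to its index, and the Frobenius–Schur indicator of χ equals 1. -/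
theorem result {G : Type*} [Group G] [Fintype G] (heven : Even (Nat.card G)) (χ : Cfsg.IrrCharacter G) (h2 : 2 ^ (Nat.card G).factorization 2 ∣ Cfsg.charDegree (χ : G → ℂ)) (hp : ∀ p : ℕ, p.Prime → p ≠ 2 → (∃ g : G, orderOf g = 2 * p) → p ^ (Nat.card G).factorization p ∣ Cfsg.charDegree (χ : G → ℂ)) : (∀ s t : G, orderOf s = 2 → orderOf t = 2 → IsConj s t) ∧ (∀ s : G, orderOf s = 2 → Nat.card (Subgroup.centralizer ({s} : Set G)) = Cfsg.charDegree (χ : G → ℂ) ∧ (Nat.card (Subgroup.centralizer ({s} : Set G))).Coprime (Subgroup.centralizer ({s} : Set G)).index) ∧ (Nat.card G : ℂ)⁻¹ * ∑ g : G, (χ : G → ℂ) (g * g) = 1 := by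
  classical
  obtain ⟨x, hx⟩ : ∃ x : ℕ, x = Cfsg.charDegree (χ : G → ℂ) := ⟨_, rfl⟩
  rw [← hx] at h2 hp ⊢
  have hχ1 : (χ : G → ℂ) 1 = (x : ℂ) := by
    rw [hx]; exact isIrrCharacter_one_eq_charDegree χ.2
  have hxpos : 0 < x := by rw [hx]; exact charDegree_pos_of_irr χ.2
  have hxG : x ∣ Nat.card G := irr_degree_dvd_card χ _ hχ1
  have hG0 : Nat.card G ≠ 0 := Nat.card_pos.ne'
  have h2G : 2 ∣ Nat.card G := even_iff_two_dvd.mp heven
  have hGc : (Nat.card G : ℂ) ≠ 0 := by exact_mod_cast hG0
  have hvan : ∀ p : ℕ, p.Prime → p ^ (Nat.card G).factorization p ∣ x →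
      ∀ y : G, p ∣ orderOf y → (χ : G → ℂ) y = 0 := by
    intro p hpp hdiv y hy
    haveI : Fact p.Prime := ⟨hpp⟩
    obtain ⟨M, hM⟩ := exists_pmodular p hpp
    apply Cfsg.Agent.Lib.Helper6.defect_zero_vanish p M hM χ _ y hy
    rw [← hx]
    intro hdvd
    obtain ⟨k, hk⟩ := hxG
    have hk' : Nat.card G / x = k := by rw [hk]; exact Nat.mul_div_cancel_left k hxpos
    rw [hk'] at hdvd
    apply Nat.pow_succ_factorization_not_dvd hG0 hpp
    rw [pow_succ]
    calc p ^ (Nat.card G).factorization p * p ∣ x * k := Nat.mul_dvd_mul hdiv hdvd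
      _ = Nat.card G := hk.symm
  have hvan2 : ∀ y : G, 2 ∣ orderOf y → (χ : G → ℂ) y = 0 := hvan 2 Nat.prime_two h2
  have hvanp : ∀ p : ℕ, p.Prime → p ≠ 2 → (∃ g : G, orderOf g = 2 * p) →
      ∀ y : G, p ∣ orderOf y → (χ : G → ℂ) y = 0 :=
    fun p hpp hp2 hex => hvan p hpp (hp p hpp hp2 hex)
  have hvanC : ∀ s : G, orderOf s = 2 → ∀ g : G, g * s = s * g → g ≠ 1 →
      (χ : G → ℂ) g = 0 := by
    intro s hs g hgs hg1
    by_cases h2g : 2 ∣ orderOf g
    · exact hvan2 g h2g
    have hog : orderOf g ≠ 1 := fun h => hg1 (orderOf_eq_one_iff.mp h)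
    obtain ⟨p, hpp, hpd⟩ := Nat.exists_prime_and_dvd hog
    have hp2 : p ≠ 2 := by rintro rfl; exact h2g hpd
    have hg0 : orderOf g ≠ 0 := (orderOf_pos g).ne'
    have hord : orderOf (g ^ (orderOf g / p)) = p := orderOf_pow_orderOf_div hg0 hpd
    have hcomm : Commute s (g ^ (orderOf g / p)) :=
      Commute.pow_right (show Commute s g from hgs.symm) _
    have h2p : orderOf (s * g ^ (orderOf g / p)) = 2 * p := by
      rw [hcomm.orderOf_mul_eq_mul_orderOf_of_coprime, hs, hord]
      rw [hs, hord]
      exact (Nat.coprime_primes Nat.prime_two hpp).mpr (Ne.symm hp2)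
    exact hvanp p hpp hp2 ⟨_, h2p⟩ g hpd
  have hCdvd : ∀ s : G, orderOf s = 2 →
      Nat.card (Subgroup.centralizer ({s} : Set G)) ∣ x := by
    intro s hs
    obtain ⟨k, hk⟩ := card_dvd_degree_of_vanish (Subgroup.centralizer ({s} : Set G))
      (χ : G → ℂ) (isCharacter_of_isIrrCharacter χ.2)
      (fun g hg hg1 => hvanC s hs g (Subgroup.mem_centralizer_singleton_iff.mp hg) hg1)
    rw [hχ1] at hk
    refine ⟨k, ?_⟩
    exact_mod_cast hk
  obtain ⟨I, hI⟩ : ∃ I : ℕ, I = (Finset.univ.filter (fun g : G => orderOf g = 2)).card :=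
    ⟨_, rfl⟩
  have hsumall : ∑ h : G, (χ : G → ℂ) h = 0 := by
    have h1 := irr_orthonormal χ.2 (isIrrCharacter_one G)
    have hne : (χ : G → ℂ) ≠ (fun _ => (1 : ℂ)) := by
      intro heq
      have h3 := congrFun heq 1
      rw [hχ1] at h3
      have hx1 : x = 1 := by exact_mod_cast h3
      have h2x : 2 ∣ x :=
        (dvd_pow_self 2 (Nat.Prime.factorization_pos_of_dvd Nat.prime_two hG0 h2G).ne').trans h2
      rw [hx1] at h2x
      norm_num at h2x
    rw [if_neg hne] at h1
    unfold classInner at h1
    rcases mul_eq_zero.mp h1 with h5 | h5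
    · exact absurd (inv_eq_zero.mp h5) hGc
    · simpa using h5
  have hbij : ∑ g ∈ Finset.univ.filter (fun g : G => Odd (orderOf g)), (χ : G → ℂ) (g * g) =
      ∑ h ∈ Finset.univ.filter (fun g : G => Odd (orderOf g)), (χ : G → ℂ) h := by
    apply Finset.sum_nbij' (fun g => g * g) (fun h => h ^ ((orderOf h + 1) / 2))
    · intro g hg
      rw [Finset.mem_filter] at hg ⊢
      refine ⟨Finset.mem_univ _, ?_⟩
      rw [← pow_two]
      exact Odd.of_dvd_nat hg.2 (orderOf_pow_dvd 2)
    · intro h hh
      rw [Finset.mem_filter] at hh ⊢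
      exact ⟨Finset.mem_univ _, Odd.of_dvd_nat hh.2 (orderOf_pow_dvd _)⟩
    · intro g hg
      rw [Finset.mem_filter] at hg
      obtain ⟨k, hk⟩ := hg.2
      have ho : orderOf (g * g) = orderOf g := by
        rw [← pow_two, orderOf_pow' g two_ne_zero]
        have h1 : Nat.gcd (orderOf g) 2 = 1 := by rw [hk]; simp
        rw [h1, Nat.div_one]
      show (g * g) ^ ((orderOf (g * g) + 1) / 2) = g
      rw [ho, hk]
      have h1 : (2 * k + 1 + 1) / 2 = k + 1 := by omega
      rw [h1, ← pow_two, ← pow_mul]
      have h2' : 2 * (k + 1) = (2 * k + 1) + 1 := by ring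
      rw [h2', pow_succ, ← hk, pow_orderOf_eq_one, one_mul]
    · intro h hh
      rw [Finset.mem_filter] at hh
      obtain ⟨k, hk⟩ := hh.2
      show h ^ ((orderOf h + 1) / 2) * h ^ ((orderOf h + 1) / 2) = h
      rw [hk]
      have h1 : (2 * k + 1 + 1) / 2 = k + 1 := by omega
      rw [h1, ← pow_add]
      have h2' : k + 1 + (k + 1) = (2 * k + 1) + 1 := by ring
      rw [h2', pow_succ, ← hk, pow_orderOf_eq_one, one_mul]
    · intro g _
      rfl
  have hoddsum : ∑ h ∈ Finset.univ.filter (fun g : G => Odd (orderOf g)),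
      (χ : G → ℂ) h = 0 := by
    have h1 := Finset.sum_filter_add_sum_filter_not Finset.univ
      (fun g : G => Odd (orderOf g)) (fun h => (χ : G → ℂ) h)
    rw [hsumall] at h1
    have h2' : ∑ h ∈ Finset.univ.filter (fun g : G => ¬ Odd (orderOf g)),
        (χ : G → ℂ) h = 0 := by
      apply Finset.sum_eq_zero
      intro h hh
      have h3 := (Finset.mem_filter.mp hh).2
      exact hvan2 h (even_iff_two_dvd.mp (Nat.not_odd_iff_even.mp h3))
    rw [h2', add_zero] at h1
    exact h1
  have hsum : ∑ g : G, (χ : G → ℂ) (g * g) = (I : ℂ) * (x : ℂ) := by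
    have hpt : ∀ g : G, (χ : G → ℂ) (g * g) =
        (if Odd (orderOf g) then (χ : G → ℂ) (g * g) else 0) +
          (if orderOf g = 2 then (x : ℂ) else 0) := by
      intro g
      by_cases hodd : Odd (orderOf g)
      · have h2' : orderOf g ≠ 2 := by
          intro h
          rw [h] at hodd
          exact absurd hodd (by decide)
        rw [if_pos hodd, if_neg h2', add_zero]
      · rw [if_neg hodd, zero_add]
        by_cases h2' : orderOf g = 2
        · rw [if_pos h2']
          have h3 : g * g = 1 := by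
            have h4 := pow_orderOf_eq_one g
            rw [h2', pow_two] at h4
            exact h4
          rw [h3, hχ1]
        · rw [if_neg h2']
          have hev : 2 ∣ orderOf g := even_iff_two_dvd.mp (Nat.not_odd_iff_even.mp hodd)
          have hgg1 : g * g ≠ 1 := by
            intro h
            have hd : orderOf g ∣ 2 := orderOf_dvd_of_pow_eq_one (by rw [pow_two]; exact h)
            rcases (Nat.dvd_prime Nat.prime_two).mp hd with h1 | h1
            · rw [h1] at hev
              norm_num at hev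
            · exact h2' h1
          by_cases h2gg : 2 ∣ orderOf (g * g)
          · exact hvan2 _ h2gg
          have hogg : orderOf (g * g) ≠ 1 := fun h => hgg1 (orderOf_eq_one_iff.mp h)
          obtain ⟨p, hpp, hpd⟩ := Nat.exists_prime_and_dvd hogg
          have hp2 : p ≠ 2 := by rintro rfl; exact h2gg hpd
          have hpg : p ∣ orderOf g :=
            hpd.trans (by rw [← pow_two]; exact orderOf_pow_dvd 2)
          have h2pg : 2 * p ∣ orderOf g :=
            Nat.Coprime.mul_dvd_of_dvd_of_dvd
              ((Nat.coprime_primes Nat.prime_two hpp).mpr (Ne.symm hp2)) hev hpg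
          have hord : orderOf (g ^ (orderOf g / (2 * p))) = 2 * p :=
            orderOf_pow_orderOf_div (orderOf_pos g).ne' h2pg
          exact hvanp p hpp hp2 ⟨_, hord⟩ _ hpd
    rw [Finset.sum_congr rfl (fun g _ => hpt g), Finset.sum_add_distrib, ← Finset.sum_filter,
      ← Finset.sum_filter, hbij, hoddsum, zero_add, Finset.sum_const, nsmul_eq_mul, ← hI]
  have hinv_ex : ∃ s : G, orderOf s = 2 := exists_prime_orderOf_dvd_card' 2 h2G
  have hIpos : 0 < I := by
    obtain ⟨s, hs⟩ := hinv_ex
    rw [hI]
    exact Finset.card_pos.mpr ⟨s, Finset.mem_filter.mpr ⟨Finset.mem_univ _, hs⟩⟩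
  have hIx : I * x = Nat.card G := by
    have htri := (fsInd_trichotomy χ.2).1
    have hfs : fsInd (χ : G → ℂ) = (Nat.card G : ℂ)⁻¹ * ((I : ℂ) * (x : ℂ)) := by
      unfold fsInd
      rw [hsum]
    rw [hfs] at htri
    rcases htri with h0 | h1 | hm1
    · exfalso
      rcases mul_eq_zero.mp h0 with h | h
      · exact hGc (inv_eq_zero.mp h)
      · have h' : I * x = 0 := by exact_mod_cast h
        rcases Nat.mul_eq_zero.mp h' with h'' | h'' <;> omega
    · rw [inv_mul_eq_iff_eq_mul₀ hGc, mul_one] at h1
      exact_mod_cast h1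
    · exfalso
      rw [inv_mul_eq_iff_eq_mul₀ hGc] at hm1
      have h' : ((I * x + Nat.card G : ℕ) : ℂ) = 0 := by
        push_cast
        linear_combination hm1
      have h'' : I * x + Nat.card G = 0 := by exact_mod_cast h'
      omega
  have hKey : ∀ s : G, orderOf s = 2 →
      Nat.card (Subgroup.centralizer ({s} : Set G)) = x ∧
        classFinset s = Finset.univ.filter (fun g : G => orderOf g = 2) := by
    intro s hs
    have hcl := card_classFinset_mul_card_centralizer s
    have hcl' : (classFinset s).card * Nat.card (Subgroup.centralizer ({s} : Set G)) =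
        Nat.card G := by exact_mod_cast hcl
    have hsub : classFinset s ⊆ Finset.univ.filter (fun g : G => orderOf g = 2) := by
      intro g hg
      rw [mem_classFinset] at hg
      obtain ⟨c, hc⟩ := isConj_iff.mp hg
      refine Finset.mem_filter.mpr ⟨Finset.mem_univ _, ?_⟩
      rw [← hc, ← hs]
      exact orderOf_injective (MulAut.conj c).toMonoidHom (MulAut.conj c).injective s
    have hle : (classFinset s).card ≤ I := by rw [hI]; exact Finset.card_le_card hsub
    obtain ⟨k, hk⟩ := hCdvd s hs
    have hCpos : 0 < Nat.card (Subgroup.centralizer ({s} : Set G)) := Nat.card_pos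
    have hk1 : k = 1 := by
      have h1 : I * k * Nat.card (Subgroup.centralizer ({s} : Set G)) =
          (classFinset s).card * Nat.card (Subgroup.centralizer ({s} : Set G)) := by
        rw [hcl', ← hIx, hk]; ring
      have h2' : I * k = (classFinset s).card := Nat.eq_of_mul_eq_mul_right hCpos h1
      have hkpos : 0 < k := by
        rcases Nat.eq_zero_or_pos k with h0 | h0
        · rw [h0, mul_zero] at hk; omega
        · exact h0
      by_contra hne
      have h3 : 2 ≤ k := by omega
      have h4 : I * 2 ≤ I * k := Nat.mul_le_mul_left I h3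
      omega
    rw [hk1, mul_one] at hk
    refine ⟨hk.symm, ?_⟩
    apply Finset.eq_of_subset_of_card_le hsub
    rw [← hI]
    have h5 : I * x = (classFinset s).card * x := by rw [hIx, ← hcl', ← hk]
    exact (Nat.eq_of_mul_eq_mul_right hxpos h5).le
  refine ⟨?_, ?_, ?_⟩
  · intro s t hs ht
    have h1 := (hKey s hs).2
    have ht' : t ∈ classFinset s := by
      rw [h1]; exact Finset.mem_filter.mpr ⟨Finset.mem_univ _, ht⟩
    exact mem_classFinset.mp ht'
  · intro s hs
    have hC := (hKey s hs).1
    refine ⟨hC, ?_⟩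
    have hidx : (Subgroup.centralizer ({s} : Set G)).index = I := by
      have h1 := Subgroup.card_mul_index (Subgroup.centralizer ({s} : Set G))
      rw [hC, ← hIx, mul_comm] at h1
      exact Nat.eq_of_mul_eq_mul_right hxpos h1
    rw [hC, hidx]
    apply Nat.coprime_of_dvd
    intro q hq hqx hqI
    have hfull : q ^ (Nat.card G).factorization q ∣ x := by
      by_cases hq2 : q = 2
      · rw [hq2]; exact h2
      · apply hp q hq hq2
        haveI : Fact q.Prime := ⟨hq⟩
        have hqC : q ∣ Nat.card (Subgroup.centralizer ({s} : Set G)) := by rw [hC]; exact hqx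
        obtain ⟨w, hw⟩ := exists_prime_orderOf_dvd_card' q hqC
        have hcomm : Commute s (w : G) := (Subgroup.mem_centralizer_singleton_iff.mp w.2).symm
        refine ⟨s * (w : G), ?_⟩
        rw [hcomm.orderOf_mul_eq_mul_orderOf_of_coprime, hs, Subgroup.orderOf_coe, hw]
        rw [hs, Subgroup.orderOf_coe, hw]
        exact (Nat.coprime_primes Nat.prime_two hq).mpr (Ne.symm hq2)
    have h3 : q ^ ((Nat.card G).factorization q + 1) ∣ Nat.card G := by
      rw [pow_succ]
      calc q ^ (Nat.card G).factorization q * q ∣ x * I := Nat.mul_dvd_mul hfull hqI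
        _ = Nat.card G := by rw [mul_comm]; exact hIx
    exact Nat.pow_succ_factorization_not_dvd hG0 hq h3
  · rw [hsum, inv_mul_eq_iff_eq_mul₀ hGc, mul_one]
    exact_mod_cast hIx

end Cfsg.Agent.S4478
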