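import Cfsg.Statements.S4493
import Cfsg.Agent.S0169
import Cfsg.Agent.Lib.Lead.CharIto
import Cfsg.Agent.Lib.Helper8.PSolvOfSolv

set_option autoImplicit false
set_option maxHeartbeats 800000

namespace Cfsg.Agent.S4493

open Cfsg Cfsg.Agent.Lib.Lead Cfsg.Agent.Lib.Helper2 Module
open scoped ComplexConjugate

theorem result {G : Type*} [Group G] [Finite G] (hsolv : Group.IsSolvable G) (p : ℕ) (hp : p.Prime) : (∃ P : Subgroup G, P.Normal ∧ (∀ x ∈ P, ∀ y ∈ P, x * y = y * x) ∧ IsPGroup p P ∧ ¬ p ∣ P.index) ↔ ∀ χ : Cfsg.IrrCharacter G, ¬ p ∣ Cfsg.charDegree (χ : G → ℂ) := by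
  haveI : Fact p.Prime := ⟨hp⟩
  constructor
  · rintro ⟨P, hPn, hPab, -, hPidx⟩ χ hdiv
    obtain ⟨n, ρ, hirr, hρ⟩ := χ.2
    haveI := hirr
    haveI := hPn
    have h1 := Cfsg.Agent.S0169.result ρ P hPab
    rw [← hρ, charDegree_character] at hdiv
    exact hPidx (dvd_trans hdiv h1)
  · intro hdeg
    exact ito_converse_aux p (Nat.card G) G rfl
      (Cfsg.Agent.Lib.Helper8.h8_isPSolvable_of_isSolvable p hsolv) hdeg

end Cfsg.Agent.S4493
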