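import Cfsg.Statements.S4498
import Cfsg.Agent.Lib.Helper6.BlockOrtho
import Cfsg.Agent.Lib.Helper6.BlockBr
import Cfsg.Agent.Lib.Helper6.BlockIdem
import Cfsg.Agent.Lib.Helper6.BlockIdem2
import Cfsg.Agent.Lib.Helper6.BlockBasic
import Cfsg.Agent.Lib.Helper6.BlockBrauer
import Cfsg.Agent.Lib.Lead.CharBurnside
import Cfsg.Agent.Lib.Lead.TIFrob4
import Cfsg.Agent.Lib.Lead.CharDeg
import Cfsg.Agent.Lib.Lead.CharComplete

set_option autoImplicit false
open Cfsg
open scoped ComplexConjugate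

namespace Cfsg.Agent.S4498
open Cfsg.Agent.Lib.Lead Cfsg.Agent.Lib.Helper6

theorem result {G : Type*} [Group G] [Finite G] (p q : ℕ) [Fact p.Prime] [Fact q.Prime] (hpq : p ≠ q) (hp : p ∣ Nat.card G) (hq : q ∣ Nat.card G) (hno : ∀ g : G, orderOf g ≠ p * q) (Mp Mq : Ideal Cfsg.AlgInt) (hMp : Cfsg.IsPModular p Mp) (hMq : Cfsg.IsPModular q Mq) : ∃ χ : Cfsg.IrrCharacter G, (χ : G → ℂ) ≠ (fun _ => 1) ∧ χ ∈ Cfsg.principalBlock Mp G ∧ χ ∈ Cfsg.principalBlock Mq G := by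
  classical
  letI := Fintype.ofFinite G
  haveI : Finite (IrrCharacter G) := irr_finite
  letI : Fintype (IrrCharacter G) := Fintype.ofFinite _
  have hpp : p.Prime := Fact.out
  have hqp : q.Prime := Fact.out
  have hMpP : Mp.IsPrime := hMp.2.1.isPrime
  have hMqP : Mq.IsPrime := hMq.2.1.isPrime
  by_contra hcon
  simp only [not_exists, not_and] at hcon
  obtain ⟨χ₁, hχ₁⟩ : ∃ χ₁ : IrrCharacter G, (χ₁ : G → ℂ) = fun _ => 1 :=
    ⟨⟨_, isIrrCharacter_one G⟩, rfl⟩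
  obtain ⟨Bp, hBp⟩ : ∃ Bp : Set (IrrCharacter G), Bp = principalBlock Mp G := ⟨_, rfl⟩
  obtain ⟨Bq, hBq⟩ : ∃ Bq : Set (IrrCharacter G), Bq = principalBlock Mq G := ⟨_, rfl⟩
  have hBp' : Bp = blockOf Mp (χ₁ : G → ℂ) := by rw [hBp, hχ₁]; rfl
  have hBq' : Bq = blockOf Mq (χ₁ : G → ℂ) := by rw [hBq, hχ₁]; rfl
  have hBpB : IsPBlock Mp Bp := ⟨χ₁, hBp'⟩
  have hBqB : IsPBlock Mq Bq := ⟨χ₁, hBq'⟩
  have h1p : χ₁ ∈ Bp := by rw [hBp']; exact sb_refl hMpP _
  have h1q : χ₁ ∈ Bq := by rw [hBq']; exact sb_refl hMqP _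
  have hinter : ∀ χ : IrrCharacter G, χ ∈ Bp → χ ∈ Bq → χ = χ₁ := by
    intro χ h1 h2
    by_contra hne
    have hne' : (χ : G → ℂ) ≠ fun _ => 1 := fun h => hne (Subtype.ext (h.trans hχ₁.symm))
    exact hcon χ hne' (hBp ▸ h1) (hBq ▸ h2)
  obtain ⟨y, hy⟩ := exists_prime_orderOf_dvd_card' p hp
  obtain ⟨u, hu⟩ := exists_prime_orderOf_dvd_card' q hq
  have hy1 : y ≠ 1 := by
    intro h; rw [h, orderOf_one] at hy; exact hpp.one_lt.ne' hy.symm
  obtain ⟨T, hT⟩ : ∃ T : G → ℂ, T = fun g => ∑ χ : IrrCharacter G,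
      if χ ∈ Bp then (χ : G → ℂ) g * (χ : G → ℂ) y else 0 := ⟨_, rfl⟩
  have hTreg : ∀ g : G, ¬ p ∣ orderOf g → T g = 0 := by
    intro g hg
    have h1 : IsPPart p g 1 := ⟨g, one_mul g, Commute.one_left g, ⟨0, by simp⟩, hg⟩
    have h2 : IsPPart p y⁻¹ y⁻¹ := ⟨1, mul_one _, Commute.one_right _,
      ⟨1, by rw [orderOf_inv, hy, pow_one]⟩,
      by rw [orderOf_one]; exact fun h => hpp.one_lt.ne' (Nat.dvd_one.mp h)⟩
    have h3 : ¬ IsConj (1 : G) y⁻¹ := by
      intro hc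
      exact hy1 (inv_eq_one.mp (isConj_one_right.mp hc))
    have h4 := block_ortho p Mp hMp g y⁻¹ 1 y⁻¹ h1 h2 h3 Bp hBpB
    rw [inv_inv, finsum_mem_ite] at h4
    rw [hT]; exact h4
  have hcomm : ∀ g : G, g ∈ Subgroup.centralizer ((Subgroup.zpowers u : Subgroup G) : Set G) →
      ¬ p ∣ orderOf g := by
    intro g hg hdiv
    have hgu : Commute g u :=
      ((Subgroup.mem_centralizer_iff.mp hg) u (Subgroup.mem_zpowers u)).symm
    have ho : orderOf (g ^ (orderOf g / p)) = p :=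
      orderOf_pow_orderOf_div (orderOf_pos g).ne' hdiv
    have hc : Commute (g ^ (orderOf g / p)) u := hgu.pow_left _
    have hord := hc.orderOf_mul_eq_mul_orderOf_of_coprime
      (by rw [ho, hu]; exact (Nat.coprime_primes hpp hqp).mpr hpq)
    rw [ho, hu] at hord
    exact hno _ hord
  -- the sum ψ
  obtain ⟨ψ, hψ⟩ : ∃ ψ : ℂ, ψ = ∑ χ : IrrCharacter G,
      if χ ∈ Bp then (if χ ∈ Bq then (χ : G → ℂ) 1 * (χ : G → ℂ) y else 0) else 0 := ⟨_, rfl⟩
  have hψ1 : ψ = 1 := by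
    rw [hψ, Finset.sum_eq_single χ₁]
    · rw [if_pos h1p, if_pos h1q, hχ₁]; simp
    · intro χ _ hne
      by_cases h1 : χ ∈ Bp
      · by_cases h2 : χ ∈ Bq
        · exact absurd (hinter χ h1 h2) hne
        · rw [if_pos h1, if_neg h2]
      · rw [if_neg h1]
    · intro h; exact absurd (Finset.mem_univ _) h
  have hA : ∀ χ : IrrCharacter G, (if χ ∈ Bq then (χ : G → ℂ) 1 * (χ : G → ℂ) y else 0) =
      ∑ g : G, blockCoeff Bq g * ((χ : G → ℂ) g * (χ : G → ℂ) y) := by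
    intro χ
    have h1 := bb_idem_value Bq χ
    have hχ1 : (χ : G → ℂ) 1 ≠ 0 := by
      rw [isIrrCharacter_one_eq_charDegree χ.2]
      exact_mod_cast (charDegree_pos_of_irr χ.2).ne'
    have h2 : ∑ g : G, blockCoeff Bq g * ((χ : G → ℂ) g * (χ : G → ℂ) y) =
        ((χ : G → ℂ) 1 * (χ : G → ℂ) y) *
          ∑ g : G, blockCoeff Bq g * ((χ : G → ℂ) g / (χ : G → ℂ) 1) := by
      rw [Finset.mul_sum]
      apply Finset.sum_congr rfl; intro g _
      field_simp
    rw [h2, h1]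
    split_ifs <;> simp
  have hψ2 : ψ = ∑ g : G, blockCoeff Bq g * T g := by
    rw [hψ, hT]
    calc ∑ χ : IrrCharacter G,
          (if χ ∈ Bp then (if χ ∈ Bq then (χ : G → ℂ) 1 * (χ : G → ℂ) y else 0) else 0)
        = ∑ χ : IrrCharacter G, ∑ g : G,
            (if χ ∈ Bp then blockCoeff Bq g * ((χ : G → ℂ) g * (χ : G → ℂ) y) else 0) := by
          apply Finset.sum_congr rfl; intro χ _
          by_cases h1 : χ ∈ Bp
          · simp only [if_pos h1]; exact hA χ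
          · simp only [if_neg h1]; simp
      _ = ∑ g : G, ∑ χ : IrrCharacter G,
            (if χ ∈ Bp then blockCoeff Bq g * ((χ : G → ℂ) g * (χ : G → ℂ) y) else 0) :=
          Finset.sum_comm
      _ = ∑ g : G, blockCoeff Bq g * (fun g => ∑ χ : IrrCharacter G,
            if χ ∈ Bp then (χ : G → ℂ) g * (χ : G → ℂ) y else 0) g := by
          apply Finset.sum_congr rfl; intro g _
          show _ = blockCoeff Bq g * ∑ χ : IrrCharacter G,
            if χ ∈ Bp then (χ : G → ℂ) g * (χ : G → ℂ) y else 0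
          rw [Finset.mul_sum]
          apply Finset.sum_congr rfl; intro χ _
          split_ifs <;> simp
  have hTint : ∀ g : G, IsIntegral ℤ (T g) := by
    intro g
    rw [hT]
    apply IsIntegral.sum
    intro χ _
    split_ifs
    · exact IsIntegral.mul (isCharacter_isIntegral (isCharacter_of_isIrrCharacter χ.2) _)
        (isCharacter_isIntegral (isCharacter_of_isIrrCharacter χ.2) _)
    · exact isIntegral_zero
  have hTcl : ∀ (a c : G), T (c * a * c⁻¹) = T a := by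
    intro a c
    rw [hT]
    show (∑ χ : IrrCharacter G, if χ ∈ Bp then (χ : G → ℂ) (c * a * c⁻¹) * (χ : G → ℂ) y else 0) =
      ∑ χ : IrrCharacter G, if χ ∈ Bp then (χ : G → ℂ) a * (χ : G → ℂ) y else 0
    apply Finset.sum_congr rfl; intro χ _
    rw [isClassFunction_irr χ a c]
  have hPq : IsPGroup q (Subgroup.zpowers u) :=
    IsPGroup.of_card (n := 1) (by rw [Nat.card_zpowers, hu, pow_one])
  have hli := sum_nonfixed_li q Mq hMq (Subgroup.zpowers u) hPq
    (fun g => blockCoeff Bq g * T g)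
    (fun a => (mem_lrSub hMqP _).mp (mul_mem
      ((mem_lrSub hMqP _).mpr (osima_closed q Mq hMq Bq (block_closed Mq hMqP Bq hBqB) a))
      ((mem_lrSub hMqP _).mpr (lr_int q Mq hMq (hTint a)))))
    (fun c _ a => by
      show blockCoeff Bq (c * a * c⁻¹) * T (c * a * c⁻¹) = blockCoeff Bq a * T a
      rw [bb_coeff_class Bq a c, hTcl a c])
  have hsum : (∑ a : G, if a ∈ Subgroup.centralizer ((Subgroup.zpowers u : Subgroup G) : Set G)
      then 0 else (fun g => blockCoeff Bq g * T g) a) = ψ := by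
    rw [hψ2]
    apply Finset.sum_congr rfl; intro a _
    split_ifs with h
    · rw [hTreg a (hcomm a h), mul_zero]
    · rfl
  rw [hsum, hψ1] at hli
  exact li_one Mq hli

end Cfsg.Agent.S4498
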