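import Mathlib
import Cfsg.Statements.S4636
import Cfsg.Agent.Lib.Helper8.Basic
import Cfsg.Agent.Lib.Helper8.SubgroupCount

set_option autoImplicit false
open scoped Pointwise
open Cfsg

namespace Cfsg.Agent.S4636

open Cfsg.Agent.Lib.Helper8

theorem cyc_unique {G : Type*} [Group G] [Finite G] (P : Subgroup G) (hcyc : IsCyclic P)
    (Z W : Subgroup G) (hZ : Z ≤ P) (hW : W ≤ P) (h : Nat.card Z = Nat.card W) : Z = W := by
  have h1 : Nat.card (Z.subgroupOf P) = Nat.card (W.subgroupOf P) := by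
    rw [Nat.card_congr (Subgroup.subgroupOfEquivOfLe hZ).toEquiv,
      Nat.card_congr (Subgroup.subgroupOfEquivOfLe hW).toEquiv, h]
  have h2 := h8_cyclic_subgroup_eq_of_card_eq (Z.subgroupOf P) (W.subgroupOf P) h1
  have h3 := congrArg (Subgroup.map P.subtype) h2
  rw [Subgroup.subgroupOf_map_subtype, Subgroup.subgroupOf_map_subtype, inf_of_le_left hZ,
    inf_of_le_left hW] at h3
  exact h3

/-- Let P be a nontrivial cyclic p-subgroup of the finite group G and Z its subgroup of order p. For every x outside N_G(Z), P meets its conjugate xPx⁻¹ trivially; consequently N_G(Q) ≤ N_G(Z) for every nontrivial subgroup Q of P. -/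
theorem result {G : Type*} [Group G] [Finite G] (p : ℕ) [Fact p.Prime] (P : Subgroup G) (hP : IsPGroup p P) (hP1 : P ≠ ⊥) (hcyc : IsCyclic P) (Z : Subgroup G) (hZ : Z ≤ P) (hZcard : Nat.card Z = p) : (∀ x : G, x ∉ Subgroup.normalizer (Z : Set G) → P ⊓ MulAut.conj x • P = ⊥) ∧ ∀ Q : Subgroup G, Q ≤ P → Q ≠ ⊥ → Subgroup.normalizer (Q : Set G) ≤ Subgroup.normalizer (Z : Set G) := by
  have hmem : ∀ (g x : G) (S : Subgroup G), x ∈ MulAut.conj g • S ↔ g⁻¹ * x * g ∈ S := by
    intro g x S
    rw [Subgroup.mem_pointwise_smul_iff_inv_smul_mem]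
    simp [MulAut.smul_def]
  have hA : ∀ x : G, x ∉ Subgroup.normalizer (Z : Set G) → P ⊓ MulAut.conj x • P = ⊥ := by
    intro x hx
    by_contra hne
    apply hx
    have hD : IsPGroup p (P ⊓ MulAut.conj x • P : Subgroup G) := hP.to_le inf_le_left
    haveI : Nontrivial (P ⊓ MulAut.conj x • P : Subgroup G) :=
      (Subgroup.nontrivial_iff_ne_bot _).mpr hne
    obtain ⟨n, hn⟩ := IsPGroup.iff_card.mp hD
    have hn0 : n ≠ 0 := by
      rintro rfl
      rw [pow_zero] at hn
      have := (Subgroup.card_eq_one.mp hn)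
      exact hne this
    have hdvd : p ∣ Nat.card (P ⊓ MulAut.conj x • P : Subgroup G) := by
      rw [hn]; exact dvd_pow_self p hn0
    obtain ⟨d, hd⟩ := exists_prime_orderOf_dvd_card' p hdvd
    have hdo : orderOf (d : G) = p := by rw [Subgroup.orderOf_coe]; exact hd
    have hW1 : Subgroup.zpowers (d : G) ≤ P := by
      rw [Subgroup.zpowers_le]; exact d.2.1
    have hWc : Nat.card (Subgroup.zpowers (d : G)) = p := by rw [Nat.card_zpowers, hdo]
    have e1 : Z = Subgroup.zpowers (d : G) := cyc_unique P hcyc _ _ hZ hW1 (by rw [hZcard, hWc])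
    -- the conjugate x⁻¹ d x also generates Z
    have hd2 : x⁻¹ * (d : G) * x ∈ P := (hmem x _ P).mp d.2.2
    have hdo2 : orderOf (x⁻¹ * (d : G) * x) = p := by
      have := h8_orderOf_conj x⁻¹ (d : G)
      rw [inv_inv] at this
      rw [this, hdo]
    have hW2 : Subgroup.zpowers (x⁻¹ * (d : G) * x) ≤ P := by
      rw [Subgroup.zpowers_le]; exact hd2
    have hWc2 : Nat.card (Subgroup.zpowers (x⁻¹ * (d : G) * x)) = p := by rw [Nat.card_zpowers, hdo2]
    have e2 : Z = Subgroup.zpowers (x⁻¹ * (d : G) * x) :=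
      cyc_unique P hcyc _ _ hZ hW2 (by rw [hZcard, hWc2])
    -- x⁻¹ normalizes Z
    have hxinv : x⁻¹ ∈ Subgroup.normalizer (Z : Set G) := by
      rw [Subgroup.mem_set_normalizer_iff]
      intro y
      constructor
      · intro hy
        rw [e1] at hy
        obtain ⟨k, rfl⟩ := Subgroup.mem_zpowers_iff.mp hy
        rw [e2, inv_inv]
        have : x⁻¹ * (d : G) ^ k * x = (x⁻¹ * (d : G) * x) ^ k := by
          have := map_zpow (MulAut.conj x⁻¹) (d : G) k
          simpa [MulAut.conj_apply] using this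
        rw [this]
        exact Subgroup.zpow_mem_zpowers _ k
      · intro hy
        rw [e2, inv_inv] at hy
        obtain ⟨k, hk⟩ := Subgroup.mem_zpowers_iff.mp hy
        have : (x⁻¹ * (d : G) * x) ^ k = x⁻¹ * (d : G) ^ k * x := by
          have := map_zpow (MulAut.conj x⁻¹) (d : G) k
          simpa [MulAut.conj_apply] using this.symm
        rw [this] at hk
        have hyk : y = (d : G) ^ k := by
          have h5 : y = x * (x⁻¹ * y * x) * x⁻¹ := by group
          rw [h5, ← hk]; group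
        rw [e1, hyk]
        exact Subgroup.zpow_mem_zpowers _ k
    have := Subgroup.inv_mem _ hxinv
    rwa [inv_inv] at this
  refine ⟨hA, ?_⟩
  intro Q hQ hQ1 g hg
  by_contra hgN
  have hbot := hA g hgN
  obtain ⟨⟨q, hq⟩, hq1⟩ := Subgroup.ne_bot_iff_exists_ne_one.mp hQ1
  have h1 : g * q * g⁻¹ ∈ P := hQ ((Subgroup.mem_set_normalizer_iff.mp hg q).mp hq)
  have e : g⁻¹ * (g * q * g⁻¹) * g = q := by group
  have h2 : g * q * g⁻¹ ∈ MulAut.conj g • P := (hmem g _ _).mpr (by rw [e]; exact hQ hq)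
  have h3 : g * q * g⁻¹ ∈ P ⊓ MulAut.conj g • P := ⟨h1, h2⟩
  rw [hbot, Subgroup.mem_bot] at h3
  apply hq1
  apply Subtype.ext
  show q = 1
  rw [← e, h3]
  group

end Cfsg.Agent.S4636
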