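import Mathlib
import Cfsg.Statements.S4665
import Cfsg.Agent.Lib.Lead.CharCons

set_option autoImplicit false
open Cfsg

namespace Cfsg.Agent.S4665

open Cfsg.Agent.Lib.Lead
open scoped ComplexConjugate

/-- Fix a prime p, a maximal ideal M of the algebraic integers containing p, and a p-block B of the finite group G, and let p^a be the p-part of the order of G. Let χ be an integer combination of the irreducible characters in B. If the function that agrees with χ on p-regular elements and vanishes on p-singular elements is again an integer combination of the irreducible characters in B, then p^a divides χ(1). -/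
theorem result {G : Type*} [Group G] [Fintype G] (p : ℕ) [Fact p.Prime] (M : Ideal Cfsg.AlgInt) (hM : Cfsg.IsPModular p M) (B : Set (Cfsg.IrrCharacter G)) (hB : Cfsg.IsPBlock M B) (χ : G → ℂ) (hχ : (∃ n : Cfsg.IrrCharacter G → ℤ, ∀ g : G, χ g = ∑ᶠ ψ ∈ B, (n ψ : ℂ) * (ψ : G → ℂ) g)) (h0 : (∃ n : Cfsg.IrrCharacter G → ℤ, ∀ g : G, Cfsg.pRegularPart p χ g = ∑ᶠ ψ ∈ B, (n ψ : ℂ) * (ψ : G → ℂ) g)) : ∃ k : ℤ, χ 1 = (p ^ (Nat.card G).factorization p : ℂ) * k := by
  classical
  obtain ⟨n, hn⟩ := h0
  obtain ⟨P⟩ : Nonempty (Sylow p G) := inferInstance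
  haveI : Fintype (P : Subgroup G) := Fintype.ofFinite _
  haveI hfin : Finite (Cfsg.IrrCharacter G) := irr_finite
  have hBfin : B.Finite := Set.toFinite B
  -- χ 1 = θ 1
  have h1reg : Cfsg.pRegularPart p χ 1 = χ 1 := by
    unfold Cfsg.pRegularPart
    rw [if_pos]
    unfold Cfsg.IsPRegular
    rw [orderOf_one]
    exact (Nat.Prime.one_lt Fact.out).ne' ∘ Nat.dvd_one.mp
  -- sum over P of θ is θ 1
  have hsum1 : ∑ x : (P : Subgroup G), Cfsg.pRegularPart p χ (x : G) = χ 1 := by
    rw [← h1reg]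
    apply Finset.sum_eq_single (1 : (P : Subgroup G))
    · intro x _ hx
      unfold Cfsg.pRegularPart
      rw [if_neg]
      unfold Cfsg.IsPRegular
      rw [not_not]
      obtain ⟨k, hk⟩ := (IsPGroup.iff_orderOf.mp P.2) x
      have hk0 : k ≠ 0 := by
        rintro rfl
        rw [pow_zero] at hk
        exact hx (orderOf_eq_one_iff.mp hk)
      rw [Subgroup.orderOf_coe, hk]
      exact dvd_pow_self p hk0
    · intro h
      exact absurd (Finset.mem_univ _) h
  -- each irreducible character sums over P to |P| * m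
  have hirr : ∀ ψ : Cfsg.IrrCharacter G, ∃ m : ℕ,
      ∑ x : (P : Subgroup G), (ψ : G → ℂ) (x : G) = (Nat.card (P : Subgroup G) : ℂ) * m := by
    intro ψ
    obtain ⟨m, hm⟩ := classInner_isCharacter_nat
      (isCharacter_res (P : Subgroup G) (isCharacter_of_isIrrCharacter ψ.2))
      (isCharacter_one (G := (P : Subgroup G)))
    refine ⟨m, ?_⟩
    unfold Cfsg.classInner at hm
    have hP0 : (Nat.card (P : Subgroup G) : ℂ) ≠ 0 := by
      exact_mod_cast (Nat.card_pos (α := (P : Subgroup G))).ne'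
    have hm' : ∑ x : (P : Subgroup G), (ψ : G → ℂ) (x : G) = (Nat.card (P : Subgroup G) : ℂ) * m := by
      rw [← hm]
      field_simp
      apply Finset.sum_congr rfl
      intro x _
      simp
    exact hm'
  choose m hm using hirr
  have hsum2 : ∑ x : (P : Subgroup G), Cfsg.pRegularPart p χ (x : G)
      = (Nat.card (P : Subgroup G) : ℂ) * ((∑ ψ ∈ hBfin.toFinset, n ψ * (m ψ : ℤ) : ℤ) : ℂ) := by
    have e1 : ∀ x : (P : Subgroup G), Cfsg.pRegularPart p χ (x : G)
        = ∑ ψ ∈ hBfin.toFinset, (n ψ : ℂ) * (ψ : G → ℂ) (x : G) := by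
      intro x
      rw [hn, finsum_mem_eq_finite_toFinset_sum _ hBfin]
    rw [Finset.sum_congr rfl (fun x _ => e1 x), Finset.sum_comm]
    push_cast
    rw [Finset.mul_sum]
    apply Finset.sum_congr rfl
    intro ψ _
    rw [← Finset.mul_sum, hm ψ]
    ring
  refine ⟨∑ ψ ∈ hBfin.toFinset, n ψ * (m ψ : ℤ), ?_⟩
  rw [← hsum1, hsum2, Sylow.card_eq_multiplicity]
  push_cast
  rfl

end Cfsg.Agent.S4665
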