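import Cfsg.Statements.S4730
import Cfsg.Agent.Lib.Helper6.BlockBr
import Cfsg.Agent.Lib.Helper6.BlockIdem
import Cfsg.Agent.Lib.Helper6.BlockIdem2
import Cfsg.Agent.Lib.Helper6.BlockBasic
import Cfsg.Agent.Lib.Helper6.BlockKer
import Cfsg.Agent.Lib.Helper6.BlockCF
import Cfsg.Agent.Lib.Lead.CharBurnside
import Cfsg.Agent.Lib.Lead.ClassMulP
import Cfsg.Agent.Lib.Lead.CharRing
import Cfsg.Agent.Lib.Lead.CharDeg
import Cfsg.Agent.Lib.Lead.CharComplete

set_option autoImplicit false
open Cfsg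
open scoped ComplexConjugate

namespace Cfsg.Agent.S4730
open Cfsg.Agent.Lib.Lead Cfsg.Agent.Lib.Helper6

theorem result {G : Type*} [Group G] [Finite G] (p : ℕ) [Fact p.Prime] (M : Ideal Cfsg.AlgInt) (hM : Cfsg.IsPModular p M) (hZ : Subgroup.center G = ⊥) (P : Sylow p G) (a b : ℕ) (ha : Nat.card P = p ^ a) (hb : Nat.card (Subgroup.center ↥(P : Subgroup G)) = p ^ b) (χ : Cfsg.IrrCharacter G) (hfaith : ∀ g : G, (χ : G → ℂ) g = (χ : G → ℂ) 1 → g = 1) (n : ℕ) (hdeg : Cfsg.charDegree (χ : G → ℂ) = p ^ n) : Cfsg.blockDefect p (Cfsg.blockOf M (χ : G → ℂ)) ≤ a - b ∧ (IsMulCommutative ↥(P : Subgroup G) → Cfsg.blockDefect p (Cfsg.blockOf M (χ : G → ℂ)) = 0) := by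
  classical
  letI := Fintype.ofFinite G
  have hp : p.Prime := Fact.out
  have hMp : M.IsPrime := hM.2.1.isPrime
  obtain ⟨m, ρ, hirr, hρ⟩ := χ.2
  haveI := hirr
  have hfin : Module.finrank ℂ (Fin m → ℂ) = p ^ n := by
    rw [← charDegree_character ρ, hρ, hdeg]
  have hker : ∀ x : G, ρ x = 1 → x = 1 := by
    intro x hx
    apply hfaith
    rw [← hρ, Representation.char_one]
    exact (char_eq_finrank_iff ρ x).mpr hx
  have hvan : ∀ z : G, z ∈ (P : Subgroup G) → (∀ x ∈ (P : Subgroup G), x * z = z * x) → z ≠ 1 →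
      (χ : G → ℂ) z = 0 := by
    intro z hzP hzc hz1
    have hle : (P : Subgroup G) ≤ Subgroup.centralizer ({z} : Set G) := by
      intro x hx
      exact Subgroup.mem_centralizer_singleton_iff.mpr (hzc x hx)
    have hcop : Nat.Coprime (Module.finrank ℂ (Fin m → ℂ))
        (Subgroup.centralizer ({z} : Set G)).index := by
      rw [hfin]
      apply Nat.Coprime.pow_left
      rw [Nat.Prime.coprime_iff_not_dvd hp]
      intro hdvd
      exact P.not_dvd_index (dvd_trans hdvd (Subgroup.index_dvd_of_le hle))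
    rcases char_zero_or_norm_eq_of_coprime ρ z hcop with h0 | hnorm
    · rw [← hρ]; exact h0
    · exfalso
      obtain ⟨ω, hω⟩ := (norm_char_eq_finrank_iff ρ z).mp hnorm
      have hcen : ∀ x : G, z * x = x * z := by
        intro x
        have h1 : ρ (z * x * (x * z)⁻¹) = 1 := by
          have h2 : ρ (z * x) = ρ (x * z) := by
            rw [map_mul, map_mul, hω]
            ext v; simp
          rw [map_mul, h2, ← map_mul, mul_inv_cancel, map_one]
        exact mul_inv_eq_one.mp (hker _ h1)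
      have hzc' : z ∈ Subgroup.center G := by
        rw [Subgroup.mem_center_iff]; intro x; exact (hcen x).symm
      rw [hZ, Subgroup.mem_bot] at hzc'
      exact hz1 hzc'
  have hχ1 : (χ : G → ℂ) 1 ≠ 0 := by
    rw [isIrrCharacter_one_eq_charDegree χ.2]
    exact_mod_cast (charDegree_pos_of_irr χ.2).ne'
  -- the subgroup Z(P) inside G
  obtain ⟨Zs, hZs⟩ : ∃ Zs : Subgroup G, Zs =
      (Subgroup.center ↥(P : Subgroup G)).map (P : Subgroup G).subtype := ⟨_, rfl⟩
  letI : Fintype Zs := Fintype.ofFinite _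
  have hZcard : Nat.card Zs = p ^ b := by
    rw [hZs, Subgroup.card_map_of_injective (Subgroup.subtype_injective _), hb]
  have hZP : ∀ z ∈ Zs, z ∈ (P : Subgroup G) ∧ ∀ x ∈ (P : Subgroup G), x * z = z * x := by
    intro z hz
    rw [hZs] at hz
    obtain ⟨w, hw, rfl⟩ := Subgroup.mem_map.mp hz
    refine ⟨w.2, fun x hx => ?_⟩
    have := (Subgroup.mem_center_iff.mp hw) ⟨x, hx⟩
    exact congrArg Subtype.val this
  -- key claim
  have key : ∀ ψ : IrrCharacter G, ψ ∈ blockOf M (χ : G → ℂ) →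
      b ≤ (charDegree (ψ : G → ℂ)).factorization p := by
    intro ψ hψ
    by_contra hlt
    have hlt' : (charDegree (ψ : G → ℂ)).factorization p < b := not_le.mp hlt
    have hψchar := isCharacter_of_isIrrCharacter ψ.2
    have hd0 : 0 < charDegree (ψ : G → ℂ) := charDegree_pos_of_irr ψ.2
    have hψ1 : (ψ : G → ℂ) 1 = (charDegree (ψ : G → ℂ) : ℂ) := isIrrCharacter_one_eq_charDegree ψ.2
    have hψ1' : (ψ : G → ℂ) 1 ≠ 0 := by rw [hψ1]; exact_mod_cast hd0.ne'
    -- local ideal membership for nontrivial z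
    have hli : ∀ z : G, z ∈ Zs → z ≠ 1 → MemLocalIdeal M ((ψ : G → ℂ) z / (ψ : G → ℂ) 1) := by
      intro z hz hz1
      obtain ⟨hzP, hzc⟩ := hZP z hz
      have h1 := hψ z
      have hle : (P : Subgroup G) ≤ Subgroup.centralizer ({z} : Set G) := by
        intro x hx
        exact Subgroup.mem_centralizer_singleton_iff.mpr (hzc x hx)
      have hidx : ¬ p ∣ (Subgroup.centralizer ({z} : Set G)).index := fun hdvd =>
        P.not_dvd_index (dvd_trans hdvd (Subgroup.index_dvd_of_le hle))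
      have hidx0 : ((Subgroup.centralizer ({z} : Set G)).index : ℂ) ≠ 0 := by
        have : (Subgroup.centralizer ({z} : Set G)).index ≠ 0 := fun h0 => hidx (by rw [h0]; exact dvd_zero p)
        exact_mod_cast this
      unfold centralChar at h1
      rw [hvan z hzP hzc hz1, mul_zero, zero_div, zero_sub] at h1
      have hloc : MemLocalRing M ((-1 : ℂ) / ((Subgroup.centralizer ({z} : Set G)).index : ℂ)) :=
        lr_div_nat p M hM (isIntegral_one.neg) _ hidx
      have h2 := li_mul hMp hloc h1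
      have h3 : (-1 : ℂ) / ((Subgroup.centralizer ({z} : Set G)).index : ℂ) *
          -(((Subgroup.centralizer ({z} : Set G)).index : ℂ) * (ψ : G → ℂ) z / (ψ : G → ℂ) 1) =
          (ψ : G → ℂ) z / (ψ : G → ℂ) 1 := by
        field_simp
      rw [h3] at h2
      exact h2
    obtain ⟨mψ, hmψ⟩ := cmp_sum_subgroup Zs hψchar
    obtain ⟨D, hD⟩ : ∃ D : ℂ, D = ∑ z : Zs, (if z = 1 then (0 : ℂ) else
        conj ((ψ : G → ℂ) z) / (ψ : G → ℂ) 1) := ⟨_, rfl⟩
    have hz0 : MemLocalIdeal M 0 := li_zero M (lr_one_notMem p M hM)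
    have hDli : MemLocalIdeal M D := by
      rw [hD]
      apply li_sum hMp
      intro z _
      split_ifs with h1
      · exact hz0
      · have hz1 : (z : G) ≠ 1 := fun h => h1 (Subtype.ext h)
        have hz1' : (z : G)⁻¹ ≠ 1 := fun h => hz1 (inv_eq_one.mp h)
        have := hli (z : G)⁻¹ (Zs.inv_mem z.2) hz1'
        rw [isCharacter_inv_eq_conj hψchar] at this
        exact this
    have hsum : ∑ z : Zs, conj ((ψ : G → ℂ) z) / (ψ : G → ℂ) 1 = 1 + D := by
      rw [hD]
      have h1 : ∑ z : Zs, (if z = (1 : Zs) then (1 : ℂ) else 0) = 1 := by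
        rw [Finset.sum_ite_eq' Finset.univ (1 : Zs) (fun _ => (1 : ℂ))]; simp
      rw [← h1, ← Finset.sum_add_distrib]
      apply Finset.sum_congr rfl; intro z _
      by_cases hz : z = 1
      · rw [if_pos hz, if_pos hz, hz, add_zero]
        show conj ((ψ : G → ℂ) 1) / (ψ : G → ℂ) 1 = 1
        rw [hψ1, Complex.conj_natCast, div_self]
        exact_mod_cast hd0.ne'
      · rw [if_neg hz, if_neg hz, zero_add]
    have hval : (1 : ℂ) + D = ((p ^ b * mψ : ℕ) : ℂ) / (charDegree (ψ : G → ℂ) : ℂ) := by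
      rw [← hsum, ← Finset.sum_div, hmψ, hZcard, hψ1]; push_cast; ring
    -- decompose the degree
    obtain ⟨c, hc⟩ : ∃ c, c = (charDegree (ψ : G → ℂ)).factorization p := ⟨_, rfl⟩
    have hdd : p ^ c * (charDegree (ψ : G → ℂ) / p ^ c) = charDegree (ψ : G → ℂ) := by
      rw [hc]; exact Nat.ordProj_mul_ordCompl_eq_self _ p
    have hd' : ¬ p ∣ charDegree (ψ : G → ℂ) / p ^ c := by
      rw [hc]; exact Nat.not_dvd_ordCompl hp hd0.ne'
    obtain ⟨d', hd'def⟩ : ∃ d', d' = charDegree (ψ : G → ℂ) / p ^ c := ⟨_, rfl⟩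
    rw [← hd'def] at hdd hd'
    have hd'0 : (d' : ℂ) ≠ 0 := by
      have : d' ≠ 0 := fun h0 => hd' (by rw [h0]; exact dvd_zero p)
      exact_mod_cast this
    obtain ⟨e, he⟩ : ∃ e, b = c + 1 + e := ⟨b - c - 1, by rw [← hc] at hlt'; omega⟩
    have hloc : MemLocalRing M (((p ^ e * mψ : ℕ) : ℂ) / (d' : ℂ)) :=
      lr_div_nat p M hM (by
        have := isIntegral_algebraMap (R := ℤ) (A := ℂ) (x := ((p ^ e * mψ : ℕ) : ℤ))
        simpa using this) _ hd'
    have h1li := li_mul hMp hloc (li_natCast_p p M hM)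
    have hp0 : (p : ℂ) ≠ 0 := by exact_mod_cast hp.ne_zero
    have h2 : ((p ^ e * mψ : ℕ) : ℂ) / (d' : ℂ) * (p : ℂ) = 1 + D := by
      rw [hval, ← hdd, he]; push_cast; field_simp; ring
    rw [h2] at h1li
    have hneg : MemLocalRing M (-1 : ℂ) := lr_int p M hM (isIntegral_one.neg)
    have h3 := li_add hMp h1li (li_mul hMp hneg hDli)
    have h4 : (1 : ℂ) + D + -1 * D = 1 := by ring
    rw [h4] at h3
    exact li_one M h3
  have hfa : (Nat.card G).factorization p = a := by
    have h1 := P.card_eq_multiplicity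
    rw [ha] at h1
    exact (Nat.pow_right_injective hp.two_le h1).symm
  have hsInf : b ≤ sInf ((fun ψ : IrrCharacter G => (charDegree (ψ : G → ℂ)).factorization p) ''
      blockOf M (χ : G → ℂ)) := by
    apply le_csInf
    · exact ⟨_, ⟨χ, sb_refl hMp _, rfl⟩⟩
    · rintro _ ⟨ψ, hψ, rfl⟩
      exact key ψ hψ
  have hmain : blockDefect p (blockOf M (χ : G → ℂ)) ≤ a - b := by
    unfold blockDefect
    rw [hfa]
    exact Nat.sub_le_sub_left hsInf a
  refine ⟨hmain, fun hcomm => ?_⟩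
  have hcen : Subgroup.center ↥(P : Subgroup G) = ⊤ := by
    rw [Subgroup.eq_top_iff']
    intro z
    rw [Subgroup.mem_center_iff]
    intro g
    exact hcomm.is_comm.comm g z
  have hab : a = b := by
    have h1 : Nat.card (Subgroup.center ↥(P : Subgroup G)) = Nat.card P := by
      rw [hcen, Subgroup.card_top]
    rw [hb, ha] at h1
    exact (Nat.pow_right_injective hp.two_le h1).symm
  rw [hab, Nat.sub_self] at hmain
  exact Nat.le_zero.mp hmain

end Cfsg.Agent.S4730
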