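import Cfsg.Statements.S4955
import Cfsg.Agent.S0169
import Cfsg.Agent.Lib.Lead.CharGalois
import Cfsg.Agent.Lib.Lead.CharKerSub
import Cfsg.Agent.Lib.Lead.CharPElem
import Cfsg.Agent.Lib.Lead.CharLin
import Cfsg.Agent.Lib.Lead.CharComplete

set_option autoImplicit false
open Cfsg
open scoped ComplexConjugate

namespace Cfsg.Agent.S4955
open Cfsg.Agent.Lib.Lead

theorem knorr_cent_card {X : Type*} [Group X] [Finite X] (V G : Subgroup X)
    (hab : ∀ a ∈ V, ∀ b ∈ V, a * b = b * a) (hGV : Subgroup.IsComplement' V G) (v : X)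
    (hv : v ∈ V) :
    Nat.card (Subgroup.centralizer ({v} : Set X)) ≤
      Nat.card ↥(G ⊓ Subgroup.centralizer ({v} : Set X)) * Nat.card V := by
  classical
  have hex : ∀ x : X, ∃ u ∈ V, ∃ g ∈ G, u * g = x := by
    intro x
    obtain ⟨⟨u, g⟩, h⟩ := hGV.2 x
    exact ⟨u.1, u.2, g.1, g.2, h⟩
  choose fu hfu fg hfg hfug using hex
  have hcent : ∀ x : X, x ∈ Subgroup.centralizer ({v} : Set X) →
      fg x ∈ G ⊓ Subgroup.centralizer ({v} : Set X) := by
    intro x hx
    refine ⟨hfg x, ?_⟩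
    have hx' : x * v = v * x := Subgroup.mem_centralizer_singleton_iff.mp hx
    apply Subgroup.mem_centralizer_singleton_iff.mpr
    have h1 : fg x = (fu x)⁻¹ * x := eq_inv_mul_of_mul_eq (hfug x)
    have h2 : fu x * v = v * fu x := hab _ (hfu x) _ hv
    rw [h1]
    calc (fu x)⁻¹ * x * v = (fu x)⁻¹ * (x * v) := by group
      _ = (fu x)⁻¹ * (v * x) := by rw [hx']
      _ = (fu x)⁻¹ * (v * fu x) * (fu x)⁻¹ * x := by group
      _ = (fu x)⁻¹ * (fu x * v) * (fu x)⁻¹ * x := by rw [h2]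
      _ = v * ((fu x)⁻¹ * x) := by group
  rw [← Nat.card_prod]
  apply Nat.card_le_card_of_injective (fun x : Subgroup.centralizer ({v} : Set X) =>
    ((⟨fg x.1, hcent x.1 x.2⟩ : ↥(G ⊓ Subgroup.centralizer ({v} : Set X))),
      (⟨fu x.1, hfu x.1⟩ : V)))
  intro x y hxy
  have h1 : fg x.1 = fg y.1 := congrArg (fun z => (z.1 : X)) hxy
  have h2 : fu x.1 = fu y.1 := congrArg (fun z => (z.2 : X)) hxy
  apply Subtype.ext
  rw [← hfug x.1, ← hfug y.1, h1, h2]

theorem result {X : Type*} [Group X] [Finite X] (p : ℕ) [Fact p.Prime] (V : Subgroup X) [V.Normal] (hVp : IsPGroup p V) (hidx : ¬ p ∣ V.index) (hab : ∀ a ∈ V, ∀ b ∈ V, a * b = b * a) (G : Subgroup X) (hGV : Subgroup.IsComplement' V G) (v : X) (hv : v ∈ V) : Nat.card (ConjClasses X) + Nat.card G ≤ Nat.card ↥(G ⊓ Subgroup.centralizer ({v} : Set X)) * Nat.card V + Nat.card (ConjClasses G) := by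
  classical
  letI := Fintype.ofFinite X
  haveI : Finite (IrrCharacter X) := irr_finite
  letI : Fintype (IrrCharacter X) := Fintype.ofFinite _
  have hp : p.Prime := Fact.out
  haveI : NeZero (Nat.card X) := ⟨Nat.card_pos.ne'⟩
  have hφ : 0 < (Fintype.card (ZMod (Nat.card X))ˣ : ℝ) := by exact_mod_cast Fintype.card_pos
  let w : IrrCharacter X → ℝ := fun χ =>
    if (∀ u ∈ V, (χ : X → ℂ) u = (χ : X → ℂ) 1) then ((charDegree (χ : X → ℂ) : ℕ) : ℝ) ^ 2 else 1
  have hA : ∀ χ : IrrCharacter X, (Fintype.card (ZMod (Nat.card X))ˣ : ℝ) * w χ ≤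
      ∑ k : (ZMod (Nat.card X))ˣ, ‖(χ : X → ℂ) (v ^ (ZMod.val (k : ZMod (Nat.card X))))‖ ^ 2 := by
    intro χ
    show (Fintype.card (ZMod (Nat.card X))ˣ : ℝ) * (if (∀ u ∈ V, (χ : X → ℂ) u = (χ : X → ℂ) 1) then
      ((charDegree (χ : X → ℂ) : ℕ) : ℝ) ^ 2 else 1) ≤ _
    split_ifs with h0
    · apply le_of_eq
      have hk : ∀ k : (ZMod (Nat.card X))ˣ,
          ‖(χ : X → ℂ) (v ^ (ZMod.val (k : ZMod (Nat.card X))))‖ ^ 2 =
            ((charDegree (χ : X → ℂ) : ℕ) : ℝ) ^ 2 := by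
        intro k
        rw [h0 _ (V.pow_mem hv _), isIrrCharacter_one_eq_charDegree χ.2, Complex.norm_natCast]
      rw [Finset.sum_congr rfl (fun k _ => hk k), Finset.sum_const, Finset.card_univ, nsmul_eq_mul]
    · rw [mul_one]
      obtain ⟨m, ρ, hirr, hρ⟩ := χ.2
      haveI := hirr
      have hne : ρ.character v ≠ 0 := by
        obtain ⟨a, ha⟩ := hVp ⟨v, hv⟩
        apply char_ne_zero_of_pow_prime_pow_eq_one ρ hp v (a := a)
        · have := congrArg Subtype.val ha
          simpa using this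
        · intro hdvd
          exact hidx (dvd_trans hdvd (Cfsg.Agent.S0169.result ρ V hab))
      have := card_units_le_sum_norm_sq_char ρ v hne
      rw [hρ] at this
      exact this
  have hB : ∀ g : X, ∑ χ : IrrCharacter X, ‖(χ : X → ℂ) g‖ ^ 2 =
      (Nat.card (Subgroup.centralizer ({g} : Set X)) : ℝ) := by
    intro g
    have h := second_orthogonality g g
    rw [if_pos (IsConj.refl g)] at h
    have h2 : ((∑ χ : IrrCharacter X, ‖(χ : X → ℂ) g‖ ^ 2 : ℝ) : ℂ) =
        (Nat.card (Subgroup.centralizer ({g} : Set X)) : ℂ) := by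
      rw [← h]; push_cast
      apply Finset.sum_congr rfl; intro χ _
      rw [Complex.mul_conj, Complex.normSq_eq_norm_sq]; push_cast; rfl
    exact_mod_cast h2
  have hC : ∀ k : (ZMod (Nat.card X))ˣ,
      Subgroup.centralizer ({v ^ (ZMod.val (k : ZMod (Nat.card X)))} : Set X) =
      Subgroup.centralizer ({v} : Set X) := by
    intro k
    have hk : (ZMod.val (k : ZMod (Nat.card X))).Coprime (Nat.card X) :=
      ZMod.val_coe_unit_coprime k
    obtain ⟨l, hl⟩ := exists_pow_pow_eq v hk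
    ext x
    rw [Subgroup.mem_centralizer_singleton_iff, Subgroup.mem_centralizer_singleton_iff]
    constructor
    · intro h
      have h' : Commute x ((v ^ (ZMod.val (k : ZMod (Nat.card X)))) ^ l) :=
        (show Commute x _ from h).pow_right l
      rw [hl] at h'
      exact h'
    · intro h
      exact (show Commute x v from h).pow_right _
  have hD : (Fintype.card (ZMod (Nat.card X))ˣ : ℝ) * ∑ χ : IrrCharacter X, w χ ≤
      (Fintype.card (ZMod (Nat.card X))ˣ : ℝ) *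
        (Nat.card (Subgroup.centralizer ({v} : Set X)) : ℝ) := by
    calc (Fintype.card (ZMod (Nat.card X))ˣ : ℝ) * ∑ χ : IrrCharacter X, w χ
        = ∑ χ : IrrCharacter X, (Fintype.card (ZMod (Nat.card X))ˣ : ℝ) * w χ :=
          Finset.mul_sum _ _ _
      _ ≤ ∑ χ : IrrCharacter X, ∑ k : (ZMod (Nat.card X))ˣ,
            ‖(χ : X → ℂ) (v ^ (ZMod.val (k : ZMod (Nat.card X))))‖ ^ 2 :=
          Finset.sum_le_sum (fun χ _ => hA χ)
      _ = ∑ k : (ZMod (Nat.card X))ˣ, ∑ χ : IrrCharacter X,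
            ‖(χ : X → ℂ) (v ^ (ZMod.val (k : ZMod (Nat.card X))))‖ ^ 2 :=
          Finset.sum_comm
      _ = ∑ k : (ZMod (Nat.card X))ˣ, (Nat.card (Subgroup.centralizer ({v} : Set X)) : ℝ) := by
          apply Finset.sum_congr rfl; intro k _
          rw [hB, hC k]
      _ = (Fintype.card (ZMod (Nat.card X))ˣ : ℝ) *
            (Nat.card (Subgroup.centralizer ({v} : Set X)) : ℝ) := by
          rw [Finset.sum_const, Finset.card_univ, nsmul_eq_mul]
  have hE : ∑ χ : IrrCharacter X, w χ ≤ (Nat.card (Subgroup.centralizer ({v} : Set X)) : ℝ) :=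
    le_of_mul_le_mul_left hD hφ
  obtain ⟨T0, hT0⟩ : ∃ T0 : Finset (IrrCharacter X), T0 =
      Finset.univ.filter (fun χ : IrrCharacter X => ∀ u ∈ V, (χ : X → ℂ) u = (χ : X → ℂ) 1) :=
    ⟨_, rfl⟩
  have hF : ∑ χ : IrrCharacter X, w χ =
      (Fintype.card (IrrCharacter X) : ℝ) + (V.index : ℝ) - (T0.card : ℝ) := by
    have h1 := sum_sq_degree_over (G := X) V
    have h1' : (∑ χ : IrrCharacter X, (if (∀ n ∈ V, (χ : X → ℂ) n = (χ : X → ℂ) 1) then
        ((charDegree (χ : X → ℂ) : ℕ) : ℝ) ^ 2 else 0)) = (V.index : ℝ) := by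
      have h1c := congrArg (fun n : ℕ => (n : ℝ)) h1
      simp only [Nat.cast_sum] at h1c
      rw [← h1c]
      apply Finset.sum_congr rfl; intro χ _
      split_ifs <;> simp
    have h2 : (T0.card : ℝ) = ∑ χ : IrrCharacter X,
        (if (∀ n ∈ V, (χ : X → ℂ) n = (χ : X → ℂ) 1) then (1 : ℝ) else 0) := by
      rw [hT0, Finset.card_filter]; push_cast; rfl
    have h3 : (Fintype.card (IrrCharacter X) : ℝ) = ∑ χ : IrrCharacter X, (1 : ℝ) := by
      simp
    rw [h3, ← h1', h2, ← Finset.sum_add_distrib, ← Finset.sum_sub_distrib]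
    apply Finset.sum_congr rfl; intro χ _
    show (if (∀ u ∈ V, (χ : X → ℂ) u = (χ : X → ℂ) 1) then
      ((charDegree (χ : X → ℂ) : ℕ) : ℝ) ^ 2 else 1) = _
    split_ifs <;> ring
  have hG1 : T0.card ≤ Nat.card (ConjClasses G) := by
    have hdesc : ∀ χ : IrrCharacter X, (∀ u ∈ V, (χ : X → ℂ) u = (χ : X → ℂ) 1) →
        ∃ ψ : IrrCharacter (X ⧸ V), (χ : X → ℂ) = (ψ : X ⧸ V → ℂ) ∘ (QuotientGroup.mk' V) := by
      intro χ h0
      obtain ⟨m, ρ, hirr, hρ⟩ := χ.2
      haveI := hirr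
      have hker : ∀ x ∈ V, ρ x = 1 := by
        intro x hx
        have h1 := h0 x hx
        rw [← hρ, Representation.char_one] at h1
        exact (char_eq_finrank_iff ρ x).mp h1
      obtain ⟨ψ, hψ, hψ2⟩ := isIrrCharacter_descend ρ V hker
      exact ⟨⟨ψ, hψ⟩, by rw [← hρ, hψ2]⟩
    have hinj : Nat.card {χ : IrrCharacter X // ∀ u ∈ V, (χ : X → ℂ) u = (χ : X → ℂ) 1} ≤
        Nat.card (IrrCharacter (X ⧸ V)) := by
      haveI : Finite (IrrCharacter (X ⧸ V)) := irr_finite'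
      choose f hf using hdesc
      apply Nat.card_le_card_of_injective
        (fun χ : {χ : IrrCharacter X // ∀ u ∈ V, (χ : X → ℂ) u = (χ : X → ℂ) 1} => f χ.1 χ.2)
      intro a b hab'
      have hab'' : f a.1 a.2 = f b.1 b.2 := hab'
      apply Subtype.ext; apply Subtype.ext
      calc (a.1 : X → ℂ) = (f a.1 a.2 : X ⧸ V → ℂ) ∘ (QuotientGroup.mk' V) := hf a.1 a.2
        _ = (f b.1 b.2 : X ⧸ V → ℂ) ∘ (QuotientGroup.mk' V) := by rw [hab'']
        _ = (b.1 : X → ℂ) := (hf b.1 b.2).symm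
    have hcardT : T0.card =
        Nat.card {χ : IrrCharacter X // ∀ u ∈ V, (χ : X → ℂ) u = (χ : X → ℂ) 1} := by
      rw [hT0, Nat.card_eq_fintype_card, Fintype.card_subtype]
    letI : Fintype (X ⧸ V) := Fintype.ofFinite _
    have hk1 : Nat.card (IrrCharacter (X ⧸ V)) = Nat.card (ConjClasses (X ⧸ V)) :=
      card_irr_eq_card_conjClasses
    have hk2 : Nat.card (ConjClasses (X ⧸ V)) ≤ Nat.card (ConjClasses G) := by
      let e : G ≃* X ⧸ V := (hGV.symm.QuotientMulEquiv).symm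
      exact Nat.card_le_card_of_surjective (ConjClasses.map e.toMonoidHom)
        (ConjClasses.map_surjective e.surjective)
    omega
  have hcent := knorr_cent_card V G hab hGV v hv
  have hkX : Nat.card (ConjClasses X) = Fintype.card (IrrCharacter X) := by
    rw [← card_irr_eq_card_conjClasses, Nat.card_eq_fintype_card]
  have hidxG : V.index = Nat.card G := hGV.symm.index_eq_card
  have hfinal : (Fintype.card (IrrCharacter X) : ℝ) + (V.index : ℝ) - (T0.card : ℝ) ≤
      (Nat.card (Subgroup.centralizer ({v} : Set X)) : ℝ) := by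
    rw [← hF]; exact hE
  have hfinal' : Fintype.card (IrrCharacter X) + V.index ≤
      Nat.card (Subgroup.centralizer ({v} : Set X)) + T0.card := by
    have : (Fintype.card (IrrCharacter X) : ℝ) + (V.index : ℝ) ≤
        (Nat.card (Subgroup.centralizer ({v} : Set X)) : ℝ) + (T0.card : ℝ) := by linarith
    exact_mod_cast this
  rw [hkX, ← hidxG]
  exact le_trans hfinal' (add_le_add hcent hG1)

end Cfsg.Agent.S4955
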