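import Cfsg.Statements.S4965
import Mathlib

set_option autoImplicit false
set_option maxHeartbeats 800000
open Cfsg

namespace Cfsg.Agent.S4965

/-- Let X be a finite group with an abelian normal subgroup V (any two elements of V commute), and let φ be the action of X ⧸ V on V induced by conjugation (well defined because V is abelian; the hypothesis hφ says that the class of x acts as conjugation by x). Then X has at most as many conjugacy classes as the semidirect product of V by X ⧸ V formed with this action: the split extension has the largest class number among extensions with the given action. -/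
theorem result {X : Type*} [Group X] [Finite X] (V : Subgroup X) [V.Normal] (hab : ∀ a ∈ V, ∀ b ∈ V, a * b = b * a) (φ : X ⧸ V →* MulAut ↥V) (hφ : ∀ (x : X) (v : ↥V), ((φ (QuotientGroup.mk x) v : ↥V) : X) = x * v * x⁻¹) : Nat.card (ConjClasses X) ≤ Nat.card (ConjClasses (SemidirectProduct ↥V (X ⧸ V) φ)) := by
  classical
  have hex : ∀ ab : (X ⧸ V) × (X ⧸ V), ∃ p : X × X,
      (∃ q : X × X, (QuotientGroup.mk q.1 : X ⧸ V) = ab.1 ∧
        (QuotientGroup.mk q.2 : X ⧸ V) = ab.2 ∧ Commute q.1 q.2) →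
      ((QuotientGroup.mk p.1 : X ⧸ V) = ab.1 ∧ (QuotientGroup.mk p.2 : X ⧸ V) = ab.2 ∧
        Commute p.1 p.2) := by
    intro ab
    by_cases h : ∃ q : X × X, (QuotientGroup.mk q.1 : X ⧸ V) = ab.1 ∧
        (QuotientGroup.mk q.2 : X ⧸ V) = ab.2 ∧ Commute q.1 q.2
    · obtain ⟨q, hq⟩ := h; exact ⟨q, fun _ => hq⟩
    · exact ⟨(1, 1), fun h' => absurd h' h⟩
  choose ℓ hℓ using hex
  have key : ∀ p : {p : X × X // Commute p.1 p.2},
      ∃ q : {q : SemidirectProduct ↥V (X ⧸ V) φ × SemidirectProduct ↥V (X ⧸ V) φ //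
        Commute q.1 q.2},
      q.1.1.right = QuotientGroup.mk p.1.1 ∧ q.1.2.right = QuotientGroup.mk p.1.2 ∧
      (q.1.1.left : X) = p.1.1 * (ℓ (QuotientGroup.mk p.1.1, QuotientGroup.mk p.1.2)).1⁻¹ ∧
      (q.1.2.left : X) = p.1.2 * (ℓ (QuotientGroup.mk p.1.1, QuotientGroup.mk p.1.2)).2⁻¹ := by
    rintro ⟨⟨x, y⟩, hxy⟩
    obtain ⟨h1, h2, h3⟩ := hℓ (QuotientGroup.mk x, QuotientGroup.mk y) ⟨(x, y), rfl, rfl, hxy⟩
    obtain ⟨x₁, hx₁⟩ : ∃ x₁ : X, x₁ = (ℓ (QuotientGroup.mk x, QuotientGroup.mk y)).1 := ⟨_, rfl⟩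
    obtain ⟨y₁, hy₁⟩ : ∃ y₁ : X, y₁ = (ℓ (QuotientGroup.mk x, QuotientGroup.mk y)).2 := ⟨_, rfl⟩
    rw [← hx₁] at h1 h3
    rw [← hy₁] at h2 h3
    simp only at h1 h2
    have hu : x * x₁⁻¹ ∈ V := by
      have := (QuotientGroup.eq_iff_div_mem (N := V)).mp h1.symm
      rwa [div_eq_mul_inv] at this
    have hw : y * y₁⁻¹ ∈ V := by
      have := (QuotientGroup.eq_iff_div_mem (N := V)).mp h2.symm
      rwa [div_eq_mul_inv] at this
    refine ⟨⟨(⟨⟨x * x₁⁻¹, hu⟩, QuotientGroup.mk x⟩, ⟨⟨y * y₁⁻¹, hw⟩, QuotientGroup.mk y⟩), ?_⟩,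
      rfl, rfl, ?_, ?_⟩
    · show (⟨⟨x * x₁⁻¹, hu⟩, QuotientGroup.mk x⟩ : SemidirectProduct ↥V (X ⧸ V) φ) *
        ⟨⟨y * y₁⁻¹, hw⟩, QuotientGroup.mk y⟩ =
        ⟨⟨y * y₁⁻¹, hw⟩, QuotientGroup.mk y⟩ * ⟨⟨x * x₁⁻¹, hu⟩, QuotientGroup.mk x⟩
      apply SemidirectProduct.ext
      · simp only [SemidirectProduct.mul_left]
        apply Subtype.ext
        rw [Subgroup.coe_mul, Subgroup.coe_mul]
        rw [← h1, ← h2, hφ x₁, hφ y₁]
        have e1 : x * y = y * x := hxy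
        have e2 : x₁ * y₁ = y₁ * x₁ := h3
        show x * x₁⁻¹ * (x₁ * (y * y₁⁻¹) * x₁⁻¹) = y * y₁⁻¹ * (y₁ * (x * x₁⁻¹) * y₁⁻¹)
        calc x * x₁⁻¹ * (x₁ * (y * y₁⁻¹) * x₁⁻¹) = (x * y) * (x₁ * y₁)⁻¹ := by group
          _ = (y * x) * (y₁ * x₁)⁻¹ := by rw [e1, e2]
          _ = y * y₁⁻¹ * (y₁ * (x * x₁⁻¹) * y₁⁻¹) := by group
      · simp only [SemidirectProduct.mul_right]
        rw [← QuotientGroup.mk_mul, ← QuotientGroup.mk_mul, hxy.eq]
    · show x * x₁⁻¹ = x * (ℓ (QuotientGroup.mk x, QuotientGroup.mk y)).1⁻¹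
      rw [hx₁]
    · show y * y₁⁻¹ = y * (ℓ (QuotientGroup.mk x, QuotientGroup.mk y)).2⁻¹
      rw [hy₁]
  choose F hF1 hF2 hF3 hF4 using key
  have hFinj : Function.Injective F := by
    intro p p' h
    have a1 := hF1 p
    have a2 := hF2 p
    have a3 := hF3 p
    have a4 := hF4 p
    have b1 := hF1 p'
    have b2 := hF2 p'
    have b3 := hF3 p'
    have b4 := hF4 p'
    rw [h] at a1 a2 a3 a4
    have e1 : (QuotientGroup.mk p.1.1 : X ⧸ V) = QuotientGroup.mk p'.1.1 := a1.symm.trans b1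
    have e2 : (QuotientGroup.mk p.1.2 : X ⧸ V) = QuotientGroup.mk p'.1.2 := a2.symm.trans b2
    rw [e1, e2] at a3 a4
    have e3 : p.1.1 = p'.1.1 := mul_right_cancel (a3.symm.trans b3)
    have e4 : p.1.2 = p'.1.2 := mul_right_cancel (a4.symm.trans b4)
    exact Subtype.ext (Prod.ext e3 e4)
  haveI : Finite (SemidirectProduct ↥V (X ⧸ V) φ) :=
    Finite.of_equiv _ SemidirectProduct.equivProd.symm
  have hle := Nat.card_le_card_of_injective F hFinj
  rw [card_comm_eq_card_conjClasses_mul_card, card_comm_eq_card_conjClasses_mul_card] at hle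
  have hcard : Nat.card (SemidirectProduct ↥V (X ⧸ V) φ) = Nat.card X := by
    rw [SemidirectProduct.card, Subgroup.card_eq_card_quotient_mul_card_subgroup V, mul_comm]
  rw [hcard] at hle
  exact Nat.le_of_mul_le_mul_right hle Nat.card_pos

end Cfsg.Agent.S4965
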