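import Cfsg.Statements.S5015
import Cfsg.Agent.Lib.Helper6.RankOne

set_option autoImplicit false
open Cfsg

namespace Cfsg.Agent.S5015

/-- Let a group Y act doubly transitively on a set Ω with at least three points, and suppose that the stabilizer of a point α contains a nilpotent subgroup A, normalized by that stabilizer, which acts regularly on the points other than α. Then for any y in Y moving α, the subgroups A and y A y⁻¹ are the unipotent subgroups of a rank one group, and the normal closure of A in Y (the subgroup generated by all conjugates of A) is generated by A and y A y⁻¹ alone. -/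
theorem result {Y Ω : Type*} [Group Y] [MulAction Y Ω]
    (h2 : MulAction.IsMultiplyPretransitive Y Ω 2) (hΩ : 3 ≤ ENat.card Ω) (α : Ω) (A : Subgroup Y)
    (hA : A ≤ MulAction.stabilizer Y α) (hAn : ∀ y ∈ MulAction.stabilizer Y α, Cfsg.conjBy A y = A)
    (hnil : Group.IsNilpotent A) (hreg : ∀ β γ : Ω, β ≠ α → γ ≠ α → ∃! a : Y, a ∈ A ∧ a • β = γ)
    (y : Y) (hy : y ∉ MulAction.stabilizer Y α) :
    Cfsg.IsRankOnePair A (Cfsg.conjBy A y) ∧ Subgroup.normalClosure (A : Set Y) = A ⊔ Cfsg.conjBy A y := by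
  classical
  set β : Ω := y • α with hβ
  have hαβ : α ≠ β := by
    intro h
    apply hy
    rw [MulAction.mem_stabilizer_iff]
    exact h.symm
  -- conjugates of `A` depend only on the image of `α`
  have F1 : ∀ g g' : Y, g • α = g' • α → Cfsg.conjBy A g = Cfsg.conjBy A g' := by
    intro g g' h
    have h1 : g⁻¹ * g' ∈ MulAction.stabilizer Y α := by
      rw [MulAction.mem_stabilizer_iff, mul_smul, ← h, inv_smul_smul]
    have h2 := hAn _ h1
    have h3 : Cfsg.conjBy A g' = Cfsg.conjBy (Cfsg.conjBy A (g⁻¹ * g')) g := by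
      rw [Cfsg.Agent.Lib.Helper6.cb_cb, mul_inv_cancel_left]
    rw [h3, h2]
  -- non-identity elements of `A` fix only `α`
  have F4 : ∀ a ∈ A, a ≠ 1 → ∀ γ : Ω, γ ≠ α → a • γ ≠ γ := by
    intro a ha ha1 γ hγ h
    obtain ⟨a₀, -, huniq⟩ := hreg γ γ hγ hγ
    have e1 := huniq a ⟨ha, h⟩
    have e2 := huniq 1 ⟨one_mem _, one_smul _ _⟩
    exact ha1 (e1.trans e2.symm)
  have hAfix : ∀ a ∈ A, a • α = α := fun a ha => MulAction.mem_stabilizer_iff.mp (hA ha)
  -- elements of `B`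
  have hBmem : ∀ b : Y, b ∈ Cfsg.conjBy A y ↔ y⁻¹ * b * y ∈ A := fun b =>
    Cfsg.Agent.Lib.Helper6.cb_mem
  have hBfix : ∀ b ∈ Cfsg.conjBy A y, b • β = β := by
    intro b hb
    have h1 := hAfix _ ((hBmem b).mp hb)
    rw [hβ]
    have h2 : b • y • α = y • (y⁻¹ * b * y) • α := by
      simp only [← mul_smul]
      congr 1
      group
    rw [h2, h1]
  have hBreg : ∀ γ δ : Ω, γ ≠ β → δ ≠ β → ∃ b ∈ Cfsg.conjBy A y, b • γ = δ := by
    intro γ δ hγ hδ
    have hγ' : y⁻¹ • γ ≠ α := by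
      intro h
      apply hγ
      rw [hβ, ← h, smul_inv_smul]
    have hδ' : y⁻¹ • δ ≠ α := by
      intro h
      apply hδ
      rw [hβ, ← h, smul_inv_smul]
    obtain ⟨a, ⟨ha, haγ⟩, -⟩ := hreg _ _ hγ' hδ'
    refine ⟨y * a * y⁻¹, Cfsg.Agent.Lib.Helper6.cb_mem' ha, ?_⟩
    rw [mul_smul, mul_smul, haγ, smul_inv_smul]
  have F4B : ∀ b ∈ Cfsg.conjBy A y, b ≠ 1 → ∀ γ : Ω, γ ≠ β → b • γ ≠ γ := by
    intro b hb hb1 γ hγ h
    have hγ' : y⁻¹ • γ ≠ α := by
      intro h'
      apply hγ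
      rw [hβ, ← h', smul_inv_smul]
    have h1 : y⁻¹ * b * y ≠ 1 := by
      intro h'
      apply hb1
      have : b = y * (y⁻¹ * b * y) * y⁻¹ := by group
      rw [this, h']; group
    apply F4 _ ((hBmem b).mp hb) h1 _ hγ'
    rw [mul_smul, mul_smul, smul_inv_smul, h]
  have hthird : ∃ γ : Ω, γ ≠ α ∧ γ ≠ β := by
    by_contra hno
    push_neg at hno
    have hsub : (Set.univ : Set Ω) ⊆ {α, β} := by
      intro γ _
      by_cases h1 : γ = α
      · left; exact h1
      · right; exact hno γ h1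
    have h1 := Set.encard_mono hsub
    rw [Set.encard_univ, Set.encard_pair hαβ] at h1
    have h3 : (3 : ℕ∞) ≤ 2 := le_trans hΩ h1
    exact absurd h3 (by decide)
  have hne : A ≠ Cfsg.conjBy A y := by
    intro h
    obtain ⟨γ, hγα, hγβ⟩ := hthird
    obtain ⟨a, ⟨ha, haγ⟩, -⟩ := hreg β γ hαβ.symm hγα
    have := hBfix a (h ▸ ha)
    rw [this] at haγ
    exact hγβ haγ.symm
  have hnilB : Group.IsNilpotent ↥(Cfsg.conjBy A y) := by
    haveI := hnil
    exact Group.nilpotent_of_mulEquiv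
      (A.equivMapOfInjective (MulAut.conj y).toMonoidHom (MulAut.conj y).injective)
  have hcondL : Cfsg.RankOneCondition A (Cfsg.conjBy A y) := by
    intro a ha ha1
    have ha1' : a⁻¹ ≠ 1 := by simpa using ha1
    have hγβ : a⁻¹ • β ≠ β := F4 a⁻¹ (inv_mem ha) ha1' β hαβ.symm
    have hγα : a⁻¹ • β ≠ α := by
      intro h
      apply hαβ
      have : β = a • α := by rw [← h, smul_inv_smul]
      rw [this, hAfix a ha]
    obtain ⟨b', hb', hb'γ⟩ := hBreg α (a⁻¹ • β) hαβ hγβ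
    refine ⟨b'⁻¹, inv_mem hb', ?_, ?_⟩
    · intro h
      have : b' = 1 := by simpa using h
      rw [this, one_smul] at hb'γ
      exact hγα hb'γ.symm
    · rw [inv_inv, Cfsg.Agent.Lib.Helper6.cb_cb]
      apply F1
      rw [hb'γ, mul_smul]
  have hcondR : Cfsg.RankOneCondition (Cfsg.conjBy A y) A := by
    intro b hb hb1
    have hb1' : b⁻¹ ≠ 1 := by simpa using hb1
    have hγα : b⁻¹ • α ≠ α := F4B b⁻¹ (inv_mem hb) hb1' α hαβ
    have hγβ : b⁻¹ • α ≠ β := by
      intro h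
      apply hαβ
      have : α = b • β := by rw [← h, smul_inv_smul]
      rw [this, hBfix b hb]
    obtain ⟨a', ⟨ha', ha'γ⟩, -⟩ := hreg β (b⁻¹ • α) hαβ.symm hγα
    refine ⟨a'⁻¹, inv_mem ha', ?_, ?_⟩
    · intro h
      have : a' = 1 := by simpa using h
      rw [this, one_smul] at ha'γ
      exact hγβ ha'γ.symm
    · rw [inv_inv, Cfsg.Agent.Lib.Helper6.cb_cb]
      apply F1
      rw [mul_smul, ← hβ, ha'γ]
  refine ⟨⟨hne, hnil, hnilB, hcondL, hcondR⟩, ?_⟩
  apply le_antisymm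
  · rw [Subgroup.normalClosure, Subgroup.closure_le]
    intro x hx
    rw [Group.mem_conjugatesOfSet_iff] at hx
    obtain ⟨a, ha, hax⟩ := hx
    obtain ⟨g, hg⟩ := isConj_iff.mp hax
    have hxg : x ∈ Cfsg.conjBy A g := by
      rw [← hg]; exact Cfsg.Agent.Lib.Helper6.cb_mem' ha
    by_cases hgα : g • α = α
    · have : Cfsg.conjBy A g = A := hAn g (MulAction.mem_stabilizer_iff.mpr hgα)
      rw [this] at hxg
      exact Subgroup.mem_sup_left hxg
    · obtain ⟨a', ⟨ha', ha'γ⟩, -⟩ := hreg β (g • α) hαβ.symm hgα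
      have h1 : Cfsg.conjBy A g = Cfsg.conjBy (Cfsg.conjBy A y) a' := by
        rw [Cfsg.Agent.Lib.Helper6.cb_cb]
        apply F1
        rw [mul_smul, ← hβ, ha'γ]
      rw [h1] at hxg
      exact Cfsg.Agent.Lib.Helper6.cb_le_sup le_sup_right (Subgroup.mem_sup_left ha') hxg
  · rw [sup_le_iff]
    refine ⟨Subgroup.le_normalClosure, ?_⟩
    intro x hx
    rw [Cfsg.Agent.Lib.Helper6.cb_mem] at hx
    have h1 : x = y * (y⁻¹ * x * y) * y⁻¹ := by group
    rw [h1]
    exact Subgroup.normalClosure_normal.conj_mem _ (Subgroup.le_normalClosure hx) y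

end Cfsg.Agent.S5015
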