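import Cfsg.Statements.S5045
import Cfsg.Agent.Lib.Helper6.RootInv

set_option autoImplicit false
open Cfsg

namespace Cfsg.Agent.S5045

/-- Let G be a finite group generated by a set D of root involutions, and W the set of members of D whose product with every other member of D has even order or is trivial (the isolated vertices of the odd-order-product graph on D). Then W is conjugation-invariant and generates a normal 2-subgroup of G meeting D in exactly W; the commutator of two members of D lying in different connected components of that graph, each with more than one member, lies in the subgroup generated by W; and for a in such a component, every member of D commuting with a, different from a and with product with a in D, lies in that component or in W. -/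
theorem result {G : Type*} [Group G] [Finite G] {D : Set G} (hD : Cfsg.IsRootInvolutionSet D) :
    (∀ w ∈ {w | Cfsg.IsIsolatedElem (Cfsg.OddAdj D) D w}, ∀ g : G, g * w * g⁻¹ ∈ {w | Cfsg.IsIsolatedElem (Cfsg.OddAdj D) D w}) ∧
    (Subgroup.closure {w | Cfsg.IsIsolatedElem (Cfsg.OddAdj D) D w}).Normal ∧
    IsPGroup 2 ↥(Subgroup.closure {w | Cfsg.IsIsolatedElem (Cfsg.OddAdj D) D w}) ∧
    (Subgroup.closure {w | Cfsg.IsIsolatedElem (Cfsg.OddAdj D) D w} : Set G) ∩ D = {w | Cfsg.IsIsolatedElem (Cfsg.OddAdj D) D w} ∧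
    (∀ a ∈ D, ∀ b ∈ D, (∃ a' ∈ Cfsg.elemComponentOf (Cfsg.OddAdj D) D a, a' ≠ a) →
      (∃ b' ∈ Cfsg.elemComponentOf (Cfsg.OddAdj D) D b, b' ≠ b) →
      Cfsg.elemComponentOf (Cfsg.OddAdj D) D a ≠ Cfsg.elemComponentOf (Cfsg.OddAdj D) D b →
        a * b * a⁻¹ * b⁻¹ ∈ Subgroup.closure {w | Cfsg.IsIsolatedElem (Cfsg.OddAdj D) D w}) ∧
    (∀ a ∈ D, (∃ a' ∈ Cfsg.elemComponentOf (Cfsg.OddAdj D) D a, a' ≠ a) →
      Cfsg.productPartners D a ⊆ Cfsg.elemComponentOf (Cfsg.OddAdj D) D a ∪ {w | Cfsg.IsIsolatedElem (Cfsg.OddAdj D) D w}) := by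
  classical
  have hnb : ∀ x : G, x ∈ D → ¬ Cfsg.IsIsolatedElem (Cfsg.OddAdj D) D x → ∃ e, Cfsg.OddAdj D x e := by
    intro x hxD hxW
    by_contra hcon
    push_neg at hcon
    exact hxW ⟨hxD, fun b => ⟨hcon b, fun h => hcon b (Cfsg.Agent.Lib.Helper6.oa_symm h)⟩⟩
  have hnb' : ∀ a : G, (∃ a' ∈ Cfsg.elemComponentOf (Cfsg.OddAdj D) D a, a' ≠ a) →
      ∃ c, Cfsg.OddAdj D a c := by
    rintro a ⟨a', ⟨_, hpath⟩, hne⟩
    rcases Relation.ReflTransGen.cases_head hpath with h | ⟨c, hc, _⟩
    · exact absurd h.symm hne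
    · exact ⟨c, hc⟩
  have h1 : ∀ w ∈ {w | Cfsg.IsIsolatedElem (Cfsg.OddAdj D) D w}, ∀ g : G,
      g * w * g⁻¹ ∈ {w | Cfsg.IsIsolatedElem (Cfsg.OddAdj D) D w} := by
    rintro w ⟨hwD, hw⟩ g
    refine ⟨hD.conj_mem w hwD g, fun b => ⟨?_, ?_⟩⟩
    · intro h
      have := Cfsg.Agent.Lib.Helper6.oa_conj hD h g⁻¹
      have e : g⁻¹ * (g * w * g⁻¹) * g⁻¹⁻¹ = w := by group
      rw [e] at this
      exact (hw _).1 this
    · intro h
      have := Cfsg.Agent.Lib.Helper6.oa_conj hD h g⁻¹
      have e : g⁻¹ * (g * w * g⁻¹) * g⁻¹⁻¹ = w := by group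
      rw [e] at this
      exact (hw _).2 this
  have h2 : (Subgroup.closure {w | Cfsg.IsIsolatedElem (Cfsg.OddAdj D) D w}).Normal := by
    constructor
    intro n hn g
    induction hn using Subgroup.closure_induction with
    | mem x hx => exact Subgroup.subset_closure (h1 x hx g)
    | one => simp
    | mul x y _ _ hx hy =>
      have : g * (x * y) * g⁻¹ = (g * x * g⁻¹) * (g * y * g⁻¹) := by group
      rw [this]; exact mul_mem hx hy
    | inv x _ hx =>
      have : g * x⁻¹ * g⁻¹ = (g * x * g⁻¹)⁻¹ := by group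
      rw [this]; exact inv_mem hx
  have h3 : IsPGroup 2 ↥(Subgroup.closure {w | Cfsg.IsIsolatedElem (Cfsg.OddAdj D) D w}) := by
    haveI : Fact (Nat.Prime 2) := ⟨Nat.prime_two⟩
    have hpair : ∀ x ∈ {w | Cfsg.IsIsolatedElem (Cfsg.OddAdj D) D w},
        ∀ y ∈ {w | Cfsg.IsIsolatedElem (Cfsg.OddAdj D) D w},
        IsPGroup 2 (Subgroup.closure ({x, y} : Set G)) := by
      intro x hx y hy
      have hx2 := Cfsg.Agent.Lib.Helper6.ri_sq hD hx.1
      have hy2 := Cfsg.Agent.Lib.Helper6.ri_sq hD hy.1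
      have h4 : (x * y) ^ 4 = 1 := by
        by_cases hxy : x = y
        · subst hxy; rw [hx2, one_pow]
        · rcases hD.pair x hx.1 y hy.1 with h | h | ⟨h, _⟩
          · have h' : (x * y) * (x * y) = 1 := by
              calc (x * y) * (x * y) = x * (y * x) * y := by simp only [mul_assoc]
                _ = x * (x * y) * y := by rw [h]
                _ = (x * x) * (y * y) := by simp only [mul_assoc]
                _ = 1 := by rw [hx2, hy2, one_mul]
            have : (x * y) ^ 4 = ((x * y) * (x * y)) ^ 2 := by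
              rw [← pow_two, ← pow_mul]
            rw [this, h', one_pow]
          · exact absurd ⟨hx.1, hy.1, hxy, h⟩ (hx.2 y).1
          · rw [← h]; exact pow_orderOf_eq_one _
      rintro ⟨d, hd⟩
      refine ⟨2, ?_⟩
      apply Subtype.ext
      show d ^ (2 ^ 2) = 1
      obtain ⟨k, rfl | rfl⟩ := (Cfsg.Agent.Lib.Helper5.mem_closure_pair_iff x y hx2 hy2 d).mp hd
      · have : ((x * y) ^ k) ^ (2 ^ 2) = ((x * y) ^ 4) ^ k := by
          rw [← zpow_natCast, ← zpow_natCast, ← zpow_mul, ← zpow_mul, mul_comm]; norm_num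
        rw [this, h4, one_zpow]
      · have h' : ((x * y) ^ k * x) * ((x * y) ^ k * x) = 1 := by
          rw [mul_assoc, ← mul_assoc x, Cfsg.Agent.Lib.Helper5.rot_swap x y hx2 hy2 k, mul_assoc, hx2,
            mul_one, ← zpow_add, add_neg_cancel, zpow_zero]
        have : ((x * y) ^ k * x) ^ (2 ^ 2) = (((x * y) ^ k * x) * ((x * y) ^ k * x)) ^ 2 := by
          rw [← pow_two, ← pow_mul]; norm_num
        rw [this, h', one_pow]
    have hsyl : ∀ R : Sylow 2 G, ∀ w ∈ {w | Cfsg.IsIsolatedElem (Cfsg.OddAdj D) D w},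
        w ∈ (R : Subgroup G) := fun R w hw =>
      Cfsg.Agent.Lib.Helper5.baer_suzuki_set 2 _ (fun g x hx => h1 x hx g) hpair w hw R
    obtain ⟨R⟩ : Nonempty (Sylow 2 G) := inferInstance
    have hle : Subgroup.closure {w | Cfsg.IsIsolatedElem (Cfsg.OddAdj D) D w} ≤ (R : Subgroup G) :=
      (Subgroup.closure_le _).mpr (fun w hw => hsyl R w hw)
    exact R.isPGroup'.to_le hle
  have h4 : (Subgroup.closure {w | Cfsg.IsIsolatedElem (Cfsg.OddAdj D) D w} : Set G) ∩ D =
      {w | Cfsg.IsIsolatedElem (Cfsg.OddAdj D) D w} := by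
    ext d
    constructor
    · rintro ⟨hdN, hdD⟩
      have key : ∀ b, ¬ Cfsg.OddAdj D d b := by
        rintro b ⟨_, hbD, hne, ⟨k, hk⟩⟩
        have hk' : (d * b) ^ (2 * k + 1) = 1 := by rw [← hk]; exact pow_orderOf_eq_one _
        obtain ⟨c, hc⟩ := Cfsg.Agent.Lib.Helper5.dih_conj_of_odd d b
          (Cfsg.Agent.Lib.Helper6.ri_sq hD hdD) (Cfsg.Agent.Lib.Helper6.ri_sq hD hbD) k hk'
        have hbN : b ∈ Subgroup.closure {w | Cfsg.IsIsolatedElem (Cfsg.OddAdj D) D w} := by
          have : b = c⁻¹ * d * c⁻¹⁻¹ := by rw [← hc]; group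
          rw [this]; exact h2.conj_mem d hdN c⁻¹
        have hdbN : d * b ∈ Subgroup.closure {w | Cfsg.IsIsolatedElem (Cfsg.OddAdj D) D w} :=
          mul_mem hdN hbN
        obtain ⟨j, hj⟩ := h3 ⟨d * b, hdbN⟩
        have hj' : (d * b) ^ (2 ^ j) = 1 := by
          have := congrArg Subtype.val hj
          simpa using this
        have hdvd : orderOf (d * b) ∣ 2 ^ j := orderOf_dvd_of_pow_eq_one hj'
        have hodd : Odd (orderOf (d * b)) := ⟨k, hk⟩
        have h1' : orderOf (d * b) = 1 := by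
          have hco : Nat.Coprime (orderOf (d * b)) (2 ^ j) :=
            Nat.Coprime.pow_right j (Nat.coprime_two_right.mpr hodd)
          exact Nat.Coprime.eq_one_of_dvd hco hdvd
        have h5 : d * b = 1 := orderOf_eq_one_iff.mp h1'
        apply hne
        have : d = b⁻¹ := eq_inv_of_mul_eq_one_left h5
        rw [this, Cfsg.Agent.Lib.Helper6.ri_inv hD hbD]
      exact ⟨hdD, fun b => ⟨key b, fun h => key b (Cfsg.Agent.Lib.Helper6.oa_symm h)⟩⟩
    · intro hw; exact ⟨Subgroup.subset_closure hw, hw.1⟩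
  have h6 : ∀ a ∈ D, (∃ a' ∈ Cfsg.elemComponentOf (Cfsg.OddAdj D) D a, a' ≠ a) →
      Cfsg.productPartners D a ⊆ Cfsg.elemComponentOf (Cfsg.OddAdj D) D a ∪
        {w | Cfsg.IsIsolatedElem (Cfsg.OddAdj D) D w} := by
    rintro a ha hcomp x ⟨⟨hxD, hxa, hxne⟩, hprod⟩
    by_cases hxW : x ∈ {w | Cfsg.IsIsolatedElem (Cfsg.OddAdj D) D w}
    · exact Or.inr hxW
    · left
      refine ⟨hxD, ?_⟩
      obtain ⟨c, hc⟩ := hnb' a hcomp
      obtain ⟨e, he⟩ := hnb x hxD hxW
      exact Cfsg.Agent.Lib.Helper6.ri_connect hD ha hxD hxa hprod hc he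
  refine ⟨h1, h2, h3, h4, ?_, h6⟩
  rintro a ha b hb hca hcb hcomp
  have ha2 := Cfsg.Agent.Lib.Helper6.ri_sq hD ha
  have hb2 := Cfsg.Agent.Lib.Helper6.ri_sq hD hb
  have hainv := Cfsg.Agent.Lib.Helper6.ri_inv hD ha
  have hbinv := Cfsg.Agent.Lib.Helper6.ri_inv hD hb
  rcases hD.pair a ha b hb with h | h | ⟨h4', hz⟩
  · have : a * b * a⁻¹ * b⁻¹ = 1 := by rw [h]; group
    rw [this]; exact one_mem _
  · exfalso; apply hcomp
    by_cases hab : a = b
    · rw [hab]
    · exact Cfsg.Agent.Lib.Helper6.oa_comp_eq (Relation.ReflTransGen.single ⟨ha, hb, hab, h⟩)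
  · have e : a * b * a⁻¹ * b⁻¹ = (a * b) ^ 2 := by
      rw [hainv, hbinv, pow_two]; simp only [mul_assoc]
    rw [e]
    by_cases hzW : (a * b) ^ 2 ∈ {w | Cfsg.IsIsolatedElem (Cfsg.OddAdj D) D w}
    · exact Subgroup.subset_closure hzW
    · exfalso
      obtain ⟨z', hz'⟩ := hnb _ hz hzW
      have hzcomp : ∃ z'' ∈ Cfsg.elemComponentOf (Cfsg.OddAdj D) D ((a * b) ^ 2), z'' ≠ (a * b) ^ 2 :=
        ⟨z', ⟨hz'.2.1, Relation.ReflTransGen.single hz'⟩, hz'.2.2.1.symm⟩
      have hX := h6 _ hz hzcomp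
      have hz2 := Cfsg.Agent.Lib.Helper6.ri_sq hD hz
      have hzz : (a * b) ^ 2 = a * b * a * b := by rw [pow_two]; simp only [mul_assoc]
      have hsw : a * b * a * b = b * a * b * a := by
        have h5 : a * b * a * b = (a * b * a * b)⁻¹ := by
          apply eq_inv_of_mul_eq_one_left
          rw [← hzz]; exact hz2
        rw [mul_inv_rev, mul_inv_rev, mul_inv_rev, hainv, hbinv] at h5
        rw [h5]; simp only [mul_assoc]
      have haz : a * (a * b) ^ 2 = b * a * b := by
        rw [hzz]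
        calc a * (a * b * a * b) = (a * a) * b * a * b := by simp only [mul_assoc]
          _ = b * a * b := by rw [ha2, one_mul]
      have hza : (a * b) ^ 2 * a = b * a * b := by
        rw [hzz, hsw]
        calc b * a * b * a * a = b * a * b * (a * a) := by simp only [mul_assoc]
          _ = b * a * b := by rw [ha2, mul_one]
      have hbz : b * (a * b) ^ 2 = a * b * a := by
        rw [hzz, hsw]
        calc b * (b * a * b * a) = (b * b) * a * b * a := by simp only [mul_assoc]
          _ = a * b * a := by rw [hb2, one_mul]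
      have hzb : (a * b) ^ 2 * b = a * b * a := by
        rw [hzz]
        calc a * b * a * b * b = a * b * a * (b * b) := by simp only [mul_assoc]
          _ = a * b * a := by rw [hb2, mul_one]
      have haX : a ∈ Cfsg.productPartners D ((a * b) ^ 2) := by
        refine ⟨⟨ha, by rw [haz, hza], ?_⟩, ?_⟩
        · intro hh
          have h7 : a * (a * b) ^ 2 = 1 := by rw [← hh]; exact ha2
          rw [haz] at h7
          have h8 : a = 1 := by
            calc a = b * (b * a * b) * b := by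
                  simp only [mul_assoc]; rw [hb2, mul_one, ← mul_assoc, hb2, one_mul]
              _ = 1 := by rw [h7, mul_one, hb2]
          exact Cfsg.Agent.Lib.Helper6.ri_ne_one hD ha h8
        · rw [haz]
          have := hD.conj_mem a ha b
          rwa [hbinv] at this
      have hbX : b ∈ Cfsg.productPartners D ((a * b) ^ 2) := by
        refine ⟨⟨hb, by rw [hbz, hzb], ?_⟩, ?_⟩
        · intro hh
          have h7 : b * (a * b) ^ 2 = 1 := by rw [← hh]; exact hb2
          rw [hbz] at h7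
          have h8 : b = 1 := by
            calc b = a * (a * b * a) * a := by
                  simp only [mul_assoc]; rw [ha2, mul_one, ← mul_assoc, ha2, one_mul]
              _ = 1 := by rw [h7, mul_one, ha2]
          exact Cfsg.Agent.Lib.Helper6.ri_ne_one hD hb h8
        · rw [hbz]
          have := hD.conj_mem b hb a
          rwa [hainv] at this
      obtain ⟨ca, hca'⟩ := hnb' a hca
      obtain ⟨cb, hcb'⟩ := hnb' b hcb
      have hpa : Relation.ReflTransGen (Cfsg.OddAdj D) ((a * b) ^ 2) a := by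
        rcases hX haX with h | h
        · exact h.2
        · exact absurd hca' (h.2 ca).1
      have hpb : Relation.ReflTransGen (Cfsg.OddAdj D) ((a * b) ^ 2) b := by
        rcases hX hbX with h | h
        · exact h.2
        · exact absurd hcb' (h.2 cb).1
      exact hcomp ((Cfsg.Agent.Lib.Helper6.oa_comp_eq hpa).symm.trans
        (Cfsg.Agent.Lib.Helper6.oa_comp_eq hpb))

end Cfsg.Agent.S5045
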