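import Cfsg.Statements.S5061
import Cfsg.Agent.Lib.Helper6.Unip4

set_option autoImplicit false
open Cfsg

namespace Cfsg.Agent.S5061

/-- Let M be a finite-dimensional vector space over a field k, G ≤ GL(M), and 𝒲 a set of subgroups of G, invariant under conjugation by G, such that any two members of 𝒲 generate a subgroup acting unipotently on M (for some n all products of n endomorphisms g − 1 from it vanish). Then the subgroup generated by all members of 𝒲 acts unipotently on M and is normal in G. -/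
theorem result {k : Type*} [Field k] {M : Type*} [AddCommGroup M] [Module k M] [FiniteDimensional k M]
    {G : Subgroup (LinearMap.GeneralLinearGroup k M)} {W : Set (Subgroup (LinearMap.GeneralLinearGroup k M))} (hWG : ∀ A ∈ W, A ≤ G)
    (hWW : ∀ A ∈ W, ∀ B ∈ W, Cfsg.IsUnipotentOn (A ⊔ B)) (hWconj : ∀ A ∈ W, ∀ g ∈ G, Cfsg.conjBy A g ∈ W) :
    Cfsg.IsUnipotentOn (⨆ A ∈ W, A) ∧ ∀ g ∈ G, Cfsg.conjBy (⨆ A ∈ W, A) g = ⨆ A ∈ W, A := by
  refine ⟨Cfsg.Agent.Lib.Helper6.unip_main hWG hWW hWconj, fun g hg => ?_⟩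
  apply le_antisymm
  · show Subgroup.map _ _ ≤ _
    simp only [Subgroup.map_iSup]
    exact iSup₂_le fun X hX => Cfsg.Agent.Lib.Helper6.le_biSup' (hWconj X hX g hg)
  · apply iSup₂_le
    intro X hX
    have h1 : Cfsg.conjBy X g⁻¹ ∈ W := hWconj X hX g⁻¹ (inv_mem hg)
    have h2 : X = Cfsg.conjBy (Cfsg.conjBy X g⁻¹) g := by
      rw [Cfsg.Agent.Lib.Helper6.cb_cb, mul_inv_cancel, Cfsg.Agent.Lib.Helper6.cb_one]
    rw [h2]
    exact Subgroup.map_mono (Cfsg.Agent.Lib.Helper6.le_biSup' h1)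

end Cfsg.Agent.S5061
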