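import Cfsg.Statements.S5077
import Mathlib
import Cfsg.Agent.Lib.Helper1.FusSat2

set_option autoImplicit false
open Cfsg

namespace Cfsg.Agent.S5077

open Cfsg.Agent.Lib.Helper1

/-- A fusion system over a finite p-group S is saturated if and only if (Sylow axiom) every fully normalized subgroup is fully centralized and fully automized, and (extension axiom) every fully centralized subgroup is receptive. -/
theorem result {Ω : Type*} [Group Ω] {S : Subgroup Ω} [Finite S] (p : ℕ) [Fact p.Prime] (hS : IsPGroup p S) (F : Cfsg.FusionSystem S) : F.IsSaturated p ↔ ((∀ P : Subgroup Ω, F.IsFullyNormalized P → F.IsFullyCentralized P ∧ F.IsFullyAutomized p P) ∧ (∀ P : Subgroup Ω, F.IsFullyCentralized P → F.IsReceptive P)) := by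
  constructor
  · intro hsat
    exact ⟨fun P hP => ⟨fs_fullyCentralized_of_fullyNormalized p hS F hsat P hP,
      fs_fullyAutomized_of_fullyNormalized p hS F hsat P hP⟩,
      fun P hP => fs_receptive_of_fullyCentralized p hS F hsat P hP⟩
  · rintro ⟨hSyl, hExt⟩ P hP
    have hfin : {Q : Subgroup Ω | F.IsConj P Q}.Finite :=
      fs_finite_le.subset (fun Q hQ => (fs_isConj_le F hQ).2)
    have hne : {Q : Subgroup Ω | F.IsConj P Q}.Nonempty := ⟨P, fs_isConj_refl F hP⟩
    obtain ⟨Q, hQ, hmax⟩ := Set.exists_max_image _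
      (fun Q => Nat.card (Cfsg.FusionSystem.normalizerIn S Q)) hfin hne
    have hQfn : F.IsFullyNormalized Q :=
      ⟨(fs_isConj_le F hQ).2, fun Q' hQ' => hmax Q' (fs_isConj_trans F hQ hQ')⟩
    obtain ⟨hfc, hfa⟩ := hSyl Q hQfn
    exact ⟨Q, hQ, hfa, hExt Q hfc⟩

end Cfsg.Agent.S5077
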