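import Cfsg.Statements.S5085
import Mathlib
import Cfsg.Agent.Lib.Helper1.FusBasic

set_option autoImplicit false
open Cfsg

namespace Cfsg.Agent.S5085

open Cfsg.Agent.Lib.Helper1

/-- In any fusion system, a characteristic subgroup of a subgroup that is normal in the system is itself normal in the system. -/
theorem result {Ω : Type*} [Group Ω] {S : Subgroup Ω} (F : Cfsg.FusionSystem S) (Q U : Subgroup Ω) (hQ : F.IsNormal Q) (hUQ : U ≤ Q) (hU : (U.subgroupOf Q).Characteristic) : F.IsNormal U := by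
  refine ⟨hUQ.trans hQ.1, ?_⟩
  intro P φ hφ
  obtain ⟨ψ, hψ, hψP, hψQ⟩ := hQ.2 P φ hφ
  have hle : P ⊔ U ≤ P ⊔ Q := sup_le_sup_left hUQ P
  have hinj := F.injective_of_mem hψ
  -- the automorphism of Q induced by ψ
  have hQmem : ∀ q : Q, ψ (Subgroup.inclusion le_sup_right q) ∈ Q := by
    intro q
    exact hψQ.le ⟨Subgroup.inclusion le_sup_right q, Subgroup.mem_subgroupOf.mpr q.2, rfl⟩
  let β : Q →* Q := (ψ.comp (Subgroup.inclusion le_sup_right)).codRestrict Q hQmem
  have hβinj : Function.Injective β := by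
    intro a b hab
    have h1 : ψ (Subgroup.inclusion le_sup_right a) = ψ (Subgroup.inclusion le_sup_right b) :=
      congrArg Subtype.val hab
    exact Subgroup.inclusion_injective _ (hinj h1)
  have hβsurj : Function.Surjective β := by
    intro q
    have hq : (q : Ω) ∈ (Q.subgroupOf (P ⊔ Q)).map ψ := by rw [hψQ]; exact q.2
    obtain ⟨z, hz, hzq⟩ := hq
    refine ⟨⟨(z : Ω), Subgroup.mem_subgroupOf.mp hz⟩, Subtype.ext ?_⟩
    rw [← hzq]
    rfl
  let α : Q ≃* Q := MulEquiv.ofBijective β ⟨hβinj, hβsurj⟩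
  have hchar := (Subgroup.characteristic_iff_map_eq.mp hU) α
  refine ⟨ψ.comp (Subgroup.inclusion hle), fs_restrict F hle hψ, ?_, ?_⟩
  · intro x
    rw [← hψP x]
    rfl
  · ext y
    constructor
    · rintro ⟨z, hz, rfl⟩
      have hzU : (z : Ω) ∈ U := Subgroup.mem_subgroupOf.mp hz
      have h1 : α ⟨(z : Ω), hUQ hzU⟩ ∈ U.subgroupOf Q := by
        rw [← hchar]
        exact ⟨_, Subgroup.mem_subgroupOf.mpr hzU, rfl⟩
      exact Subgroup.mem_subgroupOf.mp h1
    · intro hy
      have h1 : (⟨y, hUQ hy⟩ : Q) ∈ (U.subgroupOf Q).map α.toMonoidHom := by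
        rw [hchar]; exact Subgroup.mem_subgroupOf.mpr hy
      obtain ⟨u, hu, huy⟩ := h1
      have huU : (u : Ω) ∈ U := Subgroup.mem_subgroupOf.mp hu
      refine ⟨⟨(u : Ω), Subgroup.mem_sup_right huU⟩, Subgroup.mem_subgroupOf.mpr huU, ?_⟩
      exact congrArg Subtype.val huy

end Cfsg.Agent.S5085
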