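import Cfsg.Statements.S5092
import Mathlib
import Cfsg.Agent.Lib.Helper1.FusFoc

set_option autoImplicit false
open Cfsg

open Cfsg.Agent.Lib.Helper1
open scoped commutatorElement

namespace Cfsg.Agent.S5092

/-- For a saturated fusion system over a finite p-group S, the focal subgroup is the product of the hyperfocal subgroup and the derived subgroup of S. -/
theorem result {Ω : Type*} [Group Ω] {S : Subgroup Ω} [Finite S] (p : ℕ) [Fact p.Prime] (hS : IsPGroup p S) (F : Cfsg.FusionSystem S) (hF : F.IsSaturated p) : F.focalSubgroup = F.hyperfocalSubgroup p ⊔ ⁅(S : Subgroup Ω), (S : Subgroup Ω)⁆ := by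
  apply le_antisymm
  · have hE : ∀ P : Subgroup Ω, (P = S ∨ F.IsEssential p P) → F.autGroup P ≤
        (fs_focSys F (F.hyperfocalSubgroup p ⊔ ⁅(S : Subgroup Ω), (S : Subgroup Ω)⁆)
          le_sup_right).autGroup P := by
      intro P hP α hα
      have hPa := fs_fullyAutomized_of_top_or_essential p hS F hF P hP
      have hPS := hPa.1
      rw [fs_mem_autGroup_iff _ hPS]
      refine ⟨(fs_mem_autGroup_iff F hPS α).mp hα, fun x => ?_⟩
      obtain ⟨r, hr, g, hgS, hgN, rfl⟩ := fs_aut_decomp p F P hPa α hα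
      have e : (x : Ω)⁻¹ * (P.subtype.comp ((r : MulAut P) *
          P.normalizerMonoidHom ⟨g, hgN⟩).toMonoidHom) x =
          ((x : Ω)⁻¹ * (g * x * g⁻¹)) *
          (((P.normalizerMonoidHom ⟨g, hgN⟩ x : P) : Ω)⁻¹ *
            (((r : MulAut P) (P.normalizerMonoidHom ⟨g, hgN⟩ x) : P) : Ω)) := by
        show (x : Ω)⁻¹ * (((r : MulAut P) (P.normalizerMonoidHom ⟨g, hgN⟩ x) : P) : Ω) =
          ((x : Ω)⁻¹ * (g * x * g⁻¹)) * ((g * (x : Ω) * g⁻¹)⁻¹ *
            (((r : MulAut P) (P.normalizerMonoidHom ⟨g, hgN⟩ x) : P) : Ω))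
        group
      rw [e]
      apply Subgroup.mul_mem
      · apply Subgroup.mem_sup_right
        have h := Subgroup.commutator_mem_commutator (S.inv_mem (hPS x.2)) hgS
        have e2 : (x : Ω)⁻¹ * (g * x * g⁻¹) = ⁅(x : Ω)⁻¹, g⁆ := by
          rw [commutatorElement_def]; group
        rw [e2]; exact h
      · apply Subgroup.mem_sup_left
        apply Subgroup.subset_closure
        exact ⟨P, r, P.normalizerMonoidHom ⟨g, hgN⟩ x, hPS, hr, rfl⟩
    conv_lhs => unfold Cfsg.FusionSystem.focalSubgroup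
    rw [Subgroup.closure_le]
    rintro y ⟨P, φ, x, hφ, rfl⟩
    exact (fs_alperin p hS F hF _ hE P φ hφ).2 x
  · apply sup_le
    · conv_lhs => unfold Cfsg.FusionSystem.hyperfocalSubgroup
      rw [Subgroup.closure_le]
      rintro y ⟨P, α, x, hPS, hα, rfl⟩
      apply Subgroup.subset_closure
      exact ⟨P, P.subtype.comp (α : MulAut P).toMonoidHom, x,
        (fs_mem_autGroup_iff F hPS _).mp α.2, rfl⟩
    · rw [Subgroup.commutator_le]
      intro a ha b hb
      apply Subgroup.subset_closure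
      refine ⟨S, Cfsg.conjHom S b, ⟨a⁻¹, S.inv_mem ha⟩, F.conj_mem le_rfl hb, ?_⟩
      show ⁅a, b⁆ = (a⁻¹)⁻¹ * (b * a⁻¹ * b⁻¹)
      rw [commutatorElement_def]; group

end Cfsg.Agent.S5092
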