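import Cfsg.Statements.S5101
import Mathlib
import Cfsg.Agent.Lib.Helper1.FusGrp

set_option autoImplicit false
open Cfsg

namespace Cfsg.Agent.S5101

/-- In the fusion system of a finite group G on a Sylow p-subgroup S, a subgroup P ≤ S is fully centralized if and only if C_S(P) is a Sylow p-subgroup of C_G(P). -/
theorem result {G : Type*} [Group G] [Finite G] (p : ℕ) [Fact p.Prime] (S : Sylow p G) (P : Subgroup G) (hP : P ≤ S) : (Cfsg.groupFusionSystem (S : Subgroup G)).IsFullyCentralized P ↔ ∃ R : Sylow p ↥(Subgroup.centralizer (P : Set G)), (R : Subgroup ↥(Subgroup.centralizer (P : Set G))) = (Cfsg.FusionSystem.centralizerIn (S : Subgroup G) P).subgroupOf (Subgroup.centralizer (P : Set G)) := by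
  have hSp : IsPGroup p (S : Subgroup G) := S.isPGroup'
  have hiff := Cfsg.Agent.Lib.Helper1.fg_syl_iff p (S : Subgroup G)
    (Subgroup.centralizer (P : Set G)) hSp
  constructor
  · rintro ⟨-, hfn⟩
    apply hiff.mpr
    obtain ⟨k, hkS, hidx⟩ := Cfsg.Agent.S5076.exists_conj_sylow_normalizer p S P hP
    have hidxC := Cfsg.Agent.Lib.Helper1.fg_sylC_of_sylN p (S : Subgroup G) _ hSp hidx
    have hconj : (Cfsg.groupFusionSystem (S : Subgroup G)).IsConj P
        (P.map (MulAut.conj k).toMonoidHom) := by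
      refine ⟨Cfsg.conjHom P k, ⟨hP, fun x => hkS ⟨x, x.2, rfl⟩, k, fun x => rfl⟩, ?_⟩
      ext y
      constructor
      · rintro ⟨x, rfl⟩
        exact ⟨x, x.2, rfl⟩
      · rintro ⟨x, hx, rfl⟩
        exact ⟨⟨x, hx⟩, rfl⟩
    have hle := hfn _ hconj
    exact Cfsg.Agent.Lib.Helper1.fg_syl_of_card_le p (S : Subgroup G)
      (Subgroup.centralizer (P : Set G))
      (Subgroup.centralizer ((P.map (MulAut.conj k).toMonoidHom : Subgroup G) : Set G)) hSp
      (Cfsg.Agent.Lib.Helper1.fg_card_centralizer_conj P k).symm hidxC hle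
  · intro h
    have hidx := hiff.mp h
    refine ⟨hP, ?_⟩
    rintro Q ⟨φ, ⟨-, hφS, g, hg⟩, rfl⟩
    have hrange : φ.range = P.map (MulAut.conj g).toMonoidHom := by
      ext y
      constructor
      · rintro ⟨x, rfl⟩
        exact ⟨x, x.2, (hg x).symm⟩
      · rintro ⟨x, hx, rfl⟩
        exact ⟨⟨x, hx⟩, hg ⟨x, hx⟩⟩
    rw [hrange]
    exact Cfsg.Agent.Lib.Helper1.fg_card_le p (S : Subgroup G)
      (Subgroup.centralizer (P : Set G))
      (Subgroup.centralizer ((P.map (MulAut.conj g).toMonoidHom : Subgroup G) : Set G)) hSp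
      (Cfsg.Agent.Lib.Helper1.fg_card_centralizer_conj P g).symm hidx

end Cfsg.Agent.S5101
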