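import Cfsg.Statements.S5102
import Mathlib

set_option autoImplicit false
open Cfsg

namespace Cfsg.Agent.S5102

/-- A normal p-subgroup of a finite group G is normal in the fusion system of G on a Sylow p-subgroup. -/
theorem result {G : Type*} [Group G] [Finite G] (p : ℕ) [Fact p.Prime] (S : Sylow p G) (R : Subgroup G) [R.Normal] (hR : IsPGroup p R) : (Cfsg.groupFusionSystem (S : Subgroup G)).IsNormal R := by
  have hRS : R ≤ (S : Subgroup G) := hR.le_sylow_of_normal S
  have hRn : R.Normal := inferInstance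
  refine ⟨hRS, ?_⟩
  rintro P φ ⟨hPS, hφS, g, hg⟩
  have hsub : P ⊔ R ≤ (S : Subgroup G).comap (MulAut.conj g).toMonoidHom := by
    apply sup_le
    · intro y hy
      show g * y * g⁻¹ ∈ (S : Subgroup G)
      have := hφS ⟨y, hy⟩
      rwa [hg] at this
    · intro y hy
      exact hRS (hRn.conj_mem y hy g)
  have hconj' : ∀ y ∈ R, g⁻¹ * y * g ∈ R := by
    intro y hy
    have := hRn.conj_mem y hy g⁻¹
    rwa [inv_inv] at this
  refine ⟨Cfsg.conjHom (P ⊔ R) g, ⟨sup_le hPS hRS, fun x => hsub x.2, g, fun x => rfl⟩, ?_, ?_⟩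
  · intro x
    show g * (x : G) * g⁻¹ = φ x
    rw [hg]
  · ext y
    constructor
    · rintro ⟨⟨x, hx⟩, hxR, rfl⟩
      exact hRn.conj_mem x (Subgroup.mem_subgroupOf.mp hxR) g
    · intro hy
      refine ⟨⟨g⁻¹ * y * g, (le_sup_right : R ≤ P ⊔ R) (hconj' y hy)⟩,
        Subgroup.mem_subgroupOf.mpr (hconj' y hy), ?_⟩
      show g * (g⁻¹ * y * g) * g⁻¹ = y
      group

end Cfsg.Agent.S5102
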