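import Cfsg.Statements.S5107
import Mathlib
import Cfsg.Agent.Lib.Helper1.StrClosed2

set_option autoImplicit false
open Cfsg

namespace Cfsg.Agent.S5107

/-- If a Sylow p-subgroup S of a finite group G has nilpotency class at most two and its centre is strongly closed in S with respect to G, then every map of the fusion system of G on S is conjugation by an element of N_G(S), and S is the largest subgroup normal in that fusion system. -/
theorem result {G : Type*} [Group G] [Finite G] (p : ℕ) [Fact p.Prime] (S : Sylow p G) (hcl : ⁅(S : Subgroup G), (S : Subgroup G)⁆ ≤ (S : Subgroup G) ⊓ Subgroup.centralizer ((S : Subgroup G) : Set G)) (hZ : Cfsg.IsStronglyClosed ((S : Subgroup G) ⊓ Subgroup.centralizer ((S : Subgroup G) : Set G)) (S : Subgroup G)) : (∀ (P : Subgroup G) (φ : P →* G), φ ∈ (Cfsg.groupFusionSystem (S : Subgroup G)).Hom P → ∃ g ∈ Subgroup.normalizer ((S : Subgroup G) : Set G), ∀ x : P, φ x = g * (x : G) * g⁻¹) ∧ (Cfsg.groupFusionSystem (S : Subgroup G)).core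 = S := by
  classical
  have key : ∀ (P : Subgroup G) (φ : P →* G), φ ∈ (Cfsg.groupFusionSystem (S : Subgroup G)).Hom P →
      ∃ g ∈ Subgroup.normalizer ((S : Subgroup G) : Set G), ∀ x : P, φ x = g * (x : G) * g⁻¹ := by
    rintro P φ ⟨hP, hφS, g, hg⟩
    obtain ⟨x, hx, h⟩ := Cfsg.Agent.Lib.Helper1.sc_class_two S hcl hZ (P : Set G) hP g (by
      rintro _ ⟨a, ha, rfl⟩
      have := hφS ⟨a, ha⟩
      rw [hg] at this
      exact this)
    exact ⟨x, hx, fun a => by rw [hg]; exact h a a.2⟩
  refine ⟨key, ?_⟩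
  apply le_antisymm
  · apply sSup_le
    intro Q hQ
    exact hQ.1
  · apply le_sSup
    refine ⟨le_rfl, fun P φ hφ => ?_⟩
    obtain ⟨g, hgS, hg⟩ := key P φ hφ
    have hPS : P ≤ (S : Subgroup G) := hφ.1
    have hle : P ⊔ (S : Subgroup G) ≤ (S : Subgroup G) := sup_le hPS le_rfl
    refine ⟨Cfsg.conjHom (P ⊔ (S : Subgroup G)) g, ⟨hle, fun x => ?_, g, fun x => rfl⟩,
      fun x => (hg x).symm, ?_⟩
    · exact Cfsg.Agent.Lib.Helper7.conj_mem_of_mem_normalizer hgS (hle x.2)
    · ext y
      constructor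
      · rintro ⟨x, hx, rfl⟩
        exact Cfsg.Agent.Lib.Helper7.conj_mem_of_mem_normalizer hgS (hle x.2)
      · intro hy
        have h1 : g⁻¹ * y * g ∈ (S : Subgroup G) :=
          Cfsg.Agent.Lib.Helper7.conj_mem_of_mem_normalizer' hgS hy
        refine ⟨⟨g⁻¹ * y * g, le_sup_right (a := P) h1⟩, Subgroup.mem_subgroupOf.mpr h1, ?_⟩
        show g * (g⁻¹ * y * g) * g⁻¹ = y
        group

end Cfsg.Agent.S5107
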