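import Cfsg.Statements.S5112
import Mathlib
import Cfsg.Agent.Lib.Helper1.FusSat2
import Cfsg.Agent.Lib.Helper1.DihQuatAut
import Cfsg.Agent.S5080

set_option autoImplicit false
open Cfsg

namespace Cfsg.Agent.S5112

open Cfsg.Agent.Lib.Helper1

/-- If S is a dihedral or generalized quaternion 2-group of order at least 16, then in every saturated fusion system over S (at the prime 2) the automorphism group Aut_F(S) consists of the inner automorphisms of S. -/
theorem result {Ω : Type*} [Group Ω] {S : Subgroup Ω} [Finite S] (n : ℕ) (hn : 4 ≤ n) (hshape : Nonempty (S ≃* DihedralGroup (2 ^ (n - 1))) ∨ Nonempty (S ≃* QuaternionGroup (2 ^ (n - 2)))) (F : Cfsg.FusionSystem S) (hF : F.IsSaturated 2) : F.autGroup S = Cfsg.Inn S := by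
  have hAut : IsPGroup 2 (MulAut S) := by
    rcases hshape with h | h
    · obtain ⟨e⟩ := h
      exact (dih_aut_isPGroup n hn).of_equiv (MulAut.congr e).symm
    · obtain ⟨e⟩ := h
      exact (quat_aut_isPGroup n hn).of_equiv (MulAut.congr e).symm
  have hS2 : IsPGroup 2 S := by
    rcases hshape with h | h
    · obtain ⟨e⟩ := h
      have hcard : Nat.card (DihedralGroup (2 ^ (n - 1))) = 2 ^ n := by
        rw [DihedralGroup.nat_card, ← pow_succ']
        congr 1; omega
      exact (IsPGroup.of_card hcard).of_equiv e.symm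
    · obtain ⟨e⟩ := h
      haveI : NeZero (2 ^ (n - 2)) := ⟨by positivity⟩
      have hcard : Nat.card (QuaternionGroup (2 ^ (n - 2))) = 2 ^ n := by
        rw [Nat.card_eq_fintype_card, QuaternionGroup.card]
        have : n = (n - 2) + 2 := by omega
        conv_rhs => rw [this, pow_add]
        ring
      exact (IsPGroup.of_card hcard).of_equiv e.symm
  have hfn : F.IsFullyNormalized S := by
    refine ⟨le_rfl, fun Q _ => ?_⟩
    have e : Cfsg.FusionSystem.normalizerIn S S = S := inf_eq_left.mpr Subgroup.le_normalizer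
    rw [e]
    exact Subgroup.card_le_of_le inf_le_left
  obtain ⟨-, R, hR⟩ := fs_fullyAutomized_of_fullyNormalized 2 hS2 F hF S hfn
  have hA2 : IsPGroup 2 ↥(F.autGroup S) := hAut.to_subgroup _
  haveI : Finite ↥(F.autGroup S) := inferInstance
  have hRtop : (R : Subgroup ↥(F.autGroup S)) = ⊤ := by
    rw [← Subgroup.index_eq_one]
    obtain ⟨k, hk⟩ := IsPGroup.iff_card.mp hA2
    have h1 : (R : Subgroup ↥(F.autGroup S)).index ∣ 2 ^ k := by
      rw [← hk]; exact Subgroup.index_dvd_card _
    obtain ⟨j, -, hj⟩ := (Nat.dvd_prime_pow Nat.prime_two).mp h1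
    rcases Nat.eq_zero_or_pos j with h0 | hpos
    · rw [hj, h0, pow_zero]
    · exfalso
      apply R.not_dvd_index
      rw [hj]
      exact dvd_pow_self 2 (by omega)
  apply le_antisymm
  · intro α hα
    have h1 : (⟨α, hα⟩ : ↥(F.autGroup S)) ∈ (R : Subgroup ↥(F.autGroup S)) := by
      rw [hRtop]; exact Subgroup.mem_top _
    rw [hR, Subgroup.mem_subgroupOf] at h1
    have hle : Cfsg.autInducedBy S S ≤ Cfsg.Inn S := by
      unfold Cfsg.autInducedBy
      rw [Subgroup.closure_le]
      rintro β ⟨g, hg, hβ⟩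
      refine ⟨⟨g, hg⟩, ?_⟩
      ext x
      rw [hβ x]
      rfl
    exact hle h1
  · exact Cfsg.Agent.S5080.inn_le_autGroup F le_rfl

end Cfsg.Agent.S5112
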