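import Cfsg.Statements.S5114
import Mathlib
import Cfsg.Agent.Lib.Helper1.FusInv
import Cfsg.Agent.Lib.Helper1.FusFrat
import Cfsg.Agent.Lib.Helper1.FusQuot
import Cfsg.Agent.Lib.Helper1.FusSatCrit
import Cfsg.Agent.Lib.Helper1.FusCentric2

set_option autoImplicit false
open Cfsg

open Cfsg.Agent.Lib.Helper1 Cfsg.FusionSystem

namespace Cfsg.Agent.S5114

/-- criterion for an automorphism to lie in the invariant core -/
theorem congr_mem_invCore {Ω : Type*} [Group Ω] {S : Subgroup Ω}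
    (F : Cfsg.FusionSystem S) {T : Subgroup Ω} (E : Cfsg.FusionSystem T)
    (P : Subgroup Ω) (hPT : P ≤ T) (γ : MulAut P) (hγE : γ ∈ E.autGroup P)
    (hall : ∀ α ∈ F.autGroup T,
      ∀ (e : P ≃* ↥((P.subgroupOf T).map (T.subtype.comp α.toMonoidHom))),
        (∀ x : P, ((e x : ↥((P.subgroupOf T).map (T.subtype.comp α.toMonoidHom))) : Ω) =
          ((α ⟨x, hPT x.2⟩ : T) : Ω)) →
        MulAut.congr e γ ∈ E.autGroup ((P.subgroupOf T).map (T.subtype.comp α.toMonoidHom))) :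
    γ ∈ (invCore F E).autGroup P := by
  apply (fs_mem_autGroup_iff (invCore F E) hPT _).mpr
  refine ⟨(fs_mem_autGroup_iff E hPT _).mp hγE, fun α hα => ?_⟩
  have hinj : Function.Injective (T.subtype.comp α.toMonoidHom) :=
    fun a b hab => α.injective (Subtype.ext hab)
  have he : ∀ x : P, (((((Subgroup.subgroupOfEquivOfLe hPT).symm.trans
      ((P.subgroupOf T).equivMapOfInjective _ hinj)) x :
        ↥((P.subgroupOf T).map (T.subtype.comp α.toMonoidHom))) : Ω)) =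
      ((α ⟨x, hPT x.2⟩ : T) : Ω) := fun x => rfl
  have himgT := img_le α P
  have hγ'E := hall α hα _ he
  refine ⟨_, (fs_mem_autGroup_iff E himgT _).mp hγ'E, ?_⟩
  intro x hx hφx hαx
  have e1 : (⟨((α ⟨x, hx⟩ : T) : Ω), hαx⟩ :
      ↥((P.subgroupOf T).map (T.subtype.comp α.toMonoidHom))) =
      ((Subgroup.subgroupOfEquivOfLe hPT).symm.trans
        ((P.subgroupOf T).equivMapOfInjective _ hinj)) x := Subtype.ext rfl
  show ((((Subgroup.subgroupOfEquivOfLe hPT).symm.trans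
      ((P.subgroupOf T).equivMapOfInjective _ hinj)) (γ
        (((Subgroup.subgroupOfEquivOfLe hPT).symm.trans
          ((P.subgroupOf T).equivMapOfInjective _ hinj)).symm
            ⟨((α ⟨x, hx⟩ : T) : Ω), hαx⟩)) : _) : Ω) = _
  rw [e1, MulEquiv.symm_apply_apply]
  rfl

theorem pclosure_normal (A : Type*) [Group A] (p : ℕ) :
    (Subgroup.closure {α : A | ∃ k : ℕ, orderOf α = p ^ k}).Normal := by
  constructor
  intro n hn g
  induction hn using Subgroup.closure_induction with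
  | mem x hx =>
    apply Subgroup.subset_closure
    obtain ⟨k, hk⟩ := hx
    have h1 : orderOf (g * x * g⁻¹) = orderOf x := (MulAut.conj g).orderOf_eq x
    exact ⟨k, h1.trans hk⟩
  | one => simp
  | mul a b _ _ iha ihb =>
    have : g * (a * b) * g⁻¹ = (g * a * g⁻¹) * (g * b * g⁻¹) := by group
    rw [this]
    exact mul_mem iha ihb
  | inv a _ iha =>
    have : g * a⁻¹ * g⁻¹ = (g * a * g⁻¹)⁻¹ := by group
    rw [this]
    exact inv_mem iha

/-- Let F be a saturated fusion system over a finite p-group S and E a fusion system over S contained in F. If Aut_E(P) contains the subgroup of Aut_F(P) generated by its elements of p-power order for every subgroup P that is centric in F, then the same holds for every subgroup of S (E has index prime to p in F), every map of F with source a subgroup P of S is an element of Aut_F(S) composed with a map of E, and a subgroup is centric in E exactly when it is centric in F. -/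
theorem result {Ω : Type*} [Group Ω] {S : Subgroup Ω} [Finite S] (p : ℕ) [Fact p.Prime] (hS : IsPGroup p S) (F : Cfsg.FusionSystem S) (hF : F.IsSaturated p) (E : Cfsg.FusionSystem S) (hEF : E.IsSubsystemOf F) (h : ∀ P : Subgroup Ω, F.IsCentric P → (Subgroup.closure {α : ↥(F.autGroup P) | ∃ k : ℕ, orderOf α = p ^ k}).map (F.autGroup P).subtype ≤ E.autGroup P) : E.HasPrimeToPIndexIn F p ∧ (∀ (P : Subgroup Ω) (φ : P →* Ω), φ ∈ F.Hom P → ∃ α ∈ F.autGroup S, ∃ φ₀ ∈ E.Hom P, ∀ (x : P) (hx : φ₀ x ∈ S), φ x = ((α ⟨φ₀ x, hx⟩ : S) : Ω)) ∧ ∀ P : Subgroup Ω, E.IsCentric P ↔ F.IsCentric P := by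
  have hp : p.Prime := Fact.out
  -- `p`-elements of `Aut_F(P)`, `P` centric, lie in the invariant core
  have h₀ : ∀ P : Subgroup Ω, F.IsCentric P → ∀ γ : MulAut P, γ ∈ F.autGroup P →
      ∀ k : ℕ, γ ^ (p ^ k) = 1 → γ ∈ (invCore F E).autGroup P := by
    intro P hP γ hγ k hk
    have hPS := hP.1
    obtain ⟨m, -, hm⟩ := (Nat.dvd_prime_pow hp).mp (orderOf_dvd_of_pow_eq_one hk)
    have hγE : γ ∈ E.autGroup P := by
      apply h P hP
      refine ⟨⟨γ, hγ⟩, Subgroup.subset_closure ⟨m, ?_⟩, rfl⟩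
      rw [Subgroup.orderOf_mk]; exact hm
    apply congr_mem_invCore F E P hPS γ hγE
    intro α hα e he
    have hαF := (fs_mem_autGroup_iff F le_rfl α).mp hα
    have hψ : (S.subtype.comp α.toMonoidHom).comp (Subgroup.inclusion hPS) ∈ F.Hom P :=
      fs_restrict F hPS hαF
    have himgS := img_le α P
    have hγ'F := fs_autGroup_congr F hPS himgS _ hψ e he γ hγ
    have hconj : F.IsConj P ((P.subgroupOf S).map (S.subtype.comp α.toMonoidHom)) := by
      refine ⟨_, hψ, ?_⟩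
      ext y
      constructor
      · rintro ⟨x, rfl⟩
        exact mem_img α P x (hPS x.2) x.2
      · rintro ⟨t, ht, rfl⟩
        exact ⟨⟨t, Subgroup.mem_subgroupOf.mp ht⟩, rfl⟩
    have hcen := fs_centric_of_isConj F hP hconj
    apply h _ hcen
    refine ⟨⟨_, hγ'F⟩, Subgroup.subset_closure ⟨m, ?_⟩, rfl⟩
    rw [Subgroup.orderOf_mk, MulEquiv.orderOf_eq]; exact hm
  have hinv := invCore_conjInv F E
  -- Frattini property
  have hall := fs_alperin_ind p hS F hF (fratProd F (invCore F E) hinv) (by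
    intro P hP ih α hα
    by_cases hPeq : P = S
    · subst hPeq
      apply (fs_mem_autGroup_iff _ le_rfl _).mpr
      exact aut_mem_fratProd F (invCore F E) hinv α hα _ le_rfl _ (fun x => rfl)
    · rcases hP with hP | hess
      · exact absurd hP hPeq
      · obtain ⟨hcen, hfn, -⟩ := hess
        have hPS := hcen.1
        obtain ⟨n, hnS, hnN, hnP⟩ := fs_normalizer_growth hS hPS hPeq
        haveI := pclosure_normal ↥(F.autGroup P) p
        have hnK : ∀ hh : P.normalizerMonoidHom ⟨n, hnN⟩ ∈ F.autGroup P,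
            (⟨_, hh⟩ : ↥(F.autGroup P)) ∈
              Subgroup.closure {α : ↥(F.autGroup P) | ∃ k : ℕ, orderOf α = p ^ k} := by
          intro hh
          apply Subgroup.subset_closure
          obtain ⟨j, hj⟩ := hS ⟨n, hnS⟩
          have hj' : n ^ (p ^ j) = 1 := congrArg Subtype.val hj
          have h1 : (P.normalizerMonoidHom ⟨n, hnN⟩) ^ (p ^ j) = 1 := by
            rw [← map_pow]
            have : (⟨n, hnN⟩ : ↥(Subgroup.normalizer (P : Set Ω))) ^ (p ^ j) = 1 :=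
              Subtype.ext hj'
            rw [this, map_one]
          obtain ⟨m, -, hm⟩ := (Nat.dvd_prime_pow hp).mp (orderOf_dvd_of_pow_eq_one h1)
          exact ⟨m, by rw [Subgroup.orderOf_mk]; exact hm⟩
        obtain ⟨ν, κ, hκ, rfl, Q, hPQ, ψ, hQS, hnQ, hψ, hψv⟩ :=
          fs_frattini_ext p hS F hF P hfn _ n hnS hnN hnK α hα
        apply Subgroup.mul_mem
        · -- ν extends to a larger subgroup
          have hlt : P < Q := lt_of_le_of_ne hPQ (fun e => hnP (e ▸ hnQ))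
          have hψ'' := ih Q hQS (fs_card_lt_of_lt hQS hlt) ψ hψ
          apply (fs_mem_autGroup_iff _ hPS _).mpr
          exact fs_restrict' _ hPQ hψ'' _ (fun x => (hψv x).symm)
        · -- κ lies in the invariant core
          have hK : Subgroup.closure {α : ↥(F.autGroup P) | ∃ k : ℕ, orderOf α = p ^ k} ≤
              ((invCore F E).autGroup P).comap (F.autGroup P).subtype := by
            rw [Subgroup.closure_le]
            rintro δ ⟨k, hk⟩
            apply Subgroup.mem_comap.mpr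
            apply h₀ P hcen (δ : MulAut P) δ.2 k
            have h1 : δ ^ (p ^ k) = 1 := by rw [← hk]; exact pow_orderOf_eq_one δ
            exact congrArg Subtype.val h1
          have h2 : (κ : MulAut P) ∈ (invCore F E).autGroup P := hK hκ
          apply (fs_mem_autGroup_iff _ hPS _).mpr
          apply le_fratProd
          exact (fs_mem_autGroup_iff _ hPS _).mp h2)
  refine ⟨⟨hEF, ?_⟩, ?_, ?_⟩
  · -- index prime to p
    intro P hPS
    rw [Subgroup.map_le_iff_le_comap, Subgroup.closure_le]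
    rintro γ ⟨k, hk⟩
    apply Subgroup.mem_comap.mpr
    show (γ : MulAut P) ∈ E.autGroup P
    have hk' : (γ : MulAut P) ^ (p ^ k) = 1 := by
      have h1 : γ ^ (p ^ k) = 1 := by rw [← hk]; exact pow_orderOf_eq_one γ
      exact congrArg Subtype.val h1
    obtain ⟨Q, ⟨χ, hχ, rfl⟩, hQa, -⟩ := hF P hPS
    obtain ⟨χ₂, hχ₂, -, n, hnS, -, hχ₂v⟩ :=
      fs_pelement_conj p F P hPS χ hχ hQa (γ : MulAut P) γ.2 k hk'
    obtain ⟨-, α, hα, φ₀, hφ₀, hv⟩ := hall P χ₂ hχ₂
    have hφ₀E := invCore_le F E P hφ₀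
    have hφ₀S := (E.le_of_mem hφ₀E).2
    have hkey : ∀ g : P, φ₀ ((γ : MulAut P) g) =
        ((α⁻¹ ⟨n, hnS⟩ : S) : Ω) * φ₀ g * ((α⁻¹ ⟨n, hnS⟩ : S) : Ω)⁻¹ := by
      intro g
      have h1 := hχ₂v g
      rw [hv _ (hφ₀S _), hv g (hφ₀S g)] at h1
      have h2 : α ⟨φ₀ ((γ : MulAut P) g), hφ₀S _⟩ =
          ⟨n, hnS⟩ * α ⟨φ₀ g, hφ₀S g⟩ * ⟨n, hnS⟩⁻¹ := Subtype.ext h1
      have h3 := congrArg (fun w : S => ((α⁻¹ w : S) : Ω)) h2
      simp only [map_mul, map_inv, MulAut.inv_apply_self] at h3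
      exact h3
    have hrS : φ₀.range ≤ S := fs_range_le E hφ₀E
    have hcm := E.conj_mem (P := φ₀.range) (g := ((α⁻¹ ⟨n, hnS⟩ : S) : Ω)) hrS (Subtype.property _)
    obtain ⟨ψ₀, hψ₀, hψ₀v⟩ := E.inv_mem hφ₀E
    have hr : ∀ x : P, φ₀ x ∈ φ₀.range := fun x => ⟨x, rfl⟩
    have h1 := E.comp_mem hφ₀E hcm hr
    have h2 : ∀ x : P, ((Cfsg.conjHom φ₀.range ((α⁻¹ ⟨n, hnS⟩ : S) : Ω)).comp
        (φ₀.codRestrict φ₀.range hr)) x ∈ φ₀.range := by
      intro x
      show ((α⁻¹ ⟨n, hnS⟩ : S) : Ω) * φ₀ x * ((α⁻¹ ⟨n, hnS⟩ : S) : Ω)⁻¹ ∈ φ₀.range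
      rw [← hkey x]
      exact ⟨_, rfl⟩
    apply (fs_mem_autGroup_iff E hPS _).mpr
    refine fs_comp' E h1 hψ₀ h2 _ ?_
    intro x
    have e : (⟨((Cfsg.conjHom φ₀.range ((α⁻¹ ⟨n, hnS⟩ : S) : Ω)).comp
        (φ₀.codRestrict φ₀.range hr)) x, h2 x⟩ : φ₀.range) =
        ⟨φ₀ ((γ : MulAut P) x), ⟨_, rfl⟩⟩ := Subtype.ext (hkey x).symm
    rw [e, hψ₀v]
    rfl
  · -- Frattini
    intro P φ hφ
    obtain ⟨-, α, hα, φ₀, hφ₀, hv⟩ := hall P φ hφ
    exact ⟨α, hα, φ₀, invCore_le F E P hφ₀, hv⟩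
  · -- centric subgroups
    intro P
    constructor
    · intro hP
      refine ⟨hP.1, ?_⟩
      rintro Q ⟨φ, hφ, rfl⟩
      obtain ⟨-, α, hα, φ₀, hφ₀, hv⟩ := hall P φ hφ
      have hφ₀E := invCore_le F E P hφ₀
      have hφ₀S := (E.le_of_mem hφ₀E).2
      have h1 := hP.2 φ₀.range ⟨φ₀, hφ₀E, rfl⟩
      intro c hc
      obtain ⟨hcS, hcC⟩ := hc
      have hc' : ((α⁻¹ ⟨c, hcS⟩ : S) : Ω) ∈ centralizerIn S φ₀.range := by
        refine ⟨Subtype.property _, ?_⟩
        apply Subgroup.mem_centralizer_iff.mpr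
        rintro _ ⟨x, rfl⟩
        have h2 := Subgroup.mem_centralizer_iff.mp hcC (φ x) ⟨x, rfl⟩
        rw [hv x (hφ₀S x)] at h2
        have h3 : α ⟨φ₀ x, hφ₀S x⟩ * ⟨c, hcS⟩ = ⟨c, hcS⟩ * α ⟨φ₀ x, hφ₀S x⟩ := Subtype.ext h2
        have h4 := congrArg (fun w : S => ((α⁻¹ w : S) : Ω)) h3
        simp only [map_mul, MulAut.inv_apply_self] at h4
        exact h4
      obtain ⟨x₀, hx₀⟩ := h1 hc'
      refine ⟨x₀, ?_⟩
      rw [hv x₀ (hφ₀S x₀)]
      have e : (⟨φ₀ x₀, hφ₀S x₀⟩ : S) = α⁻¹ ⟨c, hcS⟩ := Subtype.ext hx₀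
      rw [e, MulAut.apply_inv_self]
    · intro hP
      refine ⟨hP.1, ?_⟩
      rintro Q ⟨φ, hφ, rfl⟩
      exact hP.2 _ ⟨φ, hEF P hφ, rfl⟩

end Cfsg.Agent.S5114
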