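import Cfsg.Statements.S5119
import Mathlib
import Cfsg.Agent.Lib.Helper1.FusAlpRel
import Cfsg.Agent.Lib.Helper1.FusFrat

set_option autoImplicit false
open Cfsg

open Cfsg.Agent.Lib.Helper1

namespace Cfsg.Agent.S5119

/-- the maps of `F` between subgroups of `T` that factor as an element of `Aut_F(T)` after a
map of `E` -/
def frSys {Ω : Type*} [Group Ω] {S : Subgroup Ω} (F : Cfsg.FusionSystem S) {T : Subgroup Ω}
    (E : Cfsg.FusionSystem T) (hT : F.StronglyClosed T)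
    (hSI : ∀ (P Q : Subgroup Ω) (hPQ : P ≤ Q) (_ : Q ≤ T) (φ : P →* Ω) (_ : φ ∈ E.Hom P)
      (hφQ : ∀ x : P, φ x ∈ Q) (ψ : Q →* Ω) (_ : ψ ∈ F.Hom Q),
      ∃ χ ∈ E.Hom ((P.subgroupOf Q).map ψ),
        ∀ (x : P) (hx : ψ (Subgroup.inclusion hPQ x) ∈ (P.subgroupOf Q).map ψ),
          χ ⟨ψ (Subgroup.inclusion hPQ x), hx⟩ = ψ ⟨φ x, hφQ x⟩) :
    Cfsg.FusionSystem T where
  Hom P := {φ | φ ∈ F.Hom P ∧ P ≤ T ∧ ∃ α ∈ F.autGroup T, ∃ φ₀ ∈ E.Hom P,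
    ∀ (x : P) (hx : φ₀ x ∈ T), φ x = ((α ⟨φ₀ x, hx⟩ : T) : Ω)}
  le_of_mem := by
    rintro P φ ⟨hφ, hPT, -⟩
    exact ⟨hPT, fun x => hT.2 P hPT φ hφ x⟩
  injective_of_mem h := F.injective_of_mem h.1
  conj_mem := by
    intro P g hP hg
    exact ⟨F.conj_mem (hP.trans hT.1) (hT.1 hg), hP, 1, Subgroup.one_mem _, Cfsg.conjHom P g,
      E.conj_mem hP hg, fun x hx => rfl⟩
  comp_mem := by
    rintro P Q φ ψ ⟨hφ, hPT, α, hα, φ₀, hφ₀, hφeq⟩ ⟨hψ, hQT, β, hβ, ψ₀, hψ₀, hψeq⟩ h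
    refine ⟨F.comp_mem hφ hψ h, hPT, β * α, Subgroup.mul_mem _ hβ hα, ?_⟩
    have hαi : α⁻¹ ∈ F.autGroup T := Subgroup.inv_mem _ hα
    have hαiF := (fs_mem_autGroup_iff F hT.1 _).mp hαi
    have hψ₀T : ∀ y : Q, ψ₀ y ∈ T := (E.le_of_mem hψ₀).2
    have hφ₀T : ∀ x : P, φ₀ x ∈ T := (E.le_of_mem hφ₀).2
    obtain ⟨χ, hχ, hχeq⟩ := hSI Q T hQT le_rfl ψ₀ hψ₀ hψ₀T _ hαiF
    have hφ₀Q₁ : ∀ x : P, φ₀ x ∈ (Q.subgroupOf T).map (T.subtype.comp (α⁻¹).toMonoidHom) := by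
      intro x
      refine ⟨⟨φ x, hQT (h x)⟩, Subgroup.mem_subgroupOf.mpr (h x), ?_⟩
      show ((α⁻¹ ⟨φ x, hQT (h x)⟩ : T) : Ω) = φ₀ x
      have e : (⟨φ x, hQT (h x)⟩ : T) = α ⟨φ₀ x, hφ₀T x⟩ := Subtype.ext (hφeq x (hφ₀T x))
      rw [e]; simp
    refine ⟨χ.comp (φ₀.codRestrict _ hφ₀Q₁), E.comp_mem hφ₀ hχ hφ₀Q₁, fun x hx => ?_⟩
    show ψ ⟨φ x, h x⟩ = ((β (α ⟨χ ⟨φ₀ x, hφ₀Q₁ x⟩, hx⟩) : T) : Ω)
    have e1 : (⟨φ₀ x, hφ₀Q₁ x⟩ :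
        ↥((Q.subgroupOf T).map (T.subtype.comp (α⁻¹).toMonoidHom))) =
        ⟨(T.subtype.comp (α⁻¹).toMonoidHom) (Subgroup.inclusion hQT ⟨φ x, h x⟩),
          ⟨_, Subgroup.mem_subgroupOf.mpr (h x), rfl⟩⟩ := by
      apply Subtype.ext
      show φ₀ x = ((α⁻¹ ⟨φ x, hQT (h x)⟩ : T) : Ω)
      have e : (⟨φ x, hQT (h x)⟩ : T) = α ⟨φ₀ x, hφ₀T x⟩ := Subtype.ext (hφeq x (hφ₀T x))
      rw [e]; simp
    have h2 := hχeq ⟨φ x, h x⟩ ⟨_, Subgroup.mem_subgroupOf.mpr (h x), rfl⟩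
    have e3 : (⟨χ ⟨φ₀ x, hφ₀Q₁ x⟩, hx⟩ : T) = α⁻¹ ⟨ψ₀ ⟨φ x, h x⟩, hψ₀T _⟩ := by
      apply Subtype.ext
      show χ ⟨φ₀ x, hφ₀Q₁ x⟩ = _
      rw [e1]
      exact h2
    rw [e3, hψeq ⟨φ x, h x⟩ (hψ₀T _)]
    simp
  inv_mem := by
    rintro P φ ⟨hφ, hPT, α, hα, φ₀, hφ₀, hφeq⟩
    obtain ⟨ψ, hψ, hψφ⟩ := F.inv_mem hφ
    have hφ₀T : ∀ x : P, φ₀ x ∈ T := (E.le_of_mem hφ₀).2
    have hrT : φ.range ≤ T := by
      rintro _ ⟨x, rfl⟩; exact hT.2 P hPT φ hφ x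
    obtain ⟨ι, hι, hιφ₀⟩ := E.inv_mem hφ₀
    have hαF := (fs_mem_autGroup_iff F hT.1 _).mp hα
    have hφ₀rT : φ₀.range ≤ T := by
      rintro _ ⟨x, rfl⟩; exact hφ₀T x
    have hιT : ∀ y : φ₀.range, ι y ∈ T := (E.le_of_mem hι).2
    obtain ⟨χ, hχ, hχeq⟩ := hSI φ₀.range T hφ₀rT le_rfl ι hι hιT _ hαF
    have hle : φ.range ≤ (φ₀.range.subgroupOf T).map (T.subtype.comp α.toMonoidHom) := by
      rintro _ ⟨x, rfl⟩
      exact ⟨⟨φ₀ x, hφ₀T x⟩, Subgroup.mem_subgroupOf.mpr ⟨x, rfl⟩, (hφeq x (hφ₀T x)).symm⟩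
    refine ⟨ψ, ⟨hψ, hrT, α⁻¹, Subgroup.inv_mem _ hα, χ.comp (Subgroup.inclusion hle),
      fs_restrict E hle hχ, ?_⟩, hψφ⟩
    rintro ⟨_, x, rfl⟩ hx
    rw [hψφ x]
    have h2 := hχeq ⟨φ₀ x, ⟨x, rfl⟩⟩
      ⟨Subgroup.inclusion hφ₀rT ⟨φ₀ x, ⟨x, rfl⟩⟩, Subgroup.mem_subgroupOf.mpr ⟨x, rfl⟩, rfl⟩
    have e1 : (Subgroup.inclusion hle ⟨φ x, ⟨x, rfl⟩⟩ :
        ↥((φ₀.range.subgroupOf T).map (T.subtype.comp α.toMonoidHom))) =
        ⟨(T.subtype.comp α.toMonoidHom) (Subgroup.inclusion hφ₀rT ⟨φ₀ x, ⟨x, rfl⟩⟩),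
          ⟨Subgroup.inclusion hφ₀rT ⟨φ₀ x, ⟨x, rfl⟩⟩,
            Subgroup.mem_subgroupOf.mpr ⟨x, rfl⟩, rfl⟩⟩ :=
      Subtype.ext (hφeq x (hφ₀T x))
    have e3 : (⟨(χ.comp (Subgroup.inclusion hle)) ⟨φ x, ⟨x, rfl⟩⟩, hx⟩ : T) =
        α ⟨(x : Ω), hPT x.2⟩ := by
      apply Subtype.ext
      show χ (Subgroup.inclusion hle ⟨φ x, ⟨x, rfl⟩⟩) = _
      rw [e1, h2]
      show ((α ⟨ι ⟨φ₀ x, _⟩, _⟩ : T) : Ω) = ((α ⟨(x : Ω), hPT x.2⟩ : T) : Ω)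
      congr 2
      exact Subtype.ext (hιφ₀ x)
    rw [e3]
    simp

/-- Let F be a saturated fusion system over a finite p-group S and E a subsystem of F over a subgroup T that is strongly closed in F. Then E is invariant in F (invariance under Aut_F(T) plus the Frattini condition) if and only if the strong invariance condition holds: for P ≤ Q ≤ T, every map φ of E from P into Q and every map ψ of F with source Q, the transported map ψ φ ψ⁻¹ on ψ(P) is a map of E. -/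
theorem result {Ω : Type*} [Group Ω] {S : Subgroup Ω} [Finite S] (p : ℕ) [Fact p.Prime] (hS : IsPGroup p S) (F : Cfsg.FusionSystem S) (hF : F.IsSaturated p) {T : Subgroup Ω} (E : Cfsg.FusionSystem T) (hE : E.IsSubsystemOf F) (hT : F.StronglyClosed T) : E.IsInvariantIn F ↔ ∀ (P Q : Subgroup Ω) (hPQ : P ≤ Q) (_ : Q ≤ T) (φ : P →* Ω) (_ : φ ∈ E.Hom P) (hφQ : ∀ x : P, φ x ∈ Q) (ψ : Q →* Ω) (_ : ψ ∈ F.Hom Q), ∃ χ ∈ E.Hom ((P.subgroupOf Q).map ψ), ∀ (x : P) (hx : ψ (Subgroup.inclusion hPQ x) ∈ (P.subgroupOf Q).map ψ), χ ⟨ψ (Subgroup.inclusion hPQ x), hx⟩ = ψ ⟨φ x, hφQ x⟩ := by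
  have hTS := hT.1
  haveI : Finite ↥T := fs_finite_of_le hTS
  have hTp : IsPGroup p ↥T := hS.to_le hTS
  constructor
  · rintro ⟨-, -, hinv, hfrat⟩ P Q hPQ hQT φ hφ hφQ ψ hψ
    obtain ⟨α, hα, ψ₀, hψ₀, hψeq⟩ := hfrat Q hQT ψ hψ
    have hψ₀T : ∀ y : Q, ψ₀ y ∈ T := (E.le_of_mem hψ₀).2
    have hψ₀P := fs_restrict E hPQ hψ₀
    obtain ⟨ι, hι, hιψ₀, hιr⟩ := fs_inv E hψ₀P rfl
    have hιP : ∀ y : (ψ₀.comp (Subgroup.inclusion hPQ)).range, ι y ∈ P := fun y =>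
      hιr.le ⟨y, rfl⟩
    have h1 := E.comp_mem hι hφ hιP
    have h1Q : ∀ y : (ψ₀.comp (Subgroup.inclusion hPQ)).range,
        (φ.comp (ι.codRestrict P hιP)) y ∈ Q := fun y => hφQ _
    have hφ₁ := E.comp_mem h1 hψ₀ h1Q
    have hP₁T : (ψ₀.comp (Subgroup.inclusion hPQ)).range ≤ T := by
      rintro _ ⟨x, rfl⟩; exact hψ₀T _
    obtain ⟨χ, hχ, hχeq⟩ := hinv _ hP₁T _ hφ₁ α hα
    have hle : (P.subgroupOf Q).map ψ ≤
        ((ψ₀.comp (Subgroup.inclusion hPQ)).range.subgroupOf T).map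
          (T.subtype.comp α.toMonoidHom) := by
      rintro _ ⟨q, hq, rfl⟩
      refine ⟨⟨ψ₀ q, hψ₀T q⟩, Subgroup.mem_subgroupOf.mpr
        ⟨⟨q, Subgroup.mem_subgroupOf.mp hq⟩, rfl⟩, (hψeq q (hψ₀T q)).symm⟩
    refine ⟨χ.comp (Subgroup.inclusion hle), fs_restrict E hle hχ, fun x hx => ?_⟩
    have h2 := hχeq ⟨ψ₀ (Subgroup.inclusion hPQ x), ⟨x, rfl⟩⟩ (hψ₀T _)
      ⟨⟨ψ₀ (Subgroup.inclusion hPQ x), hψ₀T _⟩, Subgroup.mem_subgroupOf.mpr ⟨x, rfl⟩, rfl⟩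
    have e1 : (Subgroup.inclusion hle ⟨ψ (Subgroup.inclusion hPQ x), hx⟩ :
        ↥(((ψ₀.comp (Subgroup.inclusion hPQ)).range.subgroupOf T).map
          (T.subtype.comp α.toMonoidHom))) =
        ⟨((α ⟨ψ₀ (Subgroup.inclusion hPQ x), hψ₀T _⟩ : T) : Ω),
          ⟨⟨ψ₀ (Subgroup.inclusion hPQ x), hψ₀T _⟩,
            Subgroup.mem_subgroupOf.mpr ⟨x, rfl⟩, rfl⟩⟩ :=
      Subtype.ext (hψeq _ (hψ₀T _))
    show χ (Subgroup.inclusion hle ⟨ψ (Subgroup.inclusion hPQ x), hx⟩) = _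
    rw [e1, h2, hψeq ⟨φ x, hφQ x⟩ (hψ₀T _)]
    show ((α ⟨ψ₀ ⟨φ ⟨ι ⟨ψ₀ (Subgroup.inclusion hPQ x), _⟩, _⟩, _⟩, _⟩ : T) : Ω) = _
    have e4 : (⟨ι ⟨ψ₀ (Subgroup.inclusion hPQ x), ⟨x, rfl⟩⟩, hιP _⟩ : P) = x :=
      Subtype.ext (hιψ₀ x ⟨x, rfl⟩)
    congr 2
    apply Subtype.ext
    show ψ₀ ⟨φ ⟨ι ⟨ψ₀ (Subgroup.inclusion hPQ x), _⟩, _⟩, _⟩ = ψ₀ ⟨φ x, _⟩
    congr 2
    congr 1
  · intro hSI
    refine ⟨hE, hT, ?_, ?_⟩
    · intro P hPT φ hφ α hα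
      have hαF := (fs_mem_autGroup_iff F hTS _).mp hα
      obtain ⟨χ, hχ, hχeq⟩ := hSI P T hPT le_rfl φ hφ (E.le_of_mem hφ).2 _ hαF
      exact ⟨χ, hχ, fun x hφx hαx => hχeq x hαx⟩
    · intro P hPT φ hφ
      have key := fs_alperin_rel p hS F hF T hT (frSys F E hT hSI) ?_ P φ hPT hφ
      · exact key.2.2
      clear hφ φ hPT P
      intro P hPT hfn ih
      have hPS := hPT.trans hTS
      by_cases hPeq : P = T
      · subst hPeq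
        intro α hα
        rw [fs_mem_autGroup_iff _ le_rfl]
        exact ⟨(fs_mem_autGroup_iff F hPS α).mp hα, le_rfl, α, hα, P.subtype,
          fs_subtype_mem E le_rfl, fun x hx => rfl⟩
      · obtain ⟨n, hnT, hnN, hnP⟩ := fs_normalizer_growth hTp hPT hPeq
        haveI hKn : ((E.autGroup P).subgroupOf (F.autGroup P)).Normal := by
          constructor
          intro κ hκ γ
          rw [Subgroup.mem_subgroupOf] at hκ ⊢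
          have hκE := (fs_mem_autGroup_iff E hPT _).mp hκ
          have hγF := (fs_mem_autGroup_iff F hPS _).mp γ.2
          obtain ⟨χ, hχ, hχeq⟩ := hSI P P le_rfl hPT _ hκE (fun x => ((κ : MulAut P) x).2)
            _ hγF
          rw [fs_mem_autGroup_iff E hPT]
          have hmap : (P.subgroupOf P).map (P.subtype.comp (γ : MulAut P).toMonoidHom) = P := by
            ext y; constructor
            · rintro ⟨x, -, rfl⟩; exact ((γ : MulAut P) x).2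
            · intro hy
              exact ⟨(γ : MulAut P).symm ⟨y, hy⟩,
                Subgroup.mem_subgroupOf.mpr (Subtype.property _), by simp⟩
          refine fs_mem_of_eq E hmap χ _ hχ ?_
          intro y hy hy'
          have hx0 : (P.subtype.comp (γ : MulAut P).toMonoidHom)
              (Subgroup.inclusion le_rfl ((γ : MulAut P).symm ⟨y, hy'⟩)) = y := by
            show (((γ : MulAut P) ((γ : MulAut P).symm ⟨y, hy'⟩) : P) : Ω) = y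
            simp
          have h1 := hχeq ((γ : MulAut P).symm ⟨y, hy'⟩) (by rw [hx0]; exact hy)
          have e : (⟨(P.subtype.comp (γ : MulAut P).toMonoidHom)
              (Subgroup.inclusion le_rfl ((γ : MulAut P).symm ⟨y, hy'⟩)),
                (by rw [hx0]; exact hy)⟩ :
              ↥((P.subgroupOf P).map (P.subtype.comp (γ : MulAut P).toMonoidHom))) = ⟨y, hy⟩ :=
            Subtype.ext hx0
          rw [e] at h1
          rw [h1]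
          rfl
        intro α hα
        obtain ⟨ν, κ, hκ, hακ, Q, hPQ, ψ, hQS, hnQ, hψ, hψν⟩ := fs_frattini_ext p hS F hF P hfn
          ((E.autGroup P).subgroupOf (F.autGroup P)) n (hTS hnT) hnN
          (fun h => Subgroup.mem_subgroupOf.mpr (fs_nmh_mem_autGroup E hPT ⟨n, hnN⟩ hnT)) α hα
        rw [hακ]
        refine Subgroup.mul_mem _ ?_ ?_
        · rw [fs_mem_autGroup_iff _ hPT]
          have hPR : P ≤ Q ⊓ T := le_inf hPQ hPT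
          have hlt' : P < Q ⊓ T :=
            lt_of_le_of_ne hPR (fun e => hnP (by rw [e]; exact Subgroup.mem_inf.mpr ⟨hnQ, hnT⟩))
          have hψR := fs_restrict F (inf_le_left : Q ⊓ T ≤ Q) hψ
          have hψR' := ih (Q ⊓ T) inf_le_right (fs_card_lt_of_lt (inf_le_right.trans hTS) hlt')
            _ hψR
          exact fs_restrict' _ hPR hψR' _ (fun x => (hψν x).symm)
        · rw [fs_mem_autGroup_iff _ hPT]
          have hκE := (fs_mem_autGroup_iff E hPT _).mp (Subgroup.mem_subgroupOf.mp hκ)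
          exact ⟨(fs_mem_autGroup_iff F hPS _).mp κ.2, hPT, 1, Subgroup.one_mem _, _, hκE,
            fun x hx => rfl⟩

end Cfsg.Agent.S5119
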