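import Cfsg.Statements.S5128
import Mathlib
import Cfsg.Agent.Lib.Helper1.FusQuot

set_option autoImplicit false
open Cfsg

open Cfsg.Agent.Lib.Helper1

namespace Cfsg.Agent.S5128

/-- In a saturated fusion system over a finite p-group S, the product of two strongly closed subgroups is strongly closed. -/
theorem result {Ω : Type*} [Group Ω] {S : Subgroup Ω} [Finite S] (p : ℕ) [Fact p.Prime] (hS : IsPGroup p S) (F : Cfsg.FusionSystem S) (hF : F.IsSaturated p) (T₁ T₂ : Subgroup Ω) (h₁ : F.StronglyClosed T₁) (h₂ : F.StronglyClosed T₂) : F.StronglyClosed (T₁ ⊔ T₂) := by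
  have hTn : S ≤ Subgroup.normalizer (T₁ : Set Ω) := fs_stronglyClosed_normal F T₁ h₁
  refine ⟨sup_le h₁.1 h₂.1, fun R hR φ hφ x => ?_⟩
  obtain ⟨ψ, hψ, hψT⟩ := fs_extend_mod p hS F hF T₁ h₁ R φ hφ
  have hx : (x : Ω) ∈ T₂ ⊔ T₁ := by rw [sup_comm]; exact hR x.2
  obtain ⟨c, hc, t, ht, hxct⟩ := mem_sup_of_le_normalizer (h₂.1.trans hTn) hx
  have htRT : t ∈ R ⊔ T₁ := Subgroup.mem_sup_right ht
  have hcRT : c ∈ R ⊔ T₁ := by
    have e : c = x * t⁻¹ := by rw [hxct]; group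
    rw [e]; exact Subgroup.mul_mem _ (Subgroup.mem_sup_left x.2) (Subgroup.inv_mem _ htRT)
  have hψt : ψ ⟨t, htRT⟩ ∈ T₁ := fs_sc_mem F T₁ h₁ hψ ⟨t, htRT⟩ ht
  have hψc : ψ ⟨c, hcRT⟩ ∈ T₂ := fs_sc_mem F T₂ h₂ hψ ⟨c, hcRT⟩ hc
  have e1 : Subgroup.inclusion le_sup_left x = (⟨c, hcRT⟩ : ↥(R ⊔ T₁)) * ⟨t, htRT⟩ :=
    Subtype.ext hxct
  have e2 : φ x = ψ ⟨c, hcRT⟩ *
      (ψ ⟨t, htRT⟩ * ((φ x)⁻¹ * ψ (Subgroup.inclusion le_sup_left x))⁻¹) := by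
    rw [e1, map_mul]; group
  rw [e2]
  exact Subgroup.mul_mem _ (Subgroup.mem_sup_right hψc)
    (Subgroup.mem_sup_left (T₁.mul_mem hψt (T₁.inv_mem (hψT x))))

end Cfsg.Agent.S5128
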