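import Cfsg.Statements.S5160
import Mathlib
import Cfsg.Agent.Lib.Helper1.FusCentric2
import Cfsg.Agent.Lib.Helper1.FusSat2
import Cfsg.Agent.Lib.Helper2.SylowAux
import Cfsg.Agent.S5076

set_option autoImplicit false
open Cfsg

open Cfsg.Agent.Lib.Helper1 Cfsg.FusionSystem

namespace Cfsg.Agent.S5160

/-- `Aut_E(R)` is normal in `Aut_F(R)` for an invariant subsystem `E` over the same group -/
theorem aut_normal {Ω : Type*} [Group Ω] {S : Subgroup Ω} (F E : Cfsg.FusionSystem S)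
    (hinv : E.IsInvariantIn F) (R : Subgroup Ω) (hRS : R ≤ S)
    (β : MulAut R) (hβ : β ∈ F.autGroup R) (γ : MulAut R) (hγ : γ ∈ E.autGroup R) :
    β * γ * β⁻¹ ∈ E.autGroup R := by
  obtain ⟨hsub, hTsc, hinv, hfrat⟩ := hinv
  have hβF := (fs_mem_autGroup_iff F hRS β).mp hβ
  have hγE := (fs_mem_autGroup_iff E hRS γ).mp hγ
  obtain ⟨α, hα, φ₀, hφ₀, hv⟩ := hfrat R hRS _ hβF
  have hφ₀S := (E.le_of_mem hφ₀).2
  have hv' : ∀ x : R, ((β x : R) : Ω) = ((α ⟨φ₀ x, hφ₀S x⟩ : S) : Ω) := fun x => hv x (hφ₀S x)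
  obtain ⟨ψ, hψ, hψv⟩ := E.inv_mem hφ₀
  have hψR : ∀ y : φ₀.range, ψ y ∈ R := by
    rintro ⟨_, x, rfl⟩
    rw [hψv x]; exact x.2
  have h1 := E.comp_mem hψ hγE hψR
  have h1R : ∀ y : φ₀.range,
      ((R.subtype.comp γ.toMonoidHom).comp (ψ.codRestrict R hψR)) y ∈ R := fun y =>
    Subtype.property _
  have h2 := E.comp_mem h1 hφ₀ h1R
  have hR₀S : φ₀.range ≤ S := by
    rintro _ ⟨x, rfl⟩; exact hφ₀S x
  have hδv : ∀ x : R, (φ₀.comp (((R.subtype.comp γ.toMonoidHom).comp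
      (ψ.codRestrict R hψR)).codRestrict R h1R)) ⟨φ₀ x, ⟨x, rfl⟩⟩ = φ₀ (γ x) := by
    intro x
    show φ₀ _ = φ₀ (γ x)
    congr 1
    apply Subtype.ext
    show ((γ (ψ.codRestrict R hψR ⟨φ₀ x, ⟨x, rfl⟩⟩) : R) : Ω) = ((γ x : R) : Ω)
    congr 2
    apply Subtype.ext
    exact hψv x
  obtain ⟨χ, hχ, hχv⟩ := hinv φ₀.range hR₀S _ h2 α hα
  have himg : (φ₀.range.subgroupOf S).map (S.subtype.comp α.toMonoidHom) = R := by
    ext z
    constructor
    · rintro ⟨y, hy, rfl⟩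
      obtain ⟨x, hx⟩ := Subgroup.mem_subgroupOf.mp hy
      have e : y = ⟨φ₀ x, hφ₀S x⟩ := Subtype.ext hx.symm
      show ((α y : S) : Ω) ∈ R
      rw [e, ← hv' x]
      exact (β x).2
    · intro hz
      have h3 := hv' (β⁻¹ ⟨z, hz⟩)
      rw [MulAut.apply_inv_self] at h3
      refine ⟨⟨φ₀ (β⁻¹ ⟨z, hz⟩), hφ₀S _⟩, Subgroup.mem_subgroupOf.mpr ⟨_, rfl⟩, ?_⟩
      exact h3.symm
  rw [fs_mem_autGroup_iff E hRS]
  refine fs_mem_of_eq E himg χ _ hχ ?_
  intro z hz hz'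
  show (((β * γ * β⁻¹) ⟨z, hz'⟩ : R) : Ω) = χ ⟨z, hz⟩
  have h3 := hv' (β⁻¹ ⟨z, hz'⟩)
  rw [MulAut.apply_inv_self] at h3
  have h3' : z = ((α ⟨φ₀ (β⁻¹ ⟨z, hz'⟩), hφ₀S _⟩ : S) : Ω) := h3
  have hz2 : ((α ⟨φ₀ (β⁻¹ ⟨z, hz'⟩), hφ₀S _⟩ : S) : Ω) ∈
      (φ₀.range.subgroupOf S).map (S.subtype.comp α.toMonoidHom) := by
    rw [← h3']; exact hz
  have h4 := hχv ⟨φ₀ (β⁻¹ ⟨z, hz'⟩), ⟨_, rfl⟩⟩ (by rw [hδv]; exact hφ₀S _) hz2
  have h5 : (⟨z, hz⟩ : ↥((φ₀.range.subgroupOf S).map (S.subtype.comp α.toMonoidHom))) =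
      ⟨((α ⟨φ₀ (β⁻¹ ⟨z, hz'⟩), hφ₀S _⟩ : S) : Ω), hz2⟩ := Subtype.ext h3'
  rw [h5, h4]
  have h6 := hv' (γ (β⁻¹ ⟨z, hz'⟩))
  rw [MulAut.mul_apply, MulAut.mul_apply, h6]
  congr 2
  apply Subtype.ext
  exact (hδv _).symm

/-- `p`-elements of `Aut_F(R)` lie in `Aut_E(R)` when `R` is fully automized in `F` -/
theorem pelt_mem {Ω : Type*} [Group Ω] {S : Subgroup Ω} [Finite S] (p : ℕ) [Fact p.Prime]
    (F E : Cfsg.FusionSystem S)
    (hinv : E.IsInvariantIn F) (R : Subgroup Ω) (hRa : F.IsFullyAutomized p R)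
    (a : MulAut R) (ha : a ∈ F.autGroup R) (k : ℕ) (hk : a ^ (p ^ k) = 1) :
    a ∈ E.autGroup R := by
  obtain ⟨hRS, Rsyl, hRsyl⟩ := hRa
  haveI : Finite R := fs_finite_of_le hRS
  have hSR : Cfsg.autInducedBy S R ≤ E.autGroup R := by
    unfold Cfsg.autInducedBy
    rw [Subgroup.closure_le]
    rintro α ⟨s, hs, hα⟩
    show α ∈ E.autGroup R
    rw [fs_mem_autGroup_iff E hRS]
    have h1 := E.conj_mem (P := R) (g := s) hRS hs
    have e : R.subtype.comp α.toMonoidHom = Cfsg.conjHom R s := MonoidHom.ext (fun x => hα x)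
    rw [e]; exact h1
  have hpow : (⟨a, ha⟩ : ↥(F.autGroup R)) ^ (p ^ k) = 1 := Subtype.ext hk
  have hzp := Cfsg.Agent.Lib.Helper2.isPGroup_zpowers_of_pow_eq_one' hpow
  obtain ⟨Q', hQ'⟩ := hzp.exists_le_sylow
  obtain ⟨γ, hγ⟩ := MulAction.exists_smul_eq ↥(F.autGroup R) Rsyl Q'
  have h1 : (⟨a, ha⟩ : ↥(F.autGroup R)) ∈ ((γ • Rsyl : Sylow p ↥(F.autGroup R)) :
      Subgroup ↥(F.autGroup R)) := by
    rw [hγ]; exact hQ' (Subgroup.mem_zpowers _)
  rw [Cfsg.Agent.Lib.Helper2.mem_sylow_smul_iff] at h1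
  have h2 : γ⁻¹ * ⟨a, ha⟩ * γ ∈ (Cfsg.autInducedBy S R).subgroupOf (F.autGroup R) := by
    rw [← hRsyl]; exact h1
  have h3 : (γ : MulAut R)⁻¹ * a * (γ : MulAut R) ∈ E.autGroup R :=
    hSR (Subgroup.mem_subgroupOf.mp h2)
  have h4 := aut_normal F E hinv R hRS (γ : MulAut R) γ.2 _ h3
  have e : (γ : MulAut R) * ((γ : MulAut R)⁻¹ * a * (γ : MulAut R)) * (γ : MulAut R)⁻¹ = a := by
    group
  rw [e] at h4
  exact h4

/-- Let G be a finite group with nontrivial Sylow p-subgroup S and F its fusion system on S. Suppose (a) no nontrivial proper subgroup of S is strongly closed in F, and (b) the automorphisms of S induced by G are generated by those induced, for R running over the fully normalized radical centric subgroups of F, by the subgroup of N_G(R) generated by its elements of p-power order. Then F is simple. -/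
theorem result {G : Type*} [Group G] [Finite G] (p : ℕ) [Fact p.Prime] (S : Sylow p G) (hS1 : (S : Subgroup G) ≠ ⊥) (ha : ∀ T : Subgroup G, (Cfsg.groupFusionSystem (S : Subgroup G)).StronglyClosed T → T = ⊥ ∨ T = (S : Subgroup G)) (hb : Cfsg.autInducedBy ⊤ (S : Subgroup G) = ⨆ (R : Subgroup G) (_ : (Cfsg.groupFusionSystem (S : Subgroup G)).IsFullyNormalized R ∧ (Cfsg.groupFusionSystem (S : Subgroup G)).IsRadical p R ∧ (Cfsg.groupFusionSystem (S : Subgroup G)).IsCentric R), Cfsg.autInducedBy (Subgroup.closure {g : G | g ∈ Subgroup.normalizer (R : Set G) ∧ ∃ k : ℕ, orderOf g = p ^ k}) (S : Subgroup G)) : (Cfsg.groupFusionSystem (S : Subgroup G)).IsSimple p := by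
  have hFsat := Cfsg.Agent.S5076.result p S
  have hSp : IsPGroup p ↥(S : Subgroup G) := S.isPGroup'
  refine ⟨hFsat, hS1, ?_⟩
  intro T E hE
  obtain ⟨⟨hEsat, -, hEinv⟩, -⟩ := hE
  have hEinv' := hEinv
  obtain ⟨hsub, hTsc, hinv, hfrat⟩ := hEinv
  rcases ha T hTsc with hT | hT
  · exact Or.inl hT
  · right
    subst hT
    refine ⟨rfl, ?_⟩
    have hle : (⨆ (R : Subgroup G) (_ : (Cfsg.groupFusionSystem (S : Subgroup G)).IsFullyNormalized R ∧ (Cfsg.groupFusionSystem (S : Subgroup G)).IsRadical p R ∧ (Cfsg.groupFusionSystem (S : Subgroup G)).IsCentric R), Cfsg.autInducedBy (Subgroup.closure {g : G | g ∈ Subgroup.normalizer (R : Set G) ∧ ∃ k : ℕ, orderOf g = p ^ k}) (S : Subgroup G)) ≤ E.autGroup (S : Subgroup G) := by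
      apply iSup_le; intro R; apply iSup_le; rintro ⟨hRfn, hRrad, hRcen⟩
      have hRS := hRfn.1
      have hRa := fs_fullyAutomized_of_fullyNormalized p hSp _ hFsat R hRfn
      -- elements of the generated subgroup induce automorphisms in `Aut_E(R)`
      have hK : Subgroup.closure {g : G | g ∈ Subgroup.normalizer (R : Set G) ∧
          ∃ k : ℕ, orderOf g = p ^ k} ≤
          ((E.autGroup R).comap R.normalizerMonoidHom).map
            (Subgroup.normalizer (R : Set G)).subtype := by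
        rw [Subgroup.closure_le]
        rintro g' ⟨hg'N, k, hk⟩
        refine ⟨⟨g', hg'N⟩, ?_, rfl⟩
        show R.normalizerMonoidHom ⟨g', hg'N⟩ ∈ E.autGroup R
        apply pelt_mem p _ E hEinv' R hRa _ ?_ k ?_
        · rw [fs_mem_autGroup_iff _ hRS]
          exact ⟨hRS, fun x => hRS (Subtype.property _), g', fun x => rfl⟩
        · rw [← map_pow]
          have : (⟨g', hg'N⟩ : ↥(Subgroup.normalizer (R : Set G))) ^ (p ^ k) = 1 := by
            apply Subtype.ext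
            show g' ^ (p ^ k) = 1
            rw [← hk]; exact pow_orderOf_eq_one g'
          rw [this, map_one]
      unfold Cfsg.autInducedBy
      rw [Subgroup.closure_le]
      rintro α ⟨g, hgK, hgα⟩
      show α ∈ E.autGroup (S : Subgroup G)
      rw [fs_mem_autGroup_iff E le_rfl]
      have hαF : (S : Subgroup G).subtype.comp α.toMonoidHom ∈
          (Cfsg.groupFusionSystem (S : Subgroup G)).Hom (S : Subgroup G) :=
        ⟨le_rfl, fun x => (α x).2, g, fun x => hgα x⟩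
      refine fs_mem_of_centric_restrict p hSp _ hFsat E hEsat hsub _ _ hαF _ R hRS hRcen rfl ?_
      obtain ⟨⟨g₁, hg₁N⟩, hmem, hg₁⟩ := hK hgK
      have hg₁' : g₁ = g := hg₁
      subst hg₁'
      have hmem' : R.normalizerMonoidHom ⟨g₁, hg₁N⟩ ∈ E.autGroup R := hmem
      have h1 := (fs_mem_autGroup_iff E hRS _).mp hmem'
      have e : ((S : Subgroup G).subtype.comp α.toMonoidHom).comp (Subgroup.inclusion hRS) =
          R.subtype.comp (R.normalizerMonoidHom ⟨g₁, hg₁N⟩).toMonoidHom := by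
        ext x
        exact hgα _
      rw [e]; exact h1
    have key : (Cfsg.groupFusionSystem (S : Subgroup G)).autGroup (S : Subgroup G) ≤
        E.autGroup (S : Subgroup G) := by
      intro α hα
      obtain ⟨-, -, g, hg⟩ := (fs_mem_autGroup_iff _ le_rfl α).mp hα
      have h1 : α ∈ Cfsg.autInducedBy ⊤ (S : Subgroup G) :=
        Subgroup.subset_closure ⟨g, Subgroup.mem_top g, fun x => hg x⟩
      rw [hb] at h1
      exact hle h1
    intro P
    apply Set.Subset.antisymm (hsub P)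
    intro φ hφ
    have hPS := ((Cfsg.groupFusionSystem (S : Subgroup G)).le_of_mem hφ).1
    obtain ⟨α, hα, φ₀, hφ₀, hv⟩ := hfrat P hPS φ hφ
    have hαE := (fs_mem_autGroup_iff E le_rfl α).mp (key hα)
    have hφ₀S := (E.le_of_mem hφ₀).2
    have h1 := E.comp_mem hφ₀ hαE hφ₀S
    have e : φ = ((S : Subgroup G).subtype.comp α.toMonoidHom).comp
        (φ₀.codRestrict (S : Subgroup G) hφ₀S) := by
      ext x; exact hv x (hφ₀S x)
    rw [e]; exact h1

end Cfsg.Agent.S5160
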