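import Mathlib
import Cfsg.Statements.S5345
import Cfsg.Agent.Lib.Helper5.Invol
import Cfsg.Agent.Lib.Helper8.Basic

set_option autoImplicit false
open Cfsg

namespace Cfsg.Agent.S5345

open Cfsg.Agent.Lib.Helper5 Cfsg.Agent.Lib.Helper8

/-- Let D be a conjugation-invariant generating set of 3-transpositions of a finite group G and T a Sylow 2-subgroup of G. Then the members of D lying in T generate an abelian subgroup, and their number is the width of D (the largest number of pairwise commuting members of D). -/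
theorem result {G : Type*} [Group G] [Finite G] {D : Set G} (hD : Cfsg.IsThreeTranspositionGroup D) (T : Sylow 2 G) : IsMulCommutative (Subgroup.closure {d : G | d ∈ D ∧ d ∈ T}) ∧ {d : G | d ∈ D ∧ d ∈ T}.ncard = Cfsg.commutingWidth D := by
  obtain ⟨⟨hord, h3⟩, hconj, -⟩ := hD
  haveI : Fact (Nat.Prime 2) := ⟨Nat.prime_two⟩
  have hsq : ∀ d ∈ D, d * d = 1 := fun d hd => sq_of_order_two (hord d hd)
  have key : ∀ (P : Subgroup G), IsPGroup 2 P → ∀ d ∈ D, ∀ e ∈ D, d ∈ P → e ∈ P → d * e = e * d := by
    intro P hP d hd e he hdP heP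
    have h2 : (d * e) ^ 2 = 1 := by
      rcases h3 d hd e he with h | h
      · exact h
      · obtain ⟨k, hk⟩ := hP ⟨d * e, P.mul_mem hdP heP⟩
        have hk' : (d * e) ^ (2 ^ k) = 1 := by simpa using congrArg Subtype.val hk
        have h1 : orderOf (d * e) ∣ 2 ^ k := orderOf_dvd_of_pow_eq_one hk'
        have h2 : orderOf (d * e) ∣ 3 := orderOf_dvd_of_pow_eq_one h
        have : orderOf (d * e) ∣ 1 := by
          have := Nat.dvd_gcd h1 h2
          have hc : Nat.gcd (2 ^ k) 3 = 1 := Nat.Coprime.pow_left k (by norm_num)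
          rwa [hc] at this
        have : d * e = 1 := orderOf_eq_one_iff.mp (Nat.dvd_one.mp this)
        rw [this, one_pow]
    have h2' : d * e * (d * e) = 1 := by rw [← pow_two]; exact h2
    have := eq_inv_of_mul_eq_one_left h2'
    rw [mul_inv_rev, inv_of_order_two (hord d hd), inv_of_order_two (hord e he)] at this
    exact this
  refine ⟨Subgroup.isMulCommutative_closure (fun x hx y hy => key T T.2 x hx.1 y hy.1 hx.2 hy.2), ?_⟩
  unfold Cfsg.commutingWidth
  have hmem : {d : G | d ∈ D ∧ d ∈ T}.ncard ∈ {n : ℕ | ∃ E : Set G, E ⊆ D ∧ E.Finite ∧ (∀ a ∈ E, ∀ b ∈ E, Commute a b) ∧ E.ncard = n} :=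
    ⟨{d : G | d ∈ D ∧ d ∈ T}, fun x hx => hx.1, Set.toFinite _,
      fun a ha b hb => key T T.2 a ha.1 b hb.1 ha.2 hb.2, rfl⟩
  have hbdd : BddAbove {n : ℕ | ∃ E : Set G, E ⊆ D ∧ E.Finite ∧ (∀ a ∈ E, ∀ b ∈ E, Commute a b) ∧ E.ncard = n} := by
    refine ⟨Nat.card G, ?_⟩
    rintro n ⟨E, -, -, -, rfl⟩
    exact Set.ncard_le_card E
  have hle : ∀ n ∈ {n : ℕ | ∃ E : Set G, E ⊆ D ∧ E.Finite ∧ (∀ a ∈ E, ∀ b ∈ E, Commute a b) ∧ E.ncard = n}, n ≤ {d : G | d ∈ D ∧ d ∈ T}.ncard := by
    rintro n ⟨E, hED, -, hEc, rfl⟩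
    haveI : IsMulCommutative (Subgroup.closure E) :=
      Subgroup.isMulCommutative_closure (fun x hx y hy => hEc x hx y hy)
    have hK2 : IsPGroup 2 (Subgroup.closure E) := by
      have hsqK : ∀ x ∈ Subgroup.closure E, x * x = 1 := by
        intro x hx
        induction hx using Subgroup.closure_induction with
        | mem g hg => exact hsq g (hED hg)
        | one => simp
        | mul a b ha hb iha ihb =>
          have hc : a * b = b * a := Subgroup.mul_comm_of_mem_isMulCommutative _ ha hb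
          calc a * b * (a * b) = a * (b * a) * b := by group
            _ = a * (a * b) * b := by rw [hc]
            _ = (a * a) * (b * b) := by group
            _ = 1 := by rw [iha, ihb, one_mul]
        | inv a ha iha =>
          have : a⁻¹ = a := inv_eq_of_mul_eq_one_left iha
          rw [this, iha]
      intro g
      refine ⟨1, ?_⟩
      apply Subtype.ext
      simpa [pow_two] using hsqK g.1 g.2
    obtain ⟨h, hh⟩ := h8_exists_conj_sylow_ge T hK2
    apply Set.ncard_le_ncard_of_injOn (fun x => h⁻¹ * x * h)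
    · intro a ha
      refine ⟨?_, hh a (Subgroup.subset_closure ha)⟩
      have := hconj h⁻¹ a (hED ha)
      rwa [inv_inv] at this
    · intro a _ b _ hab
      simpa using hab
  exact (le_antisymm (csSup_le ⟨_, hmem⟩ hle) (le_csSup hbdd hmem)).symm

end Cfsg.Agent.S5345
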