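import Mathlib
import Cfsg.Statements.S5347

set_option autoImplicit false
open Cfsg

namespace Cfsg.Agent.S5347

/-- Let D be a conjugation-invariant generating set of 3-transpositions of a finite group G, p a prime bigger than 3, and P a p-subgroup of G. If a member d of D normalizes P then d centralizes P. -/
theorem result {G : Type*} [Group G] [Finite G] {D : Set G} (hD : Cfsg.IsThreeTranspositionGroup D) {p : ℕ} (hp : p.Prime) (hp3 : 3 < p) (P : Subgroup G) (hP : IsPGroup p P) {d : G} (hd : d ∈ D) (hnorm : d ∈ Subgroup.normalizer (P : Set G)) : ∀ x ∈ P, Commute d x := by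
-----
  haveI : Fact p.Prime := ⟨hp⟩
  intro x hx
  obtain ⟨⟨hord, h3⟩, hconj, -⟩ := hD
  have hd2 : d * d = 1 := by
    have := pow_orderOf_eq_one d
    rw [hord d hd, pow_two] at this
    exact this
  have hdinv : d⁻¹ = d := inv_eq_of_mul_eq_one_left hd2
  have hxd : x * d * x⁻¹ ∈ D := hconj x d hd
  have hmem : d * (x * d * x⁻¹) ∈ P := by
    have h1 : d * x * d⁻¹ ∈ P := (Subgroup.mem_set_normalizer_iff.mp hnorm x).mp hx
    have h2 : d * (x * d * x⁻¹) = (d * x * d⁻¹) * x⁻¹ := by rw [hdinv]; group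
    rw [h2]
    exact P.mul_mem h1 (P.inv_mem hx)
  have hone : d * (x * d * x⁻¹) = 1 := by
    obtain ⟨k, hk⟩ := (IsPGroup.iff_orderOf.mp hP) ⟨_, hmem⟩
    have hk' : orderOf (d * (x * d * x⁻¹)) = p ^ k := by
      rw [← hk]; exact (Subgroup.orderOf_mk _ hmem).symm
    have hcop : ∀ m : ℕ, m = 2 ∨ m = 3 → (d * (x * d * x⁻¹)) ^ m = 1 → d * (x * d * x⁻¹) = 1 := by
      intro m hm hpow
      have hdvd : p ^ k ∣ m := by rw [← hk']; exact orderOf_dvd_of_pow_eq_one hpow
      rcases Nat.eq_zero_or_pos k with hk0 | hkpos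
      · rw [hk0, pow_zero] at hk'
        exact orderOf_eq_one_iff.mp hk'
      · exfalso
        have hpm : p ∣ m := dvd_trans (dvd_pow_self p (Nat.pos_iff_ne_zero.mp hkpos)) hdvd
        have hle : p ≤ m := Nat.le_of_dvd (by rcases hm with h | h <;> omega) hpm
        rcases hm with h | h <;> omega
    rcases h3 d hd _ hxd with h | h
    · exact hcop 2 (Or.inl rfl) h
    · exact hcop 3 (Or.inr rfl) h
  have : d * x * d = x := by
    have h2 : d * x * d = (d * (x * d * x⁻¹)) * x := by group
    rw [h2, hone, one_mul]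
  show d * x = x * d
  calc d * x = d * x * (d * d) := by rw [hd2, mul_one]
    _ = (d * x * d) * d := by group
    _ = x * d := by rw [this]

end Cfsg.Agent.S5347
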