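import Mathlib
import Cfsg.Statements.S5358

set_option autoImplicit false
open scoped MatrixGroups
open Cfsg

namespace Cfsg.Agent.S5358

theorem polarVec_dot (n : ℕ) (Q : QuadraticForm (ZMod 3) (Fin n → ZMod 3)) (u x : Fin n → ZMod 3) :
    Cfsg.polarVec (⇑Q) u ⬝ᵥ x = QuadraticMap.polar (⇑Q) u x := by
  have hx : x = ∑ j, x j • (Pi.single j (1 : ZMod 3) : Fin n → ZMod 3) := by
    ext i; simp [Finset.sum_apply, Pi.single_apply]
  conv_rhs => rw [hx]
  rw [← QuadraticMap.polarBilin_apply_apply, map_sum]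
  simp only [map_smul, QuadraticMap.polarBilin_apply_apply, smul_eq_mul]
  unfold Cfsg.polarVec dotProduct
  apply Finset.sum_congr rfl
  intro j _
  ring

theorem commute_one_sub_smul {R : Type*} [Field R] {n : Type*} [Fintype n] [DecidableEq n] (c : R)
    (hc : c ≠ 0) (A B : Matrix n n R) :
    Commute (1 - c • A) (1 - c • B) ↔ Commute A B := by
  constructor
  · intro h
    have h1 : Commute (c • A) (c • B) := by
      have h2 := ((Commute.one_left (1 - c • B)).sub_left h)
      have h3 := (Commute.one_right (1 - (1 - c • A))).sub_right h2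
      simpa using h3
    have h2 := (h1.smul_left c⁻¹).smul_right c⁻¹
    simpa [smul_smul, inv_mul_cancel₀ hc] using h2
  · intro h
    have h1 : Commute (c • A) (c • B) := (h.smul_left c).smul_right c
    exact (Commute.one_right _).sub_right ((Commute.one_left _).sub_left h1)

/-- Let Q be a non-degenerate quadratic form on the n-dimensional coordinate space over the field with three elements and u, v vectors of the same non-zero norm Q(u) = Q(v) spanning different lines (v ≠ u and v ≠ −u). Then the reflection matrices of u and v commute if and only if u and v are orthogonal for the polar form of Q. -/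
theorem result (n : ℕ) (Q : QuadraticForm (ZMod 3) (Fin n → ZMod 3)) (hQ : (QuadraticMap.polarBilin Q).Nondegenerate) (u v : Fin n → ZMod 3) (hu : Q u ≠ 0) (huv : Q u = Q v) (h1 : v ≠ u) (h2 : v ≠ -u) : Commute (Cfsg.reflectionMatrix (⇑Q) u) (Cfsg.reflectionMatrix (⇑Q) v) ↔ QuadraticMap.polar (⇑Q) u v = 0 := by
  have hc : (Q u)⁻¹ ≠ 0 := inv_ne_zero hu
  have hRu : Cfsg.reflectionMatrix (⇑Q) u = 1 - (Q u)⁻¹ • Matrix.vecMulVec u (Cfsg.polarVec (⇑Q) u) := rfl
  have hRv : Cfsg.reflectionMatrix (⇑Q) v = 1 - (Q u)⁻¹ • Matrix.vecMulVec v (Cfsg.polarVec (⇑Q) v) := by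
    rw [huv]; rfl
  have hAB : Matrix.vecMulVec u (Cfsg.polarVec (⇑Q) u) * Matrix.vecMulVec v (Cfsg.polarVec (⇑Q) v)
      = QuadraticMap.polar (⇑Q) u v • Matrix.vecMulVec u (Cfsg.polarVec (⇑Q) v) := by
    rw [Matrix.vecMulVec_mul_vecMulVec, polarVec_dot, Matrix.vecMulVec_smul]
  have hBA : Matrix.vecMulVec v (Cfsg.polarVec (⇑Q) v) * Matrix.vecMulVec u (Cfsg.polarVec (⇑Q) u)
      = QuadraticMap.polar (⇑Q) u v • Matrix.vecMulVec v (Cfsg.polarVec (⇑Q) u) := by
    rw [Matrix.vecMulVec_mul_vecMulVec, polarVec_dot, Matrix.vecMulVec_smul, QuadraticMap.polar_comm]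
  rw [hRu, hRv, commute_one_sub_smul _ hc]
  constructor
  · intro h
    by_contra hne
    have h' : Matrix.vecMulVec u (Cfsg.polarVec (⇑Q) u) * Matrix.vecMulVec v (Cfsg.polarVec (⇑Q) v)
        = Matrix.vecMulVec v (Cfsg.polarVec (⇑Q) v) * Matrix.vecMulVec u (Cfsg.polarVec (⇑Q) u) := h
    rw [hAB, hBA] at h'
    have hmat : Matrix.vecMulVec u (Cfsg.polarVec (⇑Q) v) = Matrix.vecMulVec v (Cfsg.polarVec (⇑Q) u) :=
      smul_right_injective _ hne h'
    have hent : ∀ i j, u i * Cfsg.polarVec (⇑Q) v j = v i * Cfsg.polarVec (⇑Q) u j := by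
      intro i j
      have := congrFun (congrFun hmat i) j
      simpa [Matrix.vecMulVec_apply] using this
    have hu0 : u ≠ 0 := by
      rintro rfl
      exact hu (map_zero Q)
    obtain ⟨j, hj⟩ : ∃ j, Cfsg.polarVec (⇑Q) u j ≠ 0 := by
      by_contra hno
      push Not at hno
      apply hu0
      apply hQ.1
      intro y
      rw [QuadraticMap.polarBilin_apply_apply, ← polarVec_dot]
      unfold dotProduct
      apply Finset.sum_eq_zero
      intro i _
      rw [hno i, zero_mul]
    obtain ⟨l, hl⟩ : ∃ l, l = Cfsg.polarVec (⇑Q) v j * (Cfsg.polarVec (⇑Q) u j)⁻¹ := ⟨_, rfl⟩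
    have hv : v = l • u := by
      ext i
      rw [Pi.smul_apply, smul_eq_mul, hl]
      have := hent i j
      field_simp
      rw [← this]; ring
    have hl3' : ∀ l : ZMod 3, l = 0 ∨ l = 1 ∨ l = -1 := by decide
    have hl3 := hl3' l
    rcases hl3 with h0 | h1' | h2'
    · rw [h0, zero_smul] at hv
      rw [hv, map_zero] at huv
      exact hu huv
    · rw [h1', one_smul] at hv
      exact h1 hv
    · rw [h2', neg_one_smul] at hv
      exact h2 hv
  · intro h
    show Matrix.vecMulVec u (Cfsg.polarVec (⇑Q) u) * Matrix.vecMulVec v (Cfsg.polarVec (⇑Q) v)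
        = Matrix.vecMulVec v (Cfsg.polarVec (⇑Q) v) * Matrix.vecMulVec u (Cfsg.polarVec (⇑Q) u)
    rw [hAB, hBA, h, zero_smul, zero_smul]

end Cfsg.Agent.S5358
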