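import Mathlib
import Cfsg.Statements.S5363
import Cfsg.Agent.Lib.Helper5.Dih

set_option autoImplicit false
open Cfsg

namespace Cfsg.Agent.S5363

open Cfsg.Agent.Lib.Helper5

/-- Let D be a conjugation-invariant set of involutions of a finite group G. Then every product of two members of D has odd order or order 2 if and only if, for every a in D and every b in D different from a and commuting with a, the members of D commuting with a b are exactly those commuting with both a and b. -/
theorem result {G : Type*} [Group G] [Finite G] {D : Set G} (hinv : ∀ d ∈ D, orderOf d = 2) (hconj : ∀ g : G, ∀ d ∈ D, g * d * g⁻¹ ∈ D) : (∀ a ∈ D, ∀ b ∈ D, Odd (orderOf (a * b)) ∨ orderOf (a * b) = 2) ↔ ∀ a ∈ D, ∀ b ∈ D, b ≠ a → Commute a b → {y : G | y ∈ D ∧ Commute (a * b) y} = {y : G | y ∈ D ∧ Commute a y} ∩ {y : G | y ∈ D ∧ Commute b y} := by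
  have hsq : ∀ d ∈ D, d * d = 1 := fun d hd => sq_of_order_two (hinv d hd)
  constructor
  · intro h a ha b hb hba hab
    have haa := hsq a ha
    have hbb := hsq b hb
    have ht2 : (a * b) * (a * b) = 1 := by
      calc (a * b) * (a * b) = a * (b * a) * b := by group
        _ = a * (a * b) * b := by rw [hab.eq]
        _ = (a * a) * (b * b) := by group
        _ = 1 := by rw [haa, hbb, one_mul]
    have ht1 : a * b ≠ 1 := by
      intro h1
      apply hba
      have : b = a⁻¹ := (eq_inv_of_mul_eq_one_right h1)
      rw [this, inv_of_order_two (hinv a ha)]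
    have hodd_pow : ∀ j : ℕ, (a * b) ^ (2 * j + 1) = a * b := by
      intro j
      rw [pow_succ, pow_mul, pow_two, ht2, one_pow, one_mul]
    ext y
    constructor
    · rintro ⟨hyD, hy⟩
      have hyy := hsq y hyD
      have hta : Commute (a * b) a := (Commute.refl a).mul_left hab.symm
      have key : Commute a y := by
        have hs_t : Commute (y * a) (a * b) := (hy.symm.mul_left hta.symm)
        have hyb : y * b = (y * a) * (a * b) := by
          rw [mul_assoc, ← mul_assoc a a b, haa, one_mul]
        rcases h y hyD a ha with hodd | h2
        · obtain ⟨j, hj⟩ := hodd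
          rcases h y hyD b hb with hodd' | h2'
          · exfalso
            obtain ⟨k, hk⟩ := hodd'
            have e1 : ((y * a) * (a * b)) ^ (2 * k + 1) = 1 := by
              rw [← hyb, ← hk]; exact pow_orderOf_eq_one _
            rw [hs_t.mul_pow, hodd_pow k] at e1
            have e3 : a * b = ((y * a) ^ (2 * k + 1))⁻¹ := (eq_inv_of_mul_eq_one_right e1)
            have e4 : (a * b) ^ (2 * j + 1) = 1 := by
              rw [e3, inv_pow, ← pow_mul, mul_comm, pow_mul, ← hj, pow_orderOf_eq_one, one_pow, inv_one]
            exact ht1 ((hodd_pow j) ▸ e4)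
          · have e1 : ((y * a) * (a * b)) ^ 2 = 1 := by
              rw [← hyb, ← h2']; exact pow_orderOf_eq_one _
            rw [hs_t.mul_pow, pow_two (a * b), ht2, mul_one] at e1
            have hd := orderOf_dvd_of_pow_eq_one e1
            rw [hj] at hd
            have hle := Nat.le_of_dvd (by norm_num) hd
            have hj0 : j = 0 := by omega
            rw [hj0] at hj
            have hya : y * a = 1 := orderOf_eq_one_iff.mp hj
            have : y = a := by
              have := eq_inv_of_mul_eq_one_left hya
              rw [this, inv_of_order_two (hinv a ha)]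
            rw [this]
        · have e1 : (y * a) ^ 2 = 1 := by rw [← h2]; exact pow_orderOf_eq_one _
          show a * y = y * a
          have : y * a * (y * a) = 1 := by rw [← pow_two]; exact e1
          calc a * y = (y * y) * (a * y) * (a * a) := by rw [hyy, haa, one_mul, mul_one]
            _ = y * (y * a * (y * a)) * a := by group
            _ = y * a := by rw [this, mul_one]
      refine ⟨⟨hyD, key⟩, hyD, ?_⟩
      have hb' : b = a * (a * b) := by rw [← mul_assoc, haa, one_mul]
      have h3 := key.mul_left hy
      rwa [← hb'] at h3
    · rintro ⟨⟨hyD, h1⟩, -, h2⟩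
      exact ⟨hyD, h1.mul_left h2⟩
  · intro h a ha b hb
    have haa := hsq a ha
    have hbb := hsq b hb
    rcases Nat.even_or_odd (orderOf (a * b)) with heven | hodd
    · right
      obtain ⟨m, hm⟩ := heven
      have hm2 : orderOf (a * b) = 2 * m := by omega
      have hpos : 0 < orderOf (a * b) := orderOf_pos _
      by_contra hne
      have hm_ge : 2 ≤ m := by omega
      have hr : (a * b) ^ (2 * m) = 1 := by rw [← hm2]; exact pow_orderOf_eq_one _
      obtain ⟨hza, hzb⟩ := dih_central a b haa hbb m hr
      have hz1 : (a * b) ^ m ≠ 1 := pow_ne_one_of_lt_orderOf (by omega) (by omega)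
      have hcD : (a * b) ^ m * a ∈ D := by
        rcases Nat.even_or_odd' m with ⟨k, rfl | rfl⟩
        · rw [dih_even a b haa hbb k]
          exact hconj _ a ha
        · rw [dih_odd a b haa hbb k]
          exact hconj _ b hb
      have hca : (a * b) ^ m * a ≠ a := by
        intro h1
        exact hz1 (by simpa using h1)
      have hcomm : Commute a ((a * b) ^ m * a) := (hza.symm.mul_right (Commute.refl a))
      have hprod : a * ((a * b) ^ m * a) = (a * b) ^ m := by
        rw [← mul_assoc, ← hza.eq, mul_assoc, haa, mul_one]
      have hset := h a ha _ hcD hca hcomm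
      rw [hprod] at hset
      have hbmem : b ∈ {y : G | y ∈ D ∧ Commute ((a * b) ^ m) y} := ⟨hb, hzb⟩
      rw [hset] at hbmem
      have hab : Commute a b := hbmem.1.2
      have : (a * b) ^ 2 = 1 := by
        rw [hab.mul_pow, pow_two, pow_two, haa, hbb, one_mul]
      have := orderOf_dvd_of_pow_eq_one this
      rw [hm2] at this
      have := Nat.le_of_dvd (by norm_num) this
      omega
    · exact Or.inl hodd

end Cfsg.Agent.S5363
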