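import Mathlib
import Cfsg.Statements.S5364

set_option autoImplicit false
open Cfsg

namespace Cfsg.Agent.S5364

/-- Let D be a conjugation-invariant set of involutions of a finite group G and t an involution in the centre of G such that d t does not lie in D for any d in D. If the images of the members of D in G modulo the subgroup generated by t satisfy the 3-transposition order conditions (each has order 2 and any two have product of order at most 3), then so do the members of D. -/
theorem result {G : Type*} [Group G] [Finite G] {D : Set G} (hinv : ∀ d ∈ D, orderOf d = 2) (hconj : ∀ g : G, ∀ d ∈ D, g * d * g⁻¹ ∈ D) (t : G) (ht : orderOf t = 2) (htZ : t ∈ Subgroup.center G) (hDt : ∀ d ∈ D, d * t ∉ D) [(Subgroup.zpowers t).Normal] (himg : Cfsg.IsThreeTranspositionSet ((QuotientGroup.mk : G → G ⧸ Subgroup.zpowers t) '' D)) : Cfsg.IsThreeTranspositionSet D := by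
-----
  obtain ⟨hord', h3⟩ := himg
  have ht2 : t * t = 1 := by
    have := pow_orderOf_eq_one t
    rw [ht, pow_two] at this
    exact this
  have hmemt : ∀ x : G, x ∈ Subgroup.zpowers t → x = 1 ∨ x = t := by
    intro x hx
    obtain ⟨k, rfl⟩ := Subgroup.mem_zpowers_iff.mp hx
    rcases Int.even_or_odd' k with ⟨m, rfl | rfl⟩
    · left
      rw [zpow_mul, zpow_two, ht2, one_zpow]
    · right
      rw [zpow_add, zpow_mul, zpow_two, ht2, one_zpow, one_mul, zpow_one]
  have hdd : ∀ d ∈ D, d * d = 1 := by
    intro d hd
    have := pow_orderOf_eq_one d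
    rw [hinv d hd, pow_two] at this
    exact this
  have hdinv : ∀ d ∈ D, d⁻¹ = d := fun d hd => inv_eq_of_mul_eq_one_left (hdd d hd)
  refine ⟨hinv, ?_⟩
  intro d hd e he
  have hq := h3 _ (Set.mem_image_of_mem _ hd) _ (Set.mem_image_of_mem _ he)
  have hcomm : ∀ x : G, x * t = t * x := fun x => (Subgroup.mem_center_iff.mp htZ x)
  rcases hq with h | h
  · have h' : (d * e) ^ 2 ∈ Subgroup.zpowers t := by
      rw [← QuotientGroup.eq_one_iff]
      simpa using h
    rcases hmemt _ h' with h1 | h1
    · exact Or.inl h1
    · exfalso
      have : e * d * e⁻¹ = d * t := by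
        rw [hdinv e he]
        have : d * (e * d * e) = t := by rw [← h1]; simp [pow_two, mul_assoc]
        calc e * d * e = (d * d) * (e * d * e) := by rw [hdd d hd, one_mul]
          _ = d * (d * (e * d * e)) := by group
          _ = d * t := by rw [this]
      exact hDt d hd (this ▸ hconj e d hd)
  · have h' : (d * e) ^ 3 ∈ Subgroup.zpowers t := by
      rw [← QuotientGroup.eq_one_iff]
      simpa using h
    rcases hmemt _ h' with h1 | h1
    · exact Or.inr h1
    · exfalso
      have : (e * d) * e * (e * d)⁻¹ = d * t := by
        rw [mul_inv_rev, hdinv e he, hdinv d hd]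
        have : d * (e * d * e * d * e) = t := by rw [← h1]; simp [pow_succ, mul_assoc]
        calc e * d * e * (d * e) = (d * d) * (e * d * e * d * e) := by rw [hdd d hd, one_mul]; group
          _ = d * (d * (e * d * e * d * e)) := by group
          _ = d * t := by rw [this]
      exact hDt d hd (this ▸ hconj (e * d) e he)

end Cfsg.Agent.S5364
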