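import Cfsg.Statements.S5395
-- import your own Cfsg.Agent.* helpers here
import Cfsg.Agent.Lib.Helper7.EsInner

set_option autoImplicit false
open Cfsg

namespace Cfsg.Agent.S5395

open Cfsg.Agent.Lib.Helper7

/-- For a finite extraspecial 2-group E, an automorphism of E that induces the identity on E modulo its centre is inner (so these automorphisms form exactly the inner automorphism group, an elementary abelian 2-group of order |E|/2). -/
theorem result {E : Type*} [Group E] [Finite E] (hE : Cfsg.IsExtraspecial 2 E) (φ : E ≃* E) (hφ : ∀ x : E, φ x * x⁻¹ ∈ Subgroup.center E) : ∃ g : E, ∀ x : E, φ x = g * x * g⁻¹ := by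
  haveI : Fact (Nat.Prime 2) := ⟨Nat.prime_two⟩
  let δ : E →* E :=
    { toFun := fun x => φ x * x⁻¹
      map_one' := by simp
      map_mul' := fun x y => by
        have hy := hφ y
        rw [Subgroup.mem_center_iff] at hy
        calc φ (x * y) * (x * y)⁻¹ = φ x * ((φ y * y⁻¹) * x⁻¹) := by rw [map_mul]; group
          _ = φ x * (x⁻¹ * (φ y * y⁻¹)) := by rw [← hy x⁻¹]
          _ = φ x * x⁻¹ * (φ y * y⁻¹) := by group }
  obtain ⟨g, hg⟩ := es_hom_inner 2 hE δ hφ
  refine ⟨g, fun x => ?_⟩
  have h1 : φ x * x⁻¹ = g * x * g⁻¹ * x⁻¹ := hg x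
  exact mul_right_cancel h1

end Cfsg.Agent.S5395
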