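import Mathlib
import Cfsg.Statements.S5420
import Cfsg.Agent.Lib.Helper7.PCore

set_option autoImplicit false
open Cfsg

namespace Cfsg.Agent.S5420

theorem eq_one_of_odd_of_two {G : Type*} [Group G] [Finite G] (K : Subgroup G) (hK : Odd (Nat.card K))
    (P : Subgroup G) (hP : IsPGroup 2 P) {c : G} (hcK : c ∈ K) (hcP : c ∈ P) : c = 1 := by
  have h1 : orderOf c ∣ Nat.card K := Subgroup.orderOf_dvd_natCard K hcK
  obtain ⟨k, hk⟩ := hP ⟨c, hcP⟩
  have hk' : c ^ (2 ^ k) = 1 := by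
    have := congrArg Subtype.val hk
    simpa using this
  have h2 : orderOf c ∣ 2 ^ k := orderOf_dvd_of_pow_eq_one hk'
  have hcop : Nat.Coprime (Nat.card K) (2 ^ k) := Nat.Coprime.pow_right k (hK.coprime_two_right)
  have : orderOf c ∣ 1 := by
    have := Nat.dvd_gcd h1 h2
    rwa [hcop] at this
  exact orderOf_eq_one_iff.mp (Nat.dvd_one.mp this)

/-- Let Q be an extraspecial 2-subgroup of the finite group G whose centralizer in G is its centre Z and which is normal in the centralizer of Z. If Z lies in the largest normal 2-subgroup of G, then Q is a large extraspecial 2-subgroup of G: it normalizes no non-trivial subgroup of G of odd order. -/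
theorem result {G : Type*} [Group G] [Finite G] (Q : Subgroup G) (hL1 : Cfsg.IsExtraspecial 2 ↥Q) (hL2 : Subgroup.centralizer (Q : Set G) = ((Subgroup.center ↥Q).map Q.subtype)) (hL3 : Subgroup.centralizer (((Subgroup.center ↥Q).map Q.subtype) : Set G) ≤ Subgroup.normalizer (Q : Set G)) (hZ : ((Subgroup.center ↥Q).map Q.subtype) ≤ Cfsg.pCore 2 G) : Cfsg.IsLargeExtraspecial Q := by
  refine ⟨hL1, hL2, hL3, ?_⟩
  intro K hK hQK
  haveI : Fact (Nat.Prime 2) := ⟨Nat.prime_two⟩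
  have hO2 : IsPGroup 2 (Cfsg.pCore 2 G) := Cfsg.Agent.Lib.Helper7.pCore_isPGroup 2 G
  haveI hO2n : (Cfsg.pCore 2 G).Normal := Cfsg.Agent.Lib.Helper7.pCore_normal 2 G
  have hQ2 : IsPGroup 2 Q := hL1.1.1
  have hZQ : (Subgroup.center ↥Q).map Q.subtype ≤ Q := by
    rintro _ ⟨y, -, rfl⟩
    exact y.2
  -- step 1
  have h1 : K ≤ Subgroup.centralizer (((Subgroup.center ↥Q).map Q.subtype : Subgroup G) : Set G) := by
    intro k hk
    rw [Subgroup.mem_centralizer_iff]
    intro z hz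
    have hzQ : z ∈ Q := hZQ hz
    have hzO : z ∈ Cfsg.pCore 2 G := hZ hz
    have hcK : z * k * z⁻¹ * k⁻¹ ∈ K :=
      K.mul_mem ((Subgroup.mem_set_normalizer_iff.mp (hQK hzQ) k).mp hk) (K.inv_mem hk)
    have hcO : z * k * z⁻¹ * k⁻¹ ∈ Cfsg.pCore 2 G := by
      have : z * k * z⁻¹ * k⁻¹ = z * (k * z⁻¹ * k⁻¹) := by group
      rw [this]
      exact Subgroup.mul_mem _ hzO (hO2n.conj_mem _ (Subgroup.inv_mem _ hzO) k)
    have := eq_one_of_odd_of_two K hK _ hO2 hcK hcO
    calc z * k = (z * k * z⁻¹ * k⁻¹) * (k * z) := by group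
      _ = k * z := by rw [this, one_mul]
  -- step 2
  have h2 : K ≤ Subgroup.centralizer (Q : Set G) := by
    intro k hk
    rw [Subgroup.mem_centralizer_iff]
    intro q hq
    have hkN : k ∈ Subgroup.normalizer (Q : Set G) := hL3 (h1 hk)
    have hcQ : k * q * k⁻¹ * q⁻¹ ∈ Q :=
      Q.mul_mem ((Subgroup.mem_set_normalizer_iff.mp hkN q).mp hq) (Q.inv_mem hq)
    have hcK : k * q * k⁻¹ * q⁻¹ ∈ K := by
      have : k * q * k⁻¹ * q⁻¹ = k * (q * k⁻¹ * q⁻¹) := by group
      rw [this]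
      exact K.mul_mem hk ((Subgroup.mem_set_normalizer_iff.mp (hQK hq) k⁻¹).mp (K.inv_mem hk))
    have := eq_one_of_odd_of_two K hK _ hQ2 hcK hcQ
    calc q * k = (k * q * k⁻¹ * q⁻¹)⁻¹ * (k * q) := by group
      _ = k * q := by rw [this, inv_one, one_mul]
  rw [eq_bot_iff]
  intro k hk
  rw [Subgroup.mem_bot]
  have hkQ : k ∈ Q := hZQ (hL2 ▸ h2 hk)
  exact eq_one_of_odd_of_two K hK _ hQ2 hk hkQ

end Cfsg.Agent.S5420
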