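import Mathlib
import Cfsg.Statements.S5421
import Cfsg.Agent.Lib.Helper7.PCore
import Cfsg.Agent.Lib.Helper5.Invol
import Cfsg.Agent.S5420

set_option autoImplicit false
open Cfsg

namespace Cfsg.Agent.S5421

open Cfsg.Agent.Lib.Helper5
open scoped commutatorElement

theorem inverts_of_fpf {G : Type*} [Group G] [Finite G] (K : Subgroup G) (t : G)
    (htK : t ∈ Subgroup.normalizer (K : Set G)) (htt : t * t = 1)
    (hfpf : ∀ k ∈ K, k * t = t * k → k = 1) : ∀ k ∈ K, t * k * t⁻¹ = k⁻¹ := by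
  have htinv : t⁻¹ = t := inv_eq_of_mul_eq_one_left htt
  have hconj : ∀ k ∈ K, t * k * t⁻¹ ∈ K := fun k hk => (Subgroup.mem_set_normalizer_iff.mp htK k).mp hk
  obtain ⟨f, hf⟩ : ∃ f : K → K, ∀ k : K, ((f k : K) : G) = k.1⁻¹ * (t * k.1 * t⁻¹) :=
    ⟨fun k => ⟨k.1⁻¹ * (t * k.1 * t⁻¹), K.mul_mem (K.inv_mem k.2) (hconj k.1 k.2)⟩, fun k => rfl⟩
  have hinj : Function.Injective f := by
    intro k l hkl
    have h1 : k.1⁻¹ * (t * k.1 * t⁻¹) = l.1⁻¹ * (t * l.1 * t⁻¹) := by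
      rw [← hf k, ← hf l, hkl]
    have h3 : l.1 * k.1⁻¹ = t * (l.1 * k.1⁻¹) * t⁻¹ := by
      calc l.1 * k.1⁻¹ = l.1 * (k.1⁻¹ * (t * k.1 * t⁻¹)) * (t * k.1 * t⁻¹)⁻¹ := by group
        _ = l.1 * (l.1⁻¹ * (t * l.1 * t⁻¹)) * (t * k.1 * t⁻¹)⁻¹ := by rw [h1]
        _ = t * (l.1 * k.1⁻¹) * t⁻¹ := by group
    have h2 : (l.1 * k.1⁻¹) * t = t * (l.1 * k.1⁻¹) := by
      calc (l.1 * k.1⁻¹) * t = (t * (l.1 * k.1⁻¹) * t⁻¹) * t := by rw [← h3]
        _ = t * (l.1 * k.1⁻¹) := by group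
    have h4 := hfpf _ (K.mul_mem l.2 (K.inv_mem k.2)) h2
    apply Subtype.ext
    have : l.1 = k.1 := by
      calc l.1 = (l.1 * k.1⁻¹) * k.1 := by group
        _ = k.1 := by rw [h4, one_mul]
    exact this.symm
  have hsurj : Function.Surjective f := Finite.surjective_of_injective hinj
  intro x hx
  obtain ⟨k, hk⟩ := hsurj ⟨x, hx⟩
  have hx' : x = k.1⁻¹ * (t * k.1 * t⁻¹) := by rw [← hf k, hk]
  rw [hx', htinv]
  calc t * (k.1⁻¹ * (t * k.1 * t)) * t = t * k.1⁻¹ * t * k.1 * (t * t) := by group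
    _ = t * k.1⁻¹ * t * k.1 := by rw [htt, mul_one]
    _ = (k.1⁻¹ * (t * k.1 * t))⁻¹ := by
      simp only [mul_inv_rev, inv_inv, htinv]; group

/-- Let Q be an extraspecial 2-subgroup of the finite group G whose centralizer in G is its centre Z and which is normal in the centralizer of Z. If some involution b of Q outside Z has Z inside the largest normal 2-subgroup of the centralizer of b, then Q is a large extraspecial 2-subgroup of G. -/
theorem result {G : Type*} [Group G] [Finite G] (Q : Subgroup G) (hL1 : Cfsg.IsExtraspecial 2 ↥Q) (hL2 : Subgroup.centralizer (Q : Set G) = ((Subgroup.center ↥Q).map Q.subtype)) (hL3 : Subgroup.centralizer (((Subgroup.center ↥Q).map Q.subtype) : Set G) ≤ Subgroup.normalizer (Q : Set G)) (b : G) (hbQ : b ∈ Q) (hbZ : b ∉ ((Subgroup.center ↥Q).map Q.subtype)) (hb : orderOf b = 2) (hZ : ((Subgroup.center ↥Q).map Q.subtype) ≤ (Cfsg.pCore 2 ↥(Subgroup.centralizer ({b}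 : Set G))).map (Subgroup.centralizer ({b} : Set G)).subtype) : Cfsg.IsLargeExtraspecial Q := by
  refine ⟨hL1, hL2, hL3, ?_⟩
  intro K hK hQK
  haveI : Fact (Nat.Prime 2) := ⟨Nat.prime_two⟩
  have hQ2 : IsPGroup 2 Q := hL1.1.1
  obtain ⟨Z, hZdef⟩ : ∃ Z : Subgroup G, Z = (Subgroup.center ↥Q).map Q.subtype := ⟨_, rfl⟩
  rw [← hZdef] at hL2 hL3 hbZ hZ
  have hZQ : Z ≤ Q := by
    rw [hZdef]
    rintro _ ⟨y, -, rfl⟩
    exact y.2
  have hZcard : Nat.card Z = 2 := by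
    rw [hZdef, Subgroup.card_map_of_injective (Subgroup.subtype_injective Q)]
    exact hL1.2
  obtain ⟨y, hy, huniq⟩ := (Nat.card_eq_two_iff' (1 : Z)).mp hZcard
  obtain ⟨z, hzdef⟩ : ∃ z : G, z = y.1 := ⟨_, rfl⟩
  have hzZ : z ∈ Z := hzdef ▸ y.2
  have hz1 : z ≠ 1 := by
    rw [hzdef]
    intro h
    exact hy (Subtype.ext h)
  have hZ2 : ∀ x ∈ Z, x ≠ 1 → x = z := by
    intro x hx hx1
    have := huniq ⟨x, hx⟩ (fun h => hx1 (by simpa using congrArg Subtype.val h))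
    rw [hzdef, ← this]
  have hzQ : z ∈ Q := hZQ hzZ
  have hzz : z * z = 1 := by
    by_contra h
    have := hZ2 (z * z) (Z.mul_mem hzZ hzZ) h
    exact hz1 (by simpa using this)
  have hodd1 : ∀ k ∈ K, k * k = 1 → k = 1 := by
    intro k hk hkk
    have h1 : orderOf k ∣ Nat.card K := Subgroup.orderOf_dvd_natCard K hk
    have h2 : orderOf k ∣ 2 := orderOf_dvd_of_pow_eq_one (by rw [pow_two]; exact hkk)
    have : orderOf k ∣ 1 := by
      have := Nat.dvd_gcd h1 h2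
      rwa [hK.coprime_two_right] at this
    exact orderOf_eq_one_iff.mp (Nat.dvd_one.mp this)
  have hCKz : ∀ k ∈ K, k * z = z * k → k = 1 := by
    intro k hk hkz
    have hkC : k ∈ Subgroup.centralizer (Z : Set G) := by
      rw [Subgroup.mem_centralizer_iff]
      intro x hx
      by_cases hx1 : x = 1
      · rw [hx1, one_mul, mul_one]
      · rw [hZ2 x hx hx1]; exact hkz.symm
    have hkN := hL3 hkC
    have hkCQ : k ∈ Subgroup.centralizer (Q : Set G) := by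
      rw [Subgroup.mem_centralizer_iff]
      intro q hq
      have hcQ : k * q * k⁻¹ * q⁻¹ ∈ Q :=
        Q.mul_mem ((Subgroup.mem_set_normalizer_iff.mp hkN q).mp hq) (Q.inv_mem hq)
      have hcK : k * q * k⁻¹ * q⁻¹ ∈ K := by
        have : k * q * k⁻¹ * q⁻¹ = k * (q * k⁻¹ * q⁻¹) := by group
        rw [this]
        exact K.mul_mem hk ((Subgroup.mem_set_normalizer_iff.mp (hQK hq) k⁻¹).mp (K.inv_mem hk))
      have := Cfsg.Agent.S5420.eq_one_of_odd_of_two K hK _ hQ2 hcK hcQ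
      calc q * k = (k * q * k⁻¹ * q⁻¹)⁻¹ * (k * q) := by group
        _ = k * q := by rw [this, inv_one, one_mul]
    have hkQ : k ∈ Q := hZQ (hL2 ▸ hkCQ)
    exact Cfsg.Agent.S5420.eq_one_of_odd_of_two K hK _ hQ2 hk hkQ
  have hzinv := inverts_of_fpf K z (hQK hzQ) hzz hCKz
  have hbb : b * b = 1 := sq_of_order_two hb
  have hCKb : ∀ k ∈ K, k * b = b * k → k = 1 := by
    intro k hk hkb
    apply hCKz k hk
    obtain ⟨w, hw, hwz⟩ := hZ hzZ
    have hkCb : k ∈ Subgroup.centralizer ({b} : Set G) := by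
      rw [Subgroup.mem_centralizer_iff]
      intro x hx
      rw [Set.mem_singleton_iff] at hx
      rw [hx]; exact hkb.symm
    have hO2 : IsPGroup 2 (Cfsg.pCore 2 ↥(Subgroup.centralizer ({b} : Set G))) :=
      Cfsg.Agent.Lib.Helper7.pCore_isPGroup 2 _
    haveI hO2n : (Cfsg.pCore 2 ↥(Subgroup.centralizer ({b} : Set G))).Normal :=
      Cfsg.Agent.Lib.Helper7.pCore_normal 2 _
    have hcO : w * ⟨k, hkCb⟩ * w⁻¹ * (⟨k, hkCb⟩ : ↥(Subgroup.centralizer ({b} : Set G)))⁻¹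
        ∈ Cfsg.pCore 2 ↥(Subgroup.centralizer ({b} : Set G)) := by
      have : w * ⟨k, hkCb⟩ * w⁻¹ * (⟨k, hkCb⟩ : ↥(Subgroup.centralizer ({b} : Set G)))⁻¹
          = w * (⟨k, hkCb⟩ * w⁻¹ * (⟨k, hkCb⟩ : ↥(Subgroup.centralizer ({b} : Set G)))⁻¹) := by group
      rw [this]
      exact Subgroup.mul_mem _ hw (hO2n.conj_mem _ (Subgroup.inv_mem _ hw) _)
    have hcP : z * k * z⁻¹ * k⁻¹ ∈ (Cfsg.pCore 2 ↥(Subgroup.centralizer ({b} : Set G))).map
        (Subgroup.centralizer ({b} : Set G)).subtype := by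
      refine ⟨_, hcO, ?_⟩
      simp [← hwz]
    have hcK : z * k * z⁻¹ * k⁻¹ ∈ K :=
      K.mul_mem ((Subgroup.mem_set_normalizer_iff.mp (hQK hzQ) k).mp hk) (K.inv_mem hk)
    have h1 := Cfsg.Agent.S5420.eq_one_of_odd_of_two K hK _ (hO2.map _) hcK hcP
    calc k * z = (z * k * z⁻¹ * k⁻¹)⁻¹ * (z * k) := by group
      _ = z * k := by rw [h1, inv_one, one_mul]
  have hbinv := inverts_of_fpf K b (hQK hbQ) hbb hCKb
  obtain ⟨q, hq, hqb⟩ : ∃ q ∈ Q, q * b ≠ b * q := by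
    by_contra hno
    push Not at hno
    apply hbZ
    rw [← hL2, Subgroup.mem_centralizer_iff]
    exact hno
  have hcZ : q * b * q⁻¹ * b⁻¹ ∈ Z := by
    have h1 : ⁅(⟨q, hq⟩ : Q), ⟨b, hbQ⟩⁆ ∈ commutator ↥Q := by
      rw [commutator_def]
      exact Subgroup.commutator_mem_commutator (Subgroup.mem_top _) (Subgroup.mem_top _)
    rw [hL1.1.2.2] at h1
    rw [hZdef]
    refine ⟨_, h1, ?_⟩
    simp [commutatorElement_def]
  have hcz : q * b * q⁻¹ * b⁻¹ = z := by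
    apply hZ2 _ hcZ
    intro h1
    apply hqb
    calc q * b = (q * b * q⁻¹ * b⁻¹) * (b * q) := by group
      _ = b * q := by rw [h1, one_mul]
  rw [eq_bot_iff]
  intro k hk
  rw [Subgroup.mem_bot]
  apply hodd1 k hk
  have e1 : (z * b) * k * (z * b)⁻¹ = k := by
    calc (z * b) * k * (z * b)⁻¹ = z * (b * k * b⁻¹) * z⁻¹ := by group
      _ = z * k⁻¹ * z⁻¹ := by rw [hbinv k hk]
      _ = k := by rw [hzinv k⁻¹ (K.inv_mem hk), inv_inv]
  have hqk : q⁻¹ * k * q ∈ K := by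
    have := (Subgroup.mem_set_normalizer_iff.mp (hQK (Q.inv_mem hq)) k).mp hk
    simpa using this
  have e2 : (q * b * q⁻¹) * k * (q * b * q⁻¹)⁻¹ = k⁻¹ := by
    calc (q * b * q⁻¹) * k * (q * b * q⁻¹)⁻¹ = q * (b * (q⁻¹ * k * q) * b⁻¹) * q⁻¹ := by group
      _ = q * (q⁻¹ * k * q)⁻¹ * q⁻¹ := by rw [hbinv _ hqk]
      _ = k⁻¹ := by group
  have e3 : q * b * q⁻¹ = z * b := by
    calc q * b * q⁻¹ = (q * b * q⁻¹ * b⁻¹) * b := by group
      _ = z * b := by rw [hcz]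
  rw [e3, e1] at e2
  calc k * k = k * k⁻¹ := by rw [← e2]
    _ = 1 := mul_inv_cancel k

end Cfsg.Agent.S5421
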