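import Mathlib
import Cfsg.Statements.S5433

set_option autoImplicit false
open Cfsg

namespace Cfsg.Agent.S5433

/-- Let Q be a large extraspecial 2-subgroup of the finite group G (extraspecial; centralizer equal to its centre; normal in the centralizer of its centre; normalizing no non-trivial subgroup of odd order), and L a normal subgroup of G containing Q. Then G is the product of L and the normalizer of Q. -/
theorem result {G : Type*} [Group G] [Finite G] (Q : Subgroup G) (hQ : Cfsg.IsLargeExtraspecial Q) (L : Subgroup G) [L.Normal] (hQL : Q ≤ L) : L ⊔ Subgroup.normalizer (Q : Set G) = ⊤ := by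
-----
  obtain ⟨hE, hC, hN, -⟩ := hQ
  haveI : Fact (Nat.Prime 2) := ⟨Nat.prime_two⟩
  have hQ2 : IsPGroup 2 Q := hE.1.1
  have hQL2 : IsPGroup 2 (Q.subgroupOf L) := by
    rw [← Subgroup.comap_subtype]
    exact hQ2.comap_subtype
  obtain ⟨S, hS⟩ := hQL2.exists_le_sylow
  have hfr := Sylow.normalizer_sup_eq_top S
  obtain ⟨S', hS'⟩ : ∃ S' : Subgroup G, S' = (S : Subgroup L).map L.subtype := ⟨_, rfl⟩
  rw [← hS'] at hfr
  have hQS : Q ≤ S' := by
    intro q hq
    rw [hS']
    exact ⟨⟨q, hQL hq⟩, hS (Subgroup.mem_subgroupOf.mpr hq), rfl⟩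
  have hS'2 : IsPGroup 2 S' := by rw [hS']; exact S.2.map _
  obtain ⟨Z, hZdef⟩ : ∃ Z : Subgroup G, Z = (Subgroup.center ↥Q).map Q.subtype := ⟨_, rfl⟩
  rw [← hZdef] at hC hN
  have hZcard : Nat.card Z = 2 := by
    rw [hZdef, Subgroup.card_map_of_injective (Subgroup.subtype_injective Q)]
    exact hE.2
  have hZQ : Z ≤ Q := by
    rw [hZdef]
    rintro _ ⟨y, -, rfl⟩
    exact y.2
  obtain ⟨y, hy, huniq⟩ := (Nat.card_eq_two_iff' (1 : Z)).mp hZcard
  have hZ2 : ∀ z ∈ Z, z ≠ 1 → z = y.1 := by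
    intro z hz hz1
    have := huniq ⟨z, hz⟩ (fun h => hz1 (by simpa using congrArg Subtype.val h))
    rw [← this]
  haveI : Nontrivial S' := by
    rw [Subgroup.nontrivial_iff_exists_ne_one]
    exact ⟨y.1, hQS (hZQ y.2), fun h => hy (Subtype.ext h)⟩
  haveI := hS'2.center_nontrivial
  obtain ⟨⟨w, hwc⟩, hw1⟩ := exists_ne (1 : Subgroup.center S')
  have hw1' : (w : G) ≠ 1 := by
    intro h
    apply hw1
    apply Subtype.ext
    apply Subtype.ext
    exact h
  have hwcomm : ∀ s ∈ S', s * (w : G) = (w : G) * s := by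
    intro s hs
    have := Subgroup.mem_center_iff.mp hwc ⟨s, hs⟩
    exact congrArg Subtype.val this
  have hwZ : (w : G) ∈ Z := by
    rw [← hC, Subgroup.mem_centralizer_iff]
    intro q hq
    exact hwcomm q (hQS hq)
  have hwy : (w : G) = y.1 := hZ2 _ hwZ hw1'
  have hNS : Subgroup.normalizer (S' : Set G) ≤ Subgroup.normalizer (Q : Set G) := by
    intro g hg
    apply hN
    have hgw : g * (w : G) * g⁻¹ ∈ Z := by
      rw [← hC, Subgroup.mem_centralizer_iff]
      intro q hq
      have hs : g⁻¹ * q * g ∈ S' := by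
        apply (Subgroup.mem_set_normalizer_iff.mp hg (g⁻¹ * q * g)).mpr
        have : g * (g⁻¹ * q * g) * g⁻¹ = q := by group
        rw [this]
        exact hQS hq
      have := hwcomm _ hs
      calc q * (g * (w : G) * g⁻¹) = g * ((g⁻¹ * q * g) * (w : G)) * g⁻¹ := by group
        _ = g * ((w : G) * (g⁻¹ * q * g)) * g⁻¹ := by rw [this]
        _ = g * (w : G) * g⁻¹ * q := by group
    have hgw1 : g * (w : G) * g⁻¹ ≠ 1 := by
      intro h
      apply hw1'
      have : (w : G) = g⁻¹ * (g * (w : G) * g⁻¹) * g := by group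
      rw [this, h]
      group
    have hgwy : g * (w : G) * g⁻¹ = (w : G) := by rw [hZ2 _ hgw hgw1, hwy]
    rw [Subgroup.mem_centralizer_iff]
    intro z hz
    by_cases hz1 : z = 1
    · rw [hz1, one_mul, mul_one]
    · rw [hZ2 z hz hz1, ← hwy]
      calc (w : G) * g = (g * (w : G) * g⁻¹) * g := by rw [hgwy]
        _ = g * (w : G) := by group
  rw [eq_top_iff, ← hfr]
  apply sup_le
  · exact le_trans hNS le_sup_right
  · exact le_sup_left

end Cfsg.Agent.S5433
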