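import Mathlib
import Cfsg.Statements.S5437

set_option autoImplicit false
open Cfsg

namespace Cfsg.Agent.S5437

/-- Let I be a set of involutions of the finite group G closed under conjugation, and H a subgroup of G. The following are equivalent: (1) for every member x of I lying in H, the conjugates of x lying in H form a single H-class and the centralizer of x lies in H; (2) for every g outside H, no member of I lies in both H and g H g⁻¹; (3) every member of I lying in H fixes exactly one coset in the action of G on the cosets of H. -/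
theorem result {G : Type*} [Group G] [Finite G] (I : Set G) (hI : ∀ x ∈ I, orderOf x = 2) (hIc : ∀ g : G, ∀ x ∈ I, g * x * g⁻¹ ∈ I) (H : Subgroup G) : ((∀ x ∈ I, x ∈ H → (∀ g : G, g * x * g⁻¹ ∈ H → ∃ h ∈ H, h * x * h⁻¹ = g * x * g⁻¹) ∧ Subgroup.centralizer ({x} : Set G) ≤ H) ↔ (∀ g : G, g ∉ H → ∀ x ∈ I, ¬ (x ∈ H ∧ x ∈ (H : Subgroup G).map (MulAut.conj g).toMonoidHom))) ∧ ((∀ g : G, g ∉ H → ∀ x ∈ I, ¬ (x ∈ H ∧ x ∈ (H : Subgroup G).map (MulAut.conj g).toMonoidHom)) ↔ ∀ x ∈ I, x ∈ H → ∃! c : G ⧸ H, x • c = c) := by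
-----
  have hmap : ∀ g x : G, x ∈ (H : Subgroup G).map (MulAut.conj g).toMonoidHom ↔ g⁻¹ * x * g ∈ H := by
    intro g x
    constructor
    · rintro ⟨y, hy, rfl⟩
      simpa [MulAut.conj_apply, mul_assoc] using hy
    · intro h
      exact ⟨g⁻¹ * x * g, h, by simp [MulAut.conj_apply, mul_assoc]⟩
  have hfix : ∀ g x : G, x • (g : G ⧸ H) = (g : G ⧸ H) ↔ g⁻¹ * x * g ∈ H := by
    intro g x
    rw [MulAction.Quotient.smul_mk, QuotientGroup.eq, ← H.inv_mem_iff]
    simp [smul_eq_mul, mul_assoc]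
  have h12 : (∀ x ∈ I, x ∈ H → (∀ g : G, g * x * g⁻¹ ∈ H → ∃ h ∈ H, h * x * h⁻¹ = g * x * g⁻¹) ∧ Subgroup.centralizer ({x} : Set G) ≤ H) → (∀ g : G, g ∉ H → ∀ x ∈ I, ¬ (x ∈ H ∧ x ∈ (H : Subgroup G).map (MulAut.conj g).toMonoidHom)) := by
    intro h1 g hg x hxI hx
    obtain ⟨hxH, hxg⟩ := hx
    rw [hmap] at hxg
    have hyI : g⁻¹ * x * g ∈ I := by
      have := hIc g⁻¹ x hxI
      rwa [inv_inv] at this
    obtain ⟨hA, hB⟩ := h1 _ hyI hxg
    have hgx : g * (g⁻¹ * x * g) * g⁻¹ = x := by group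
    obtain ⟨h, hh, heq⟩ := hA g (by rw [hgx]; exact hxH)
    have hc : h⁻¹ * g ∈ Subgroup.centralizer ({g⁻¹ * x * g} : Set G) := by
      rw [Subgroup.mem_centralizer_iff]
      intro y hy
      rw [Set.mem_singleton_iff] at hy
      subst hy
      have e1 : g⁻¹ * x * g * (h⁻¹ * g) = h⁻¹ * (h * (g⁻¹ * x * g) * h⁻¹) * g := by group
      rw [e1, heq]
      group
    have := H.mul_mem hh (hB hc)
    rw [mul_inv_cancel_left] at this
    exact hg this
  have h21 : (∀ g : G, g ∉ H → ∀ x ∈ I, ¬ (x ∈ H ∧ x ∈ (H : Subgroup G).map (MulAut.conj g).toMonoidHom)) → (∀ x ∈ I, x ∈ H → (∀ g : G, g * x * g⁻¹ ∈ H → ∃ h ∈ H, h * x * h⁻¹ = g * x * g⁻¹) ∧ Subgroup.centralizer ({x} : Set G) ≤ H) := by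
    intro h2 x hxI hxH
    constructor
    · intro g hgx
      have hgH : g ∈ H := by
        by_contra hg
        have hg' : g⁻¹ ∉ H := fun h => hg (by simpa using H.inv_mem h)
        refine h2 g⁻¹ hg' x hxI ⟨hxH, ?_⟩
        rw [hmap, inv_inv]
        exact hgx
      exact ⟨g, hgH, rfl⟩
    · intro c hc
      by_contra hcH
      refine h2 c hcH x hxI ⟨hxH, ?_⟩
      rw [hmap]
      have := Subgroup.mem_centralizer_iff.mp hc x (Set.mem_singleton x)
      have e : c⁻¹ * x * c = x := by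
        rw [mul_assoc, this, inv_mul_cancel_left]
      rw [e]
      exact hxH
  refine ⟨⟨h12, h21⟩, ?_, ?_⟩
  · intro h2 x hxI hxH
    refine ⟨((1 : G) : G ⧸ H), ?_, ?_⟩
    · show x • ((1 : G) : G ⧸ H) = ((1 : G) : G ⧸ H)
      rw [hfix]
      simpa using hxH
    · intro c hc
      induction c using QuotientGroup.induction_on with
      | H g =>
        have hc' : x • (g : G ⧸ H) = (g : G ⧸ H) := hc
        rw [hfix] at hc'
        have hgH : g ∈ H := by
          by_contra hg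
          exact h2 g hg x hxI ⟨hxH, (hmap g x).mpr hc'⟩
        rw [QuotientGroup.eq]
        simpa using H.inv_mem hgH
  · intro h3 g hg x hxI hx
    obtain ⟨hxH, hxg⟩ := hx
    rw [hmap] at hxg
    obtain ⟨c, -, huniq⟩ := h3 x hxI hxH
    have e1 : ((1 : G) : G ⧸ H) = c := huniq _ ((hfix 1 x).mpr (by simpa using hxH))
    have e2 : (g : G ⧸ H) = c := huniq _ ((hfix g x).mpr hxg)
    have : ((1 : G) : G ⧸ H) = (g : G ⧸ H) := e1.trans e2.symm
    rw [QuotientGroup.eq] at this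
    exact hg (by simpa using this)

end Cfsg.Agent.S5437
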