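import Mathlib
import Cfsg.Statements.S5438
import Cfsg.Agent.Lib.Helper5.Invol
import Cfsg.Agent.Lib.Helper8.Basic

set_option autoImplicit false
open Cfsg

namespace Cfsg.Agent.S5438

open Cfsg.Agent.Lib.Helper5 Cfsg.Agent.Lib.Helper8

theorem zpowers_isPGroup {G : Type*} [Group G] {p : ℕ} (x : G) (k : ℕ) (h : orderOf x = p ^ k) :
    IsPGroup p (Subgroup.zpowers x) :=
  IsPGroup.of_card (n := k) (by rw [Nat.card_zpowers, h])

theorem sylow_in_subgroup {G : Type*} [Group G] [Finite G] {p : ℕ} [Fact p.Prime] (C : Subgroup G)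
    (u w : G) (hu : u ∈ C) (hw : w ∈ C)
    (hu' : ∃ k, orderOf u = p ^ k) (hw' : ∃ k, orderOf w = p ^ k) :
    ∃ c ∈ C, ∃ R : Subgroup G, IsPGroup p R ∧ u ∈ R ∧ c⁻¹ * w * c ∈ R := by
  obtain ⟨k1, hk1⟩ := hu'
  obtain ⟨k2, hk2⟩ := hw'
  have h1 : IsPGroup p (Subgroup.zpowers (⟨u, hu⟩ : C)) :=
    zpowers_isPGroup _ k1 (by rw [← hk1]; exact Subgroup.orderOf_mk u hu)
  have h2 : IsPGroup p (Subgroup.zpowers (⟨w, hw⟩ : C)) :=
    zpowers_isPGroup _ k2 (by rw [← hk2]; exact Subgroup.orderOf_mk w hw)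
  obtain ⟨R0, hR0⟩ := h1.exists_le_sylow
  obtain ⟨c, hc⟩ := h8_exists_conj_sylow_ge R0 h2
  refine ⟨c.1, c.2, (R0 : Subgroup C).map C.subtype, R0.2.map _, ?_, ?_⟩
  · exact ⟨⟨u, hu⟩, hR0 (Subgroup.mem_zpowers _), rfl⟩
  · exact ⟨c⁻¹ * ⟨w, hw⟩ * c, hc _ (Subgroup.mem_zpowers _), rfl⟩

/-- Let z be a 2-central involution of the finite group G (an involution central in some Sylow 2-subgroup) and H a subgroup containing z such that the coset H is the only coset of H fixed by z (in the action of G on the cosets of H). Then H has odd index in G, and for every 2-element x of H the conjugates of x lying in H form a single H-class. -/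
theorem result {G : Type*} [Group G] [Finite G] (z : G) (hz : Cfsg.IsTwoCentralInvolution z) (H : Subgroup G) (hzH : z ∈ H) (hfix : ∀ g : G, g⁻¹ * z * g ∈ H → g ∈ H) : Odd H.index ∧ ∀ x ∈ H, (∃ k : ℕ, orderOf x = 2 ^ k) → ∀ g : G, g * x * g⁻¹ ∈ H → ∃ h ∈ H, h * x * h⁻¹ = g * x * g⁻¹ := by
  obtain ⟨hz2, P, hzP, hPz⟩ := hz
  haveI : Fact (Nat.Prime 2) := ⟨Nat.prime_two⟩
  have hzz := sq_of_order_two hz2
  have hCH : ∀ g : G, g * z = z * g → g ∈ H := by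
    intro g hg
    apply hfix
    have : g⁻¹ * z * g = z := by rw [mul_assoc, ← hg, inv_mul_cancel_left]
    rw [this]
    exact hzH
  have hPH : (P : Subgroup G) ≤ H := fun x hx => hCH x (hPz x hx)
  have hL : ∀ R : Subgroup G, IsPGroup 2 R → z ∈ R → R ≤ H := by
    intro R hR hzR
    obtain ⟨a, ha⟩ := h8_exists_conj_sylow_ge P hR
    have haH : a ∈ H := by
      apply hfix
      exact hCH _ (hPz _ (ha z hzR))
    intro x hx
    have := H.mul_mem (H.mul_mem haH (hPH (ha x hx))) (H.inv_mem haH)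
    have e : a * (a⁻¹ * x * a) * a⁻¹ = x := by group
    rwa [e] at this
  constructor
  · have h1 : H.index ∣ (P : Subgroup G).index := Subgroup.index_dvd_of_le hPH
    have h2 : ¬ 2 ∣ (P : Subgroup G).index := P.not_dvd_index
    rw [← Nat.not_even_iff_odd, even_iff_two_dvd]
    exact fun h => h2 (dvd_trans h h1)
  · intro x hxH hx2 g hgx
    have hconjP : ∀ y ∈ H, (∃ k : ℕ, orderOf y = 2 ^ k) → ∃ h ∈ H, h⁻¹ * y * h ∈ (P : Subgroup G) := by
      rintro y hy ⟨k, hk⟩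
      have h1 : IsPGroup 2 (Subgroup.zpowers (⟨y, hy⟩ : H)) :=
        zpowers_isPGroup _ k (by rw [← hk]; exact Subgroup.orderOf_mk y hy)
      obtain ⟨h, hh⟩ := h8_exists_conj_sylow_ge (P.subtype hPH) h1
      refine ⟨h.1, h.2, ?_⟩
      have := hh _ (Subgroup.mem_zpowers _)
      rw [Sylow.coe_subtype, Subgroup.mem_subgroupOf] at this
      simpa using this
    obtain ⟨h1, hh1, hx1⟩ := hconjP x hxH hx2
    have hx2' : ∃ k : ℕ, orderOf (g * x * g⁻¹) = 2 ^ k := by rw [h8_orderOf_conj]; exact hx2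
    obtain ⟨h2, hh2, hx2P⟩ := hconjP _ hgx hx2'
    obtain ⟨x1, hx1def⟩ : ∃ x1, x1 = h1⁻¹ * x * h1 := ⟨_, rfl⟩
    obtain ⟨k, hkdef⟩ : ∃ k, k = h2⁻¹ * g * h1 := ⟨_, rfl⟩
    have hkx : k * x1 * k⁻¹ = h2⁻¹ * (g * x * g⁻¹) * h2 := by rw [hkdef, hx1def]; group
    have hzx1 : x1 * z = z * x1 := hPz x1 (hx1def ▸ hx1)
    have hzx2 : (k * x1 * k⁻¹) * z = z * (k * x1 * k⁻¹) := hPz _ (hkx ▸ hx2P)
    have hwx1 : x1 * (k⁻¹ * z * k) = (k⁻¹ * z * k) * x1 := by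
      calc x1 * (k⁻¹ * z * k) = k⁻¹ * ((k * x1 * k⁻¹) * z) * k := by group
        _ = k⁻¹ * (z * (k * x1 * k⁻¹)) * k := by rw [hzx2]
        _ = (k⁻¹ * z * k) * x1 := by group
    have hzC : z ∈ Subgroup.centralizer ({x1} : Set G) := by
      rw [Subgroup.mem_centralizer_iff]
      intro y hy
      rw [Set.mem_singleton_iff] at hy
      rw [hy]; exact hzx1
    have hwC : k⁻¹ * z * k ∈ Subgroup.centralizer ({x1} : Set G) := by
      rw [Subgroup.mem_centralizer_iff]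
      intro y hy
      rw [Set.mem_singleton_iff] at hy
      rw [hy]; exact hwx1
    have hword : ∃ j : ℕ, orderOf (k⁻¹ * z * k) = 2 ^ j := ⟨1, by
      have := h8_orderOf_conj k⁻¹ z
      rw [inv_inv] at this
      rw [this, hz2, pow_one]⟩
    obtain ⟨c, hcC, R, hR, hzR, hcR⟩ := sylow_in_subgroup (Subgroup.centralizer ({x1} : Set G)) z
      (k⁻¹ * z * k) hzC hwC ⟨1, by rw [hz2, pow_one]⟩ hword
    have hRH := hL R hR hzR
    have hkcH : k * c ∈ H := by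
      apply hfix
      have : (k * c)⁻¹ * z * (k * c) = c⁻¹ * (k⁻¹ * z * k) * c := by group
      rw [this]
      exact hRH hcR
    have hcx1 : x1 * c = c * x1 := Subgroup.mem_centralizer_iff.mp hcC x1 (Set.mem_singleton x1)
    refine ⟨h2 * (k * c) * h1⁻¹, H.mul_mem (H.mul_mem hh2 hkcH) (H.inv_mem hh1), ?_⟩
    calc h2 * (k * c) * h1⁻¹ * x * (h2 * (k * c) * h1⁻¹)⁻¹
        = h2 * k * (c * (h1⁻¹ * x * h1)) * c⁻¹ * k⁻¹ * h2⁻¹ := by group
      _ = h2 * k * (c * x1) * c⁻¹ * k⁻¹ * h2⁻¹ := by rw [hx1def]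
      _ = h2 * k * (x1 * c) * c⁻¹ * k⁻¹ * h2⁻¹ := by rw [hcx1]
      _ = h2 * (k * x1 * k⁻¹) * h2⁻¹ := by group
      _ = h2 * (h2⁻¹ * (g * x * g⁻¹) * h2) * h2⁻¹ := by rw [hkx]
      _ = g * x * g⁻¹ := by group

end Cfsg.Agent.S5438
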