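import Mathlib
import Cfsg.Statements.S5439
import Cfsg.Agent.Lib.Helper5.Dih

set_option autoImplicit false
open Cfsg

namespace Cfsg.Agent.S5439

open Cfsg.Agent.Lib.Helper5

/-- Let I and J be two different conjugacy classes of involutions of the finite group G and H a subgroup such that every member of I ∪ J fixes exactly one coset in the action on the cosets of H, and such that for every a in I ∩ H and every b in (I ∪ J) ∩ H different from a and commuting with it, the centralizer of a b lies in H. Then H = G. -/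
theorem result {G : Type*} [Group G] [Finite G] (I J : Set G) (a₀ b₀ : G) (ha₀ : orderOf a₀ = 2) (hb₀ : orderOf b₀ = 2) (hI : I = {x | IsConj a₀ x}) (hJ : J = {x | IsConj b₀ x}) (hIJ : I ≠ J) (H : Subgroup G) (hfix : ∀ x ∈ I ∪ J, ∃! c : G ⧸ H, x • c = c) (hcent : ∀ a ∈ I, a ∈ H → ∀ b ∈ I ∪ J, b ∈ H → a ≠ b → a * b = b * a → Subgroup.centralizer ({a * b} : Set G) ≤ H) : H = ⊤ := by
  have hfx : ∀ g x : G, x • (g : G ⧸ H) = (g : G ⧸ H) ↔ g⁻¹ * x * g ∈ H := by
    intro g x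
    rw [MulAction.Quotient.smul_mk, QuotientGroup.eq, ← H.inv_mem_iff]
    simp [smul_eq_mul, mul_assoc]
  have hIconj : ∀ g x : G, x ∈ I → g * x * g⁻¹ ∈ I := by
    intro g x hx
    rw [hI] at hx ⊢
    exact hx.trans (isConj_iff.mpr ⟨g, rfl⟩)
  have hJconj : ∀ g x : G, x ∈ J → g * x * g⁻¹ ∈ J := by
    intro g x hx
    rw [hJ] at hx ⊢
    exact hx.trans (isConj_iff.mpr ⟨g, rfl⟩)
  have hord : ∀ x₀ x : G, orderOf x₀ = 2 → IsConj x₀ x → orderOf x = 2 := by
    intro x₀ x h0 hx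
    obtain ⟨c, hc⟩ := isConj_iff.mp hx
    rw [← hc]
    have : orderOf ((MulAut.conj c) x₀) = orderOf x₀ := MulEquiv.orderOf_eq _ _
    rw [MulAut.conj_apply] at this
    rw [this, h0]
  have hIord : ∀ x ∈ I, orderOf x = 2 := by
    intro x hx
    rw [hI] at hx
    exact hord a₀ x ha₀ hx
  have hJord : ∀ x ∈ J, orderOf x = 2 := by
    intro x hx
    rw [hJ] at hx
    exact hord b₀ x hb₀ hx
  by_contra hH
  obtain ⟨g, hg⟩ : ∃ g : G, g ∉ H := by
    by_contra hno
    push Not at hno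
    exact hH (eq_top_iff.mpr fun x _ => hno x)
  have exI : ∀ x₀ ∈ I ∪ J, ∃ c : G, c⁻¹ * x₀ * c ∈ H := by
    intro x₀ hx₀
    obtain ⟨c, hc, -⟩ := hfix x₀ hx₀
    induction c using QuotientGroup.induction_on with
    | H c0 => exact ⟨c0, (hfx c0 x₀).mp hc⟩
  have ha₀I : a₀ ∈ I := by rw [hI]; exact IsConj.refl a₀
  have hb₀J : b₀ ∈ J := by rw [hJ]; exact IsConj.refl b₀
  obtain ⟨c1, hc1⟩ := exI a₀ (Or.inl ha₀I)
  obtain ⟨c2, hc2⟩ := exI b₀ (Or.inr hb₀J)
  obtain ⟨a, haI, haH⟩ : ∃ a, a ∈ I ∧ a ∈ H :=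
    ⟨c1⁻¹ * a₀ * c1, by have := hIconj c1⁻¹ a₀ ha₀I; rwa [inv_inv] at this, hc1⟩
  obtain ⟨b1, hb1J, hb1H⟩ : ∃ b, b ∈ J ∧ b ∈ H :=
    ⟨c2⁻¹ * b₀ * c2, by have := hJconj c2⁻¹ b₀ hb₀J; rwa [inv_inv] at this, hc2⟩
  obtain ⟨b, hbdef⟩ : ∃ b, b = g * b1 * g⁻¹ := ⟨_, rfl⟩
  have hbJ : b ∈ J := hbdef ▸ hJconj g b1 hb1J
  have hbg : g⁻¹ * b * g ∈ H := by rw [hbdef]; simpa [mul_assoc] using hb1H
  have haa := sq_of_order_two (hIord a haI)
  have hbb := sq_of_order_two (hJord b hbJ)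
  have hpos : 0 < orderOf (a * b) := orderOf_pos _
  rcases Nat.even_or_odd' (orderOf (a * b)) with ⟨m, hm | hm⟩
  swap
  · have hr : (a * b) ^ (2 * m + 1) = 1 := by rw [← hm]; exact pow_orderOf_eq_one _
    obtain ⟨c, hc⟩ := dih_conj_of_odd a b haa hbb m hr
    have haJ : a ∈ J := hc ▸ hJconj c b hbJ
    apply hIJ
    rw [hI] at haI
    rw [hJ] at haJ
    rw [hI, hJ]
    ext x
    simp only [Set.mem_setOf_eq] at *
    constructor
    · intro hx; exact haJ.trans (haI.symm.trans hx)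
    · intro hx; exact haI.trans (haJ.symm.trans hx)
  · have hm1 : 1 ≤ m := by omega
    have hr : (a * b) ^ (2 * m) = 1 := by rw [← hm]; exact pow_orderOf_eq_one _
    obtain ⟨hza, hzb⟩ := dih_central a b haa hbb m hr
    have hz1 : (a * b) ^ m ≠ 1 := pow_ne_one_of_lt_orderOf (by omega) (by omega)
    obtain ⟨t, ht⟩ : ∃ t, t = (a * b) ^ m := ⟨_, rfl⟩
    rw [← ht] at hza hzb hz1
    have htH : t ∈ H := by
      obtain ⟨c, -, huniq⟩ := hfix a (Or.inl haI)
      have e1 : ((1 : G) : G ⧸ H) = c := huniq _ ((hfx 1 a).mpr (by simpa using haH))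
      have e2 : (t : G ⧸ H) = c := huniq _ ((hfx t a).mpr (by
        have : t⁻¹ * a * t = a := by rw [mul_assoc, ← hza.eq, inv_mul_cancel_left]
        rw [this]; exact haH))
      have : ((1 : G) : G ⧸ H) = (t : G ⧸ H) := e1.trans e2.symm
      rw [QuotientGroup.eq] at this
      simpa using this
    have hcIJ : t * a ∈ I ∪ J := by
      rw [ht]
      rcases Nat.even_or_odd' m with ⟨k, rfl | rfl⟩
      · rw [dih_even a b haa hbb k]
        exact Or.inl (hIconj _ a haI)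
      · rw [dih_odd a b haa hbb k]
        exact Or.inr (hJconj _ b hbJ)
    have hcH : t * a ∈ H := H.mul_mem htH haH
    have hne : a ≠ t * a := by
      intro h1
      exact hz1 (by simpa using h1.symm)
    have hprod : a * (t * a) = t := by
      rw [← mul_assoc, ← hza.eq, mul_assoc, haa, mul_one]
    have hcomm : a * (t * a) = (t * a) * a := by
      rw [hprod, mul_assoc, haa, mul_one]
    have hC := hcent a haI haH (t * a) hcIJ hcH hne hcomm
    rw [hprod] at hC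
    have hbH : b ∈ H := hC (by
      rw [Subgroup.mem_centralizer_iff]
      intro y hy
      rw [Set.mem_singleton_iff] at hy
      rw [hy]; exact hzb.eq)
    obtain ⟨c, -, huniq⟩ := hfix b (Or.inr hbJ)
    have e1 : ((1 : G) : G ⧸ H) = c := huniq _ ((hfx 1 b).mpr (by simpa using hbH))
    have e2 : (g : G ⧸ H) = c := huniq _ ((hfx g b).mpr hbg)
    have : ((1 : G) : G ⧸ H) = (g : G ⧸ H) := e1.trans e2.symm
    rw [QuotientGroup.eq] at this
    exact hg (by simpa using this)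

end Cfsg.Agent.S5439
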