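import Mathlib
import Cfsg.Statements.S5459

namespace Cfsg.Agent.S5459

open scoped commutatorElement

/-- the commuting relation on the class of `d`. -/
def R {G : Type*} [Group G] (d : G) (a b : G) : Prop :=
  a ∈ conjugatesOf d ∧ b ∈ conjugatesOf d ∧ Commute a b

lemma R_symm {G : Type*} [Group G] (d : G) {a b : G} (h : R d a b) : R d b a :=
  ⟨h.2.1, h.1, h.2.2.symm⟩

lemma T_symm {G : Type*} [Group G] (d : G) {a b : G} (h : Relation.ReflTransGen (R d) a b) :
    Relation.ReflTransGen (R d) b a := by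
  induction h with
  | refl => exact Relation.ReflTransGen.refl
  | tail _ hbc ih => exact Relation.ReflTransGen.head (R_symm d hbc) ih

lemma conj_mem {G : Type*} [Group G] (d : G) {x : G} (hx : x ∈ conjugatesOf d) (g : G) :
    g * x * g⁻¹ ∈ conjugatesOf d := by
  obtain ⟨c, rfl⟩ := isConj_iff.1 hx
  exact isConj_iff.2 ⟨g * c, by group⟩

lemma R_conj {G : Type*} [Group G] (d : G) (g : G) {a b : G} (h : R d a b) :
    R d (g * a * g⁻¹) (g * b * g⁻¹) := by
  refine ⟨conj_mem d h.1 g, conj_mem d h.2.1 g, ?_⟩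
  have h3 : a * b = b * a := h.2.2
  show g * a * g⁻¹ * (g * b * g⁻¹) = g * b * g⁻¹ * (g * a * g⁻¹)
  calc g * a * g⁻¹ * (g * b * g⁻¹) = g * (a * b) * g⁻¹ := by group
    _ = g * (b * a) * g⁻¹ := by rw [h3]
    _ = g * b * g⁻¹ * (g * a * g⁻¹) := by group

lemma T_conj {G : Type*} [Group G] (d : G) (g : G) {a b : G} (h : Relation.ReflTransGen (R d) a b) :
    Relation.ReflTransGen (R d) (g * a * g⁻¹) (g * b * g⁻¹) :=
  Relation.ReflTransGen.lift (fun x => g * x * g⁻¹) (fun _ _ hab => R_conj d g hab) _ _ h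

lemma conj_sq {G : Type*} [Group G] (d : G) (hd2 : d * d = 1) {x : G} (hx : x ∈ conjugatesOf d) :
    x * x = 1 := by
  obtain ⟨c, rfl⟩ := isConj_iff.1 hx
  calc c * d * c⁻¹ * (c * d * c⁻¹) = c * (d * d) * c⁻¹ := by group
    _ = 1 := by rw [hd2]; group

lemma conj_invZ {G : Type*} [Group G] (Z : Subgroup G) [hn : Z.Normal] (d : G)
    (hinv : ∀ c ∈ Z, d * c * d⁻¹ = c⁻¹) {x : G} (hx : x ∈ conjugatesOf d) :
    ∀ w ∈ Z, x * w * x⁻¹ = w⁻¹ := by
  intro w hw
  obtain ⟨c, rfl⟩ := isConj_iff.1 hx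
  have h1 : c⁻¹ * w * c ∈ Z := by
    have := hn.conj_mem w hw c⁻¹
    rwa [inv_inv] at this
  have h2 := hinv _ h1
  calc c * d * c⁻¹ * w * (c * d * c⁻¹)⁻¹ = c * (d * (c⁻¹ * w * c) * d⁻¹) * c⁻¹ := by group
    _ = c * (c⁻¹ * w * c)⁻¹ * c⁻¹ := by rw [h2]
    _ = w⁻¹ := by group

lemma sqrtZ {G : Type*} [Group G] [Finite G] (Z : Subgroup G) (hodd : Odd (Nat.card Z)) :
    ∀ z ∈ Z, ∃ s ∈ Z, s * s = z := by
  intro z hz
  obtain ⟨j, hj⟩ := hodd
  have h1 : z ^ (Nat.card Z) = 1 := by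
    have := pow_card_eq_one' (G := Z) (x := ⟨z, hz⟩)
    have h2 := congrArg Subtype.val this
    rw [Subgroup.coe_pow] at h2
    exact h2
  refine ⟨z ^ (j + 1), Z.pow_mem hz _, ?_⟩
  rw [← pow_add]
  have : j + 1 + (j + 1) = Nat.card Z + 1 := by omega
  rw [this, pow_succ, h1, one_mul]

/-- the key lifting step. -/
lemma step {G : Type*} [Group G] [Finite G] (Z : Subgroup G) [hn : Z.Normal] (d : G)
    (hd2 : d * d = 1) (hodd : Odd (Nat.card Z)) (hinv : ∀ c ∈ Z, d * c * d⁻¹ = c⁻¹)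
    {x y₀ : G} (hx : x ∈ conjugatesOf d) (hy₀ : y₀ ∈ conjugatesOf d)
    (hz : y₀ * x * (y₀ * x) ∈ Z) :
    ∃ y, y ∈ conjugatesOf d ∧ y₀⁻¹ * y ∈ Z ∧ Commute x y := by
  obtain ⟨t, ht, htt⟩ := sqrtZ Z hodd _ hz
  obtain ⟨w, hw, hww⟩ := sqrtZ Z hodd _ ht
  have hxi := conj_invZ Z d hinv hx
  have hyi := conj_invZ Z d hinv hy₀
  have hx2 := conj_sq d hd2 hx
  have hy2 := conj_sq d hd2 hy₀
  -- y := w⁻¹ y₀ w = y₀ t
  have e1 : w⁻¹ * y₀ * w = y₀ * t := by
    have := hyi w hw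
    have h2 : y₀ * w = w⁻¹ * y₀ := by
      calc y₀ * w = (y₀ * w * y₀⁻¹) * y₀ := by group
        _ = w⁻¹ * y₀ := by rw [this]
    rw [← hww, ← h2]; group
  have hy : y₀ * t ∈ conjugatesOf d := by
    rw [← e1]
    have := conj_mem d hy₀ w⁻¹
    rwa [inv_inv] at this
  refine ⟨y₀ * t, hy, ?_, ?_⟩
  · have : y₀⁻¹ * (y₀ * t) = t := by group
    rw [this]; exact ht
  · -- (y x)^2 = 1
    have hy2' := conj_sq d hd2 hy
    have h3 : t * x = x * t⁻¹ := by
      have := hxi t⁻¹ (Z.inv_mem ht)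
      rw [inv_inv] at this
      calc t * x = (x * t⁻¹ * x⁻¹) * x := by rw [this]
        _ = x * t⁻¹ := by group
    -- u = y₀ x commutes with t⁻¹
    have h4 : (y₀ * x) * t⁻¹ = t⁻¹ * (y₀ * x) := by
      have a1 := hxi t⁻¹ (Z.inv_mem ht)
      rw [inv_inv] at a1
      have a2 := hyi t ht
      calc (y₀ * x) * t⁻¹ = y₀ * (x * t⁻¹ * x⁻¹) * x := by group
        _ = (y₀ * t * y₀⁻¹) * y₀ * x := by rw [a1]; group
        _ = t⁻¹ * (y₀ * x) := by rw [a2]; group
    have h5 : (y₀ * t * x) * (y₀ * t * x) = 1 := by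
      calc (y₀ * t * x) * (y₀ * t * x) = (y₀ * (t * x)) * (y₀ * (t * x)) := by group
        _ = (y₀ * x * t⁻¹) * (y₀ * x * t⁻¹) := by rw [h3]; group
        _ = (y₀ * x) * (t⁻¹ * (y₀ * x)) * t⁻¹ := by group
        _ = (y₀ * x) * ((y₀ * x) * t⁻¹) * t⁻¹ := by rw [h4]
        _ = (y₀ * x * (y₀ * x)) * (t * t)⁻¹ := by group
        _ = 1 := by rw [htt]; group
    -- commute
    show x * (y₀ * t) = y₀ * t * x
    calc x * (y₀ * t) = ((y₀ * t) * (y₀ * t)) * x * (y₀ * t) * (x * x) := by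
          rw [hy2', hx2]; group
      _ = (y₀ * t) * ((y₀ * t * x) * (y₀ * t * x)) * x := by group
      _ = y₀ * t * x := by rw [h5]; group

lemma comm_central_left {H : Type*} [Group H] (a x c : H) (hc : c ∈ Subgroup.center H) :
    ⁅a * c, x⁆ = ⁅a, x⁆ := by
  have h1 := Subgroup.mem_center_iff.1 hc
  have h2 : c * x * c⁻¹ = x := by rw [← h1 x, mul_inv_cancel_right]
  rw [commutatorElement_def, commutatorElement_def]
  calc a * c * x * (a * c)⁻¹ * x⁻¹ = a * (c * x * c⁻¹) * a⁻¹ * x⁻¹ := by group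
    _ = a * x * a⁻¹ * x⁻¹ := by rw [h2]

lemma comm_central_right {H : Type*} [Group H] (a x c : H) (hc : c ∈ Subgroup.center H) :
    ⁅a, x * c⁆ = ⁅a, x⁆ := by
  have h1 := Subgroup.mem_center_iff.1 hc
  have h2 : c * a⁻¹ * c⁻¹ = a⁻¹ := by rw [← h1 a⁻¹, mul_inv_cancel_right]
  rw [commutatorElement_def, commutatorElement_def]
  calc a * (x * c) * a⁻¹ * (x * c)⁻¹ = a * x * (c * a⁻¹ * c⁻¹) * x⁻¹ := by group
    _ = a * x * a⁻¹ * x⁻¹ := by rw [h2]

/-- the stabiliser of the component of `d`. -/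
def K {G : Type*} [Group G] (d : G) : Subgroup G where
  carrier := {g | Relation.ReflTransGen (R d) d (g * d * g⁻¹)}
  one_mem' := by
    show Relation.ReflTransGen (R d) d (1 * d * 1⁻¹)
    have : (1 : G) * d * 1⁻¹ = d := by group
    rw [this]
  mul_mem' := by
    intro g h hg hh
    show Relation.ReflTransGen (R d) d (g * h * d * (g * h)⁻¹)
    have h1 := T_conj d g hh
    have : g * (h * d * h⁻¹) * g⁻¹ = g * h * d * (g * h)⁻¹ := by group
    rw [this] at h1
    exact Relation.ReflTransGen.trans hg h1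
  inv_mem' := by
    intro g hg
    show Relation.ReflTransGen (R d) d (g⁻¹ * d * g⁻¹⁻¹)
    have h1 := T_conj d g⁻¹ hg
    have : g⁻¹ * (g * d * g⁻¹) * g⁻¹⁻¹ = d := by group
    rw [this] at h1
    exact T_symm d h1

lemma mem_K {G : Type*} [Group G] (d g : G) :
    g ∈ K d ↔ Relation.ReflTransGen (R d) d (g * d * g⁻¹) := Iff.rfl

lemma toReach {G : Type*} [Group G] (d : G) {x y : G} (h : Relation.ReflTransGen (R d) x y) :
    ∀ (hx : x ∈ conjugatesOf d) (hy : y ∈ conjugatesOf d),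
      (Cfsg.commutingGraph (conjugatesOf d)).Reachable ⟨x, hx⟩ ⟨y, hy⟩ := by
  induction h with
  | refl => intro hx hy; exact SimpleGraph.Reachable.refl _
  | tail hab hbc ih =>
    intro hx hy
    rename_i b c
    by_cases hne : b = c
    · subst hne; exact ih hx hy
    · refine (ih hx hbc.1).trans (SimpleGraph.Adj.reachable ?_)
      rw [Cfsg.commutingGraph, SimpleGraph.fromRel_adj]
      exact ⟨fun h => hne (congrArg Subtype.val h), Or.inl hbc.2.2⟩

/-- Let G be a finite group with a quasisimple normal subgroup L and an involution d such that G is generated by L and d, the centre of L has odd order, and d inverts every element of the centre of L. If the commuting graph on the conjugacy class of the image of d in G modulo the centre of L is connected, then the commuting graph on the conjugacy class of d is connected. -/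
theorem result {G : Type*} [Group G] [Finite G] (L : Subgroup G) [L.Normal] (hL : Cfsg.IsQuasisimple ↥L) (d : G) (hd : orderOf d = 2) (hgen : L ⊔ Subgroup.zpowers d = ⊤) (hodd : Odd (Nat.card ↥(Subgroup.center ↥L))) (hinv : ∀ c ∈ (Subgroup.center ↥L).map L.subtype, d * c * d⁻¹ = c⁻¹) [hn : ((Subgroup.center ↥L).map L.subtype).Normal] (hconn : (Cfsg.commutingGraph (conjugatesOf (QuotientGroup.mk d : G ⧸ (Subgroup.center ↥L).map L.subtype))).Connected) : (Cfsg.commutingGraph (conjugatesOf d)).Connected := by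
  obtain ⟨Z, hZ⟩ : ∃ Z : Subgroup G, Z = (Subgroup.center ↥L).map L.subtype := ⟨_, rfl⟩
  have hd2 : d * d = 1 := by
    have := pow_orderOf_eq_one d
    rw [hd, pow_two] at this
    exact this
  have hoddZ : Odd (Nat.card ((Subgroup.center ↥L).map L.subtype)) := by
    rw [Subgroup.card_map_of_injective L.subtype_injective]
    exact hodd
  -- lifting along the quotient graph
  have hP : ∀ v : ↥(conjugatesOf (QuotientGroup.mk d : G ⧸ (Subgroup.center ↥L).map L.subtype)),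
      ∃ y, y ∈ conjugatesOf d ∧ (QuotientGroup.mk y : G ⧸ (Subgroup.center ↥L).map L.subtype) = v.1 ∧
        Relation.ReflTransGen (R d) d y := by
    intro v
    have hr := hconn.preconnected ⟨QuotientGroup.mk d, mem_conjugatesOf_self⟩ v
    rw [SimpleGraph.reachable_iff_reflTransGen] at hr
    induction hr with
    | refl => exact ⟨d, mem_conjugatesOf_self, rfl, Relation.ReflTransGen.refl⟩
    | tail hab hbc ih =>
      rename_i b c
      obtain ⟨x, hx, hxb, hTx⟩ := ih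
      rw [Cfsg.commutingGraph, SimpleGraph.fromRel_adj] at hbc
      have hcomm : Commute b.1 c.1 := by
        rcases hbc.2 with h | h
        · exact h
        · exact h.symm
      obtain ⟨q, hq⟩ := isConj_iff.1 c.2
      obtain ⟨c₀, rfl⟩ := QuotientGroup.mk_surjective q
      obtain ⟨y₀, hy₀def⟩ : ∃ y₀ : G, y₀ = c₀ * d * c₀⁻¹ := ⟨_, rfl⟩
      have hy₀ : y₀ ∈ conjugatesOf d := isConj_iff.2 ⟨c₀, hy₀def.symm⟩
      have hy₀c : (QuotientGroup.mk y₀ : G ⧸ (Subgroup.center ↥L).map L.subtype) = c.1 := by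
        rw [← hq, hy₀def]; simp
      have hx2 := conj_sq d hd2 hx
      have hy2 := conj_sq d hd2 hy₀
      have hz : y₀ * x * (y₀ * x) ∈ (Subgroup.center ↥L).map L.subtype := by
        have h1 : (QuotientGroup.mk (x * y₀) : G ⧸ (Subgroup.center ↥L).map L.subtype)
            = QuotientGroup.mk (y₀ * x) := by
          calc (QuotientGroup.mk (x * y₀) : G ⧸ (Subgroup.center ↥L).map L.subtype)
              = QuotientGroup.mk x * QuotientGroup.mk y₀ := rfl
            _ = b.1 * c.1 := by rw [hxb, hy₀c]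
            _ = c.1 * b.1 := hcomm
            _ = QuotientGroup.mk y₀ * QuotientGroup.mk x := by rw [hxb, hy₀c]
            _ = QuotientGroup.mk (y₀ * x) := rfl
        have h2 := QuotientGroup.eq.1 h1
        have h3 : (x * y₀)⁻¹ = y₀ * x := by
          rw [mul_inv_rev]
          have e1 : x⁻¹ = x := inv_eq_of_mul_eq_one_left hx2
          have e2 : y₀⁻¹ = y₀ := inv_eq_of_mul_eq_one_left hy2
          rw [e1, e2]
        rw [h3] at h2
        exact h2
      obtain ⟨y, hy, hyZ, hxy⟩ := step ((Subgroup.center ↥L).map L.subtype) d hd2 hoddZ hinv hx hy₀ hz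
      refine ⟨y, hy, ?_, ?_⟩
      · rw [← hy₀c]
        exact (QuotientGroup.eq.2 hyZ).symm
      · exact Relation.ReflTransGen.tail hTx ⟨hx, hy, hxy⟩
  -- G = K Z
  have hKZ : ∀ g : G, ∃ w ∈ (Subgroup.center ↥L).map L.subtype, g * w ∈ K d := by
    intro g
    have hv : (QuotientGroup.mk (g * d * g⁻¹) : G ⧸ (Subgroup.center ↥L).map L.subtype) ∈
        conjugatesOf (QuotientGroup.mk d : G ⧸ (Subgroup.center ↥L).map L.subtype) :=
      isConj_iff.2 ⟨QuotientGroup.mk g, by simp⟩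
    obtain ⟨y, hy, hyv, hTy⟩ := hP ⟨_, hv⟩
    have hw₀ : (g * d * g⁻¹)⁻¹ * y ∈ (Subgroup.center ↥L).map L.subtype :=
      QuotientGroup.eq.1 hyv.symm
    have hw₁ : g⁻¹ * ((g * d * g⁻¹)⁻¹ * y) * g ∈ (Subgroup.center ↥L).map L.subtype := by
      have := hn.conj_mem _ hw₀ g⁻¹
      rwa [inv_inv] at this
    obtain ⟨s, hs, hss⟩ := sqrtZ _ hoddZ _ hw₁
    refine ⟨s⁻¹, Subgroup.inv_mem _ hs, ?_⟩
    rw [mem_K]
    have h1 : d * s * d⁻¹ = s⁻¹ := hinv s hs
    have h2 : s⁻¹ * d = d * s := by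
      calc s⁻¹ * d = (d * s * d⁻¹) * d := by rw [h1]
        _ = d * s := by group
    have h3 : g * s⁻¹ * d * (g * s⁻¹)⁻¹ = y := by
      calc g * s⁻¹ * d * (g * s⁻¹)⁻¹ = g * (s⁻¹ * d) * s * g⁻¹ := by group
        _ = g * d * (s * s) * g⁻¹ := by rw [h2]; group
        _ = y := by rw [hss]; group
    rw [h3]
    exact hTy
  -- L ≤ K
  have hperf : commutator ↥L = ⊤ := hL.1.commutator_eq_top
  have hLK : ∀ l : ↥L, (l : G) ∈ K d := by
    have hle : commutator ↥L ≤ (K d).comap L.subtype := by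
      rw [commutator_eq_closure, Subgroup.closure_le]
      rintro _ ⟨a, b, rfl⟩
      show ((⁅a, b⁆ : ↥L) : G) ∈ K d
      obtain ⟨wa, hwa, hka⟩ := hKZ (a : G)
      obtain ⟨wb, hwb, hkb⟩ := hKZ (b : G)
      obtain ⟨ca, hca, rfl⟩ := Subgroup.mem_map.1 hwa
      obtain ⟨cb, hcb, rfl⟩ := Subgroup.mem_map.1 hwb
      have e : ⁅a * ca, b * cb⁆ = ⁅a, b⁆ := by
        rw [comm_central_left _ _ _ hca, comm_central_right _ _ _ hcb]
      rw [← e]
      have e2 : ((⁅a * ca, b * cb⁆ : ↥L) : G) = ⁅(a : G) * L.subtype ca, (b : G) * L.subtype cb⁆ := by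
        simp [commutatorElement_def]
      rw [e2, commutatorElement_def]
      exact (K d).mul_mem ((K d).mul_mem ((K d).mul_mem hka hkb) ((K d).inv_mem hka)) ((K d).inv_mem hkb)
    intro l
    have : l ∈ commutator ↥L := by rw [hperf]; trivial
    exact hle this
  have hZK : ∀ w ∈ (Subgroup.center ↥L).map L.subtype, w ∈ K d := by
    intro w hw
    obtain ⟨c, _, rfl⟩ := Subgroup.mem_map.1 hw
    exact hLK c
  have hall : ∀ g : G, g ∈ K d := by
    intro g
    obtain ⟨w, hw, hgw⟩ := hKZ g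
    have := (K d).mul_mem hgw ((K d).inv_mem (hZK w hw))
    rwa [mul_inv_cancel_right] at this
  rw [SimpleGraph.connected_iff_exists_forall_reachable]
  refine ⟨⟨d, mem_conjugatesOf_self⟩, ?_⟩
  rintro ⟨x, hx⟩
  obtain ⟨c, rfl⟩ := isConj_iff.1 hx
  exact toReach d ((mem_K d c).1 (hall c)) _ _

end Cfsg.Agent.S5459
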