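import Cfsg.Statements.S5543
-- import your own Cfsg.Agent.* helpers here

set_option autoImplicit false
open Cfsg

namespace Cfsg.Agent.S5543

/-- Let V be a finite-dimensional real vector space with a commutative bilinear product and a positive-definite symmetric bilinear form that associates with the product and satisfies the Norton inequality (the Majorana setting of the definitions). Let X be a group of linear automorphisms of V in which every element squares to the identity, and suppose every non-identity element x of X is a Majorana involution with an axial vector a(x) of squared length 1, such that for any two distinct non-identity x, y the product a(x) ∘ a(y) equals (1/8)(a(x) + a(y) − a(xy)) (the dihedral subalgebra of type 2A whose third axis belongs to the involution xy). Then X has order at most 4. -/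
theorem result {V : Type*} [AddCommGroup V] [Module ℝ V] [FiniteDimensional ℝ V] (mul : V →ₗ[ℝ] V →ₗ[ℝ] V) (B : LinearMap.BilinForm ℝ V) (hV : Cfsg.Axial.IsMajoranaAmbient mul B) (X : Subgroup (V ≃ₗ[ℝ] V)) (hX : ∀ x ∈ X, x * x = 1) (ax : (V ≃ₗ[ℝ] V) → V) (hax : ∀ x ∈ X, x ≠ 1 → Cfsg.Axial.IsMajoranaPair mul B x (ax x)) (h1 : ∀ x ∈ X, x ≠ 1 → B (ax x) (ax x) = 1) (h2A : ∀ x ∈ X, ∀ y ∈ X, x ≠ 1 → y ≠ 1 → x ≠ y → mul (ax x) (ax y) = (1 / 8 : ℝ) • (ax x + ax y - ax (x * y))) : Nat.card ↥X ≤ 4 := by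
  classical
  obtain ⟨hcomm, hsymm, hpos, hassoc, -⟩ := hV
  by_contra hcard
  push Not at hcard
  haveI : Finite ↥X := Nat.finite_of_card_ne_zero (by omega)
  have hex : ∀ s : Finset ↥X, s.card ≤ 4 → ∃ z, z ∉ s := by
    intro s hs
    haveI := Fintype.ofFinite ↥X
    by_contra hc
    push Not at hc
    have h1 : (Finset.univ : Finset ↥X) ⊆ s := fun a _ => hc a
    have h2 := Finset.card_le_card h1
    rw [Finset.card_univ, ← Nat.card_eq_fintype_card] at h2
    omega
  obtain ⟨⟨x, hxX⟩, hx⟩ := hex {1} (by simp)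
  obtain ⟨⟨y, hyX⟩, hy⟩ := hex {1, ⟨x, hxX⟩} (le_trans Finset.card_le_two (by norm_num))
  obtain ⟨⟨z, hzX⟩, hz⟩ := hex {1, ⟨x, hxX⟩, ⟨y, hyX⟩, ⟨x, hxX⟩ * ⟨y, hyX⟩} Finset.card_le_four
  simp only [Finset.mem_insert, Finset.mem_singleton, not_or, ← Subtype.coe_inj, Subgroup.coe_one,
    Subgroup.coe_mul] at hx hy hz
  obtain ⟨hy1, hyx⟩ := hy
  obtain ⟨hz1, hzx, hzy, hzxy⟩ := hz
  -- group facts
  have canc : ∀ u ∈ X, ∀ v, u * (u * v) = v := by
    intro u hu v
    rw [← mul_assoc, hX u hu, one_mul]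
  have comm : ∀ u ∈ X, ∀ v ∈ X, u * v = v * u := by
    intro u hu v hv
    have h := hX (u * v) (X.mul_mem hu hv)
    have h2 : u * (u * v * (u * v)) = u := by rw [h, mul_one]
    rw [mul_assoc, canc u hu] at h2
    have h3 : v * (v * (u * v)) = v * u := by rw [h2]
    rw [canc v hv] at h3
    exact h3
  have hidem : ∀ u ∈ X, u ≠ 1 → mul (ax u) (ax u) = ax u := fun u hu hu1 =>
    (hax u hu hu1).2.2.1.1.2.1
  have hB : ∀ u ∈ X, ∀ v ∈ X, u ≠ 1 → v ≠ 1 → u ≠ v → B (ax u) (ax v) = 1 / 8 := by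
    intro u hu v hv hu1 hv1 huv
    have huvX : u * v ∈ X := X.mul_mem hu hv
    have huv1 : u * v ≠ 1 := by
      intro h
      have := canc u hu v
      rw [h, mul_one] at this
      exact huv this
    have huuv : u ≠ u * v := by
      intro h
      exact hv1 (by simpa using h)
    have e1 : B (ax u) (mul (ax u) (ax v)) = B (mul (ax u) (ax u)) (ax v) := hassoc _ _ _
    have e2 : B (ax u) (mul (ax u) (ax (u * v))) = B (mul (ax u) (ax u)) (ax (u * v)) := hassoc _ _ _
    rw [hidem u hu hu1, h2A u hu v hv hu1 hv1 huv] at e1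
    rw [hidem u hu hu1, h2A u hu (u * v) huvX hu1 huv1 huuv, canc u hu] at e2
    simp only [map_smul, map_add, map_sub, smul_eq_mul, h1 u hu hu1] at e1 e2
    linarith
  have hE : ∀ u ∈ X, ∀ v ∈ X, u ≠ 1 → v ≠ 1 → u ≠ v →
      mul (ax u) (ax v - ax (u * v)) = (1 / 4 : ℝ) • (ax v - ax (u * v)) := by
    intro u hu v hv hu1 hv1 huv
    have huvX : u * v ∈ X := X.mul_mem hu hv
    have huv1 : u * v ≠ 1 := by
      intro h
      have := canc u hu v
      rw [h, mul_one] at this
      exact huv this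
    have huuv : u ≠ u * v := by
      intro h
      exact hv1 (by simpa using h)
    rw [map_sub, h2A u hu v hv hu1 hv1 huv, h2A u hu (u * v) huvX hu1 huv1 huuv, canc u hu]
    module
  -- distinctness facts
  have hxyX : x * y ∈ X := X.mul_mem hxX hyX
  have hxzX : x * z ∈ X := X.mul_mem hxX hzX
  have hyzX : y * z ∈ X := X.mul_mem hyX hzX
  have hxy1 : x * y ≠ 1 := by
    intro h
    have := canc x hxX y
    rw [h, mul_one] at this
    exact hyx this.symm
  have hxz1 : x * z ≠ 1 := by
    intro h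
    have := canc x hxX z
    rw [h, mul_one] at this
    exact hzx this.symm
  have hyz1 : y * z ≠ 1 := by
    intro h
    have := canc y hyX z
    rw [h, mul_one] at this
    exact hzy this.symm
  have hx_yz : x ≠ y * z := by
    intro h
    have := canc y hyX z
    rw [← h, comm y hyX x hxX] at this
    exact hzxy this.symm
  have hy_xz : y ≠ x * z := by
    intro h
    have := canc x hxX z
    rw [← h] at this
    exact hzxy this.symm
  have hxy_xz : x * y ≠ x * z := fun h => hzy (mul_left_cancel h).symm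
  have hyz : y ≠ z := fun h => hzy h.symm
  have hxy_z : x * y ≠ z := fun h => hzxy h.symm
  -- eigenvectors
  have hα := hE x hxX y hyX hx hy1 (fun h => hyx h.symm)
  have hβ := hE x hxX z hzX hx hz1 (fun h => hzx h.symm)
  have hw := hE x hxX (y * z) hyzX hx hyz1 hx_yz
  have e3 : y * (x * z) = x * (y * z) := by
    rw [← mul_assoc, comm y hyX x hxX, mul_assoc]
  have e4 : x * y * (x * z) = y * z := by
    rw [comm x hxX y hyX, mul_assoc, canc x hxX]
  have hprod : mul (ax y - ax (x * y)) (ax z - ax (x * z))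
      = (-(1 / 4) : ℝ) • (ax (y * z) - ax (x * (y * z))) := by
    simp only [map_sub, LinearMap.sub_apply]
    rw [h2A y hyX z hzX hy1 hz1 hyz, h2A y hyX (x * z) hxzX hy1 hxz1 hy_xz,
      h2A (x * y) hxyX z hzX hxy1 hz1 hxy_z, h2A (x * y) hxyX (x * z) hxzX hxy1 hxz1 hxy_xz,
      e3, e4, mul_assoc x y z]
    module
  have hlaw : Cfsg.Axial.monsterLaw (1 / 4 : ℝ) (1 / 32) (1 / 4) (1 / 4) = {1, 0} := by
    unfold Cfsg.Axial.monsterLaw
    rw [if_neg (by norm_num), if_neg (by norm_num), if_pos ⟨rfl, rfl⟩]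
  have hfus := (hax x hxX hx).2.2.1.1.2.2.2 (1 / 4) (by simp [Cfsg.Axial.majoranaSpectrum])
    (1 / 4) (by simp [Cfsg.Axial.majoranaSpectrum]) (ax y - ax (x * y))
    (Module.End.mem_eigenspace_iff.mpr hα) (ax z - ax (x * z)) (Module.End.mem_eigenspace_iff.mpr hβ)
  rw [hlaw, hprod] at hfus
  unfold Cfsg.Axial.eigenSum at hfus
  rw [iSup_insert, iSup_singleton] at hfus
  have hw' : ax (y * z) - ax (x * (y * z)) ∈
      Cfsg.Axial.eigen mul (ax x) 1 ⊔ Cfsg.Axial.eigen mul (ax x) 0 := by
    have := Submodule.smul_mem _ (-4 : ℝ) hfus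
    rw [smul_smul] at this
    have e : (-4 : ℝ) * -(1 / 4) = 1 := by norm_num
    rwa [e, one_smul] at this
  obtain ⟨w1, hw1, w0, hw0, hsum⟩ := Submodule.mem_sup.mp hw'
  have hw1' : mul (ax x) w1 = (1 : ℝ) • w1 := Module.End.mem_eigenspace_iff.mp hw1
  have hw0' : mul (ax x) w0 = (0 : ℝ) • w0 := Module.End.mem_eigenspace_iff.mp hw0
  rw [one_smul] at hw1'
  rw [zero_smul] at hw0'
  rw [← hsum, map_add, hw1', hw0', add_zero] at hw
  -- hw : w1 = (1/4) • (w1 + w0)
  have h30 : w0 = (3 : ℝ) • w1 := by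
    have h4 : (4 : ℝ) • w1 = (4 : ℝ) • ((1 / 4 : ℝ) • (w1 + w0)) := congrArg _ hw
    rw [smul_smul] at h4
    have e : (4 : ℝ) * (1 / 4) = 1 := by norm_num
    rw [e, one_smul] at h4
    have : w0 = (4 : ℝ) • w1 - w1 := by rw [h4]; abel
    rw [this]
    module
  have hw1z : w1 = 0 := by
    have := congrArg (mul (ax x)) h30
    rw [hw0', map_smul, hw1'] at this
    have h3 : (3 : ℝ) ≠ 0 := by norm_num
    exact (smul_eq_zero.mp this.symm).resolve_left h3
  have hwz : ax (y * z) - ax (x * (y * z)) = 0 := by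
    rw [← hsum, h30, hw1z, smul_zero, add_zero]
  have heq : ax (y * z) = ax (x * (y * z)) := sub_eq_zero.mp hwz
  have hxyzX : x * (y * z) ∈ X := X.mul_mem hxX hyzX
  have hxyz1 : x * (y * z) ≠ 1 := by
    intro h
    have := canc x hxX (y * z)
    rw [h, mul_one] at this
    exact hx_yz this
  have hne : y * z ≠ x * (y * z) := by
    intro h
    exact hx (mul_eq_right.mp h.symm)
  have hb1 := hB (y * z) hyzX (x * (y * z)) hxyzX hyz1 hxyz1 hne
  rw [← heq, h1 (y * z) hyzX hyz1] at hb1
  norm_num at hb1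

end Cfsg.Agent.S5543
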