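import Cfsg.Statements.S5545
-- import your own Cfsg.Agent.* helpers here

set_option autoImplicit false
open Cfsg

namespace Cfsg.Agent.S5545

theorem eigen_map {V : Type*} [AddCommGroup V] [Module ℝ V] (mul : V →ₗ[ℝ] V →ₗ[ℝ] V)
    (ν : V ≃ₗ[ℝ] V) (hν : ∀ u v : V, ν (mul u v) = mul (ν u) (ν v)) (a : V) (c : ℝ) :
    Axial.eigen mul (ν a) c = (Axial.eigen mul a c).map (ν : V →ₗ[ℝ] V) := by
  ext v
  rw [Submodule.mem_map_equiv]
  unfold Axial.eigen
  rw [Module.End.mem_eigenspace_iff, Module.End.mem_eigenspace_iff]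
  constructor
  · intro h
    apply ν.injective
    rw [hν, ν.apply_symm_apply, map_smul, ν.apply_symm_apply]
    exact h
  · intro h
    have := congrArg ν h
    rw [hν, ν.apply_symm_apply, map_smul, ν.apply_symm_apply] at this
    exact this

theorem eigenSum_map {V : Type*} [AddCommGroup V] [Module ℝ V] (mul : V →ₗ[ℝ] V →ₗ[ℝ] V)
    (ν : V ≃ₗ[ℝ] V) (hν : ∀ u v : V, ν (mul u v) = mul (ν u) (ν v)) (a : V) (S : Set ℝ) :
    Axial.eigenSum mul (ν a) S = (Axial.eigenSum mul a S).map (ν : V →ₗ[ℝ] V) := by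
  unfold Axial.eigenSum
  simp only [Submodule.map_iSup, eigen_map mul ν hν]

theorem pair_transport {V : Type*} [AddCommGroup V] [Module ℝ V] (mul : V →ₗ[ℝ] V →ₗ[ℝ] V)
    (B : LinearMap.BilinForm ℝ V) (μ ν : V ≃ₗ[ℝ] V) (a : V)
    (h : Axial.IsMajoranaPair mul B μ a) (hν : ∀ u v : V, ν (mul u v) = mul (ν u) (ν v))
    (hc : μ * ν = ν * μ) : Axial.IsMajoranaPair mul B μ (ν a) := by
  obtain ⟨hm, hB, ⟨⟨hne, hidem, htop, hfus⟩, hprim⟩, hfix, hneg⟩ := h
  have hcomm : ∀ w, μ (ν w) = ν (μ w) := fun w => by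
    have := congrArg (fun f : V ≃ₗ[ℝ] V => f w) hc
    simpa [LinearEquiv.mul_apply] using this
  refine ⟨hm, hB, ⟨⟨?_, ?_, ?_, ?_⟩, ?_⟩, ?_, ?_⟩
  · intro h0
    apply hne
    apply ν.injective
    rw [h0, map_zero]
  · rw [← hν, hidem]
  · rw [eigenSum_map mul ν hν, htop, Submodule.map_top, LinearEquiv.range]
  · intro c hc d hd u hu v hv
    rw [eigen_map mul ν hν, Submodule.mem_map_equiv] at hu hv
    rw [eigenSum_map mul ν hν, Submodule.mem_map_equiv]
    have := hfus c hc d hd _ hu _ hv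
    have e : ν.symm (mul u v) = mul (ν.symm u) (ν.symm v) := by
      apply ν.injective
      rw [hν]
      simp
    rw [e]
    exact this
  · rw [eigen_map mul ν hν, hprim, Submodule.map_span, Set.image_singleton]
    rfl
  · intro v hv
    rw [eigenSum_map mul ν hν, Submodule.mem_map_equiv] at hv
    have := hfix _ hv
    simp only [LinearEquiv.coe_coe] at this ⊢
    have e : v = ν (ν.symm v) := (ν.apply_symm_apply v).symm
    rw [e, hcomm, this]
  · intro v hv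
    rw [eigen_map mul ν hν, Submodule.mem_map_equiv] at hv
    have := hneg _ hv
    simp only [LinearEquiv.coe_coe] at this ⊢
    have e : v = ν (ν.symm v) := (ν.apply_symm_apply v).symm
    rw [e, hcomm, this, map_neg]

theorem fixed_decomp {V : Type*} [AddCommGroup V] [Module ℝ V] (mul : V →ₗ[ℝ] V →ₗ[ℝ] V)
    (B : LinearMap.BilinForm ℝ V) (μ : V ≃ₗ[ℝ] V) (a b : V)
    (h : Axial.IsMajoranaPair mul B μ a) (hb : μ b = b) :
    ∃ (t : ℝ) (v₀ v₄ : V), b = t • a + v₀ + v₄ ∧ mul a v₀ = 0 ∧ mul a v₄ = (1 / 4 : ℝ) • v₄ := by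
  obtain ⟨hm, hB, ⟨⟨hne, hidem, htop, hfus⟩, hprim⟩, hfix, hneg⟩ := h
  have hbt : b ∈ Axial.eigenSum mul a Axial.majoranaSpectrum := by rw [htop]; trivial
  unfold Axial.eigenSum Axial.majoranaSpectrum at hbt
  rw [iSup_insert, iSup_insert, iSup_insert, iSup_singleton] at hbt
  obtain ⟨e1, he1, r1, hr1, rfl⟩ := Submodule.mem_sup.mp hbt
  obtain ⟨e0, he0, r2, hr2, rfl⟩ := Submodule.mem_sup.mp hr1
  obtain ⟨e4, he4, e32, he32, rfl⟩ := Submodule.mem_sup.mp hr2
  have hsub : ∀ c ∈ ({1, 0, 1 / 4} : Set ℝ),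
      Axial.eigen mul a c ≤ Axial.eigenSum mul a {1, 0, 1 / 4} :=
    fun c hc => le_iSup₂ (f := fun c _ => Axial.eigen mul a c) c hc
  have f1 := hfix e1 (hsub 1 (by simp) he1)
  have f0 := hfix e0 (hsub 0 (by simp) he0)
  have f4 := hfix e4 (hsub (1 / 4) (by simp) he4)
  have f32 := hneg e32 he32
  simp only [LinearEquiv.coe_coe] at f1 f0 f4 f32
  rw [map_add, map_add, map_add, f1, f0, f4, f32] at hb
  have h32 : e32 = 0 := by
    have : (2 : ℝ) • e32 = 0 := by linear_combination (norm := module) -hb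
    exact (smul_eq_zero.mp this).resolve_left (by norm_num)
  rw [hprim] at he1
  obtain ⟨t, rfl⟩ := Submodule.mem_span_singleton.mp he1
  refine ⟨t, e0, e4, ?_, ?_, ?_⟩
  · rw [h32]
    abel
  · have := Module.End.mem_eigenspace_iff.mp he0
    rw [zero_smul] at this
    exact this
  · exact Module.End.mem_eigenspace_iff.mp he4

theorem fusion_facts {V : Type*} [AddCommGroup V] [Module ℝ V] (mul : V →ₗ[ℝ] V →ₗ[ℝ] V) (a : V)
    (h : Axial.IsPrimitiveAxis mul (Axial.monsterLaw (1 / 4) (1 / 32)) Axial.majoranaSpectrum a) :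
    (∀ x y : V, mul a x = 0 → mul a y = 0 → mul a (mul x y) = 0) ∧
    (∀ x y : V, mul a x = 0 → mul a y = (1 / 4 : ℝ) • y →
      mul a (mul x y) = (1 / 4 : ℝ) • mul x y) ∧
    (∀ x y : V, mul a x = (1 / 4 : ℝ) • x → mul a y = (1 / 4 : ℝ) • y →
      ∃ (c : ℝ) (w : V), mul x y = c • a + w ∧ mul a w = 0) := by
  obtain ⟨⟨hne, hidem, htop, hfus⟩, hprim⟩ := h
  have law00 : Axial.monsterLaw (1 / 4 : ℝ) (1 / 32) 0 0 = {0} := by
    unfold Axial.monsterLaw
    rw [if_neg (by norm_num), if_neg (by norm_num), if_neg (by norm_num), if_neg (by norm_num),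
      if_pos rfl]
  have law04 : Axial.monsterLaw (1 / 4 : ℝ) (1 / 32) 0 (1 / 4) = {1 / 4} := by
    unfold Axial.monsterLaw
    rw [if_neg (by norm_num), if_neg (by norm_num), if_neg (by norm_num), if_pos (Or.inr rfl)]
  have law44 : Axial.monsterLaw (1 / 4 : ℝ) (1 / 32) (1 / 4) (1 / 4) = {1, 0} := by
    unfold Axial.monsterLaw
    rw [if_neg (by norm_num), if_neg (by norm_num), if_pos ⟨rfl, rfl⟩]
  have m0 : (0 : ℝ) ∈ Axial.majoranaSpectrum := by simp [Axial.majoranaSpectrum]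
  have m4 : (1 / 4 : ℝ) ∈ Axial.majoranaSpectrum := by simp [Axial.majoranaSpectrum]
  have e0 : ∀ x : V, mul a x = 0 → x ∈ Axial.eigen mul a 0 := fun x hx =>
    Module.End.mem_eigenspace_iff.mpr (by rw [hx, zero_smul])
  have e4 : ∀ x : V, mul a x = (1 / 4 : ℝ) • x → x ∈ Axial.eigen mul a (1 / 4) := fun x hx =>
    Module.End.mem_eigenspace_iff.mpr hx
  refine ⟨?_, ?_, ?_⟩
  · intro x y hx hy
    have := hfus 0 m0 0 m0 x (e0 x hx) y (e0 y hy)
    rw [law00] at this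
    unfold Axial.eigenSum at this
    rw [iSup_singleton] at this
    have := Module.End.mem_eigenspace_iff.mp this
    rw [zero_smul] at this
    exact this
  · intro x y hx hy
    have := hfus 0 m0 (1 / 4) m4 x (e0 x hx) y (e4 y hy)
    rw [law04] at this
    unfold Axial.eigenSum at this
    rw [iSup_singleton] at this
    exact Module.End.mem_eigenspace_iff.mp this
  · intro x y hx hy
    have := hfus (1 / 4) m4 (1 / 4) m4 x (e4 x hx) y (e4 y hy)
    rw [law44] at this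
    unfold Axial.eigenSum at this
    rw [iSup_insert, iSup_singleton] at this
    obtain ⟨w1, hw1, w0, hw0, hsum⟩ := Submodule.mem_sup.mp this
    rw [hprim] at hw1
    obtain ⟨c, rfl⟩ := Submodule.mem_span_singleton.mp hw1
    refine ⟨c, w0, hsum.symm, ?_⟩
    have := Module.End.mem_eigenspace_iff.mp hw0
    rw [zero_smul] at this
    exact this

theorem decomp_zero {V : Type*} [AddCommGroup V] [Module ℝ V] (mul : V →ₗ[ℝ] V →ₗ[ℝ] V) (a : V)
    (α : ℝ) (x₀ x₄ : V) (ha : mul a a = a) (h0 : mul a x₀ = 0) (h4 : mul a x₄ = (1 / 4 : ℝ) • x₄)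
    (h : α • a + x₀ + x₄ = 0) : α • a = 0 ∧ x₀ = 0 ∧ x₄ = 0 := by
  have e1 : α • a + (1 / 4 : ℝ) • x₄ = 0 := by
    have := congrArg (mul a) h
    rw [map_add, map_add, map_smul, ha, h0, h4, map_zero, add_zero] at this
    exact this
  have e2 : α • a + (1 / 16 : ℝ) • x₄ = 0 := by
    have := congrArg (mul a) e1
    rw [map_add, map_smul, map_smul, ha, h4, map_zero] at this
    linear_combination (norm := module) this
  have hx4 : x₄ = 0 := by
    have : (3 / 16 : ℝ) • x₄ = 0 := by linear_combination (norm := module) e1 - e2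
    exact (smul_eq_zero.mp this).resolve_left (by norm_num)
  have hαa : α • a = 0 := by
    rw [hx4, smul_zero, add_zero] at e1
    exact e1
  refine ⟨hαa, ?_, hx4⟩
  rw [hαa, hx4, zero_add, add_zero] at h
  exact h

theorem keyB {V : Type*} [AddCommGroup V] [Module ℝ V] (mul : V →ₗ[ℝ] V →ₗ[ℝ] V)
    (B : LinearMap.BilinForm ℝ V)
    (hcomm : ∀ u v : V, mul u v = mul v u)
    (hpos : ∀ u : V, u ≠ 0 → 0 < B u u) (hsymm : ∀ u v : V, B u v = B v u)
    (hassoc : ∀ u v w : V, B u (mul v w) = B (mul u v) w)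
    (a b : V) (ha : mul a a = a) (hb : mul b b = b) (ha0 : a ≠ 0) (hBa : B a a = 1)
    (hBb : B b b = 1) (hab : a ≠ b)
    (F00 : ∀ x y : V, mul a x = 0 → mul a y = 0 → mul a (mul x y) = 0)
    (F04 : ∀ x y : V, mul a x = 0 → mul a y = (1 / 4 : ℝ) • y →
      mul a (mul x y) = (1 / 4 : ℝ) • mul x y)
    (F44 : ∀ x y : V, mul a x = (1 / 4 : ℝ) • x → mul a y = (1 / 4 : ℝ) • y →
      ∃ (c : ℝ) (w : V), mul x y = c • a + w ∧ mul a w = 0)
    (t : ℝ) (v₀ v₄ : V) (hdec : b = t • a + v₀ + v₄) (hv0 : mul a v₀ = 0)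
    (hv4 : mul a v₄ = (1 / 4 : ℝ) • v₄)
    (s : ℝ) (u₀ u₄ : V) (hdec' : a = s • b + u₀ + u₄) (hu0 : mul b u₀ = 0)
    (hu4 : mul b u₄ = (1 / 4 : ℝ) • u₄) :
    (B a b = 0 ∧ mul a b = 0) ∨
    (B a b = 1 / 8 ∧
      mul (a + b - (8 : ℝ) • mul a b) (a + b - (8 : ℝ) • mul a b) = a + b - (8 : ℝ) • mul a b ∧
      mul a (a + b - (8 : ℝ) • mul a b) = (1 / 8 : ℝ) • (a + (a + b - (8 : ℝ) • mul a b) - b)) := by
  have hBav0 : B a v₀ = 0 := by
    have := hassoc a a v₀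
    rw [ha, hv0, map_zero] at this
    exact this.symm
  have hBav4 : B a v₄ = 0 := by
    have := hassoc a a v₄
    rw [ha, hv4, map_smul, smul_eq_mul] at this
    linarith
  have ht : B a b = t := by
    rw [hdec, map_add, map_add, map_smul, hBa, hBav0, hBav4]
    simp
  have hBbu0 : B b u₀ = 0 := by
    have := hassoc b b u₀
    rw [hb, hu0, map_zero] at this
    exact this.symm
  have hBbu4 : B b u₄ = 0 := by
    have := hassoc b b u₄
    rw [hb, hu4, map_smul, smul_eq_mul] at this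
    linarith
  have hs : s = t := by
    have : B b a = s := by
      rw [hdec', map_add, map_add, map_smul, hBb, hBbu0, hBbu4]
      simp
    rw [← this, hsymm b a, ht]
  rw [hs] at hdec'
  have hmab : mul a b = t • a + (1 / 4 : ℝ) • v₄ := by
    rw [hdec, map_add, map_add, map_smul, ha, hv0, hv4, add_zero]
  have hmba : mul b a = t • b + (1 / 4 : ℝ) • u₄ := by
    rw [hdec', map_add, map_add, map_smul, hb, hu0, hu4, add_zero]
  have hu4' : u₄ = v₄ + (4 * t) • (a - b) := by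
    have := hcomm a b
    rw [hmab, hmba] at this
    linear_combination (norm := module) (-4 : ℝ) • this
  have hu0' : u₀ = (1 - 4 * t) • a + (3 * t) • b - v₄ := by
    linear_combination (norm := module) (-1 : ℝ) • hdec' - hu4'
  have hP := F04 v₀ v₄ hv0 hv4
  have hR := F00 v₀ v₀ hv0 hv0
  obtain ⟨c, w, hvv, hw⟩ := F44 v₄ v₄ hv4 hv4
  have hbb : mul b b = (t * t + c) • a + (mul v₀ v₀ + w)
      + ((t / 2) • v₄ + (2 : ℝ) • mul v₀ v₄) := by
    conv_lhs => rw [hdec]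
    simp only [map_add, map_smul, LinearMap.add_apply, LinearMap.smul_apply, ha, hv0, hv4,
      hcomm v₀ a, hcomm v₄ a, hcomm v₄ v₀, hvv]
    module
  have h1 : (t * t + c - t) • a + (mul v₀ v₀ + w - v₀)
      + ((t / 2 - 1) • v₄ + (2 : ℝ) • mul v₀ v₄) = 0 := by
    have e := hb
    rw [hbb] at e
    linear_combination (norm := module) e + hdec
  obtain ⟨h1a, h1b, h1c⟩ := decomp_zero mul a _ _ _ ha
    (by rw [map_sub, map_add, hR, hw, hv0]; simp)
    (by rw [map_add, map_smul, map_smul, hv4, hP]; module) h1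
  have hc : c = t - t * t := by
    have := (smul_eq_zero.mp h1a).resolve_right ha0
    linarith
  have hPval : mul v₀ v₄ = (1 / 2 - t / 4) • v₄ := by
    linear_combination (norm := module) (1 / 2 : ℝ) • h1c
  have hbv4 : mul b v₄ = (1 / 2 : ℝ) • v₄ + mul v₄ v₄ := by
    conv_lhs => rw [hdec]
    simp only [map_add, map_smul, LinearMap.add_apply, LinearMap.smul_apply, hv4, hPval]
    module
  have h2 : ((1 - 4 * t) * t + 3 * t * t - c) • a + ((3 * t) • v₀ - w)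
      + (2 * t - 1 / 4) • v₄ = 0 := by
    have e := hu0
    rw [hu0', map_sub, map_add, map_smul, map_smul, hcomm b a, hmab, hb, hbv4, hvv] at e
    linear_combination (norm := module) e - (3 * t) • hdec
  obtain ⟨h2a, h2b, h2c⟩ := decomp_zero mul a _ _ _ ha
    (by rw [map_sub, map_smul, hv0, hw]; simp)
    (by rw [map_smul, hv4]; module) h2
  rcases smul_eq_zero.mp h2c with h8 | hv4z
  · right
    have ht8 : t = 1 / 8 := by linarith
    refine ⟨by rw [ht, ht8], ?_, ?_⟩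
    · have e2 : a + b - (8 : ℝ) • mul a b = b - (2 : ℝ) • v₄ := by
        rw [hmab, ht8]
        module
      rw [e2]
      simp only [map_sub, map_smul, LinearMap.sub_apply, LinearMap.smul_apply, hb, hbv4,
        hcomm v₄ b]
      module
    · simp only [map_sub, map_add, map_smul, ha, hv4, hmab, ht8]
      module
  · left
    have hc0 : c = 0 := by
      rw [hv4z] at hvv
      simp only [map_zero] at hvv
      have := decomp_zero mul a c w 0 ha hw (by simp) (by rw [add_zero]; exact hvv.symm)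
      exact (smul_eq_zero.mp this.1).resolve_right ha0
    have ht01 : t = 0 ∨ t = 1 := by
      have : t * (1 - t) = 0 := by rw [hc0] at hc; linarith
      rcases mul_eq_zero.mp this with h | h
      · left; exact h
      · right; linarith
    rcases ht01 with h | h
    · refine ⟨by rw [ht, h], ?_⟩
      rw [hmab, h, hv4z]
      simp
    · exfalso
      apply hab
      by_contra hne
      have := hpos (a - b) (sub_ne_zero.mpr hne)
      rw [map_sub, map_sub, LinearMap.sub_apply, LinearMap.sub_apply, hBa, hBb, hsymm b a, ht, h]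
        at this
      norm_num at this

/-- Let V be a finite-dimensional real vector space with a commutative bilinear product and a positive-definite symmetric bilinear form that associates with the product and satisfies the Norton inequality (the Majorana setting of the definitions). Let μ₀, μ₁ be commuting Majorana involutions with distinct axial vectors a₀ ≠ a₁ of squared length 1, each involution having no other axial vector. Then either a₀ and a₁ are orthogonal with a₀ ∘ a₁ = 0 (type 2B), or their inner product is 1/8 and, with a₂ = a₀ + a₁ − 8 a₀ ∘ a₁, the vector a₂ is an idempotent and a₀ ∘ a₂ = (1/8)(a₀ + a₂ − a₁), a₁ ∘ a₂ = (1/8)(a₁ + a₂ − a₀) (type 2A: the three idempotents span a subalgebra with aᵢ ∘ aⱼ = (1/8)(aᵢ + aⱼ − aₖ)). -/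
theorem result {V : Type*} [AddCommGroup V] [Module ℝ V] [FiniteDimensional ℝ V] (mul : V →ₗ[ℝ] V →ₗ[ℝ] V) (B : LinearMap.BilinForm ℝ V) (hV : Cfsg.Axial.IsMajoranaAmbient mul B) (μ₀ μ₁ : V ≃ₗ[ℝ] V) (a₀ a₁ : V) (h₀ : Cfsg.Axial.IsMajoranaPair mul B μ₀ a₀) (h₁ : Cfsg.Axial.IsMajoranaPair mul B μ₁ a₁) (hu₀ : ∀ a : V, Cfsg.Axial.IsMajoranaPair mul B μ₀ a → a = a₀) (hu₁ : ∀ a : V, Cfsg.Axial.IsMajoranaPair mul B μ₁ a → a = a₁) (hn₀ : B a₀ a₀ = 1) (hn₁ : B a₁ a₁ = 1) (hc : μ₀ * μ₁ = μ₁ * μ₀) (hne : a₀ ≠ a₁) : (B a₀ a₁ = 0 ∧ mul a₀ a₁ = 0) ∨ (B a₀ a₁ = 1 / 8 ∧ mul (a₀ + a₁ - (8 : ℝ) • mul a₀ a₁) (a₀ + a₁ - (8 : ℝ) • mul a₀ a₁) = a₀ + a₁ - (8 : ℝ) • mul a₀ a₁ ∧ mul a₀ (a₀ + a₁ - (8 : ℝ) • mul a₀ a₁) = (1 / 8 : ℝ) • (a₀ + (a₀ + a₁ - (8 : ℝ) • mul a₀ a₁) - a₁) ∧ mul a₁ (a₀ + a₁ - (8 : ℝ) • mul a₀ a₁) = (1 / 8 : ℝ) • (a₁ + (a₀ + a₁ - (8 : ℝ) • mul a₀ a₁) - a₀)) := by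
  obtain ⟨hcomm, hsymm, hpos, hassoc, -⟩ := hV
  have hfix0 : μ₁ a₀ = a₀ :=
    hu₀ _ (Cfsg.Agent.S5545.pair_transport mul B μ₀ μ₁ a₀ h₀ h₁.1 hc)
  have hfix1 : μ₀ a₁ = a₁ :=
    hu₁ _ (Cfsg.Agent.S5545.pair_transport mul B μ₁ μ₀ a₁ h₁ h₀.1 hc.symm)
  obtain ⟨t, v₀, v₄, hdec, hv0, hv4⟩ := Cfsg.Agent.S5545.fixed_decomp mul B μ₀ a₀ a₁ h₀ hfix1
  obtain ⟨s, u₀, u₄, hdec', hu0, hu4⟩ := Cfsg.Agent.S5545.fixed_decomp mul B μ₁ a₁ a₀ h₁ hfix0
  obtain ⟨F00, F04, F44⟩ := Cfsg.Agent.S5545.fusion_facts mul a₀ h₀.2.2.1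
  obtain ⟨G00, G04, G44⟩ := Cfsg.Agent.S5545.fusion_facts mul a₁ h₁.2.2.1
  have K1 := Cfsg.Agent.S5545.keyB mul B hcomm hpos hsymm hassoc a₀ a₁ h₀.2.2.1.1.2.1
    h₁.2.2.1.1.2.1 h₀.2.2.1.1.1 hn₀ hn₁ hne F00 F04 F44 t v₀ v₄ hdec hv0 hv4 s u₀ u₄ hdec' hu0 hu4
  have K2 := Cfsg.Agent.S5545.keyB mul B hcomm hpos hsymm hassoc a₁ a₀ h₁.2.2.1.1.2.1
    h₀.2.2.1.1.2.1 h₁.2.2.1.1.1 hn₁ hn₀ hne.symm G00 G04 G44 s u₀ u₄ hdec' hu0 hu4 t v₀ v₄ hdec
    hv0 hv4
  rcases K1 with ⟨h1, h2⟩ | ⟨h1, h2, h3⟩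
  · left
    exact ⟨h1, h2⟩
  · right
    rcases K2 with ⟨k1, k2⟩ | ⟨k1, k2, k3⟩
    · exfalso
      rw [hsymm a₁ a₀, h1] at k1
      norm_num at k1
    · refine ⟨h1, h2, h3, ?_⟩
      have e : a₁ + a₀ - (8 : ℝ) • mul a₁ a₀ = a₀ + a₁ - (8 : ℝ) • mul a₀ a₁ := by
        rw [hcomm a₁ a₀, add_comm]
      rw [e] at k3
      exact k3

end Cfsg.Agent.S5545
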