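import Cfsg.Statements.S5623
-- import your own Cfsg.Agent.* helpers here
import Mathlib
import Cfsg.Agent.Lib.Helper7.Golay24

set_option autoImplicit false
open Cfsg

namespace Cfsg.Agent.S5623

/-- Let C be a self-dual binary code of length 24 with minimum weight at least 8 (a 12-dimensional subspace of the 24-dimensional space over the field with two elements, any two of whose words have dot product zero, with no non-zero word of weight below 8 — an abstract extended binary Golay code). Then every coset w + C of C in the ambient space contains either exactly one word of weight at most 4, which then has weight at most 3, or exactly six words of weight at most 4, all of weight exactly 4 and with pairwise disjoint supports (a sextet). -/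
theorem result (C : Submodule (ZMod 2) (Fin 24 → ZMod 2)) (hdim : Module.finrank (ZMod 2) C = 12) (horth : ∀ v ∈ C, ∀ w ∈ C, ∑ i, v i * w i = 0) (hmin : ∀ w ∈ C, w ≠ 0 → 8 ≤ hammingNorm w) (w : Fin 24 → ZMod 2) : (∃ u : Fin 24 → ZMod 2, {u : Fin 24 → ZMod 2 | u - w ∈ C ∧ hammingNorm u ≤ 4} = {u} ∧ hammingNorm u ≤ 3) ∨ ({u : Fin 24 → ZMod 2 | u - w ∈ C ∧ hammingNorm u ≤ 4}.ncard = 6 ∧ ∀ u ∈ {u : Fin 24 → ZMod 2 | u - w ∈ C ∧ hammingNorm u ≤ 4}, hammingNorm u = 4 ∧ ∀ u' ∈ {u : Fin 24 → ZMod 2 | u - w ∈ C ∧ hammingNorm u ≤ 4}, u ≠ u' → Disjoint (Finset.univ.filter fun i => u i ≠ 0) (Finset.univ.filter fun i => u' i ≠ 0)) := by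
  classical
  have h : Cfsg.Agent.Lib.Helper7.G24Hyp C := ⟨hdim, horth, hmin⟩
  rcases h.coset w with ⟨hA, hT⟩ | ⟨hA, hT⟩
  · left
    obtain ⟨u, hu⟩ := Finset.card_eq_one.mp hA
    have humem : u ∈ Finset.univ.filter
        (fun u : Fin 24 → ZMod 2 => hammingNorm u ≤ 3 ∧ u - w ∈ C) := by rw [hu]; simp
    simp only [Finset.mem_filter, Finset.mem_univ, true_and] at humem
    refine ⟨u, ?_, humem.1⟩
    ext v
    simp only [Set.mem_setOf_eq, Set.mem_singleton_iff]
    constructor
    · rintro ⟨hvC, hv4⟩
      rcases Nat.lt_or_ge (hammingNorm v) 4 with hlt | hge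
      · have hv : v ∈ Finset.univ.filter
            (fun u : Fin 24 → ZMod 2 => hammingNorm u ≤ 3 ∧ u - w ∈ C) := by
          simp only [Finset.mem_filter, Finset.mem_univ, true_and]; exact ⟨by omega, hvC⟩
        rw [hu] at hv; simpa using hv
      · have hv : v ∈ Finset.univ.filter
            (fun u : Fin 24 → ZMod 2 => hammingNorm u = 4 ∧ u - w ∈ C) := by
          simp only [Finset.mem_filter, Finset.mem_univ, true_and]; exact ⟨by omega, hvC⟩
        rw [Finset.card_eq_zero] at hT
        rw [hT] at hv
        simp at hv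
    · rintro rfl; exact ⟨humem.2, by omega⟩
  · right
    have hset : {u : Fin 24 → ZMod 2 | u - w ∈ C ∧ hammingNorm u ≤ 4} =
        ↑(Finset.univ.filter (fun u : Fin 24 → ZMod 2 => hammingNorm u = 4 ∧ u - w ∈ C)) := by
      ext v
      simp only [Set.mem_setOf_eq, Finset.coe_filter, Finset.mem_univ, true_and]
      constructor
      · rintro ⟨hvC, hv4⟩
        rcases Nat.lt_or_ge (hammingNorm v) 4 with hlt | hge
        · have hv : v ∈ Finset.univ.filter
              (fun u : Fin 24 → ZMod 2 => hammingNorm u ≤ 3 ∧ u - w ∈ C) := by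
            simp only [Finset.mem_filter, Finset.mem_univ, true_and]; exact ⟨by omega, hvC⟩
          rw [Finset.card_eq_zero] at hA
          rw [hA] at hv
          simp at hv
        · exact ⟨by omega, hvC⟩
      · rintro ⟨h4, hvC⟩; exact ⟨hvC, by omega⟩
    rw [hset]
    refine ⟨by rw [Set.ncard_coe_finset]; exact hT, ?_⟩
    intro u hu
    simp only [Finset.coe_filter, Finset.mem_univ, true_and, Set.mem_setOf_eq] at hu
    refine ⟨hu.1, ?_⟩
    intro u' hu' hne
    simp only [Finset.coe_filter, Finset.mem_univ, true_and, Set.mem_setOf_eq] at hu'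
    have hd := h.dist hu.2 hu'.2 hne
    show Disjoint (Cfsg.support₂ u) (Cfsg.support₂ u')
    rw [Finset.disjoint_iff_inter_eq_empty, ← Finset.card_eq_zero]
    omega

end Cfsg.Agent.S5623
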