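import Cfsg.Statements.S5625
-- import your own Cfsg.Agent.* helpers here
import Cfsg.Agent.Lib.Helper7.Steiner

set_option autoImplicit false
open Cfsg

namespace Cfsg.Agent.S5625

open Cfsg.Agent.Lib.Helper7

/-- In any Steiner system S(5, 8, 24) and for any set Y of three points, the blocks meeting Y in exactly 3, 2, 1 and 0 points number 21, 168, 360 and 210 respectively (so there are 759 blocks in all). -/
theorem result (α : Type*) [Fintype α] [DecidableEq α] (hα : Fintype.card α = 24) (B : Set (Finset α)) (hB : Cfsg.IsSteinerSystem 5 8 B) (Y : Finset α) (hY : Y.card = 3) : {b : Finset α | b ∈ B ∧ (b ∩ Y).card = 3}.ncard = 21 ∧ {b : Finset α | b ∈ B ∧ (b ∩ Y).card = 2}.ncard = 168 ∧ {b : Finset α | b ∈ B ∧ (b ∩ Y).card = 1}.ncard = 360 ∧ {b : Finset α | b ∈ B ∧ (b ∩ Y).card = 0}.ncard = 210 := by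
  classical
  have hfin : B.Finite := Set.toFinite B
  obtain ⟨Bf, hBf⟩ : ∃ Bf : Finset (Finset α), ∀ b, b ∈ Bf ↔ b ∈ B :=
    ⟨hfin.toFinset, fun b => Set.Finite.mem_toFinset hfin⟩
  have hm : ∀ c ∈ Bf, (c ∩ Y).card < 4 := by
    intro c _
    have h9 := Finset.card_le_card (Finset.inter_subset_right : c ∩ Y ⊆ Y)
    omega
  have h0 := st_moment hB Bf hBf Y 0 (by norm_num)
  have h1 := st_moment hB Bf hBf Y 1 (by norm_num)
  have h2 := st_moment hB Bf hBf Y 2 (by norm_num)
  have h3 := st_moment hB Bf hBf Y 3 (by norm_num)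
  rw [st_sum_fiber Bf Y 4 hm (fun j => Nat.choose j 0), hα, hY] at h0
  rw [st_sum_fiber Bf Y 4 hm (fun j => Nat.choose j 1), hα, hY] at h1
  rw [st_sum_fiber Bf Y 4 hm (fun j => Nat.choose j 2), hα, hY] at h2
  rw [st_sum_fiber Bf Y 4 hm (fun j => Nat.choose j 3), hα, hY] at h3
  simp only [Finset.sum_range_succ, Finset.sum_range_zero] at h0 h1 h2 h3
  norm_num [Nat.choose, -Finset.card_eq_zero] at h0 h1 h2 h3
  have hset : ∀ j, {b : Finset α | b ∈ B ∧ (b ∩ Y).card = j} =
      ↑(Bf.filter (fun c => (c ∩ Y).card = j)) := by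
    intro j
    ext c
    simp only [Set.mem_setOf_eq, Finset.coe_filter, hBf]
  rw [hset, hset, hset, hset, Set.ncard_coe_finset, Set.ncard_coe_finset, Set.ncard_coe_finset,
    Set.ncard_coe_finset]
  omega

end Cfsg.Agent.S5625
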