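import Cfsg.Statements.S5626
-- import your own Cfsg.Agent.* helpers here
import Mathlib
import Cfsg.Agent.Lib.Helper7.Plane4b

set_option autoImplicit false
open Cfsg

namespace Cfsg.Agent.S5626

/-- Uniqueness of the projective plane of order 4: any two Steiner systems S(2, 5, 21) (21 points, lines of 5 points, two points on exactly one line) are isomorphic. -/
theorem result {α β : Type*} [Fintype α] [DecidableEq α] [Fintype β] [DecidableEq β] (hα : Fintype.card α = 21) (hβ : Fintype.card β = 21) {L : Set (Finset α)} {L' : Set (Finset β)} (hL : Cfsg.IsSteinerSystem 2 5 L) (hL' : Cfsg.IsSteinerSystem 2 5 L') : Cfsg.SetSystemIso L L' := by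
  classical
  have c1 := Cfsg.Agent.Lib.Helper7.p4_hyperoval_count hα hL
  have c2 := Cfsg.Agent.Lib.Helper7.p4_hyperoval_count hβ hL'
  obtain ⟨H, hH⟩ := Finset.card_pos.mp (by rw [c1]; norm_num : 0 < _)
  obtain ⟨H', hH'⟩ := Finset.card_pos.mp (by rw [c2]; norm_num : 0 < _)
  rw [Finset.mem_filter, Finset.mem_powersetCard] at hH hH'
  have hyp : Cfsg.Agent.Lib.Helper7.P4Hyp L H := ⟨hα, hL, hH.1.2, hH.2⟩
  have hyp' : Cfsg.Agent.Lib.Helper7.P4Hyp L' H' := ⟨hβ, hL', hH'.1.2, hH'.2⟩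
  have hc : H.card = H'.card := by rw [hH.1.2, hH'.1.2]
  let e0 : H ≃ H' := Finset.equivOfCardEq hc
  obtain ⟨b0, hb0⟩ : H'.Nonempty := Finset.card_pos.mp (by rw [hH'.1.2]; norm_num)
  let σ : α → β := fun a => if ha : a ∈ H then (e0 ⟨a, ha⟩ : β) else b0
  have hσ1 : ∀ a (ha : a ∈ H), σ a = (e0 ⟨a, ha⟩ : β) := fun a ha => dif_pos ha
  have hinj : Set.InjOn σ H := by
    intro a ha b hb hab
    rw [Finset.mem_coe] at ha hb
    rw [hσ1 a ha, hσ1 b hb] at hab
    have := e0.injective (Subtype.ext hab)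
    exact congrArg Subtype.val this
  have hmaps : ∀ a ∈ H, σ a ∈ H' := by
    intro a ha; rw [hσ1 a ha]; exact (e0 ⟨a, ha⟩).2
  have hsurj : ∀ b' ∈ H', ∃ a ∈ H, σ a = b' := by
    intro b' hb'
    refine ⟨(e0.symm ⟨b', hb'⟩ : α), (e0.symm ⟨b', hb'⟩).2, ?_⟩
    rw [hσ1 _ (e0.symm ⟨b', hb'⟩).2]
    simp
  obtain ⟨e, he1, he2⟩ := hyp.ext hyp' σ hinj hmaps hsurj
  exact ⟨e, Cfsg.Agent.Lib.Helper7.p4_image_eq hα hβ hL hL' e he2⟩

end Cfsg.Agent.S5626
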