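import Cfsg.Statements.S5628
-- import your own Cfsg.Agent.* helpers here
import Mathlib
import Cfsg.Agent.Lib.Helper7.Plane4b

set_option autoImplicit false
open Cfsg

namespace Cfsg.Agent.S5628

open scoped Pointwise

/-- In a projective plane of order 4 (a Steiner system S(2, 5, 21)), every permutation of the six points of a hyperoval (a 6-set met by no line in more than two points) is the restriction of exactly one automorphism of the plane. In particular the stabiliser of a hyperoval in the automorphism group is isomorphic to the symmetric group of degree 6 acting faithfully on the hyperoval. -/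
theorem result {α : Type*} [Fintype α] [DecidableEq α] (hα : Fintype.card α = 21) (L : Set (Finset α)) (hL : Cfsg.IsSteinerSystem 2 5 L) (H : Finset α) (hH : (H.card = 6 ∧ ∀ l ∈ L, (l ∩ H).card ≤ 2)) (σ : Equiv.Perm ↥H) : ∃! g : Equiv.Perm α, g ∈ Cfsg.setSystemAut L ∧ ∀ p : ↥H, g p = σ p := by
  classical
  have hyp : Cfsg.Agent.Lib.Helper7.P4Hyp L H := ⟨hα, hL, hH.1, hH.2⟩
  let σ' : α → α := fun a => if ha : a ∈ H then (σ ⟨a, ha⟩ : α) else a
  have hσ1 : ∀ a (ha : a ∈ H), σ' a = (σ ⟨a, ha⟩ : α) := fun a ha => dif_pos ha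
  have key : ∀ g : Equiv.Perm α, g ∈ Cfsg.setSystemAut L ↔
      (fun b : Finset α => b.image g) '' L = L := by
    intro g
    rw [MulAction.mem_stabilizer_iff]
    have h1 : g • L = (fun b : Finset α => b.image g) '' L := by
      ext b
      rw [Set.mem_smul_set]
      constructor
      · rintro ⟨c, hc, rfl⟩
        exact ⟨c, hc, rfl⟩
      · rintro ⟨c, hc, rfl⟩
        exact ⟨c, hc, rfl⟩
    rw [h1]
  have hinj : Set.InjOn σ' H := by
    intro a ha b hb hab
    rw [Finset.mem_coe] at ha hb
    rw [hσ1 a ha, hσ1 b hb] at hab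
    have := σ.injective (Subtype.ext hab)
    exact congrArg Subtype.val this
  have hmaps : ∀ a ∈ H, σ' a ∈ H := by
    intro a ha; rw [hσ1 a ha]; exact (σ ⟨a, ha⟩).2
  have hsurj : ∀ b' ∈ H, ∃ a ∈ H, σ' a = b' := by
    intro b' hb'
    refine ⟨(σ.symm ⟨b', hb'⟩ : α), (σ.symm ⟨b', hb'⟩).2, ?_⟩
    rw [hσ1 _ (σ.symm ⟨b', hb'⟩).2]
    simp
  obtain ⟨e, he1, he2⟩ := hyp.ext hyp σ' hinj hmaps hsurj
  · refine ⟨e, ⟨(key e).mpr (Cfsg.Agent.Lib.Helper7.p4_image_eq hα hα hL hL e he2),
      fun p => by rw [he1 p p.2, hσ1 p p.2]⟩, ?_⟩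
    rintro g ⟨hg1, hg2⟩
    rw [key] at hg1
    have hgl : ∀ l ∈ L, l.image g ∈ L := fun l hl => by rw [← hg1]; exact ⟨l, hl, rfl⟩
    have hag : ∀ u ∈ H, g u = e u := fun u hu => by
      rw [he1 u hu, hσ1 u hu]; exact hg2 ⟨u, hu⟩
    apply Equiv.ext
    intro x
    by_cases hx : x ∈ H
    · exact hag x hx
    · obtain ⟨a, ha⟩ : H.Nonempty := Finset.card_pos.mp (by rw [hH.1]; norm_num)
      obtain ⟨b, hb, hba, l₁, hl₁, ha1, hb1, hx1⟩ := hyp.partner_exists hx ha
      obtain ⟨c, hc, hcn⟩ := Finset.exists_mem_notMem_of_card_lt_card (s := {a, b}) (t := H) (by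
        have := Finset.card_le_two (a := a) (b := b); rw [hH.1]; omega)
      simp only [Finset.mem_insert, Finset.mem_singleton, not_or] at hcn
      obtain ⟨d, hd, hdc, l₂, hl₂, hc2, hd2, hx2⟩ := hyp.partner_exists hx hc
      have m1 : l₁.image g = l₁.image e := by
        apply Cfsg.Agent.Lib.Helper7.p4_line_unique hL (hgl l₁ hl₁) (he2 l₁ hl₁)
          (fun h => hba (g.injective h).symm) (Finset.mem_image_of_mem g ha1)
          (Finset.mem_image_of_mem g hb1)
        · rw [hag a ha]; exact Finset.mem_image_of_mem e ha1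
        · rw [hag b hb]; exact Finset.mem_image_of_mem e hb1
      have m2 : l₂.image g = l₂.image e := by
        apply Cfsg.Agent.Lib.Helper7.p4_line_unique hL (hgl l₂ hl₂) (he2 l₂ hl₂)
          (fun h => hdc (g.injective h).symm) (Finset.mem_image_of_mem g hc2)
          (Finset.mem_image_of_mem g hd2)
        · rw [hag c hc]; exact Finset.mem_image_of_mem e hc2
        · rw [hag d hd]; exact Finset.mem_image_of_mem e hd2
      by_contra hne
      have e12 : l₁.image g = l₂.image g := by
        apply Cfsg.Agent.Lib.Helper7.p4_line_unique hL (hgl l₁ hl₁) (hgl l₂ hl₂) hne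
          (Finset.mem_image_of_mem g hx1)
        · rw [m1]; exact Finset.mem_image_of_mem e hx1
        · exact Finset.mem_image_of_mem g hx2
        · rw [m2]; exact Finset.mem_image_of_mem e hx2
      have e12' : l₁ = l₂ := Finset.image_injective g.injective e12
      rw [← e12'] at hc2
      exact Cfsg.Agent.Lib.Helper7.p4_arc_three hyp.arc hl₁ ha hb hc (Ne.symm hba)
        (Ne.symm hcn.1) (Ne.symm hcn.2) ha1 hb1 hc2

end Cfsg.Agent.S5628
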