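import Mathlib
import Cfsg.Statements.S5632

set_option autoImplicit false
open Cfsg

namespace Cfsg.Agent.S5632

theorem transv {F : Type*} [Field F] (n : ℕ) (f : Module.Dual F (Fin n → F)) (v : Fin n → F)
    (hfv : f v = 0) :
    ∃ g : Matrix.GeneralLinearGroup (Fin n) F, g ∈ Cfsg.Geo.specialLinear (Fin n) F ∧
      ∀ x, (g : Matrix (Fin n) (Fin n) F).mulVec x = x + f x • v := by
  have hdet : (LinearMap.toMatrix' (LinearMap.transvection f v)).det = 1 := by
    rw [LinearMap.det_toMatrix', LinearMap.transvection.det, hfv, add_zero]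
  refine ⟨Matrix.GeneralLinearGroup.mkOfDetNeZero _ (by rw [hdet]; exact one_ne_zero), ?_, ?_⟩
  · show Matrix.GeneralLinearGroup.det _ = 1
    apply Units.ext
    rw [Matrix.GeneralLinearGroup.val_det_apply]
    exact hdet
  · intro x
    show (LinearMap.toMatrix' (LinearMap.transvection f v)).mulVec x = _
    rw [LinearMap.toMatrix'_mulVec, LinearMap.transvection.apply]

theorem moveU {F : Type*} [Field F] (n : ℕ) (W U : Submodule F (Fin n → F)) (u v : Fin n → F)
    (hu : u ∈ U) (hv : v ∉ U) (huW : u ∉ W ⊔ Submodule.span F {v}) :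
    ∃ g : Matrix.GeneralLinearGroup (Fin n) F, g ∈ Cfsg.Geo.specialLinear (Fin n) F ∧
      g ∈ Cfsg.Geo.subspaceStabilizer W ∧ g ∉ Cfsg.Geo.subspaceStabilizer U := by
  obtain ⟨f, hfu, hker⟩ := Submodule.exists_le_ker_of_notMem huW
  have hfv : f v = 0 := hker (Submodule.mem_sup_right (Submodule.mem_span_singleton_self v))
  have hfW : ∀ x ∈ W, f x = 0 := fun x hx => hker (Submodule.mem_sup_left hx)
  obtain ⟨g, hg1, hg2⟩ := transv n f v hfv
  refine ⟨g, hg1, ?_, ?_⟩
  · intro x
    show x ∈ W ↔ (g : Matrix (Fin n) (Fin n) F).mulVec x ∈ W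
    rw [hg2]
    constructor
    · intro hx
      rw [hfW x hx, zero_smul, add_zero]
      exact hx
    · intro hx
      have h1 : f (x + f x • v) = 0 := hfW _ hx
      rw [map_add, map_smul, hfv, smul_zero, add_zero] at h1
      rw [h1, zero_smul, add_zero] at hx
      exact hx
  · intro hgU
    have h1 : (g : Matrix (Fin n) (Fin n) F).mulVec u ∈ U := (hgU u).mp hu
    rw [hg2] at h1
    have h2 : f u • v ∈ U := by
      have := U.sub_mem h1 hu
      simpa using this
    exact hv ((U.smul_mem_iff hfu).mp h2)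

theorem exists_notMem {F : Type*} [Field F] (n : ℕ) (U : Submodule F (Fin n → F)) (hU : U ≠ ⊤) :
    ∃ v, v ∉ U := by
  by_contra hcon
  push_neg at hcon
  exact hU (eq_top_iff.mpr fun x _ => hcon x)

/-- For a finite field F and subspaces 0 < W < U of F^n with dim W + dim U = n, the elements of SL_n(F) stabilising both W and U form a subgroup that is not maximal in SL_n(F): some subgroup lies strictly between it and SL_n(F). -/
theorem result {F : Type*} [Field F] [Fintype F] (n : ℕ) (W U : Submodule F (Fin n → F)) (hW0 : W ≠ ⊥) (hWU : W < U) (hdim : Module.finrank F W + Module.finrank F U = n) : ∃ K : Subgroup (Matrix.GeneralLinearGroup (Fin n) F), Cfsg.Geo.subspaceStabilizer W ⊓ Cfsg.Geo.subspaceStabilizer U ⊓ Cfsg.Geo.specialLinear (Fin n) F < K ∧ K < Cfsg.Geo.specialLinear (Fin n) F := by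
  have hUtop : U ≠ ⊤ := by
    intro h
    rw [h, finrank_top, Module.finrank_fin_fun] at hdim
    have : Module.finrank F W = 0 := by omega
    exact hW0 (Submodule.finrank_eq_zero.mp this)
  have hWtop : W ≠ ⊤ := by
    intro h
    rw [h] at hWU
    exact absurd hWU (not_lt_of_ge le_top)
  refine ⟨Cfsg.Geo.subspaceStabilizer W ⊓ Cfsg.Geo.specialLinear (Fin n) F, ?_, ?_⟩
  · obtain ⟨u, huU, huW⟩ := SetLike.exists_of_lt hWU
    obtain ⟨v, hv⟩ := exists_notMem n U hUtop
    have hnot : u ∉ W ⊔ Submodule.span F {v} := by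
      intro h
      obtain ⟨w, hw, y, hy, hwy⟩ := Submodule.mem_sup.mp h
      obtain ⟨c, rfl⟩ := Submodule.mem_span_singleton.mp hy
      by_cases hc : c = 0
      · rw [hc, zero_smul, add_zero] at hwy
        rw [← hwy] at huW
        exact huW hw
      · apply hv
        have h1 : c • v = u - w := by rw [← hwy]; abel
        have h2 : c • v ∈ U := by
          rw [h1]
          exact U.sub_mem huU (hWU.le hw)
        exact (U.smul_mem_iff hc).mp h2
    obtain ⟨g, hg1, hg2, hg3⟩ := moveU n W U u v huU hv hnot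
    apply lt_of_le_of_ne
    · intro x hx
      exact ⟨hx.1.1, hx.2⟩
    · intro h
      have : g ∈ Cfsg.Geo.subspaceStabilizer W ⊓ Cfsg.Geo.subspaceStabilizer U ⊓
          Cfsg.Geo.specialLinear (Fin n) F := by
        rw [h]; exact ⟨hg2, hg1⟩
      exact hg3 this.1.2
  · obtain ⟨w, hwW, hw0⟩ := (Submodule.ne_bot_iff W).mp hW0
    obtain ⟨v, hv⟩ := exists_notMem n W hWtop
    have hnot : w ∉ (⊥ : Submodule F (Fin n → F)) ⊔ Submodule.span F {v} := by
      rw [bot_sup_eq]
      intro h
      obtain ⟨c, hc⟩ := Submodule.mem_span_singleton.mp h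
      by_cases hc0 : c = 0
      · rw [hc0, zero_smul] at hc
        exact hw0 hc.symm
      · apply hv
        have h2 : c • v ∈ W := by rw [hc]; exact hwW
        exact (W.smul_mem_iff hc0).mp h2
    obtain ⟨g, hg1, -, hg3⟩ := moveU n ⊥ W w v hwW hv hnot
    apply lt_of_le_of_ne inf_le_right
    intro h
    have : g ∈ Cfsg.Geo.subspaceStabilizer W ⊓ Cfsg.Geo.specialLinear (Fin n) F := by
      rw [h]; exact hg1
    exact hg3 this.1

end Cfsg.Agent.S5632
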