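import Mathlib
import Cfsg.Statements.S5633
import Cfsg.Agent.S5632

set_option autoImplicit false
open Cfsg

namespace Cfsg.Agent.S5633

/-- For a finite field F and complementary non-zero subspaces W ⊕ U = F^n with dim W < dim U, the elements of SL_n(F) stabilising both W and U form a subgroup that is not maximal in SL_n(F): some subgroup lies strictly between it and SL_n(F). -/
theorem result {F : Type*} [Field F] [Fintype F] (n : ℕ) (W U : Submodule F (Fin n → F)) (hW0 : W ≠ ⊥) (hWU : W ⊓ U = ⊥) (hWU' : W ⊔ U = ⊤) (hdim : Module.finrank F W < Module.finrank F U) : ∃ K : Subgroup (Matrix.GeneralLinearGroup (Fin n) F), Cfsg.Geo.subspaceStabilizer W ⊓ Cfsg.Geo.subspaceStabilizer U ⊓ Cfsg.Geo.specialLinear (Fin n) F < K ∧ K < Cfsg.Geo.specialLinear (Fin n) F := by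
  have hU0 : U ≠ ⊥ := by
    intro h
    rw [h, finrank_bot] at hdim
    omega
  have hWtop : W ≠ ⊤ := by
    intro h
    rw [h, top_inf_eq] at hWU
    exact hU0 hWU
  obtain ⟨w, hwW, hw0⟩ := (Submodule.ne_bot_iff W).mp hW0
  obtain ⟨u, huU, hu0⟩ := (Submodule.ne_bot_iff U).mp hU0
  have hwU : w ∉ U := by
    intro h
    have : w ∈ W ⊓ U := ⟨hwW, h⟩
    rw [hWU] at this
    exact hw0 ((Submodule.mem_bot F).mp this)
  have huW : u ∉ W := by
    intro h
    have : u ∈ W ⊓ U := ⟨h, huU⟩
    rw [hWU] at this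
    exact hu0 ((Submodule.mem_bot F).mp this)
  refine ⟨Cfsg.Geo.subspaceStabilizer W ⊓ Cfsg.Geo.specialLinear (Fin n) F, ?_, ?_⟩
  · have hnot : u ∉ W ⊔ Submodule.span F {w} := by
      have h1 : W ⊔ Submodule.span F {w} = W := by
        apply sup_eq_left.mpr
        rw [Submodule.span_singleton_le_iff_mem]
        exact hwW
      rw [h1]
      exact huW
    obtain ⟨g, hg1, hg2, hg3⟩ := Cfsg.Agent.S5632.moveU n W U u w huU hwU hnot
    apply lt_of_le_of_ne
    · intro x hx
      exact ⟨hx.1.1, hx.2⟩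
    · intro h
      have : g ∈ Cfsg.Geo.subspaceStabilizer W ⊓ Cfsg.Geo.subspaceStabilizer U ⊓
          Cfsg.Geo.specialLinear (Fin n) F := by
        rw [h]; exact ⟨hg2, hg1⟩
      exact hg3 this.1.2
  · obtain ⟨v, hv⟩ := Cfsg.Agent.S5632.exists_notMem n W hWtop
    have hnot : w ∉ (⊥ : Submodule F (Fin n → F)) ⊔ Submodule.span F {v} := by
      rw [bot_sup_eq]
      intro h
      obtain ⟨c, hc⟩ := Submodule.mem_span_singleton.mp h
      by_cases hc0 : c = 0
      · rw [hc0, zero_smul] at hc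
        exact hw0 hc.symm
      · apply hv
        have h2 : c • v ∈ W := by rw [hc]; exact hwW
        exact (W.smul_mem_iff hc0).mp h2
    obtain ⟨g, hg1, -, hg3⟩ := Cfsg.Agent.S5632.moveU n ⊥ W w v hwW hv hnot
    apply lt_of_le_of_ne inf_le_right
    intro h
    have : g ∈ Cfsg.Geo.subspaceStabilizer W ⊓ Cfsg.Geo.specialLinear (Fin n) F := by
      rw [h]; exact hg1
    exact hg3 this.1

end Cfsg.Agent.S5633
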